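import Cfsg.Agent.Lib.H06.CharClifford

/-!
# Degree inequalities
-/

set_option autoImplicit false

namespace Cfsg.Agent.H06

open Cfsg Cfsg.Agent.H21
open scoped ComplexConjugate

universe u

section

variable {G : Type u} [Group G] [Fintype G]

/-- The degree of a constituent is at most the degree of the character. -/
theorem degree_le_of_inner_ne [Fintype (IrrCharacter G)] {X : G → ℂ} (hX : IsCharacter G X)
    (ψ : IrrCharacter G) (h : classInner X (ψ : G → ℂ) ≠ 0) :
    charDegree (ψ : G → ℂ) ≤ charDegree X := by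
  classical
  obtain ⟨m, hm, hm'⟩ := isCharacter_decomp hX
  have h1 : X 1 = ∑ φ : IrrCharacter G, (m φ : ℂ) * (φ : G → ℂ) 1 := by
    have h1 := congrFun hm 1
    simpa [Finset.sum_apply] using h1
  rw [one_eq_charDegree hX] at h1
  have h2 : ∀ φ : IrrCharacter G, (φ : G → ℂ) 1 = (charDegree (φ : G → ℂ) : ℂ) := fun φ =>
    one_eq_charDegree (isCharacter_of_irr φ.2)
  simp only [h2] at h1
  have h3 : charDegree X = ∑ φ : IrrCharacter G, m φ * charDegree (φ : G → ℂ) := by
    exact_mod_cast h1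
  have h4 : m ψ ≠ 0 := by
    intro h0
    apply h
    rw [hm', h0]
    simp
  rw [h3]
  calc charDegree (ψ : G → ℂ) ≤ m ψ * charDegree (ψ : G → ℂ) :=
        Nat.le_mul_of_pos_left _ (Nat.pos_of_ne_zero h4)
    _ ≤ _ := Finset.single_le_sum (f := fun φ : IrrCharacter G => m φ * charDegree (φ : G → ℂ))
        (fun _ _ => Nat.zero_le _) (Finset.mem_univ ψ)

/-- An element in the kernel of a character is in the kernel of every constituent. -/
theorem constituent_ker [Fintype (IrrCharacter G)] {X : G → ℂ} (hX : IsCharacter G X)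
    (ψ : IrrCharacter G) (h : classInner X (ψ : G → ℂ) ≠ 0) {b : G} (hb : X b = X 1) :
    (ψ : G → ℂ) b = (ψ : G → ℂ) 1 := by
  classical
  obtain ⟨m, hm, hm'⟩ := isCharacter_decomp hX
  have hval : ∀ g : G, X g = ∑ φ : IrrCharacter G, (m φ : ℂ) * (φ : G → ℂ) g := by
    intro g
    have h1 := congrFun hm g
    simpa [Finset.sum_apply] using h1
  have h4 : m ψ ≠ 0 := by
    intro h0
    apply h
    rw [hm', h0]
    simp
  have h5 : ∑ φ : IrrCharacter G, (m φ : ℝ) * (((φ : G → ℂ) 1).re - ((φ : G → ℂ) b).re) = 0 := by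
    have h6 := hb
    rw [hval, hval] at h6
    have h7 := congrArg Complex.re h6
    simp only [Complex.re_sum, Complex.mul_re, Complex.natCast_re, Complex.natCast_im, zero_mul,
      sub_zero] at h7
    simp only [mul_sub, Finset.sum_sub_distrib]
    linarith
  have hnn : ∀ φ : IrrCharacter G, 0 ≤ ((φ : G → ℂ) 1).re - ((φ : G → ℂ) b).re := by
    intro φ
    have h8 := isCharacter_norm_le (isCharacter_of_irr φ.2) b
    have h9 := one_eq_charDegree (isCharacter_of_irr φ.2)
    rw [h9]
    simp only [Complex.natCast_re]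
    have := Complex.re_le_norm ((φ : G → ℂ) b)
    linarith
  have h6 := (Finset.sum_eq_zero_iff_of_nonneg (fun φ _ =>
    mul_nonneg (Nat.cast_nonneg (m φ)) (hnn φ))).mp h5 ψ (Finset.mem_univ _)
  have h7 : ((ψ : G → ℂ) 1).re - ((ψ : G → ℂ) b).re = 0 := by
    rcases mul_eq_zero.mp h6 with h8 | h8
    · exact absurd (by exact_mod_cast h8) h4
    · exact h8
  have h9 := one_eq_charDegree (isCharacter_of_irr ψ.2)
  have h10 := isCharacter_norm_le (isCharacter_of_irr ψ.2) b
  rw [h9] at h7 ⊢
  simp only [Complex.natCast_re] at h7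
  have h11 : ((ψ : G → ℂ) b).re = charDegree (ψ : G → ℂ) := by linarith
  have h12 : ((ψ : G → ℂ) b).im = 0 := by
    have h13 := Complex.sq_norm ((ψ : G → ℂ) b)
    rw [Complex.normSq_apply, h11] at h13
    have h14 : ‖(ψ : G → ℂ) b‖ ^ 2 ≤ (charDegree (ψ : G → ℂ) : ℝ) ^ 2 :=
      pow_le_pow_left₀ (norm_nonneg _) h10 2
    nlinarith
  apply Complex.ext
  · simpa using h11
  · simpa using h12

end

end Cfsg.Agent.H06
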