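import Cfsg.Agent.Lib.H06.Brauer4

/-!
# Brauer's induction theorem (linear characters of elementary subgroups).
-/

set_option autoImplicit false

namespace Cfsg.Agent.H06.Brauer

open Cfsg Cfsg.Agent.H21 Cfsg.Agent.H06

universe u

section Elem

variable {E : Type u} [Group E] [Finite E]

theorem IsElementary_nilpotent {p : ℕ} (hp : p.Prime) (h : IsElementary p E) :
    Group.IsNilpotent E := by
  obtain ⟨x, hxc, -, k, hk⟩ := h
  haveI : Fact p.Prime := ⟨hp⟩
  have hle : Subgroup.zpowers x ≤ Subgroup.center E := by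
    rintro _ ⟨i, rfl⟩
    exact Subgroup.zpow_mem _ hxc i
  have hdvd : (Subgroup.center E).index ∣ p ^ k := by
    rw [← hk]
    exact Subgroup.index_dvd_of_le hle
  obtain ⟨j, -, hj⟩ := (Nat.dvd_prime_pow hp).mp hdvd
  have hq : IsPGroup p (E ⧸ Subgroup.center E) := by
    apply IsPGroup.of_card (n := j)
    rw [← hj, Subgroup.index_eq_card]
  haveI := hq.isNilpotent
  exact of_quotient_center_nilpotent ‹_›

theorem IsElementary_subgroup {p : ℕ} (hp : p.Prime) (h : IsElementary p E) (T : Subgroup E) :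
    IsElementary p T := by
  obtain ⟨x, hxc, hcop, k, hk⟩ := h
  haveI : (Subgroup.zpowers x).Normal := by
    refine ⟨?_⟩
    rintro _ ⟨i, rfl⟩ g
    have h1 : Commute g x := (Subgroup.mem_center_iff.mp hxc) g
    have h2 : g * (x ^ i) * g⁻¹ = x ^ i := by
      rw [(h1.zpow_right i).eq]
      simp
    show g * (x ^ i) * g⁻¹ ∈ _
    rw [h2]
    exact Subgroup.zpow_mem _ (Subgroup.mem_zpowers _) i
  let C : Subgroup T := (Subgroup.zpowers x).subgroupOf T
  haveI : IsCyclic C := by
    have hinj : Function.Injective (fun c : C => (⟨((c : T) : E), Subgroup.mem_subgroupOf.mp c.2⟩ :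
        Subgroup.zpowers x)) := by
      intro a b hab
      apply Subtype.ext
      apply Subtype.ext
      have h1 := congrArg Subtype.val hab
      exact h1
    let f : C →* Subgroup.zpowers x :=
      { toFun := fun c => ⟨((c : T) : E), Subgroup.mem_subgroupOf.mp c.2⟩
        map_one' := rfl
        map_mul' := fun _ _ => rfl }
    exact isCyclic_of_injective f hinj
  obtain ⟨y, hy⟩ := IsCyclic.exists_generator (α := C)
  have hyeq : Subgroup.zpowers (y : T) = C := by
    apply le_antisymm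
    · rintro _ ⟨i, rfl⟩
      exact Subgroup.zpow_mem _ y.2 i
    · intro c hc
      obtain ⟨i, hi⟩ := hy ⟨c, hc⟩
      refine ⟨i, ?_⟩
      have := congrArg Subtype.val hi
      simpa using this
  have hyx : ((y : T) : E) ∈ Subgroup.zpowers x := Subgroup.mem_subgroupOf.mp y.2
  refine ⟨y, ?_, ?_, ?_⟩
  · rw [Subgroup.mem_center_iff]
    intro g
    apply Subtype.ext
    obtain ⟨i, hi⟩ := hyx
    have h1 : Commute (g : E) x := (Subgroup.mem_center_iff.mp hxc) g
    show (g : E) * ((y : T) : E) = ((y : T) : E) * g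
    rw [← hi]
    exact (h1.zpow_right i).eq
  · have h1 : orderOf (y : T) = orderOf ((y : T) : E) := (Subgroup.orderOf_coe _).symm
    have h2 : orderOf ((y : T) : E) ∣ orderOf x := by
      have h3 := Subgroup.orderOf_dvd_natCard _ hyx
      rwa [Nat.card_zpowers] at h3
    rw [h1]
    exact Nat.Coprime.coprime_dvd_left h2 hcop
  · rw [hyeq]
    have h1 : C.index ∣ p ^ k := by
      rw [← hk]
      exact Subgroup.relIndex_dvd_index_of_normal _ _
    obtain ⟨j, -, hj⟩ := (Nat.dvd_prime_pow hp).mp h1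
    exact ⟨j, hj⟩

theorem IsElementary_of_equiv {F : Type u} [Group F] {p : ℕ} (e : E ≃* F) (h : IsElementary p E) :
    IsElementary p F := by
  obtain ⟨x, hxc, hcop, k, hk⟩ := h
  refine ⟨e x, ?_, ?_, k, ?_⟩
  · rw [Subgroup.mem_center_iff] at hxc ⊢
    intro g
    obtain ⟨g, rfl⟩ := e.surjective g
    rw [← map_mul, ← map_mul, hxc]
  · rwa [MulEquiv.orderOf_eq]
  · rw [← hk]
    have h1 : Subgroup.zpowers (e x) = (Subgroup.zpowers x).map e.toMonoidHom := by
      rw [MonoidHom.map_zpowers]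
      rfl
    rw [h1]
    exact Subgroup.index_map_equiv _ e

end Elem

section Main

variable {G : Type u} [Group G] [Fintype G]

/-- The `ℤ`-span of the functions induced from linear characters of elementary subgroups. -/
def VL (G : Type u) [Group G] [Fintype G] : AddSubgroup (G → ℂ) :=
  AddSubgroup.closure {f | ∃ (E : Subgroup G) (l : E →* ℂˣ), IsElemSub E ∧
    f = indFun E (fun e => ((l e : ℂˣ) : ℂ))}

theorem ind_irr_mem_VL {E : Subgroup G} (hE : IsElemSub E) {μ : E → ℂ} (hμ : IsIrrCharacter E μ) :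
    indFun E μ ∈ VL G := by
  classical
  obtain ⟨p, hp, he⟩ := hE
  haveI : Fintype E := Fintype.ofFinite E
  have hnil := IsElementary_nilpotent hp he
  have hm := monomial_of_nilpotent _ E hnil le_rfl μ hμ
  obtain ⟨S, hSE, l, hS⟩ := monomial_of_subgroup' E hm
  apply AddSubgroup.subset_closure
  refine ⟨S, l, ⟨p, hp, ?_⟩, hS⟩
  exact IsElementary_of_equiv (Subgroup.subgroupOfEquivOfLe hSE)
    (IsElementary_subgroup hp he (S.subgroupOf E))

theorem VZ_le_VL : VZ G ≤ VL G := by
  classical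
  refine (AddSubgroup.closure_le _).mpr ?_
  rintro _ ⟨E, β, hE, hβ, rfl⟩
  haveI : Fintype (IrrCharacter E) := Fintype.ofFinite _
  obtain ⟨c, hc, -⟩ := gen_decomp hβ
  rw [hc, Cfsg.Agent.H06.indFun_sum]
  refine AddSubgroup.sum_mem _ fun μ _ => ?_
  rw [Cfsg.Agent.H06.indFun_smul]
  have := (VL G).zsmul_mem (ind_irr_mem_VL hE μ.2) (c μ)
  convert this using 1
  funext g
  simp

/-- **Brauer's induction theorem.** -/
theorem char_mem_VL {χ : G → ℂ} (hχ : IsCharacter G χ) : χ ∈ VL G := by
  have h1 := VZ_mul (gen_of_char hχ) (one_mem_VZ (G := G))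
  have h2 := VZ_le_VL h1
  convert h2 using 1
  funext g
  simp

/-- Lists. -/
theorem exists_list_of_mem_VL {f : G → ℂ} (hf : f ∈ VL G) :
    ∃ l : List ((E : Subgroup G) × ((E →* ℂˣ) × ℤ)), (∀ t ∈ l, ∃ p : ℕ, p.Prime ∧ IsElementary p t.1) ∧
      f = (l.map fun t => (t.2.2 : ℂ) • indFun t.1 (fun e => ((t.2.1 e : ℂˣ) : ℂ))).sum := by
  induction hf using AddSubgroup.closure_induction with
  | mem f hf =>
    obtain ⟨E, l, hE, rfl⟩ := hf
    refine ⟨[⟨E, l, 1⟩], ?_, ?_⟩
    · intro t ht
      rw [List.mem_singleton] at ht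
      subst ht
      exact hE
    · simp
  | zero => exact ⟨[], by simp, by simp⟩
  | add f₁ f₂ _ _ h1 h2 =>
    obtain ⟨l₁, h₁, e₁⟩ := h1
    obtain ⟨l₂, h₂, e₂⟩ := h2
    refine ⟨l₁ ++ l₂, ?_, ?_⟩
    · intro t ht
      rcases List.mem_append.mp ht with h | h
      · exact h₁ t h
      · exact h₂ t h
    · rw [List.map_append, List.sum_append, ← e₁, ← e₂]
  | neg f _ h =>
    obtain ⟨l, h₁, e⟩ := h
    refine ⟨l.map fun t => ⟨t.1, t.2.1, - t.2.2⟩, ?_, ?_⟩
    · intro t ht
      obtain ⟨s, hs, rfl⟩ := List.mem_map.mp ht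
      exact h₁ s hs
    · rw [e]
      clear e h₁
      induction l with
      | nil => simp
      | cons a l ih =>
        simp only [List.map_cons, List.sum_cons, Function.comp, neg_add_rev] at ih ⊢
        rw [ih, add_comm]
        congr 1
        funext g
        simp

end Main

end Cfsg.Agent.H06.Brauer
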