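import Cfsg.Agent.Lib.H06.CoherJ4
import Cfsg.Agent.Lib.H06.CharClifford
import Cfsg.Agent.Lib.H06.CharBrauer
import Cfsg.Agent.Lib.H06.CNFrob
import Cfsg.Agent.S1528

/-!
# Coherence of sets of irreducible characters of equal degree; Frobenius groups of arbitrary order
-/

set_option autoImplicit false
set_option linter.style.haveILetI false
set_option linter.unusedSectionVars false
set_option linter.unusedVariables false

namespace Cfsg.Agent.H06

open Cfsg Cfsg.Agent.H21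
open scoped ComplexConjugate

universe u v

section EqualDegree

variable {L : Type u} [Group L] [Fintype L] {G : Type v} [Group G] [Fintype G]

theorem irr_one_nat {c : G → ℂ} (hc : IsIrrCharacter G c) : ∃ d : ℕ, 0 < d ∧ c 1 = d := by
  have h1 := one_eq_charDegree (isCharacter_of_irr hc)
  refine ⟨charDegree c, Nat.pos_of_ne_zero ?_, h1⟩
  intro h
  apply irr_one_ne_zero' hc
  rw [h1, h]
  simp

theorem norm_two_vanish {f : G → ℂ} (hf : IsGeneralizedCharacter G f) (hn : classInner f f = 2)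
    (h1 : f 1 = 0) : ∃ a b : G → ℂ, IsIrrCharacter G a ∧ IsIrrCharacter G b ∧ a ≠ b ∧ f = a - b := by
  classical
  obtain ⟨a, b, ha, hb, hab, rfl⟩ := exists_of_norm_two hf hn
  have h1' : a 1 + b 1 = 0 := h1
  have hneg : ∀ x y : G → ℂ, IsIrrCharacter G x → classInner x y = 0 → x ≠ -y := by
    intro x y hx hxy h
    have e : y = (-1 : ℤ) • x := by
      rw [h]
      simp
    rw [e, classInner_zsmul_right, classInner_irr_self hx] at hxy
    norm_num at hxy
  rcases ha with ha | ha <;> rcases hb with hb | hb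
  · exfalso
    obtain ⟨d₁, hd₁, e₁⟩ := irr_one_nat ha
    obtain ⟨d₂, hd₂, e₂⟩ := irr_one_nat hb
    rw [e₁, e₂] at h1'
    have : d₁ + d₂ = 0 := by exact_mod_cast h1'
    omega
  · refine ⟨a, -b, ha, hb, hneg a b ha hab, by simp⟩
  · refine ⟨b, -a, hb, ha, ?_, by simp [add_comm]⟩
    apply hneg b a hb
    rw [← classInner_comm_conj, hab, map_zero]
  · exfalso
    obtain ⟨d₁, hd₁, e₁⟩ := irr_one_nat ha
    obtain ⟨d₂, hd₂, e₂⟩ := irr_one_nat hb
    have e₁' : a 1 = -(d₁ : ℂ) := by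
      have : (-a) 1 = d₁ := e₁
      rw [Pi.neg_apply] at this
      rw [← this, neg_neg]
    have e₂' : b 1 = -(d₂ : ℂ) := by
      have : (-b) 1 = d₂ := e₂
      rw [Pi.neg_apply] at this
      rw [← this, neg_neg]
    rw [e₁', e₂'] at h1'
    have : ((d₁ + d₂ : ℕ) : ℂ) = 0 := by
      push_cast
      linear_combination -h1'
    have : d₁ + d₂ = 0 := by exact_mod_cast this
    omega

theorem pair_case {X : Type*} [DecidableEq X] (A B C D : X) (hAB : A ≠ B) (hCD : C ≠ D)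
    (H : (if A = C then (1 : ℂ) else 0) + (if B = D then 1 else 0) - (if A = D then 1 else 0) -
      (if B = C then 1 else 0) = 1) : (A = C ∧ B ≠ D) ∨ (B = D ∧ A ≠ C) := by
  by_cases h1 : A = C
  · by_cases h2 : B = D
    · exfalso
      subst h1
      subst h2
      simp [hAB, hAB.symm] at H
    · exact Or.inl ⟨h1, h2⟩
  · by_cases h2 : B = D
    · exact Or.inr ⟨h2, h1⟩
    · exfalso
      rw [if_neg h1, if_neg h2] at H
      split_ifs at H <;> norm_num at H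

/-- Assembling a coherence from a family of equal degree characters. -/
theorem coherent_of_uniform' (T : Finset (L → ℂ)) (hirr : ∀ χ ∈ T, IsIrrCharacter L χ)
    (hdeg : ∀ φ ∈ T, ∀ ψ ∈ T, φ 1 = ψ 1) (τ : (L → ℂ) → (G → ℂ))
    (hτ : IsLinearIsometryOn (zspanOn (T : Set (L → ℂ)) {1}ᶜ) τ)
    (μ : (L → ℂ) → (G → ℂ)) (hgen : ∀ χ ∈ T, IsGeneralizedCharacter G (μ χ))
    (hin : ∀ χ ∈ T, ∀ φ ∈ T, classInner (μ χ) (μ φ) = classInner χ φ)
    {χ₀ : L → ℂ} (hχ₀ : χ₀ ∈ T) (hdiff : ∀ χ ∈ T, τ (χ - χ₀) = μ χ - μ χ₀)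
    (hnz : ∃ α ∈ zspanOn (T : Set (L → ℂ)) {1}ᶜ, α ≠ 0) : IsCoherent (T : Set (L → ℂ)) {1}ᶜ τ := by
  classical
  have horth : ∀ χ ∈ T, ∀ φ ∈ T, χ ≠ φ → classInner χ φ = 0 :=
    fun χ hχ φ hφ h => classInner_irr_ne (hirr χ hχ) (hirr φ hφ) h
  have hne : ∀ χ ∈ T, classInner χ χ ≠ 0 := fun χ hχ => by
    rw [classInner_irr_self (hirr χ hχ)]
    exact one_ne_zero
  have hiso : IsLinearIsometryOn (zspan (T : Set (L → ℂ))) (coherExt T μ) :=
    coherExt_isometry horth hne hgen hin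
  have hmem : ∀ x ∈ T, coherExt T μ x = μ x := fun x hx => coherExt_mem horth hne hx
  have hmemd : ∀ x ∈ T, x - χ₀ ∈ zspanOn (T : Set (L → ℂ)) {1}ᶜ := fun x hx =>
    mem_zspanOn_one (zspan_sub_mem (mem_zspan hx) (mem_zspan hχ₀)) (by
      simp only [Pi.sub_apply]
      rw [hdeg x hx χ₀ hχ₀, sub_self])
  have h0 : (0 : L → ℂ) ∈ zspanOn (T : Set (L → ℂ)) {1}ᶜ := ⟨zspan_zero_mem, fun _ _ => rfl⟩
  refine ⟨hnz, coherExt T μ, hiso, ?_⟩
  intro f hf
  have hQ : ∀ g ∈ zspan (T : Set (L → ℂ)), ∃ m : ℤ, g + (-m) • χ₀ ∈ zspanOn (T : Set (L → ℂ)) {1}ᶜ ∧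
      coherExt T μ g = τ (g + (-m) • χ₀) + m • μ χ₀ := by
    intro g hg
    have hg' : g ∈ Submodule.span ℤ (T : Set (L → ℂ)) := hg
    clear hg
    induction hg' using Submodule.span_induction with
    | mem x hx =>
      have e : x + (-1 : ℤ) • χ₀ = x - χ₀ := by
        rw [neg_smul, one_smul, sub_eq_add_neg]
      refine ⟨1, ?_, ?_⟩
      · rw [e]
        exact hmemd x hx
      · rw [e, hmem x hx, hdiff x hx, one_smul, sub_add_cancel]
    | zero =>
      refine ⟨0, ?_, ?_⟩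
      · simpa using h0
      · rw [coherExt_zero]
        simp [iso_zero hτ h0]
    | add a b _ _ ha hb =>
      obtain ⟨m, hm, e⟩ := ha
      obtain ⟨m', hm', e'⟩ := hb
      have hid : a + b + (-(m + m')) • χ₀ = (a + (-m) • χ₀) + (b + (-m') • χ₀) := by
        rw [neg_add, add_smul]
        abel
      refine ⟨m + m', ?_, ?_⟩
      · rw [hid]
        exact zspanOn_add hm hm'
      · rw [coherExt_add, e, e', hid, hτ.1 _ hm _ hm', add_smul]
        abel
    | smul k a _ ha =>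
      obtain ⟨m, hm, e⟩ := ha
      have hid : k • a + (-(k * m)) • χ₀ = k • (a + (-m) • χ₀) := by
        rw [smul_add, smul_smul]
        congr 2
        ring
      refine ⟨k * m, ?_, ?_⟩
      · rw [hid]
        exact zspanOn_closed _ _ k _ hm
      · rw [coherExt_zsmul, e, hid, hτ.2.1 _ hm, smul_add, mul_smul]
  obtain ⟨m, hm, e⟩ := hQ f hf.1
  have hf1 : f 1 = 0 := hf.2 1 (by simp)
  have hm1 : (f + (-m) • χ₀) 1 = 0 := hm.2 1 (by simp)
  simp only [Pi.add_apply, zsmul_apply', hf1] at hm1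
  have hχ₀1 : χ₀ 1 ≠ 0 := irr_one_ne_zero' (hirr χ₀ hχ₀)
  have hm0 : m = 0 := by
    have h3 : ((-m : ℤ) : ℂ) * χ₀ 1 = 0 := by simpa using hm1
    have h4 := (mul_eq_zero.mp h3).resolve_right hχ₀1
    have h5 : (-m : ℤ) = 0 := by exact_mod_cast h4
    omega
  rw [e, hm0]
  simp

theorem coh_core (T : Finset (L → ℂ)) (hirr : ∀ χ ∈ T, IsIrrCharacter L χ)
    (hdeg : ∀ φ ∈ T, ∀ ψ ∈ T, φ 1 = ψ 1) (τ : (L → ℂ) → (G → ℂ))
    (hτ : IsLinearIsometryOn (zspanOn (T : Set (L → ℂ)) {1}ᶜ) τ)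
    {χ₀ χ₁ : L → ℂ} (hχ₀ : χ₀ ∈ T) (hχ₁ : χ₁ ∈ T) (h01 : χ₀ ≠ χ₁) (s : ℤ) (hs : s * s = 1)
    (A : G → ℂ) (hA : IsIrrCharacter G A) (c : (L → ℂ) → (G → ℂ))
    (hc : ∀ j ∈ T, j ≠ χ₀ → IsIrrCharacter G (c j) ∧ c j ≠ A ∧ τ (χ₀ - j) = s • (A - c j))
    (hinj : ∀ j ∈ T, ∀ k ∈ T, j ≠ χ₀ → k ≠ χ₀ → j ≠ k → c j ≠ c k) :
    IsCoherent (T : Set (L → ℂ)) {1}ᶜ τ := by
  classical
  have hmemd : ∀ x ∈ T, ∀ y ∈ T, x - y ∈ zspanOn (T : Set (L → ℂ)) {1}ᶜ := fun x hx y hy =>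
    mem_zspanOn_one (zspan_sub_mem (mem_zspan hx) (mem_zspan hy)) (by
      simp only [Pi.sub_apply]
      rw [hdeg x hx y hy, sub_self])
  have h0 : (0 : L → ℂ) ∈ zspanOn (T : Set (L → ℂ)) {1}ᶜ := ⟨zspan_zero_mem, fun _ _ => rfl⟩
  let ν : (L → ℂ) → (G → ℂ) := fun χ => if χ = χ₀ then A else c χ
  have hν₀ : ν χ₀ = A := if_pos rfl
  have hν : ∀ j, j ≠ χ₀ → ν j = c j := fun j hj => if_neg hj
  have hνirr : ∀ χ ∈ T, IsIrrCharacter G (ν χ) := by
    intro χ hχ
    by_cases h : χ = χ₀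
    · rw [h, hν₀]
      exact hA
    · rw [hν χ h]
      exact (hc χ hχ h).1
  have hνin : ∀ χ ∈ T, ∀ φ ∈ T, classInner (ν χ) (ν φ) = classInner χ φ := by
    intro χ hχ φ hφ
    rw [classInner_irr_fun (hνirr χ hχ) (hνirr φ hφ), classInner_irr_fun (hirr χ hχ) (hirr φ hφ)]
    by_cases hχφ : χ = φ
    · rw [if_pos hχφ, if_pos (by rw [hχφ])]
    · rw [if_neg hχφ, if_neg]
      by_cases h1 : χ = χ₀
      · have h2 : φ ≠ χ₀ := fun h => hχφ (h1.trans h.symm)
        rw [h1, hν₀, hν φ h2]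
        exact (hc φ hφ h2).2.1.symm
      · rw [hν χ h1]
        by_cases h2 : φ = χ₀
        · rw [h2, hν₀]
          exact (hc χ hχ h1).2.1
        · rw [hν φ h2]
          exact hinj χ hχ φ hφ h1 h2 hχφ
  refine coherent_of_uniform' T hirr hdeg τ hτ (fun χ => s • ν χ) ?_ ?_ hχ₀ ?_
    ⟨χ₀ - χ₁, hmemd _ hχ₀ _ hχ₁, fun h => h01 (sub_eq_zero.mp h)⟩
  · intro χ hχ
    exact gen_zsmul (gen_of_char (isCharacter_of_irr (hνirr χ hχ))) s
  · intro χ hχ φ hφ
    show classInner (s • ν χ) (s • ν φ) = _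
    rw [classInner_zsmul_left, classInner_zsmul_right, hνin χ hχ φ hφ, ← mul_assoc]
    have : ((s : ℂ)) * s = 1 := by exact_mod_cast hs
    rw [this, one_mul]
  · intro χ hχ
    show τ (χ - χ₀) = s • ν χ - s • ν χ₀
    by_cases h : χ = χ₀
    · rw [h, sub_self, iso_zero hτ h0, sub_self]
    · have h1 := hτ.2.1 _ (hmemd _ hχ₀ _ hχ) (-1)
      have e : (-1 : ℤ) • (χ₀ - χ) = χ - χ₀ := by
        rw [neg_smul, one_smul, neg_sub]
      rw [e] at h1
      rw [h1, (hc χ hχ h).2.2, hν χ h, hν₀, smul_sub, neg_smul, one_smul, neg_sub]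

/-- **Sibley's lemma.** A set of at least two irreducible characters of equal degree is coherent. -/
theorem coh_equal_degree (T : Finset (L → ℂ)) (hirr : ∀ χ ∈ T, IsIrrCharacter L χ)
    (hdeg : ∀ φ ∈ T, ∀ ψ ∈ T, φ 1 = ψ 1) (htwo : ∃ χ ∈ T, ∃ φ ∈ T, χ ≠ φ) (τ : (L → ℂ) → (G → ℂ))
    (hτ : IsLinearIsometryOn (zspanOn (T : Set (L → ℂ)) {1}ᶜ) τ)
    (hτ1 : ∀ α ∈ zspanOn (T : Set (L → ℂ)) {1}ᶜ, τ α 1 = 0) :
    IsCoherent (T : Set (L → ℂ)) {1}ᶜ τ := by
  classical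
  obtain ⟨χ₀, hχ₀, χ₁, hχ₁, h01⟩ := htwo
  have hmemd : ∀ x ∈ T, ∀ y ∈ T, x - y ∈ zspanOn (T : Set (L → ℂ)) {1}ᶜ := fun x hx y hy =>
    mem_zspanOn_one (zspan_sub_mem (mem_zspan hx) (mem_zspan hy)) (by
      simp only [Pi.sub_apply]
      rw [hdeg x hx y hy, sub_self])
  have hin : ∀ χ ∈ T, ∀ φ ∈ T, classInner χ φ = if χ = φ then (1 : ℂ) else 0 :=
    fun χ hχ φ hφ => classInner_irr_fun (hirr χ hχ) (hirr φ hφ)
  have hex : ∀ χ, ∃ a b : G → ℂ, χ ∈ T → χ ≠ χ₀ → IsIrrCharacter G a ∧ IsIrrCharacter G b ∧ a ≠ b ∧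
      τ (χ₀ - χ) = a - b := by
    intro χ
    by_cases h : χ ∈ T ∧ χ ≠ χ₀
    · have hd := hmemd _ hχ₀ _ h.1
      have hn : classInner (τ (χ₀ - χ)) (τ (χ₀ - χ)) = 2 := by
        rw [hτ.2.2.1 _ hd _ hd, classInner_sub_left', classInner_sub_right', classInner_sub_right',
          hin _ hχ₀ _ hχ₀, hin _ hχ₀ _ h.1, hin _ h.1 _ hχ₀, hin _ h.1 _ h.1, if_pos rfl, if_pos rfl,
          if_neg h.2.symm, if_neg h.2]
        norm_num
      obtain ⟨a, b, ha, hb, hab, e⟩ := norm_two_vanish (hτ.2.2.2 _ hd) hn (hτ1 _ hd)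
      exact ⟨a, b, fun _ _ => ⟨ha, hb, hab, e⟩⟩
    · exact ⟨0, 0, fun h1 h2 => absurd ⟨h1, h2⟩ h⟩
  choose a b hab using hex
  have hpair : ∀ j ∈ T, ∀ k ∈ T, j ≠ χ₀ → k ≠ χ₀ → j ≠ k →
      (a j = a k ∧ b j ≠ b k) ∨ (b j = b k ∧ a j ≠ a k) := by
    intro j hj k hk hj0 hk0 hjk
    obtain ⟨ha₁, hb₁, hne₁, e₁⟩ := hab j hj hj0
    obtain ⟨ha₂, hb₂, hne₂, e₂⟩ := hab k hk hk0
    apply pair_case _ _ _ _ hne₁ hne₂
    have hd₁ := hmemd _ hχ₀ _ hj
    have hd₂ := hmemd _ hχ₀ _ hk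
    have h1 := hτ.2.2.1 _ hd₁ _ hd₂
    rw [e₁, e₂, classInner_sub_left', classInner_sub_right', classInner_sub_right',
      classInner_sub_left', classInner_sub_right', classInner_sub_right',
      classInner_irr_fun ha₁ ha₂, classInner_irr_fun ha₁ hb₂, classInner_irr_fun hb₁ ha₂,
      classInner_irr_fun hb₁ hb₂, hin _ hχ₀ _ hχ₀, hin _ hχ₀ _ hk, hin _ hj _ hχ₀, hin _ hj _ hk,
      if_pos rfl, if_neg hk0.symm, if_neg hj0, if_neg hjk] at h1
    linear_combination h1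
  have h10 : χ₁ ≠ χ₀ := h01.symm
  have hunif : (∀ j ∈ T, j ≠ χ₀ → a j = a χ₁) ∨ (∀ j ∈ T, j ≠ χ₀ → b j = b χ₁) := by
    by_contra hcon
    push Not at hcon
    obtain ⟨⟨j, hj, hj0, hja⟩, ⟨k, hk, hk0, hkb⟩⟩ := hcon
    have hj1 : j ≠ χ₁ := by
      rintro rfl
      exact hja rfl
    have hk1 : k ≠ χ₁ := by
      rintro rfl
      exact hkb rfl
    have hjb : b j = b χ₁ := by
      rcases hpair j hj χ₁ hχ₁ hj0 h10 hj1 with h | h
      · exact absurd h.1 hja
      · exact h.1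
    have hka : a k = a χ₁ := by
      rcases hpair k hk χ₁ hχ₁ hk0 h10 hk1 with h | h
      · exact h.1
      · exact absurd h.1 hkb
    have hjk : j ≠ k := by
      rintro rfl
      exact hja hka
    rcases hpair j hj k hk hj0 hk0 hjk with h | h
    · exact hja (h.1.trans hka)
    · exact hkb (h.1.symm.trans hjb)
  obtain ⟨ha₁, hb₁, hne₁, e₁⟩ := hab χ₁ hχ₁ h10
  rcases hunif with hU | hU
  · refine coh_core T hirr hdeg τ hτ hχ₀ hχ₁ h01 1 (by norm_num) (a χ₁) ha₁ b ?_ ?_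
    · intro j hj hj0
      obtain ⟨ha, hb, hne, e⟩ := hab j hj hj0
      refine ⟨hb, ?_, ?_⟩
      · rw [← hU j hj hj0]
        exact hne.symm
      · rw [e, hU j hj hj0, one_smul]
    · intro j hj k hk hj0 hk0 hjk
      rcases hpair j hj k hk hj0 hk0 hjk with h | h
      · exact h.2
      · exact absurd ((hU j hj hj0).trans (hU k hk hk0).symm) h.2
  · refine coh_core T hirr hdeg τ hτ hχ₀ hχ₁ h01 (-1) (by norm_num) (b χ₁) hb₁ a ?_ ?_
    · intro j hj hj0
      obtain ⟨ha, hb, hne, e⟩ := hab j hj hj0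
      refine ⟨ha, ?_, ?_⟩
      · rw [← hU j hj hj0]
        exact hne
      · rw [e, hU j hj hj0, neg_smul, one_smul, neg_sub]
    · intro j hj k hk hj0 hk0 hjk
      rcases hpair j hj k hk hj0 hk0 hjk with h | h
      · exact absurd ((hU j hj hj0).trans (hU k hk hk0).symm) h.2
      · exact h.2

end EqualDegree

section Frob

variable {L : Type u} [Group L] [Fintype L] (K : Subgroup L) [hK : K.Normal]

/-- Nonprincipal irreducible characters of the kernel induce irreducibly. -/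
theorem frob_indFun_irr (hC : ∀ n ∈ K, n ≠ 1 → Subgroup.centralizer ({n} : Set L) ≤ K) {φ : K → ℂ}
    (hφ : IsIrrCharacter K φ) (hφ1 : φ ≠ (fun _ => 1)) : IsIrrCharacter L (indFun K φ) := by
  classical
  haveI : Fintype K := Fintype.ofFinite _
  have hst : ∀ x : L, twist K φ x = φ → x ∈ K := by
    intro x hx
    obtain ⟨k, hk, hconj⟩ := (exists_fixed_irr_iff_exists_fixed_class K x).mp ⟨φ, hφ, hφ1, hx⟩
    obtain ⟨u, hu⟩ := isConj_iff.mp hconj.symm
    have hu' : (u : L) * k * (u : L)⁻¹ = x * k * x⁻¹ := by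
      have := congrArg Subtype.val hu
      simpa [MulAut.conjNormal_apply] using this
    have hk1 : (k : L) ≠ 1 := fun h => hk (Subtype.ext h)
    have hcomm : (u : L)⁻¹ * x ∈ Subgroup.centralizer ({(k : L)} : Set L) := by
      rw [Subgroup.mem_centralizer_iff]
      rintro _ rfl
      have h2 : x * (k : L) = (u : L) * k * (u : L)⁻¹ * x := by rw [hu']; group
      calc (k : L) * ((u : L)⁻¹ * x) = (u : L)⁻¹ * ((u : L) * k * (u : L)⁻¹ * x) := by group
        _ = (u : L)⁻¹ * (x * (k : L)) := by rw [h2]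
        _ = (u : L)⁻¹ * x * k := by group
    have h3 := hC k k.2 hk1 hcomm
    have h4 := K.mul_mem u.2 h3
    simpa using h4
  exact isIrr_indFun_of_stabilizer_le K hφ hst

/-- A nonprincipal irreducible character is nontrivial somewhere. -/
theorem irr_exists_ne {X : Type*} [Group X] [Fintype X] {θ : X → ℂ} (hθ : IsIrrCharacter X θ)
    (hne : θ ≠ (fun _ => 1)) : ∃ a : X, θ a ≠ θ 1 := by
  classical
  by_contra hcon
  push Not at hcon
  apply hne
  have h1 := classInner_irr_ne hθ (isIrrCharacter_one (G := X)) hne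
  have h2 : classInner θ (fun _ : X => (1 : ℂ)) = θ 1 := by
    simp only [classInner]
    have : ∀ g : X, θ g * (starRingEnd ℂ) ((fun _ : X => (1 : ℂ)) g) = θ 1 := by
      intro g
      simp [hcon g]
    rw [Finset.sum_congr rfl (fun g _ => this g), Finset.sum_const, Finset.card_univ, nsmul_eq_mul,
      Nat.card_eq_fintype_card, ← mul_assoc,
      inv_mul_cancel₀ (Nat.cast_ne_zero.mpr Fintype.card_ne_zero), one_mul]
  rw [h2] at h1
  exact absurd h1 (irr_one_ne_zero' hθ)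

/-- The characters of `L` nontrivial on `K` are those induced from nonprincipal characters of `K`. -/
theorem frob_set_eq (hC : ∀ n ∈ K, n ≠ 1 → Subgroup.centralizer ({n} : Set L) ≤ K) :
    {χ : L → ℂ | IsIrrCharacter L χ ∧ ∃ k ∈ K, χ k ≠ χ 1} = inducedIrrAbove K ⊥ := by
  classical
  haveI : Fintype K := Fintype.ofFinite _
  ext χ
  constructor
  · rintro ⟨hχ, k, hk, hne⟩
    obtain ⟨φ, hφ, rfl⟩ := S1528.result K hC χ hχ ⟨k, hk, hne⟩
    refine ⟨φ, hφ, ?_, ?_, rfl⟩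
    · intro h
      apply hne
      apply indFun_const_of_trivial K K le_rfl φ _ hk
      intro a _
      rw [h]
    · intro a ha
      have : a = 1 := Subtype.ext (by simpa using ha)
      rw [this]
  · rintro ⟨θ, hθ, hne, -, rfl⟩
    refine ⟨frob_indFun_irr K hC hθ hne, ?_⟩
    obtain ⟨a, ha⟩ := irr_exists_ne hθ hne
    refine ⟨a, a.2, ?_⟩
    intro h
    exact ha (const_of_indFun_const K hθ h)

/-- Degrees when the kernel is abelian. -/
theorem frob_degree_abelian (hab : ∀ a ∈ K, ∀ b ∈ K, a * b = b * a) {χ : L → ℂ}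
    (hχ : χ ∈ inducedIrrAbove K ⊥) : χ 1 = (K.index : ℂ) := by
  classical
  haveI : Fintype K := Fintype.ofFinite _
  obtain ⟨θ, hθ, -, -, rfl⟩ := hχ
  rw [indFun_one, one_eq_charDegree (isCharacter_of_irr hθ),
    irr_degree_one_of_comm (fun a b => Subtype.ext (hab a a.2 b b.2)) hθ]
  simp

/-- The number of induced characters for an abelian kernel. -/
theorem frob_card_abelian (hC : ∀ n ∈ K, n ≠ 1 → Subgroup.centralizer ({n} : Set L) ≤ K)
    (hab : ∀ a ∈ K, ∀ b ∈ K, a * b = b * a) (Sf : Finset (L → ℂ))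
    (hSf : (Sf : Set (L → ℂ)) = inducedIrrAbove K ⊥) :
    Sf.card * K.index + 1 = Nat.card K := by
  classical
  haveI : Fintype K := Fintype.ofFinite _
  have hirr : ∀ χ ∈ inducedIrrAbove K ⊥, IsIrrCharacter L χ := by
    rintro χ ⟨θ, hθ, hne, -, rfl⟩
    exact frob_indFun_irr K hC hθ hne
  have h := sum_deg_sq_induced K ⊥ bot_le
    (fun χ hχ φ hφ hne => classInner_irr_ne (hirr χ hχ) (hirr φ hφ) hne)
    (fun _ => K.index) (fun _ => 1) (fun φ hφ => frob_degree_abelian K hab hφ)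
    (fun φ hφ => ⟨by
      rw [classInner_irr_self (hirr φ hφ)]
      simp, one_ne_zero⟩) Sf hSf
  rw [Subgroup.relIndex_bot_left] at h
  simp only [Nat.cast_one, div_one, Finset.sum_const, nsmul_eq_mul] at h
  have hindex : 0 < K.index := Nat.pos_of_ne_zero Subgroup.index_ne_zero_of_finite
  have hi : (K.index : ℝ) ≠ 0 := by exact_mod_cast hindex.ne'
  have h2 : (Sf.card : ℝ) * (K.index : ℝ) = (Nat.card K : ℝ) - 1 := by
    apply mul_left_cancel₀ hi
    linear_combination h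
  have h3 : ((Sf.card * K.index + 1 : ℕ) : ℝ) = (Nat.card K : ℝ) := by
    push_cast
    linear_combination h2
  exact_mod_cast h3

/-- Orders of nonidentity elements are all equal if `K` is abelian and `|K| = e + 1`. -/
theorem frob_transitive (hC : ∀ n ∈ K, n ≠ 1 → Subgroup.centralizer ({n} : Set L) ≤ K)
    (hab : ∀ a ∈ K, ∀ b ∈ K, a * b = b * a) (hcard : Nat.card K = K.index + 1) {w : L} (hw : w ∈ K)
    (hw1 : w ≠ 1) {k : L} (hk : k ∈ K) (hk1 : k ≠ 1) : ∃ g : L, g * w * g⁻¹ = k := by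
  classical
  let β := {x : K // x ≠ 1}
  have hβ : Nat.card β = K.index := by
    have h1 : Nat.card β + 1 = Nat.card K := by
      have h2 := Nat.card_congr (Equiv.sumCompl (fun x : K => x ≠ 1))
      rw [Nat.card_sum] at h2
      have h3 : Nat.card {x : K // ¬ x ≠ 1} = 1 := by
        have : {x : K // ¬ x ≠ 1} = {x : K // x = 1} := by simp
        rw [this]
        exact Nat.card_unique
      rw [h3] at h2
      exact h2
    omega
  let f₀ : L → β := fun g => ⟨⟨g * w * g⁻¹, hK.conj_mem w hw g⟩, by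
    intro h
    apply hw1
    have h2 : g * w * g⁻¹ = 1 := congrArg Subtype.val h
    have h3 : g⁻¹ * (g * w * g⁻¹) * g = g⁻¹ * 1 * g := by rw [h2]
    simpa [mul_assoc] using h3⟩
  let f : L ⧸ K → β := Quotient.lift f₀ (by
    intro a b hab'
    have h1 : a⁻¹ * b ∈ K := QuotientGroup.leftRel_apply.mp hab'
    apply Subtype.ext
    apply Subtype.ext
    have h2 : (a⁻¹ * b) * w = w * (a⁻¹ * b) := hab _ h1 _ hw
    show a * w * a⁻¹ = b * w * b⁻¹
    calc a * w * a⁻¹ = a * (w * (a⁻¹ * b)) * b⁻¹ := by group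
      _ = a * ((a⁻¹ * b) * w) * b⁻¹ := by rw [h2]
      _ = b * w * b⁻¹ := by group)
  have hinj : Function.Injective f := by
    intro x y hxy
    induction x using QuotientGroup.induction_on with
    | H a =>
    induction y using QuotientGroup.induction_on with
    | H b =>
    have h1 : a * w * a⁻¹ = b * w * b⁻¹ := congrArg (fun z : β => ((z.1 : K) : L)) hxy
    apply QuotientGroup.eq.mpr
    apply hC w hw hw1
    rw [Subgroup.mem_centralizer_iff]
    intro z hz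
    rw [Set.mem_singleton_iff.mp hz]
    calc w * (a⁻¹ * b) = a⁻¹ * (a * w * a⁻¹) * b := by group
      _ = a⁻¹ * (b * w * b⁻¹) * b := by rw [h1]
      _ = a⁻¹ * b * w := by group
  have hbij := (Function.Injective.bijective_of_nat_card_le hinj (by
    rw [hβ]
    rfl))
  obtain ⟨x, hx⟩ := hbij.2 ⟨⟨k, hk⟩, fun h => hk1 (congrArg Subtype.val h)⟩
  induction x using QuotientGroup.induction_on with
  | H a =>
  exact ⟨a, congrArg (fun z : β => ((z.1 : K) : L)) hx⟩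

end Frob

section Odd

variable {G : Type u} [Group G]

/-- A fixed point free complement acting on a nonabelian group has odd order. -/
theorem fpf_odd_of_nonabelian [Finite G] (K E : Subgroup G) (hEK : E ≤ Subgroup.normalizer (K : Set G))
    (hfpf : ∀ h ∈ E, h ≠ 1 → K ⊓ Subgroup.centralizer {h} = ⊥)
    (hna : ¬ ∀ a ∈ K, ∀ b ∈ K, a * b = b * a) : ¬ 2 ∣ Nat.card E := by
  classical
  intro h2
  haveI : Fact (Nat.Prime 2) := ⟨Nat.prime_two⟩
  obtain ⟨s, hs⟩ := exists_prime_orderOf_dvd_card' (G := E) 2 h2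
  have hs' : orderOf (s : G) = 2 := by
    rw [← hs]
    exact Subgroup.orderOf_coe s
  apply hna
  intro a ha b hb
  have h1 := fpf_inverts K E hEK hfpf s.2 hs' ha
  have h2 := fpf_inverts K E hEK hfpf s.2 hs' hb
  have h3 := fpf_inverts K E hEK hfpf s.2 hs' (K.mul_mem ha hb)
  have h4 : (s : G) * (a * b) * (s : G)⁻¹ = ((s : G) * a * (s : G)⁻¹) * ((s : G) * b * (s : G)⁻¹) := by group
  rw [h4, h1, h2] at h3
  have h5 : a⁻¹ * b⁻¹ = b⁻¹ * a⁻¹ := by
    rw [h3, mul_inv_rev]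
  have h6 := congrArg (fun z => z⁻¹) h5
  simp only [mul_inv_rev, inv_inv] at h6
  exact h6.symm

end Odd

end Cfsg.Agent.H06
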