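import Cfsg.Agent.Lib.H06.CoherS1
import Cfsg.Agent.Lib.H22.ExtraUnique

/-!
# Sibley: Sylow TI subgroups with Frobenius normalizer
-/

set_option autoImplicit false
set_option linter.style.haveILetI false
set_option linter.unusedSectionVars false
set_option linter.unusedVariables false

namespace Cfsg.Agent.H06

open Cfsg Cfsg.Agent.H21
open scoped ComplexConjugate

universe u v

section Setup

variable {G : Type u} [Group G] [Finite G]

/-- The complement in the normalizer of a self-centralizing Hall subgroup. -/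
theorem ti_complement (K : Subgroup G) (hlt : K < Subgroup.normalizer (K : Set G))
    (hC : ∀ k ∈ K, k ≠ 1 → Subgroup.centralizer ({k} : Set G) ≤ K)
    (hcop : Nat.Coprime (Nat.card K) (K.subgroupOf (Subgroup.normalizer (K : Set G))).index) :
    ∃ W₁ : Subgroup G, W₁ ≤ Subgroup.normalizer (K : Set G) ∧ W₁ ≠ ⊥ ∧ K ⊓ W₁ = ⊥ ∧
      K ⊔ W₁ = Subgroup.normalizer (K : Set G) ∧ (∀ w ∈ W₁, w ≠ 1 → ∀ h ∈ K, w * h = h * w → h = 1) := by
  classical
  set L := Subgroup.normalizer (K : Set G) with hL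
  have hKL : K ≤ L := Subgroup.le_normalizer
  set K' : Subgroup L := K.subgroupOf L with hK'
  have hmem : ∀ x : L, x ∈ K' ↔ (x : G) ∈ K := fun x => Subgroup.mem_subgroupOf
  haveI hK'n : K'.Normal := by
    refine ⟨fun k hk g => ?_⟩
    rw [hmem] at hk ⊢
    exact (Subgroup.mem_normalizer_iff.mp g.2 k).mp hk
  have hcard : Nat.card K' = Nat.card K := Nat.card_congr (Subgroup.subgroupOfEquivOfLe hKL).toEquiv
  obtain ⟨W, hW⟩ := Subgroup.exists_right_complement'_of_coprime (N := K') (by rwa [hcard])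
  refine ⟨W.map L.subtype, ?_, ?_, ?_, ?_, ?_⟩
  · rintro _ ⟨w, _, rfl⟩
    exact w.2
  · intro h
    apply hlt.not_ge
    have hWb : W = ⊥ := by
      rw [eq_bot_iff]
      intro w hw
      have : (w : G) ∈ W.map L.subtype := ⟨w, hw, rfl⟩
      rw [h, Subgroup.mem_bot] at this
      exact Subgroup.mem_bot.mpr (Subtype.ext this)
    have hsup := hW.sup_eq_top
    rw [hWb, sup_bot_eq] at hsup
    intro x hx
    have : (⟨x, hx⟩ : L) ∈ K' := by
      rw [hsup]
      exact Subgroup.mem_top _
    exact (hmem _).mp this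
  · rw [eq_bot_iff]
    rintro x ⟨hxK, w, hw, rfl⟩
    have h1 : w ∈ K' := (hmem w).mpr hxK
    have h2 := Subgroup.disjoint_def.mp hW.disjoint h1 hw
    rw [h2]
    exact Subgroup.one_mem _
  · have hsup := hW.sup_eq_top
    apply le_antisymm
    · refine sup_le hKL ?_
      rintro _ ⟨w, _, rfl⟩
      exact w.2
    · intro x hx
      have h1 : (⟨x, hx⟩ : L) ∈ K' ⊔ W := by
        rw [hsup]
        exact Subgroup.mem_top _
      have h2 : (⟨x, hx⟩ : L) ∈ (↑(K' ⊔ W) : Set L) := h1
      rw [Subgroup.normal_mul] at h2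
      obtain ⟨u, hu, v, hv, huv⟩ := Set.mem_mul.mp h2
      have h3 : x = (u : G) * v := (congrArg Subtype.val huv).symm
      rw [h3]
      exact Subgroup.mul_mem _ (Subgroup.mem_sup_left ((hmem u).mp hu))
        (Subgroup.mem_sup_right ⟨v, hv, rfl⟩)
  · rintro _ ⟨w, hw, rfl⟩ hw1 h hh hwh
    by_contra hh1
    have h1 : (w : G) ∈ K := by
      apply hC h hh hh1
      rw [Subgroup.mem_centralizer_iff]
      intro z hz
      rw [Set.mem_singleton_iff.mp hz]
      exact hwh.symm
    have h2 := Subgroup.disjoint_def.mp hW.disjoint ((hmem w).mpr h1) hw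
    exact hw1 (by simp [h2])

/-- The index for Sylow subgroups. -/
theorem sylow_coprime_subgroupOf {p : ℕ} [Fact p.Prime] (P : Sylow p G) (L : Subgroup G)
    (hPL : (P : Subgroup G) ≤ L) : Nat.Coprime (Nat.card (P : Subgroup G)) ((P : Subgroup G).subgroupOf L).index := by
  have h1 : ((P : Subgroup G).subgroupOf L).index ∣ (P : Subgroup G).index := by
    have := Subgroup.relIndex_mul_index hPL
    exact ⟨_, this.symm⟩
  exact Nat.Coprime.coprime_dvd_right h1 P.card_coprime_index

end Setup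

section Sibley

variable {G : Type u} [Group G] [Fintype G]

/-- Oddness of the normalizer and coherence for a nonabelian kernel. -/
theorem ti_facts (K : Subgroup G) [Fintype ↥(Subgroup.normalizer (K : Set G))]
    (hTI : IsTISubset (K : Set G)) (hKodd : Odd (Nat.card K)) (hnil : Group.IsNilpotent K)
    (hK1 : K ≠ ⊥) (hlt : K < Subgroup.normalizer (K : Set G))
    (hC : ∀ k ∈ K, k ≠ 1 → Subgroup.centralizer ({k} : Set G) ≤ K)
    (hcop : Nat.Coprime (Nat.card K) (K.subgroupOf (Subgroup.normalizer (K : Set G))).index)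
    (hna : ¬ ∀ a ∈ K, ∀ b ∈ K, a * b = b * a) :
    Odd (Nat.card ↥(Subgroup.normalizer (K : Set G))) ∧
      IsCoherent (inducedIrrAbove (K.subgroupOf (Subgroup.normalizer (K : Set G))) ⊥) {1}ᶜ
        (fun α : ↥(Subgroup.normalizer (K : Set G)) → ℂ => indFun (Subgroup.normalizer (K : Set G)) α) := by
  classical
  obtain ⟨W₁, hW₁L, hW1, hinf, hsup, hfpf⟩ := ti_complement K hlt hC hcop
  have hfpf' : ∀ h ∈ W₁, h ≠ 1 → K ⊓ Subgroup.centralizer {h} = ⊥ := by
    intro w hw hw1
    rw [eq_bot_iff]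
    rintro x ⟨hx, hxc⟩
    have := Subgroup.mem_centralizer_iff.mp hxc w rfl
    exact Subgroup.mem_bot.mpr (hfpf w hw hw1 x hx this)
  have hW₁odd := fpf_odd_of_nonabelian K W₁ hW₁L hfpf' hna
  have hcard : Nat.card K * Nat.card W₁ = Nat.card ↥(Subgroup.normalizer (K : Set G)) := by
    set L := Subgroup.normalizer (K : Set G) with hL
    have hKL : K ≤ L := Subgroup.le_normalizer
    have e1 : Nat.card (K.subgroupOf L) = Nat.card K :=
      Nat.card_congr (Subgroup.subgroupOfEquivOfLe hKL).toEquiv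
    have e2 : Nat.card (W₁.subgroupOf L) = Nat.card W₁ :=
      Nat.card_congr (Subgroup.subgroupOfEquivOfLe hW₁L).toEquiv
    have hc : Subgroup.IsComplement' (K.subgroupOf L) (W₁.subgroupOf L) := by
      haveI : (K.subgroupOf L).Normal := by
        refine ⟨fun k hk g => ?_⟩
        rw [Subgroup.mem_subgroupOf] at hk ⊢
        exact (Subgroup.mem_normalizer_iff.mp g.2 k).mp hk
      apply Subgroup.isComplement'_of_disjoint_and_mul_eq_univ
      · rw [Subgroup.disjoint_def]
        intro x h1 h2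
        have : (x : G) ∈ K ⊓ W₁ := ⟨Subgroup.mem_subgroupOf.mp h1, Subgroup.mem_subgroupOf.mp h2⟩
        rw [hinf, Subgroup.mem_bot] at this
        exact Subtype.ext this
      · rw [← Subgroup.normal_mul]
        have hsup' : (K.subgroupOf L ⊔ W₁.subgroupOf L) = ⊤ := by
          apply Subgroup.map_injective L.subtype_injective
          rw [Subgroup.map_sup, Subgroup.map_subgroupOf_eq_of_le hKL, Subgroup.map_subgroupOf_eq_of_le hW₁L,
            hsup, ← MonoidHom.range_eq_map, Subgroup.range_subtype]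
        rw [hsup']
        rfl
    have := hc.card_mul
    rw [e1, e2] at this
    exact this
  have hodd : Odd (Nat.card ↥(Subgroup.normalizer (K : Set G))) := by
    rw [← hcard]
    refine Odd.mul hKodd ?_
    exact Nat.odd_iff.mpr (by omega)
  refine ⟨hodd, ?_⟩
  have hHn : ∀ x ∈ Subgroup.normalizer (K : Set G), ∀ h ∈ K, x * h * x⁻¹ ∈ K := fun x hx h hh =>
    (Subgroup.mem_normalizer_iff.mp hx h).mp hh
  exact coh_tiFrob K (Subgroup.normalizer (K : Set G)) W₁ hodd Subgroup.le_normalizer hW₁L hK1 hW1 hnil hHn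
    hinf hsup hfpf hTI rfl

/-- The centralizer condition inside the normalizer. -/
theorem ti_hC' (K L : Subgroup G) (hKL : K ≤ L)
    (hC : ∀ k ∈ K, k ≠ 1 → Subgroup.centralizer ({k} : Set G) ≤ K) :
    ∀ n ∈ K.subgroupOf L, n ≠ 1 → Subgroup.centralizer ({n} : Set L) ≤ K.subgroupOf L := by
  intro n hn hn1 x hx
  rw [Subgroup.mem_subgroupOf] at hn ⊢
  apply hC n hn (fun h => hn1 (Subtype.ext h))
  rw [Subgroup.mem_centralizer_iff]
  intro z hz
  rw [Set.mem_singleton_iff.mp hz]
  have := Subgroup.mem_centralizer_iff.mp hx n rfl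
  exact congrArg Subtype.val this

/-- A nonzero combination in a conjugation closed subset. -/
theorem exists_ne_zero_of_conj {L : Type u} [Group L] [Fintype L] (hodd : Odd (Nat.card L)) (S : Set (L → ℂ))
    (hS : ∀ χ ∈ S, IsIrrCharacter L χ ∧ conjFun χ ∈ S ∧ χ ≠ fun _ => 1) (hne : S.Nonempty) :
    ∃ α ∈ zspanOn S {1}ᶜ, α ≠ 0 := by
  obtain ⟨χ, hχ⟩ := hne
  obtain ⟨h1, h2, h3⟩ := hS χ hχ
  refine ⟨χ - conjFun χ, mem_zspanOn_one (zspan_sub_mem (mem_zspan hχ) (mem_zspan h2)) ?_, ?_⟩
  · simp only [Pi.sub_apply, conjFun]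
    obtain ⟨d, -, e⟩ := irr_one_nat h1
    rw [e]
    simp
  · intro h
    exact conj_ne_of_odd hodd h1 h3 (sub_eq_zero.mp h).symm


/-- Sibley's theorem for a Sylow TI subgroup. -/
theorem sibley_main {p : ℕ} [Fact p.Prime] (hp : p ≠ 2) (P : Sylow p G) (hP1 : (P : Subgroup G) ≠ ⊥)
    (hTI : IsTISubset ((P : Subgroup G) : Set G)) (hlt : (P : Subgroup G) < Subgroup.normalizer ((P : Subgroup G) : Set G))
    (hC : ∀ k ∈ (P : Subgroup G), k ≠ 1 → Subgroup.centralizer ({k} : Set G) ≤ (P : Subgroup G))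
    (N : Subgroup G) [Fintype N] (hN : Subgroup.normalizer ((P : Subgroup G) : Set G) = N) :
    (Nat.card {χ : N → ℂ // IsIrrCharacter N χ ∧ ∃ x : N, (x : G) ∈ (P : Subgroup G) ∧ χ x ≠ χ 1} = 1 ∧
      IsElementaryAbelian p (P : Subgroup G) ∧ Nat.card (P : Subgroup G) = ((P : Subgroup G).subgroupOf N).index + 1) ∨
    IsCoherent {χ : N → ℂ | IsIrrCharacter N χ ∧ ∃ x : N, (x : G) ∈ (P : Subgroup G) ∧ χ x ≠ χ 1} {1}ᶜ
      (fun α => indFun N α) := by
  classical
  have hPN : (P : Subgroup G) ≤ N := hN ▸ Subgroup.le_normalizer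
  have hC' := ti_hC' (P : Subgroup G) N hPN hC
  set K : Subgroup N := (P : Subgroup G).subgroupOf N with hK
  have hKm : ∀ x : N, x ∈ K ↔ (x : G) ∈ (P : Subgroup G) := fun x => Subgroup.mem_subgroupOf
  haveI hn : K.Normal := by
    refine ⟨fun k hk g => ?_⟩
    rw [hKm] at hk ⊢
    have hg : (g : G) ∈ Subgroup.normalizer ((P : Subgroup G) : Set G) := hN ▸ g.2
    exact (Subgroup.mem_normalizer_iff.mp hg k).mp hk
  have hset := frob_set_eq K hC'
  have hS' : {χ : N → ℂ | IsIrrCharacter N χ ∧ ∃ x : N, (x : G) ∈ (P : Subgroup G) ∧ χ x ≠ χ 1} =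
      inducedIrrAbove K ⊥ := by
    rw [← hset]
    ext χ
    constructor
    · rintro ⟨h1, x, hx, h2⟩
      exact ⟨h1, x, (hKm x).mpr hx, h2⟩
    · rintro ⟨h1, x, hx, h2⟩
      exact ⟨h1, x, (hKm x).mp hx, h2⟩
  have hcardK : Nat.card K = Nat.card (P : Subgroup G) :=
    Nat.card_congr (Subgroup.subgroupOfEquivOfLe hPN).toEquiv
  by_cases hab : ∀ a ∈ (P : Subgroup G), ∀ b ∈ (P : Subgroup G), a * b = b * a
  · have hab' : ∀ a ∈ K, ∀ b ∈ K, a * b = b * a := fun a ha b hb =>
      Subtype.ext (hab a ((hKm a).mp ha) b ((hKm b).mp hb))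
    set Sf : Finset (N → ℂ) := (inducedIrrAbove_finite K ⊥).toFinset with hSfdef
    have hSf : (Sf : Set (N → ℂ)) = inducedIrrAbove K ⊥ := Set.Finite.coe_toFinset _
    have hmem : ∀ {χ}, χ ∈ Sf ↔ χ ∈ inducedIrrAbove K ⊥ := by
      intro χ
      rw [← Finset.mem_coe, hSf]
    have hcount := frob_card_abelian K hC' hab' Sf hSf
    by_cases htwo : ∃ χ ∈ Sf, ∃ φ ∈ Sf, χ ≠ φ
    · right
      rw [hS', ← hSf]
      have hirr : ∀ χ ∈ Sf, IsIrrCharacter N χ := by
        intro χ hχ
        rw [hmem, ← hset] at hχ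
        exact hχ.1
      obtain ⟨hiso, hone⟩ := ti_isometry (P : Subgroup G) N hPN K hKm
        (fun g hg k hk h => hTI g (hN ▸ hg) k hk h) (Sf : Set (N → ℂ))
        (fun χ hχ => isCharacter_of_irr (hirr χ hχ)) (by
          intro χ hχ x hx
          obtain ⟨θ, -, -, -, rfl⟩ := hmem.mp hχ
          exact indFun_of_not_mem K θ hx)
      exact coh_equal_degree Sf hirr (fun φ hφ ψ hψ => by
        rw [frob_degree_abelian K hab' (hmem.mp hφ),
          frob_degree_abelian K hab' (hmem.mp hψ)]) htwo _ hiso hone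
    · left
      push Not at htwo
      have hcard1 : 1 < Nat.card (P : Subgroup G) := (Subgroup.one_lt_card_iff_ne_bot _).mpr hP1
      have hSc : Sf.card ≤ 1 := Finset.card_le_one.mpr fun a ha b hb => htwo a ha b hb
      have hSc' : Sf.card = 1 := by
        rw [hcardK] at hcount
        have : Sf.card ≠ 0 := by
          intro h
          rw [h] at hcount
          omega
        omega
      have hcardP : Nat.card (P : Subgroup G) = K.index + 1 := by
        rw [hcardK, hSc', one_mul] at hcount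
        exact hcount.symm
      refine ⟨?_, ⟨⟨⟨fun a b => Subtype.ext (hab a a.2 b b.2)⟩⟩, ?_⟩, hcardP⟩
      · have h1 : Nat.card {χ : N → ℂ // IsIrrCharacter N χ ∧ ∃ x : N, (x : G) ∈ (P : Subgroup G) ∧ χ x ≠ χ 1} =
            Nat.card ↥(Sf : Set (N → ℂ)) := by
          apply Nat.card_congr
          apply Equiv.setCongr
          rw [hSf, ← hS']
          rfl
        rw [h1, Nat.card_coe_set_eq, Set.ncard_coe_finset, hSc']
      · -- exponent `p`
        obtain ⟨n, hn'⟩ := IsPGroup.iff_card.mp P.isPGroup'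
        have hn0 : n ≠ 0 := by
          rintro rfl
          rw [pow_zero] at hn'
          omega
        obtain ⟨w, hw⟩ := exists_prime_orderOf_dvd_card' (G := (P : Subgroup G)) p (by
          rw [hn']
          exact dvd_pow_self p hn0)
        have hw' : orderOf (w : G) = p := (Subgroup.orderOf_coe w).trans hw
        have hw1 : (w : G) ≠ 1 := by
          intro h
          rw [h, orderOf_one] at hw'
          exact (Fact.out : p.Prime).one_lt.ne hw'
        intro a ha
        by_cases ha1 : a = 1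
        · rw [ha1, one_pow]
        have hwp : (w : G) ^ p = 1 := by
          have := pow_orderOf_eq_one (w : G)
          rwa [hw'] at this
        obtain ⟨g, hg⟩ := frob_transitive K hC' hab' (by rw [hcardK]; exact hcardP)
          (w := (⟨w, hPN w.2⟩ : N)) ((hKm _).mpr w.2) (fun h => hw1 (congrArg Subtype.val h))
          (k := (⟨a, hPN ha⟩ : N)) ((hKm _).mpr ha) (fun h => ha1 (congrArg Subtype.val h))
        have hg' : (g : G) * w * (g : G)⁻¹ = a := congrArg Subtype.val hg
        rw [← hg', conj_pow, hwp]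
        simp
  · right
    have hKodd : Odd (Nat.card (P : Subgroup G)) := by
      obtain ⟨n, hn'⟩ := IsPGroup.iff_card.mp P.isPGroup'
      rw [hn']
      exact Odd.pow (Nat.Prime.odd_of_ne_two Fact.out hp)
    have hnil : Group.IsNilpotent (P : Subgroup G) := P.isPGroup'.isNilpotent
    rw [hS']
    subst hN
    obtain ⟨hodd, hcoh⟩ := ti_facts (P : Subgroup G) hTI hKodd hnil hP1 hlt hC
      (sylow_coprime_subgroupOf P _ Subgroup.le_normalizer) hab
    exact hcoh

end Sibley

end Cfsg.Agent.H06
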