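import Cfsg.Agent.Lib.H06.CoherS2
import Cfsg.Agent.S1530

/-!
# Feit's coherence theorem for Frobenius groups (kernel of any parity)
-/

set_option autoImplicit false
set_option linter.style.haveILetI false
set_option linter.unusedSectionVars false
set_option linter.unusedVariables false

namespace Cfsg.Agent.H06

open Cfsg Cfsg.Agent.H21
open scoped ComplexConjugate commutatorElement

universe u v

section AddOne

variable {N : Type u} [Group N] [Fintype N] {G : Type v} [Group G] [Fintype G]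

/-- Adding one character to a coherent set (no conjugation hypothesis). -/
theorem coh_add_one (S₀ : Finset (N → ℂ)) (χ : N → ℂ) (hirr : ∀ ξ ∈ S₀, IsIrrCharacter N ξ)
    (hχ : IsIrrCharacter N χ) (hχS : χ ∉ S₀) (d : (N → ℂ) → ℕ) (hd : ∀ ξ ∈ insert χ S₀, ξ 1 = (d ξ : ℂ))
    (τ : (N → ℂ) → (G → ℂ)) (hτ : IsLinearIsometryOn (zspanOn (↑(insert χ S₀) : Set (N → ℂ)) {1}ᶜ) τ)
    (hτ1 : ∀ α ∈ zspanOn (↑(insert χ S₀) : Set (N → ℂ)) {1}ᶜ, τ α 1 = 0)
    (hcoh : IsCoherent (↑S₀ : Set (N → ℂ)) {1}ᶜ τ) (ψ : N → ℂ) (hψ : ψ ∈ S₀) (hdvd : d ψ ∣ d χ)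
    (hlt : 2 * d ψ * d χ < ∑ ξ ∈ S₀, d ξ ^ 2) : IsCoherent (↑(insert χ S₀) : Set (N → ℂ)) {1}ᶜ τ := by
  classical
  obtain ⟨-, τ₁, hτ₁, hagree⟩ := hcoh
  obtain ⟨a', ha'⟩ := hdvd
  have hdχ : χ 1 = (d χ : ℂ) := hd χ (Finset.mem_insert_self _ _)
  have hdξ : ∀ ξ ∈ S₀, ξ 1 = (d ξ : ℂ) := fun ξ h => hd ξ (Finset.mem_insert_of_mem h)
  have hdψ0 : 0 < d ψ := by
    have h1 := irr_one_ne_zero' (hirr ψ hψ)
    rw [hdξ ψ hψ] at h1
    exact Nat.pos_of_ne_zero (fun h => h1 (by simp [h]))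
  have hdχ0 : 0 < d χ := by
    have h1 := irr_one_ne_zero' hχ
    rw [hdχ] at h1
    exact Nat.pos_of_ne_zero (fun h => h1 (by simp [h]))
  have ha0 : 0 < a' := by
    rcases Nat.eq_zero_or_pos a' with h | h
    · rw [h, mul_zero] at ha'
      omega
    · exact h
  set a : ℤ := (a' : ℤ) with ha
  set dψ : ℤ := (d ψ : ℤ) with hdψ
  have hsub : (↑S₀ : Set (N → ℂ)) ⊆ ↑(insert χ S₀) := by
    intro x hx
    exact Finset.mem_coe.mpr (Finset.mem_insert_of_mem (Finset.mem_coe.mp hx))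
  have hχmem : χ ∈ zspan (↑(insert χ S₀) : Set (N → ℂ)) := mem_zspan (by simp)
  have hmemS : ∀ ξ ∈ S₀, ξ ∈ zspan (↑S₀ : Set (N → ℂ)) := fun ξ h => mem_zspan (by simpa using h)
  have hψT : ψ ∈ zspan (↑(insert χ S₀) : Set (N → ℂ)) := zspan_mono hsub (hmemS ψ hψ)
  -- the element `β`
  let β : N → ℂ := χ + (-a) • ψ
  have hβ : β ∈ zspanOn (↑(insert χ S₀) : Set (N → ℂ)) {1}ᶜ := by
    refine mem_zspanOn_one (zspan_add_mem hχmem (zspan_zsmul_mem _ hψT)) ?_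
    simp only [β, Pi.add_apply, zsmul_apply', hdχ, hdξ ψ hψ, ha', ha]
    push_cast
    ring
  set X := τ β with hX
  have hχψ : ∀ ξ ∈ S₀, classInner χ ξ = 0 := fun ξ h =>
    classInner_irr_ne hχ (hirr ξ h) (fun e => hχS (e ▸ h))
  have hχψ' : ∀ ξ ∈ S₀, classInner ξ χ = 0 := fun ξ h => by
    rw [← classInner_comm_conj, hχψ ξ h, map_zero]
  have hχχ := classInner_irr_self hχ
  have hψψ := classInner_irr_self (hirr ψ hψ)
  have hXX : classInner X X = ((1 + a * a : ℤ) : ℂ) := by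
    rw [hX, hτ.2.2.1 β hβ β hβ]
    simp only [β, classInner_add_left, classInner_add_right, classInner_zsmul_left, classInner_zsmul_right,
      hχχ, hψψ, hχψ ψ hψ, hχψ' ψ hψ]
    push_cast
    ring
  have hXgen : IsGeneralizedCharacter G X := hτ.2.2.2 β hβ
  have hτ₁gen : ∀ ξ ∈ S₀, IsGeneralizedCharacter G (τ₁ ξ) := fun ξ h => hτ₁.2.2.2 ξ (hmemS ξ h)
  have hint : ∀ ξ ∈ S₀, ∃ n : ℤ, classInner X (τ₁ ξ) = n := fun ξ h => gen_inner_int hXgen (hτ₁gen ξ h)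
  choose! y hy using hint
  set t : ℤ := y ψ + a with ht
  have hon : ∀ i ∈ S₀, ∀ j ∈ S₀, classInner (τ₁ i) (τ₁ j) = if i = j then 1 else 0 := by
    intro i hi j hj
    rw [hτ₁.2.2.1 i (hmemS i hi) j (hmemS j hj)]
    split_ifs with h
    · rw [h]
      exact classInner_irr_self (hirr j hj)
    · exact classInner_irr_ne (hirr i hi) (hirr j hj) h
  -- the element `ω`
  have hω : ∀ ξ ∈ S₀, dψ • ξ + (-(d ξ : ℤ)) • ψ ∈ zspanOn (↑S₀ : Set (N → ℂ)) {1}ᶜ := by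
    intro ξ hξ
    refine mem_zspanOn_one (zspan_add_mem (zspan_zsmul_mem _ (hmemS ξ hξ)) (zspan_zsmul_mem _ (hmemS ψ hψ))) ?_
    simp only [Pi.add_apply, zsmul_apply', hdξ ξ hξ, hdξ ψ hψ, hdψ]
    push_cast
    ring
  have hτ₁ω : ∀ ξ ∈ S₀, τ (dψ • ξ + (-(d ξ : ℤ)) • ψ) = dψ • τ₁ ξ + (-(d ξ : ℤ)) • τ₁ ψ := by
    intro ξ hξ
    rw [← hagree _ (hω ξ hξ), iso_lin hτ₁ (zspan_closed _) _ _ (hmemS ξ hξ) (hmemS ψ hψ)]
  have hrel : ∀ ξ ∈ S₀, ξ ≠ ψ → dψ * y ξ = (d ξ : ℤ) * t := by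
    intro ξ hξ hne
    have h1 := hτ.2.2.1 β hβ _ (zspanOn_mono hsub (hω ξ hξ))
    rw [← hX, hτ₁ω ξ hξ] at h1
    have hξψ : classInner ξ ψ = 0 := classInner_irr_ne (hirr ξ hξ) (hirr ψ hψ) hne
    have hψξ : classInner ψ ξ = 0 := classInner_irr_ne (hirr ψ hψ) (hirr ξ hξ) hne.symm
    simp only [β, classInner_add_left, classInner_add_right, classInner_zsmul_left, classInner_zsmul_right,
      hy ξ hξ, hy ψ hψ, hχψ ξ hξ, hχψ ψ hψ, hψξ, hψψ] at h1
    have h2 : ((dψ * y ξ : ℤ) : ℂ) = (((d ξ : ℤ) * t : ℤ) : ℂ) := by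
      push_cast at h1 ⊢
      rw [ht]
      push_cast
      linear_combination h1
    exact_mod_cast h2
  -- Bessel
  have hbes := bessel_le_int S₀ τ₁ hon X y hy (1 + a * a) hXX
  set E : ℤ := ∑ ξ ∈ S₀.erase ψ, ((d ξ : ℤ) * (d ξ : ℤ)) with hE
  have hEnn : 0 ≤ E := Finset.sum_nonneg fun ξ _ => mul_self_nonneg _
  set K : ℤ := ∑ ξ ∈ S₀.erase ψ, y ξ * y ξ with hK
  have hsplit : ∑ ξ ∈ S₀, y ξ * y ξ = y ψ * y ψ + K := (Finset.add_sum_erase S₀ (fun ξ => y ξ * y ξ) hψ).symm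
  have hdd : dψ * dψ * K = t * t * E := by
    rw [hK, hE, Finset.mul_sum, Finset.mul_sum]
    refine Finset.sum_congr rfl fun ξ hξ => ?_
    have := hrel ξ (Finset.mem_of_mem_erase hξ) (Finset.ne_of_mem_erase hξ)
    calc dψ * dψ * (y ξ * y ξ) = (dψ * y ξ) * (dψ * y ξ) := by ring
      _ = ((d ξ : ℤ) * t) * ((d ξ : ℤ) * t) := by rw [this]
      _ = t * t * ((d ξ : ℤ) * (d ξ : ℤ)) := by ring
  have hD : (∑ ξ ∈ S₀, d ξ ^ 2 : ℕ) = d ψ * d ψ + ∑ ξ ∈ S₀.erase ψ, d ξ ^ 2 := by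
    rw [← Finset.add_sum_erase S₀ (fun ξ => d ξ ^ 2) hψ]
    ring
  have hltZ : 2 * a * (dψ * dψ) < dψ * dψ + E := by
    have h1 : ((2 * d ψ * d χ : ℕ) : ℤ) < ((∑ ξ ∈ S₀, d ξ ^ 2 : ℕ) : ℤ) := by exact_mod_cast hlt
    rw [hD, ha'] at h1
    have h2 : ((∑ ξ ∈ S₀.erase ψ, d ξ ^ 2 : ℕ) : ℤ) = E := by
      rw [hE]
      push_cast
      exact Finset.sum_congr rfl fun ξ _ => by ring
    rw [Nat.cast_add, h2] at h1
    push_cast at h1
    rw [ha, hdψ]
    linarith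
  have hdψ1 : 1 ≤ dψ := by rw [hdψ]; exact_mod_cast hdψ0
  have hdd1 : 1 ≤ dψ * dψ := by nlinarith
  have ha1 : 1 ≤ a := by rw [ha]; exact_mod_cast ha0
  have hyψ : y ψ = t - a := by rw [ht]; ring
  -- the key inequality
  have hbes' : (t - a) * (t - a) + K ≤ 1 + a * a := by
    rw [hsplit, hyψ] at hbes
    exact hbes
  have hstar : t * t * E + dψ * dψ * (t - a) * (t - a) ≤ dψ * dψ * (1 + a * a) := by
    have h1 := mul_le_mul_of_nonneg_left hbes' (show 0 ≤ dψ * dψ from by omega)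
    have h2 : dψ * dψ * ((t - a) * (t - a) + K) = dψ * dψ * (t - a) * (t - a) + dψ * dψ * K := by ring
    rw [h2, hdd] at h1
    linarith
  have hvne : τ₁ ψ 1 ≠ 0 := (iso_signedIrr hτ₁ (hmemS ψ hψ) hψψ).one_ne_zero
  have hωval : ∀ ξ ∈ S₀, (dψ : ℂ) * τ₁ ξ 1 = (d ξ : ℂ) * τ₁ ψ 1 := by
    intro ξ hξ
    have h1 := hτ1 _ (zspanOn_mono hsub (hω ξ hξ))
    rw [hτ₁ω ξ hξ] at h1
    simp only [Pi.add_apply, zsmul_apply'] at h1
    push_cast at h1
    linear_combination h1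
  rcases Cfsg.Agent.S1530.int_key t a (dψ * dψ) E ha1 hdd1 hltZ hstar with ht0 | ht1
  · -- the good case
    have hyψ0 : y ψ = -a := by rw [hyψ, ht0]; ring
    have hy0 : ∀ ξ ∈ S₀, ξ ≠ ψ → y ξ = 0 := by
      intro ξ hξ hne
      have := hrel ξ hξ hne
      rw [ht0, mul_zero] at this
      exact (mul_eq_zero.mp this).resolve_left (by omega)
    let Δ : G → ℂ := X + a • τ₁ ψ
    have hψξin : ∀ ξ ∈ S₀, classInner (τ₁ ψ) (τ₁ ξ) = if ψ = ξ then 1 else 0 := fun ξ hξ => hon ψ hψ ξ hξ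
    have hΔξ : ∀ ξ ∈ S₀, classInner Δ (τ₁ ξ) = 0 := by
      intro ξ hξ
      simp only [Δ, classInner_add_left, classInner_zsmul_left]
      rw [hy ξ hξ, hψξin ξ hξ]
      by_cases h : ψ = ξ
      · rw [if_pos h, ← h, hyψ0]
        push_cast
        ring
      · rw [if_neg h, hy0 ξ hξ (Ne.symm h)]
        simp
    have hΔΔ : classInner Δ Δ = 1 := by
      have h1 : classInner (τ₁ ψ) X = ((-a : ℤ) : ℂ) := by
        rw [← classInner_comm_conj, hy ψ hψ, hyψ0, map_intCast]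
      have h2 : classInner (τ₁ ψ) (τ₁ ψ) = 1 := by
        rw [hψξin ψ hψ, if_pos rfl]
      simp only [Δ, classInner_add_left, classInner_add_right, classInner_zsmul_left, classInner_zsmul_right]
      rw [hXX, hy ψ hψ, hyψ0, h1, h2]
      push_cast
      ring
    have hΔgen : IsGeneralizedCharacter G Δ := gen_add hXgen (gen_zsmul (hτ₁gen ψ hψ) a)
    let μ : (N → ℂ) → (G → ℂ) := fun f => if f = χ then Δ else τ₁ f
    have hμχ : μ χ = Δ := if_pos rfl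
    have hμξ : ∀ ξ ∈ S₀, μ ξ = τ₁ ξ := fun ξ hξ => if_neg (fun e : ξ = χ => hχS (e ▸ hξ))
    have hirrT : ∀ x ∈ insert χ S₀, IsIrrCharacter N x := by
      intro x hx
      rcases Finset.mem_insert.mp hx with rfl | hx
      · exact hχ
      · exact hirr x hx
    have hTorth : ∀ x ∈ insert χ S₀, ∀ y ∈ insert χ S₀, x ≠ y → classInner x y = 0 := fun x hx y hy h =>
      classInner_irr_ne (hirrT x hx) (hirrT y hy) h
    have hTne : ∀ x ∈ insert χ S₀, classInner x x ≠ 0 := fun x hx => by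
      rw [classInner_irr_self (hirrT x hx)]
      exact one_ne_zero
    have hiso : IsLinearIsometryOn (zspan (↑(insert χ S₀) : Set (N → ℂ))) (coherExt (insert χ S₀) μ) := by
      refine coherExt_isometry hTorth hTne ?_ ?_
      · intro x hx
        rcases Finset.mem_insert.mp hx with rfl | hx
        · rw [hμχ]
          exact hΔgen
        · rw [hμξ x hx]
          exact hτ₁gen x hx
      · intro x hx y' hy'
        rcases Finset.mem_insert.mp hx with hx1 | hx1 <;> rcases Finset.mem_insert.mp hy' with hy1 | hy1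
        · rw [hx1, hy1, hμχ, hΔΔ, hχχ]
        · rw [hx1, hμχ, hμξ y' hy1, hΔξ y' hy1, hχψ y' hy1]
        · rw [hy1, hμχ, hμξ x hx1, ← classInner_comm_conj, hΔξ x hx1, map_zero, hχψ' x hx1]
        · rw [hμξ x hx1, hμξ y' hy1]
          exact hτ₁.2.2.1 x (hmemS x hx1) y' (hmemS y' hy1)
    have hβne : β ≠ 0 := by
      intro h0
      have h1 := congrArg (fun f => classInner f χ) h0
      simp only [β, classInner_zero_left, classInner_add_left, classInner_zsmul_left, hχχ, hχψ' ψ hψ] at h1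
      simp at h1
    refine ⟨⟨β, hβ, hβne⟩, coherExt (insert χ S₀) μ, hiso, ?_⟩
    intro f hf
    have hmemT : ∀ x ∈ insert χ S₀, coherExt (insert χ S₀) μ x = μ x := fun x hx =>
      coherExt_mem hTorth hTne hx
    have hQ : ∀ g ∈ zspan (↑(insert χ S₀) : Set (N → ℂ)), ∃ g₁ ∈ zspan (↑S₀ : Set (N → ℂ)), ∃ n : ℤ,
        g = g₁ + n • χ ∧ coherExt (insert χ S₀) μ g = τ₁ g₁ + n • Δ := by
      intro g hg
      have hg' : g ∈ Submodule.span ℤ (↑(insert χ S₀) : Set (N → ℂ)) := hg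
      clear hg
      induction hg' using Submodule.span_induction with
      | mem x hx =>
        rcases Finset.mem_insert.mp (Finset.mem_coe.mp hx) with rfl | hx'
        · refine ⟨0, zspan_zero_mem, 1, by simp, ?_⟩
          rw [hmemT _ (Finset.mem_insert_self _ _), hμχ, iso_zero hτ₁ zspan_zero_mem]
          simp
        · refine ⟨x, hmemS x hx', 0, by simp, ?_⟩
          rw [hmemT x (Finset.mem_insert_of_mem hx'), hμξ x hx']
          simp
      | zero =>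
        refine ⟨0, zspan_zero_mem, 0, by simp, ?_⟩
        rw [coherExt_zero, iso_zero hτ₁ zspan_zero_mem]
        simp
      | add a₁ b₁ _ _ ha₁ hb₁ =>
        obtain ⟨g₁, hg₁, n, e, e'⟩ := ha₁
        obtain ⟨g₂, hg₂, m, e₂, e₂'⟩ := hb₁
        refine ⟨g₁ + g₂, zspan_add_mem hg₁ hg₂, n + m, ?_, ?_⟩
        · rw [e, e₂, add_smul]
          abel
        · rw [coherExt_add, e', e₂', hτ₁.1 _ hg₁ _ hg₂, add_smul]
          abel
      | smul k a₁ _ ha₁ =>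
        obtain ⟨g₁, hg₁, n, e, e'⟩ := ha₁
        refine ⟨k • g₁, zspan_zsmul_mem k hg₁, k * n, ?_, ?_⟩
        · rw [e, smul_add, mul_smul]
        · rw [coherExt_zsmul, e', hτ₁.2.1 _ hg₁, smul_add, mul_smul]
    obtain ⟨g, hg, n, ef, ef'⟩ := hQ f hf.1
    rw [ef']
    have hf1 : f 1 = 0 := hf.2 1 (by simp)
    have hval : g 1 + (n : ℂ) * (d χ : ℂ) = 0 := by
      rw [ef] at hf1
      simp only [Pi.add_apply, zsmul_apply', hdχ] at hf1
      exact hf1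
    have hh : g + (n * a) • ψ ∈ zspanOn (↑S₀ : Set (N → ℂ)) {1}ᶜ := by
      refine mem_zspanOn_one (zspan_add_mem hg (zspan_zsmul_mem _ (hmemS ψ hψ))) ?_
      simp only [Pi.add_apply, zsmul_apply', hdξ ψ hψ]
      rw [ha', ha] at *
      push_cast at hval ⊢
      linear_combination hval
    have hfeq : f = (g + (n * a) • ψ) + n • β := by
      rw [ef]
      simp only [β, smul_add, smul_smul]
      have : n * -a = -(n * a) := by ring
      rw [this, neg_smul]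
      abel
    rw [hfeq, hτ.1 _ (zspanOn_mono hsub hh) _ (zspanOn_closed _ _ n β hβ), hτ.2.1 β hβ n, ← hagree _ hh,
      hτ₁.1 _ hg _ (zspan_zsmul_mem _ (hmemS ψ hψ)), hτ₁.2.1 ψ (hmemS ψ hψ)]
    simp only [Δ, smul_add, smul_smul]
    abel
  · -- the impossible case
    exfalso
    have hrel1 : ∀ ξ ∈ S₀, ξ ≠ ψ → (d ξ : ℤ) = dψ * y ξ := by
      intro ξ hξ hne
      rw [hrel ξ hξ hne, ht1, mul_one]
    have hdd1' : dψ * dψ * K = E := by rw [hdd, ht1]; ring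
    have hKval : K = 2 * a := by
      have h1 : E ≤ 2 * a * (dψ * dψ) := by
        rw [ht1] at hstar
        nlinarith
      rw [← hdd1'] at h1 hltZ
      have h2 : K ≤ 2 * a := by
        have : dψ * dψ * K ≤ dψ * dψ * (2 * a) := by linarith
        exact le_of_mul_le_mul_left this (by omega)
      have h3 : 2 * a < 1 + K := by
        have : dψ * dψ * (2 * a) < dψ * dψ * (1 + K) := by linarith
        exact lt_of_mul_lt_mul_left this (by omega)
      omega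
    have hsum : ∑ ξ ∈ S₀, y ξ * y ξ = 1 + a * a := by
      rw [hsplit, hyψ, hKval, ht1]
      ring
    have hXexp : X = ∑ ξ ∈ S₀, classInner X (τ₁ ξ) • τ₁ ξ := by
      refine eq_sum_of_bessel_eq S₀ τ₁ hon X ?_
      rw [hXX, ← hsum]
      push_cast
      refine Finset.sum_congr rfl fun ξ hξ => ?_
      rw [hy ξ hξ, map_intCast]
    have hX1 : X 1 = 0 := hτ1 β hβ
    rw [hXexp] at hX1
    rw [Finset.sum_apply] at hX1
    simp only [Pi.smul_apply, smul_eq_mul] at hX1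
    have hterm : ∀ ξ ∈ S₀, classInner X (τ₁ ξ) * τ₁ ξ 1 =
        if ξ = ψ then (y ψ : ℂ) * τ₁ ψ 1 else ((y ξ * y ξ : ℤ) : ℂ) * τ₁ ψ 1 := by
      intro ξ hξ
      rw [hy ξ hξ]
      split_ifs with h
      · rw [h]
      · have h2 := hωval ξ hξ
        have h3 : ((d ξ : ℤ) : ℂ) = ((dψ * y ξ : ℤ) : ℂ) := by rw [← hrel1 ξ hξ h]
        push_cast at h3
        rw [h3] at h2
        have hdψc : (dψ : ℂ) ≠ 0 := by
          have : dψ ≠ 0 := by omega
          exact_mod_cast this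
        have h4 : τ₁ ξ 1 = (y ξ : ℂ) * τ₁ ψ 1 := by
          apply mul_left_cancel₀ hdψc
          linear_combination h2
        rw [h4]
        push_cast
        ring
    rw [Finset.sum_congr rfl hterm, ← Finset.add_sum_erase S₀ _ hψ, if_pos rfl] at hX1
    have hrest : ∑ ξ ∈ S₀.erase ψ, (if ξ = ψ then (y ψ : ℂ) * τ₁ ψ 1 else ((y ξ * y ξ : ℤ) : ℂ) * τ₁ ψ 1) =
        (K : ℂ) * τ₁ ψ 1 := by
      rw [hK]
      push_cast
      rw [Finset.sum_mul]
      refine Finset.sum_congr rfl fun ξ hξ => ?_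
      rw [if_neg (Finset.ne_of_mem_erase hξ)]
    rw [hrest, hyψ, hKval, ht1] at hX1
    have h5 : ((1 + a : ℤ) : ℂ) * τ₁ ψ 1 = 0 := by
      push_cast at hX1 ⊢
      linear_combination hX1
    have h6 : ((1 + a : ℤ) : ℂ) ≠ 0 := by
      have : (1 + a : ℤ) ≠ 0 := by omega
      exact_mod_cast this
    exact (mul_ne_zero h6 hvne) h5


/-- Adding finitely many characters to a coherent set. -/
theorem coh_add_finset (S₀ T : Finset (N → ℂ)) (hirr : ∀ ξ ∈ S₀, IsIrrCharacter N ξ)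
    (hirrT : ∀ ξ ∈ T, IsIrrCharacter N ξ) (d : (N → ℂ) → ℕ) (hd : ∀ ξ ∈ S₀ ∪ T, ξ 1 = (d ξ : ℂ))
    (τ : (N → ℂ) → (G → ℂ)) (hτ : IsLinearIsometryOn (zspanOn (↑(S₀ ∪ T) : Set (N → ℂ)) {1}ᶜ) τ)
    (hτ1 : ∀ α ∈ zspanOn (↑(S₀ ∪ T) : Set (N → ℂ)) {1}ᶜ, τ α 1 = 0)
    (hcoh : IsCoherent (↑S₀ : Set (N → ℂ)) {1}ᶜ τ) (ψ : N → ℂ) (hψ : ψ ∈ S₀)
    (hdvd : ∀ χ ∈ T, d ψ ∣ d χ) (hlt : ∀ χ ∈ T, 2 * d ψ * d χ < ∑ ξ ∈ S₀, d ξ ^ 2) :
    IsCoherent (↑(S₀ ∪ T) : Set (N → ℂ)) {1}ᶜ τ := by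
  classical
  induction T using Finset.induction_on with
  | empty =>
    simpa using hcoh
  | insert a T ha ih =>
    have hins : S₀ ∪ insert a T = insert a (S₀ ∪ T) := by
      rw [Finset.union_insert]
    have hsub : (↑(S₀ ∪ T) : Set (N → ℂ)) ⊆ ↑(S₀ ∪ insert a T) := by
      rw [hins]
      intro x hx
      exact Finset.mem_coe.mpr (Finset.mem_insert_of_mem (Finset.mem_coe.mp hx))
    have hmemS : ∀ ξ ∈ S₀ ∪ T, ξ ∈ S₀ ∪ insert a T := fun ξ hξ => Finset.mem_coe.mp (hsub (Finset.mem_coe.mpr hξ))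
    have hiso' : IsLinearIsometryOn (zspanOn (↑(S₀ ∪ T) : Set (N → ℂ)) {1}ᶜ) τ := by
      obtain ⟨h1, h2, h3, h4⟩ := hτ
      exact ⟨fun α hα β hβ => h1 α (zspanOn_mono hsub hα) β (zspanOn_mono hsub hβ),
        fun α hα m => h2 α (zspanOn_mono hsub hα) m,
        fun α hα β hβ => h3 α (zspanOn_mono hsub hα) β (zspanOn_mono hsub hβ),
        fun α hα => h4 α (zspanOn_mono hsub hα)⟩
    have IH := ih (fun ξ h => hirrT ξ (Finset.mem_insert_of_mem h)) (fun ξ h => hd ξ (hmemS ξ h)) hiso'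
      (fun α hα => hτ1 α (zspanOn_mono hsub hα)) (fun χ h => hdvd χ (Finset.mem_insert_of_mem h))
      (fun χ h => hlt χ (Finset.mem_insert_of_mem h))
    by_cases haS : a ∈ S₀ ∪ T
    · have e : S₀ ∪ insert a T = S₀ ∪ T := by
        rw [hins, Finset.insert_eq_of_mem haS]
      rw [e]
      exact IH
    · rw [hins] at hτ hτ1 hd ⊢
      refine coh_add_one (S₀ ∪ T) a ?_ (hirrT a (Finset.mem_insert_self _ _)) haS d hd τ hτ hτ1 IH ψ
        (Finset.mem_union_left _ hψ) (hdvd a (Finset.mem_insert_self _ _)) ?_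
      · intro ξ hξ
        rcases Finset.mem_union.mp hξ with h | h
        · exact hirr ξ h
        · exact hirrT ξ (Finset.mem_insert_of_mem h)
      · refine lt_of_lt_of_le (hlt a (Finset.mem_insert_self _ _)) ?_
        exact Finset.sum_le_sum_of_subset_of_nonneg Finset.subset_union_left (fun _ _ _ => Nat.zero_le _)

end AddOne

end Cfsg.Agent.H06
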