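import Cfsg.Agent.Lib.H06.CoherS3

/-!
# Feit's coherence theorem for Frobenius groups: the induction steps
-/

set_option autoImplicit false
set_option linter.style.haveILetI false
set_option linter.unusedSectionVars false
set_option linter.unusedVariables false

namespace Cfsg.Agent.H06

open Cfsg Cfsg.Agent.H21
open scoped ComplexConjugate commutatorElement

universe u v

section Quot

variable {L : Type u} [Group L] [Finite L]

/-- Frobenius action on the quotient by any normal subgroup. -/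
theorem frob_quot' (K A : Subgroup L) [hK : K.Normal] [hH₁ : A.Normal]
    (hC : ∀ k ∈ K, k ≠ 1 → ∀ x : L, x * k = k * x → x ∈ K) :
    ∀ k ∈ K, k ∉ A → ∀ x : L, x * k * x⁻¹ * k⁻¹ ∈ A → x ∈ K := by
  classical
  intro k hk hk' x h
  by_contra hx
  let f := QuotientGroup.mk' A
  let φ : K → K := fun u => ⟨x * u * x⁻¹ * (u : L)⁻¹, K.mul_mem (hK.conj_mem _ u.2 x) (K.inv_mem u.2)⟩
  have hφ : Function.Injective φ := by
    intro u v huv
    have h1 : x * (u : L) * x⁻¹ * (u : L)⁻¹ = x * v * x⁻¹ * (v : L)⁻¹ := congrArg Subtype.val huv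
    have h2 : x * ((v : L)⁻¹ * u) = ((v : L)⁻¹ * u) * x := by
      have h3 : (u : L) * x⁻¹ * (u : L)⁻¹ = (v : L) * x⁻¹ * (v : L)⁻¹ := by
        have := congrArg (fun z => x⁻¹ * z) h1
        simpa [mul_assoc] using this
      have h4 : (v : L)⁻¹ * u * x⁻¹ = x⁻¹ * ((v : L)⁻¹ * u) := by
        calc (v : L)⁻¹ * u * x⁻¹ = (v : L)⁻¹ * ((u : L) * x⁻¹ * (u : L)⁻¹) * u := by group
          _ = (v : L)⁻¹ * ((v : L) * x⁻¹ * (v : L)⁻¹) * u := by rw [h3]
          _ = x⁻¹ * ((v : L)⁻¹ * u) := by group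
      calc x * ((v : L)⁻¹ * u) = x * ((v : L)⁻¹ * u * x⁻¹) * x := by group
        _ = x * (x⁻¹ * ((v : L)⁻¹ * u)) * x := by rw [h4]
        _ = ((v : L)⁻¹ * u) * x := by group
    by_contra hne
    apply hx
    refine hC _ (K.mul_mem (K.inv_mem v.2) u.2) ?_ x h2
    intro h3
    apply hne
    apply Subtype.ext
    rw [inv_mul_eq_one] at h3
    exact h3.symm
  have hsurj := Finite.injective_iff_surjective.mp hφ
  let Nb : Subgroup (L ⧸ A) := K.map f
  have hmem : ∀ q : Nb, f x * (q : L ⧸ A) * (f x)⁻¹ * (q : L ⧸ A)⁻¹ ∈ Nb := by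
    rintro ⟨q, u, hu, rfl⟩
    refine ⟨x * u * x⁻¹ * u⁻¹, K.mul_mem (hK.conj_mem _ hu x) (K.inv_mem hu), ?_⟩
    simp
  let g : Nb → Nb := fun q => ⟨_, hmem q⟩
  have hg : Function.Surjective g := by
    rintro ⟨q, u, hu, rfl⟩
    obtain ⟨w, hw⟩ := hsurj ⟨u, hu⟩
    have h1 : x * (w : L) * x⁻¹ * (w : L)⁻¹ = u := congrArg Subtype.val hw
    refine ⟨⟨f w, w, w.2, rfl⟩, ?_⟩
    apply Subtype.ext
    show f x * f w * (f x)⁻¹ * (f w)⁻¹ = f u
    rw [← h1]
    simp
  have hinj := Finite.injective_iff_surjective.mpr hg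
  have h1 : g ⟨f k, k, hk, rfl⟩ = g 1 := by
    apply Subtype.ext
    show f x * f k * (f x)⁻¹ * (f k)⁻¹ = f x * ((1 : Nb) : L ⧸ A) * (f x)⁻¹ * ((1 : Nb) : L ⧸ A)⁻¹
    have h2 : f (x * k * x⁻¹ * k⁻¹) = 1 := (QuotientGroup.eq_one_iff _).mpr h
    simp only [map_mul, map_inv] at h2
    rw [h2]
    simp
  have h2 := hinj h1
  have h3 : f k = 1 := congrArg Subtype.val h2
  exact hk' ((QuotientGroup.eq_one_iff _).mp h3)

/-- The number of nontrivial cosets in a central section of a Frobenius kernel is divisible by the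
index of the kernel. -/
theorem frob_sec_dvd (K H₁ N : Subgroup L) [hH₁ : H₁.Normal] [hN : N.Normal] (hH₁N : H₁ ≤ N)
    (hNK : N ≤ K) (hcomm : ∀ x ∈ K, ∀ y ∈ N, x * y * x⁻¹ * y⁻¹ ∈ H₁)
    (hfrob : ∀ k ∈ K, k ∉ H₁ → ∀ x : L, x * k * x⁻¹ * k⁻¹ ∈ H₁ → x ∈ K) :
    K.index ∣ H₁.relIndex N - 1 := by
  classical
  haveI : Fintype (L ⧸ H₁) := Fintype.ofFinite _
  let f := QuotientGroup.mk' H₁
  let Nb : Subgroup (L ⧸ H₁) := N.map f
  let A : Type u := {q : L ⧸ H₁ // q ∈ Nb ∧ q ≠ 1}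
  have hconj : ∀ (g : L) (a : A), f g * a.1 * (f g)⁻¹ ∈ Nb ∧ f g * a.1 * (f g)⁻¹ ≠ 1 := by
    rintro g ⟨q, ⟨n, hn, rfl⟩, hq⟩
    refine ⟨⟨g * n * g⁻¹, hN.conj_mem n hn g, by simp⟩, ?_⟩
    intro h
    apply hq
    have h2 : f g * f n * (f g)⁻¹ * f g = f g := by rw [h, one_mul]
    simpa using h2
  letI : MulAction L A :=
    { smul := fun g a => ⟨f g * a.1 * (f g)⁻¹, hconj g a⟩
      one_smul := by
        intro a
        apply Subtype.ext
        show f 1 * a.1 * (f 1)⁻¹ = a.1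
        simp
      mul_smul := by
        intro g h a
        apply Subtype.ext
        show f (g * h) * a.1 * (f (g * h))⁻¹ = f g * (f h * a.1 * (f h)⁻¹) * (f g)⁻¹
        simp only [map_mul]
        group }
  have hstab : ∀ a : A, MulAction.stabilizer L a = K := by
    rintro ⟨q, ⟨n, hn, rfl⟩, hq⟩
    have hnH : n ∉ H₁ := by
      intro h
      apply hq
      exact (QuotientGroup.eq_one_iff n).mpr h
    ext g
    rw [MulAction.mem_stabilizer_iff]
    have hiff : g • (⟨f n, ⟨n, hn, rfl⟩, hq⟩ : A) = ⟨f n, ⟨n, hn, rfl⟩, hq⟩ ↔ f g * f n * (f g)⁻¹ = f n :=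
      Subtype.ext_iff
    rw [hiff]
    have hiff2 : f g * f n * (f g)⁻¹ = f n ↔ g * n * g⁻¹ * n⁻¹ ∈ H₁ := by
      rw [← QuotientGroup.eq_one_iff (g * n * g⁻¹ * n⁻¹)]
      have : ((g * n * g⁻¹ * n⁻¹ : L) : L ⧸ H₁) = f g * f n * (f g)⁻¹ * (f n)⁻¹ := by
        simp [f]
      rw [this, mul_inv_eq_one]
    rw [hiff2]
    constructor
    · exact hfrob n (hNK hn) hnH g
    · intro hg
      exact hcomm g hg n hn
  have h1 := dvd_card_of_stabilizer_eq K hstab
  have h2 : Nat.card A = H₁.relIndex N - 1 := by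
    have h3 : H₁.relIndex N = Nat.card Nb := by
      have := Subgroup.relIndex_ker f (K := N)
      rw [QuotientGroup.ker_mk'] at this
      exact this
    rw [h3]
    have h4 : Nat.card Nb = (Finset.univ.filter (· ∈ Nb)).card := by
      rw [Nat.card_eq_fintype_card, Fintype.card_subtype]
    have h5 : Nat.card A = (Finset.univ.filter (fun q : L ⧸ H₁ => q ∈ Nb ∧ q ≠ 1)).card := by
      show Nat.card {q : L ⧸ H₁ // q ∈ Nb ∧ q ≠ 1} = _
      rw [Nat.card_eq_fintype_card, Fintype.card_subtype]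
    have h6 : Finset.univ.filter (· ∈ Nb) = insert 1 (Finset.univ.filter (fun q : L ⧸ H₁ => q ∈ Nb ∧ q ≠ 1)) := by
      ext q
      simp only [Finset.mem_filter, Finset.mem_univ, true_and, Finset.mem_insert]
      constructor
      · intro h
        by_cases hq : q = 1
        · exact Or.inl hq
        · exact Or.inr ⟨h, hq⟩
      · rintro (rfl | h)
        · exact Nb.one_mem
        · exact h.1
    rw [h4, h5, h6, Finset.card_insert_of_notMem (by simp)]
    simp
  rwa [h2] at h1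

/-- The power law for commutators modulo a normal subgroup. -/
theorem comm_pow_quot {Q : Type*} [Group Q] {x y : Q} (hc : Commute (x * y * x⁻¹ * y⁻¹) x) (n : ℕ) :
    x ^ n * y * (x ^ n)⁻¹ * y⁻¹ = (x * y * x⁻¹ * y⁻¹) ^ n := by
  induction n with
  | zero => simp
  | succ n ih =>
    have hcn : Commute ((x * y * x⁻¹ * y⁻¹) ^ n) x := hc.pow_left n
    calc x ^ (n + 1) * y * (x ^ (n + 1))⁻¹ * y⁻¹
        = x * (x ^ n * y * (x ^ n)⁻¹ * y⁻¹) * y * x⁻¹ * y⁻¹ := by
          rw [pow_succ']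
          group
      _ = x * (x * y * x⁻¹ * y⁻¹) ^ n * y * x⁻¹ * y⁻¹ := by rw [ih]
      _ = (x * y * x⁻¹ * y⁻¹) ^ n * (x * y * x⁻¹ * y⁻¹) := by
          rw [hcn.eq.symm]
          group
      _ = _ := (pow_succ _ _).symm

/-- The `q`-part modulo a normal subgroup of an abelian section. -/
theorem ppart_exists (K H₁ : Subgroup L) [hK : K.Normal] [hH₁ : H₁.Normal] (hH₁K : H₁ ≤ K)
    (hcomm : ∀ x ∈ K, ∀ y ∈ K, x * y * x⁻¹ * y⁻¹ ∈ H₁) {p q : ℕ} (hp : p.Prime) (hq : q.Prime)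
    (hpq : p ≠ q) (hqd : q ∣ H₁.relIndex K) :
    ∃ N : Subgroup L, N.Normal ∧ H₁ ≤ N ∧ N < K ∧ ∀ x ∈ K, x ^ p ∈ H₁ → x ∈ N := by
  classical
  haveI : Fact p.Prime := ⟨hp⟩
  haveI : Fact q.Prime := ⟨hq⟩
  let Q := ↥K ⧸ H₁.subgroupOf K
  have hcardQ : Nat.card Q = H₁.relIndex K := rfl
  have hmem : ∀ (k : K) (n : ℕ), ((k : K) : Q) ^ n = 1 ↔ (k : L) ^ n ∈ H₁ := by
    intro k n
    rw [← QuotientGroup.mk_pow, QuotientGroup.eq_one_iff, Subgroup.mem_subgroupOf]
    simp
  obtain ⟨y, hy⟩ := exists_prime_orderOf_dvd_card' (G := Q) q (by rw [hcardQ]; exact hqd)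
  obtain ⟨k', rfl⟩ := QuotientGroup.mk_surjective y
  have hmk : ∀ a ∈ K, ∀ b ∈ K, (a : L ⧸ H₁) * (b : L ⧸ H₁) = (b : L ⧸ H₁) * (a : L ⧸ H₁) := by
    intro a ha b hb
    have h1 : ((a * b * a⁻¹ * b⁻¹ : L) : L ⧸ H₁) = 1 := (QuotientGroup.eq_one_iff _).mpr (hcomm a ha b hb)
    have h2 : (a : L ⧸ H₁) * (b : L ⧸ H₁) * (a : L ⧸ H₁)⁻¹ * (b : L ⧸ H₁)⁻¹ = 1 := by
      simpa using h1
    rw [mul_inv_eq_one, mul_inv_eq_iff_eq_mul] at h2
    exact h2
  let N : Subgroup L :=
    { carrier := {x | x ∈ K ∧ ∃ i : ℕ, x ^ (p ^ i) ∈ H₁}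
      one_mem' := ⟨K.one_mem, 0, by simp [H₁.one_mem]⟩
      mul_mem' := by
        rintro a b ⟨ha, i, hi⟩ ⟨hb, j, hj⟩
        refine ⟨K.mul_mem ha hb, i + j, ?_⟩
        have hcomm' : Commute (a : L ⧸ H₁) (b : L ⧸ H₁) := hmk a ha b hb
        rw [← QuotientGroup.eq_one_iff, QuotientGroup.mk_pow, QuotientGroup.mk_mul, hcomm'.mul_pow]
        have h1 : ((a : L) : L ⧸ H₁) ^ (p ^ (i + j)) = 1 := by
          rw [pow_add, pow_mul, ← QuotientGroup.mk_pow, (QuotientGroup.eq_one_iff _).mpr hi, one_pow]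
        have h2 : ((b : L) : L ⧸ H₁) ^ (p ^ (i + j)) = 1 := by
          rw [add_comm, pow_add, pow_mul, ← QuotientGroup.mk_pow, (QuotientGroup.eq_one_iff _).mpr hj, one_pow]
        rw [h1, h2, one_mul]
      inv_mem' := by
        rintro a ⟨ha, i, hi⟩
        refine ⟨K.inv_mem ha, i, ?_⟩
        rw [inv_pow]
        exact H₁.inv_mem hi }
  have hNn : N.Normal := by
    refine ⟨?_⟩
    rintro n ⟨hn, i, hi⟩ g
    refine ⟨hK.conj_mem n hn g, i, ?_⟩
    rw [conj_pow]
    exact hH₁.conj_mem _ hi g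
  refine ⟨N, hNn, fun a ha => ⟨hH₁K ha, 0, by simpa using ha⟩, ?_, ?_⟩
  · refine lt_of_le_of_ne (fun a ha => ha.1) ?_
    intro h
    have h1 : (k' : L) ∈ N := by rw [h]; exact k'.2
    obtain ⟨-, i, hi⟩ := h1
    rw [← hmem] at hi
    have h2 := orderOf_dvd_of_pow_eq_one hi
    rw [hy] at h2
    have h3 := (Nat.prime_dvd_prime_iff_eq hq hp).mp (hq.dvd_of_dvd_pow h2)
    exact hpq h3.symm
  · intro x hx hxp
    exact ⟨hx, 1, by rwa [pow_one]⟩

/-- The preimage of the centre of `K/A`. -/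
theorem exists_upper (K A : Subgroup L) [hK : K.Normal] [hA : A.Normal] :
    ∃ D : Subgroup L, D.Normal ∧ ∀ d, d ∈ D ↔ d ∈ K ∧ ∀ y ∈ K, d * y * d⁻¹ * y⁻¹ ∈ A := by
  refine ⟨{ carrier := {d | d ∈ K ∧ ∀ y ∈ K, d * y * d⁻¹ * y⁻¹ ∈ A}
            one_mem' := ⟨K.one_mem, fun y _ => by simp [A.one_mem]⟩
            mul_mem' := ?_
            inv_mem' := ?_ }, ⟨?_⟩, fun d => Iff.rfl⟩
  · rintro a b ⟨ha, ha'⟩ ⟨hb, hb'⟩
    refine ⟨K.mul_mem ha hb, fun y hy => ?_⟩
    have e : (a * b) * y * (a * b)⁻¹ * y⁻¹ = a * (b * y * b⁻¹ * y⁻¹) * a⁻¹ * (a * y * a⁻¹ * y⁻¹) := by group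
    rw [e]
    exact A.mul_mem (hA.conj_mem _ (hb' y hy) a) (ha' y hy)
  · rintro a ⟨ha, ha'⟩
    refine ⟨K.inv_mem ha, fun y hy => ?_⟩
    have e : a⁻¹ * y * a⁻¹⁻¹ * y⁻¹ = a⁻¹ * (a * y * a⁻¹ * y⁻¹)⁻¹ * a⁻¹⁻¹ := by group
    rw [e]
    exact hA.conj_mem _ (A.inv_mem (ha' y hy)) _
  · rintro d ⟨hd, hd'⟩ g
    refine ⟨hK.conj_mem d hd g, fun y hy => ?_⟩
    have e : (g * d * g⁻¹) * y * (g * d * g⁻¹)⁻¹ * y⁻¹ = g * (d * (g⁻¹ * y * g) * d⁻¹ * (g⁻¹ * y * g)⁻¹) * g⁻¹ := by
      group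
    rw [e]
    refine hA.conj_mem _ (hd' _ ?_) g
    have := hK.conj_mem y hy g⁻¹
    simpa using this

/-- In a nilpotent normal subgroup, a nontrivial normal subgroup strictly contains its commutator with
the group. -/
theorem nilp_comm_lt (H X : Subgroup L) [hX : X.Normal] (hXH : X ≤ H) (hnil : Group.IsNilpotent H) (hX1 : X ≠ ⊥) :
    ⁅X, H⁆ < X := by
  refine lt_of_le_of_ne (Subgroup.commutator_le_left X H) ?_
  intro heq
  apply hX1
  have hlcs : ∀ n, X ≤ (((⊤ : Subgroup H).lowerCentralSeries n).map H.subtype) := by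
    intro n
    induction n with
    | zero =>
      intro x hx
      exact ⟨⟨x, hXH hx⟩, Subgroup.mem_top _, rfl⟩
    | succ n ih =>
      rw [← heq, Subgroup.commutator_le]
      intro x hx h hh
      obtain ⟨y, hy, rfl⟩ := ih hx
      refine ⟨⁅y, (⟨h, hh⟩ : H)⁆, ?_, rfl⟩
      exact Subgroup.commutator_mem_commutator hy (Subgroup.mem_top _)
  obtain ⟨n₀, hn₀⟩ := Subgroup.nilpotent_iff_lowerCentralSeries.mp hnil
  have := hlcs n₀
  rw [hn₀, Subgroup.map_bot] at this
  exact le_bot_iff.mp this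

end Quot

section Step

variable {L : Type u} [Group L] [Fintype L] {G : Type v} [Group G] [Fintype G]

/-- Degrees of the characters induced from linear characters. -/
theorem frob_degree_linear (K A : Subgroup L) [hK : K.Normal]
    (hc : ∀ x ∈ K, ∀ y ∈ K, x * y * x⁻¹ * y⁻¹ ∈ A) {φ : L → ℂ} (hφ : φ ∈ inducedIrrAbove K A) :
    φ 1 = (K.index : ℂ) := by
  classical
  haveI : Fintype K := Fintype.ofFinite _
  obtain ⟨θ, h1, -, h3, rfl⟩ := hφ
  rw [Cfsg.Agent.H21.indFun_one, one_eq_charDegree (isCharacter_of_irr h1)]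
  have h4 := irr_deg_sq_le_of_central h1 ⊤ (by
    intro d _ g
    apply h3
    exact hc d d.2 g g.2)
  rw [Subgroup.card_top] at h4
  have h5 : charDegree θ ^ 2 ≤ 1 := by
    have hpos : 0 < Nat.card K := Nat.card_pos
    have : charDegree θ ^ 2 * Nat.card K ≤ 1 * Nat.card K := by rw [one_mul]; exact h4
    exact Nat.le_of_mul_le_mul_right this hpos
  have h6 : charDegree θ ≠ 0 := by
    intro h0
    apply irr_one_ne_zero' h1
    rw [one_eq_charDegree (isCharacter_of_irr h1), h0]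
    simp
  have h7 : charDegree θ = 1 := by
    have : charDegree θ ≤ 1 := by
      by_contra hc
      push Not at hc
      have : 2 ^ 2 ≤ charDegree θ ^ 2 := Nat.pow_le_pow_left hc 2
      omega
    omega
  rw [h7]
  simp

/-- All members of `S(⊥)` are irreducible. -/
theorem frob_irr (K : Subgroup L) [hK : K.Normal]
    (hC : ∀ n ∈ K, n ≠ 1 → Subgroup.centralizer ({n} : Set L) ≤ K) :
    ∀ χ ∈ inducedIrrAbove K ⊥, IsIrrCharacter L χ := by
  classical
  haveI : Fintype K := Fintype.ofFinite _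
  rintro χ ⟨θ, hθ, hne, -, rfl⟩
  exact frob_indFun_irr K hC hθ hne

/-- The number of characters induced from linear characters. -/
theorem frob_card_linear (K A : Subgroup L) [hK : K.Normal] [hA : A.Normal] (hAK : A ≤ K)
    (hC : ∀ n ∈ K, n ≠ 1 → Subgroup.centralizer ({n} : Set L) ≤ K)
    (hc : ∀ x ∈ K, ∀ y ∈ K, x * y * x⁻¹ * y⁻¹ ∈ A) (Sf : Finset (L → ℂ))
    (hSf : (Sf : Set (L → ℂ)) = inducedIrrAbove K A) :
    Sf.card * K.index + 1 = A.relIndex K := by
  classical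
  haveI : Fintype K := Fintype.ofFinite _
  have hirr : ∀ χ ∈ inducedIrrAbove K A, IsIrrCharacter L χ := fun χ hχ =>
    frob_irr K hC χ (inducedIrrAbove_subset K A hχ)
  have h := sum_deg_sq_induced K A hAK
    (fun χ hχ φ hφ hne => classInner_irr_ne (hirr χ hχ) (hirr φ hφ) hne)
    (fun _ => K.index) (fun _ => 1) (fun φ hφ => frob_degree_linear K A hc hφ)
    (fun φ hφ => ⟨by
      rw [classInner_irr_self (hirr φ hφ)]
      simp, one_ne_zero⟩) Sf hSf
  simp only [Nat.cast_one, div_one, Finset.sum_const, nsmul_eq_mul] at h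
  have hindex : 0 < K.index := Nat.pos_of_ne_zero Subgroup.index_ne_zero_of_finite
  have hi : (K.index : ℝ) ≠ 0 := by exact_mod_cast hindex.ne'
  have h2 : (Sf.card : ℝ) * (K.index : ℝ) = (A.relIndex K : ℝ) - 1 := by
    apply mul_left_cancel₀ hi
    linear_combination h
  have h3 : ((Sf.card * K.index + 1 : ℕ) : ℝ) = (A.relIndex K : ℝ) := by
    push_cast
    linear_combination h2
  exact_mod_cast h3

/-- The isometry on the whole set restricts. -/
theorem iso_restrict {S T : Set (L → ℂ)} {τ : (L → ℂ) → (G → ℂ)} (hST : S ⊆ T)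
    (hτ : IsLinearIsometryOn (zspanOn T {1}ᶜ) τ) : IsLinearIsometryOn (zspanOn S {1}ᶜ) τ := by
  obtain ⟨h1, h2, h3, h4⟩ := hτ
  exact ⟨fun α hα β hβ => h1 α (zspanOn_mono hST hα) β (zspanOn_mono hST hβ),
    fun α hα m => h2 α (zspanOn_mono hST hα) m,
    fun α hα β hβ => h3 α (zspanOn_mono hST hα) β (zspanOn_mono hST hβ),
    fun α hα => h4 α (zspanOn_mono hST hα)⟩

/-- The induction step for coherence over a Frobenius kernel (no conjugation hypothesis). -/
theorem frob_step (K : Subgroup L) [hK : K.Normal]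
    (hC : ∀ n ∈ K, n ≠ 1 → Subgroup.centralizer ({n} : Set L) ≤ K)
    (hsolv : Group.IsSolvable K) (τ : (L → ℂ) → (G → ℂ))
    (hτ : IsLinearIsometryOn (zspanOn (inducedIrrAbove K ⊥) {1}ᶜ) τ)
    (hτ1 : ∀ α ∈ zspanOn (inducedIrrAbove K ⊥) {1}ᶜ, τ α 1 = 0)
    (A B C D : Subgroup L) [A.Normal] [B.Normal] [C.Normal] [D.Normal] (hBA : B ≤ A) (hAK : A < K)
    (hBD : B ≤ D) (hDC : D ≤ C) (hCK : C ≤ K)
    (hcent : ∀ x ∈ D, ∀ y ∈ C, x * y * x⁻¹ * y⁻¹ ∈ B)
    (hA : IsCoherent (inducedIrrAbove K A) {1}ᶜ τ)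
    (hlt : 4 * C.index ^ 2 * D.relIndex C < (A.relIndex K - 1) ^ 2) :
    IsCoherent (inducedIrrAbove K B) {1}ᶜ τ := by
  classical
  haveI : Fintype K := Fintype.ofFinite _
  have hirr0 := frob_irr K hC
  have hSc : ∀ φ ∈ inducedIrrAbove K ⊥, φ 1 = (charDegree φ : ℂ) := fun φ hφ =>
    one_eq_charDegree (isCharacter_of_irr (hirr0 φ hφ))
  let SA : Finset (L → ℂ) := (inducedIrrAbove_finite K A).toFinset
  let SB : Finset (L → ℂ) := (inducedIrrAbove_finite K B).toFinset
  have hSA : (SA : Set (L → ℂ)) = inducedIrrAbove K A := Set.Finite.coe_toFinset _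
  have hSB : (SB : Set (L → ℂ)) = inducedIrrAbove K B := Set.Finite.coe_toFinset _
  have hmemA : ∀ {φ}, φ ∈ SA ↔ φ ∈ inducedIrrAbove K A := by
    intro φ; rw [← Finset.mem_coe, hSA]
  have hmemB : ∀ {φ}, φ ∈ SB ↔ φ ∈ inducedIrrAbove K B := by
    intro φ; rw [← Finset.mem_coe, hSB]
  have hAB : inducedIrrAbove K A ⊆ inducedIrrAbove K B := by
    rintro χ ⟨θ, h1, h2, h3, rfl⟩
    exact ⟨θ, h1, h2, fun a ha => h3 a (hBA ha), rfl⟩
  have hU : SA ∪ SB = SB := Finset.union_eq_right.mpr fun φ hφ => hmemB.mpr (hAB (hmemA.mp hφ))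
  have hUc : ((SA ∪ SB : Finset (L → ℂ)) : Set (L → ℂ)) = inducedIrrAbove K B := by rw [hU, hSB]
  -- the sum over `S(A)`
  have hsum := sum_deg_sq_induced K A hAK.le
    (fun χ hχ φ hφ hne => classInner_irr_ne (hirr0 χ (inducedIrrAbove_subset K A hχ))
      (hirr0 φ (inducedIrrAbove_subset K A hφ)) hne)
    charDegree (fun _ => 1) (fun φ hφ => hSc φ (inducedIrrAbove_subset K A hφ))
    (fun φ hφ => ⟨by
      rw [classInner_irr_self (hirr0 φ (inducedIrrAbove_subset K A hφ))]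
      simp, one_ne_zero⟩) SA hSA
  have hrel : 1 ≤ A.relIndex K :=
    Nat.pos_of_ne_zero (show (A.subgroupOf K).index ≠ 0 from Subgroup.index_ne_zero_of_finite)
  have hsumN : ∑ φ ∈ SA, charDegree φ ^ 2 = K.index * (A.relIndex K - 1) := by
    simp only [Nat.cast_one, div_one] at hsum
    have h2 : ((A.relIndex K : ℕ) : ℝ) - 1 = ((A.relIndex K - 1 : ℕ) : ℝ) := by
      rw [Nat.cast_sub hrel]; simp
    rw [h2] at hsum
    exact_mod_cast hsum
  -- a linear character
  have hA' : A.subgroupOf K ≠ ⊤ := by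
    intro h
    apply hAK.not_ge
    intro x hx
    have : (⟨x, hx⟩ : K) ∈ A.subgroupOf K := by rw [h]; exact Subgroup.mem_top _
    exact Subgroup.mem_subgroupOf.mp this
  haveI : Group.IsSolvable K := hsolv
  obtain ⟨ω, hω1, hω2⟩ := exists_linear_trivial (A.subgroupOf K) hA'
  have hθ₁ : IsIrrCharacter K (fun k => (ω k : ℂ)) := Cfsg.Agent.H23.isIrrCharacter_hom ω
  have hθ₁S : indFun K (fun k => (ω k : ℂ)) ∈ inducedIrrAbove K A := by
    refine ⟨_, hθ₁, ?_, ?_, rfl⟩
    · intro h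
      apply hω2
      ext k
      have := congrFun h k
      simpa using this
    · intro a ha
      have h1 := hω1 a (Subgroup.mem_subgroupOf.mpr ha)
      simp [h1]
  have hdeg₁ : charDegree (indFun K (fun k => (ω k : ℂ))) = K.index := by
    rw [charDegree_indFun K (isCharacter_of_irr hθ₁)]
    have h1 := one_eq_charDegree (isCharacter_of_irr hθ₁)
    have h2 : ((charDegree (fun k => (ω k : ℂ)) : ℕ) : ℂ) = 1 := by
      rw [← h1]; simp
    have h3 : charDegree (fun k : K => (ω k : ℂ)) = 1 := by exact_mod_cast h2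
    rw [h3, mul_one]
  -- the inequality
  have hindex : 0 < K.index := Nat.pos_of_ne_zero Subgroup.index_ne_zero_of_finite
  have hdegB : ∀ φ ∈ inducedIrrAbove K B, K.index ∣ charDegree φ ∧
      2 * charDegree φ < A.relIndex K - 1 := by
    rintro φ ⟨θ, h1, -, h3, rfl⟩
    rw [charDegree_indFun K (isCharacter_of_irr h1)]
    refine ⟨Dvd.intro _ rfl, ?_⟩
    have hb := irr_deg_sq_le θ h1 (B.subgroupOf K) (C.subgroupOf K) (D.subgroupOf K)
      (fun x hx => Subgroup.mem_subgroupOf.mpr (hDC (Subgroup.mem_subgroupOf.mp hx))) (fun b hb => h3 b (Subgroup.mem_subgroupOf.mp hb)) (by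
        intro x hx y hy
        rw [Subgroup.mem_subgroupOf]
        simpa using hcent x (Subgroup.mem_subgroupOf.mp hx) y (Subgroup.mem_subgroupOf.mp hy))
    rw [Subgroup.relIndex_subgroupOf hCK] at hb
    have hCi : C.index = (C.subgroupOf K).index * K.index := by
      have := Subgroup.relIndex_mul_index hCK
      rw [← this]
      rfl
    rw [hCi] at hlt
    have h5 : (2 * (K.index * charDegree θ)) ^ 2 < (A.relIndex K - 1) ^ 2 := by
      calc (2 * (K.index * charDegree θ)) ^ 2 = 4 * K.index ^ 2 * charDegree θ ^ 2 := by ring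
        _ ≤ 4 * K.index ^ 2 * ((C.subgroupOf K).index ^ 2 * D.relIndex C) :=
          Nat.mul_le_mul_left _ hb
        _ = 4 * ((C.subgroupOf K).index * K.index) ^ 2 * D.relIndex C := by ring
        _ < _ := hlt
    exact lt_of_pow_lt_pow_left₀ 2 (Nat.zero_le _) h5
  have hBsub := inducedIrrAbove_subset K B
  have hext := coh_add_finset SA SB (fun ξ h => hirr0 ξ (inducedIrrAbove_subset K A (hmemA.mp h)))
    (fun ξ h => hirr0 ξ (hBsub (hmemB.mp h))) charDegree
    (fun ξ h => by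
      rw [hU] at h
      exact hSc ξ (hBsub (hmemB.mp h))) τ
    (by
      rw [hUc]
      exact iso_restrict hBsub hτ)
    (by
      rw [hUc]
      exact fun α hα => hτ1 α (zspanOn_mono hBsub hα))
    (by rw [hSA]; exact hA) _ (hmemA.mpr hθ₁S)
    (by
      intro χ hχ
      rw [hdeg₁]
      exact (hdegB χ (hmemB.mp hχ)).1)
    (by
      intro χ hχ
      rw [hsumN, hdeg₁]
      have h1 := (hdegB χ (hmemB.mp hχ)).2
      have h3 : 2 * K.index * charDegree χ = K.index * (2 * charDegree χ) := by ring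
      rw [h3]
      exact Nat.mul_lt_mul_of_pos_left h1 hindex)
  rwa [hUc] at hext

/-- The chain of the lower central series (no conjugation hypothesis). -/
theorem frob_chain (K : Subgroup L) [hK : K.Normal]
    (hC : ∀ n ∈ K, n ≠ 1 → Subgroup.centralizer ({n} : Set L) ≤ K)
    (hsolv : Group.IsSolvable K) (τ : (L → ℂ) → (G → ℂ))
    (hτ : IsLinearIsometryOn (zspanOn (inducedIrrAbove K ⊥) {1}ᶜ) τ)
    (hτ1 : ∀ α ∈ zspanOn (inducedIrrAbove K ⊥) {1}ᶜ, τ α 1 = 0)
    (M H₁ H : Subgroup L) [M.Normal] [H₁.Normal] [H.Normal] (hMH₁ : M ≤ H₁) (hH₁H : H₁ ≤ H) (hHK : H ≤ K)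
    [(M.subgroupOf H).Normal] (hnil : Group.IsNilpotent (↥H ⧸ M.subgroupOf H))
    (hcoh : IsCoherent (inducedIrrAbove K H₁) {1}ᶜ τ) (hbig : 4 * K.index ^ 2 + 1 < H₁.relIndex H) :
    IsCoherent (inducedIrrAbove K M) {1}ᶜ τ := by
  classical
  -- the chain
  obtain ⟨B, hB0, hBs⟩ : ∃ B : ℕ → Subgroup L, B 0 = H₁ ∧ ∀ n, B (n + 1) = ⁅B n, H⁆ ⊔ M :=
    ⟨fun n => Nat.rec H₁ (fun _ X => ⁅X, H⁆ ⊔ M) n, rfl, fun _ => rfl⟩
  have hBn : ∀ n, (B n).Normal := by
    intro n
    induction n with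
    | zero => rw [hB0]; infer_instance
    | succ n ih =>
      rw [hBs]
      haveI := ih
      haveI : (⁅B n, H⁆).Normal := Subgroup.commutator_normal (B n) H
      exact Subgroup.sup_normal _ _
  -- the chain descends
  have hBle : ∀ n, B n ≤ H₁ := by
    intro n
    induction n with
    | zero => rw [hB0]
    | succ n ih =>
      rw [hBs]
      haveI := hBn n
      exact sup_le ((Subgroup.commutator_le_left (B n) H).trans ih) hMH₁
  have hMB : ∀ n, M ≤ B n := by
    intro n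
    cases n with
    | zero => rw [hB0]; exact hMH₁
    | succ n => rw [hBs]; exact le_sup_right
  have hBH : ∀ n, B n ≤ H := fun n => (hBle n).trans hH₁H
  have hlcs : ∀ n, ∀ x, ∀ hx : x ∈ B n, (QuotientGroup.mk' (M.subgroupOf H)) ⟨x, hBH n hx⟩ ∈
      (⊤ : Subgroup (↥H ⧸ M.subgroupOf H)).lowerCentralSeries n := by
    intro n
    induction n with
    | zero =>
      intro x hx
      exact Subgroup.mem_top _
    | succ n ih =>
      let T : Subgroup L := ((((⊤ : Subgroup (↥H ⧸ M.subgroupOf H)).lowerCentralSeries (n + 1)).comap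
        (QuotientGroup.mk' (M.subgroupOf H)))).map H.subtype
      have hle : B (n + 1) ≤ T := by
        rw [hBs]
        refine sup_le ?_ ?_
        · rw [Subgroup.commutator_le]
          intro b hb h hh
          refine ⟨⁅(⟨b, hBH n hb⟩ : H), (⟨h, hh⟩ : H)⁆, ?_, rfl⟩
          change _ ∈ Subgroup.comap _ _
          rw [Subgroup.mem_comap, map_commutatorElement]
          exact Subgroup.commutator_mem_commutator (ih b hb) (Subgroup.mem_top _)
        · intro x hx
          refine ⟨⟨x, hMH₁.trans hH₁H hx⟩, ?_, rfl⟩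
          change _ ∈ Subgroup.comap _ _
          rw [Subgroup.mem_comap]
          have : (QuotientGroup.mk' (M.subgroupOf H)) ⟨x, hMH₁.trans hH₁H hx⟩ = 1 :=
            (QuotientGroup.eq_one_iff _).mpr (Subgroup.mem_subgroupOf.mpr hx)
          rw [this]
          exact Subgroup.one_mem _
      intro x hx
      obtain ⟨y, hy, rfl⟩ := hle hx
      exact hy
  obtain ⟨n₀, hn₀⟩ := Subgroup.nilpotent_iff_lowerCentralSeries.mp hnil
  have hBM : B n₀ = M := by
    refine le_antisymm ?_ (hMB n₀)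
    intro x hx
    have h1 := hlcs n₀ x hx
    rw [hn₀, Subgroup.mem_bot] at h1
    exact Subgroup.mem_subgroupOf.mp ((QuotientGroup.eq_one_iff _).mp h1)
  -- arithmetic
  have hindex : 0 < K.index := Nat.pos_of_ne_zero Subgroup.index_ne_zero_of_finite
  have hBcoh : ∀ n, IsCoherent (inducedIrrAbove K (B n)) {1}ᶜ τ := by
    intro n
    induction n with
    | zero => rw [hB0]; exact hcoh
    | succ n ih =>
      haveI := hBn n
      haveI := hBn (n + 1)
      have hkpos : 0 < H.relIndex K :=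
        Nat.pos_of_ne_zero (show (H.subgroupOf K).index ≠ 0 from Subgroup.index_ne_zero_of_finite)
      have hhpos : 0 < (B n).relIndex H :=
        Nat.pos_of_ne_zero (show ((B n).subgroupOf H).index ≠ 0 from Subgroup.index_ne_zero_of_finite)
      have h1pos : 0 < H₁.relIndex H :=
        Nat.pos_of_ne_zero (show (H₁.subgroupOf H).index ≠ 0 from Subgroup.index_ne_zero_of_finite)
      have hdvd : H₁.relIndex H ∣ (B n).relIndex H := Subgroup.relIndex_dvd_of_le_left H (hBle n)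
      have hhge : 4 * K.index ^ 2 + 1 < (B n).relIndex H :=
        lt_of_lt_of_le hbig (Nat.le_of_dvd hhpos hdvd)
      have hrK : (B n).relIndex K = (B n).relIndex H * H.relIndex K :=
        (Subgroup.relIndex_mul_relIndex _ _ _ (hBH n) hHK).symm
      have hHi : H.index = H.relIndex K * K.index := (Subgroup.relIndex_mul_index hHK).symm
      have hBlt : ∀ m, B m < K := by
        intro m
        refine lt_of_le_of_ne ((hBH m).trans hHK) ?_
        intro h
        have hrel : (B m).relIndex K = 1 := by rw [h]; exact Subgroup.relIndex_self K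
        have h2 : (B m).relIndex K = (B m).relIndex H * H.relIndex K :=
          (Subgroup.relIndex_mul_relIndex _ _ _ (hBH m) hHK).symm
        have h3 : H₁.relIndex H ∣ (B m).relIndex H := Subgroup.relIndex_dvd_of_le_left H (hBle m)
        rw [h2] at hrel
        have h4 : (B m).relIndex H = 1 := Nat.eq_one_of_mul_eq_one_right hrel
        rw [h4] at h3
        have h5 : H₁.relIndex H = 1 := Nat.dvd_one.mp h3
        omega
      refine frob_step K hC hsolv τ hτ hτ1 (B n) (B (n + 1)) H (B n)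
        (by rw [hBs]; haveI := hBn n; exact sup_le (Subgroup.commutator_le_left (B n) H) (hMB n)) (hBlt n)
        (by rw [hBs]; haveI := hBn n; exact sup_le (Subgroup.commutator_le_left (B n) H) (hMB n)) (hBH n) hHK ?_ ih ?_
      · intro x hx y hy
        rw [hBs]
        exact Subgroup.mem_sup_left (Subgroup.commutator_mem_commutator hx hy)
      · rw [hHi, hrK]
        generalize K.index = e at *
        generalize (B n).relIndex H = h at *
        generalize H.relIndex K = k at *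
        obtain ⟨m, hm⟩ : ∃ m, h * k = m + 1 := ⟨h * k - 1, by have := Nat.mul_pos hhpos hkpos; omega⟩
        rw [hm, Nat.add_sub_cancel]
        have key : (4 * (k * e) ^ 2 * h : ℤ) < (m : ℤ) ^ 2 := by
          have hmz : (m : ℤ) = h * k - 1 := by
            have : (h * k : ℤ) = m + 1 := by exact_mod_cast hm
            omega
          rw [hmz]
          have hk1 : (1 : ℤ) ≤ k := by exact_mod_cast hkpos
          have hs : (2 : ℤ) ≤ (h : ℤ) - 4 * e ^ 2 := by
            have : (4 * e ^ 2 + 1 : ℤ) < h := by exact_mod_cast hhge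
            omega
          have hks : (2 : ℤ) ≤ k * ((h : ℤ) - 4 * e ^ 2) := by nlinarith
          have hh0 : (0 : ℤ) ≤ h := by positivity
          have hk0 : (0 : ℤ) ≤ k := by positivity
          have h2 : (0 : ℤ) ≤ h * k * (k * ((h : ℤ) - 4 * e ^ 2) - 2) :=
            mul_nonneg (mul_nonneg hh0 hk0) (by linarith)
          nlinarith [h2]
        exact_mod_cast key
  rw [← hBM]
  exact hBcoh n₀


end Step

end Cfsg.Agent.H06
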