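import Cfsg.Agent.Lib.H06.TICombo2

/-!
# Rectangles of norm three vectors: standard form
-/

set_option autoImplicit false

namespace Cfsg.Agent.H06.TICombo

section Rect

variable {I J Y : Type*} [Fintype Y]

theorem Rect.no_transversal {f : I → J → Y → ℤ} (hf : Rect f) {i i' : I} (hi : i ≠ i')
    {j₁ j₂ j₃ jT : J} (h12 : j₁ ≠ j₂) (h13 : j₁ ≠ j₃) (h23 : j₂ ≠ j₃) (h1T : j₁ ≠ jT) (h2T : j₂ ≠ jT)
    (h3T : j₃ ≠ jT) {a : Y} (h1 : f i j₁ a ≠ 0) (h2 : f i j₂ a ≠ 0) (h3 : f i j₃ a ≠ 0)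
    (haT : f i jT a = 0) : False := by
  obtain ⟨s, hs, hpos⟩ := hf.row_sign hi
  have hsne : s a ≠ 0 := fun h => by
    have := hs a
    rw [h] at this
    norm_num at this
  refine (hf.flip s hs).no_transversal_pos hi ![j₁, j₂, j₃] ?_ jT ?_ hpos a ?_ ?_
  · intro k l
    fin_cases k <;> fin_cases l <;> simp [h12, h13, h23, Ne.symm h12, Ne.symm h13, Ne.symm h23]
  · intro k
    fin_cases k <;> simp [h1T, h2T, h3T]
  · intro k
    fin_cases k <;> simp [hsne, h1, h2, h3]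
  · simp [haT]

theorem parity4 {a b c d : ℤ} (va : a = 0 ∨ a = 1 ∨ a = -1) (vb : b = 0 ∨ b = 1 ∨ b = -1)
    (vc : c = 0 ∨ c = 1 ∨ c = -1) (vd : d = 0 ∨ d = 1 ∨ d = -1)
    (k1 : a ≠ 0 → b ≠ 0 ∨ c ≠ 0 ∨ d ≠ 0) (k2 : b ≠ 0 → a ≠ 0 ∨ c ≠ 0 ∨ d ≠ 0)
    (k3 : c ≠ 0 → a ≠ 0 ∨ b ≠ 0 ∨ d ≠ 0) (k4 : d ≠ 0 → a ≠ 0 ∨ b ≠ 0 ∨ c ≠ 0)
    (n1 : a ≠ 0 → b ≠ 0 → c = 0) (n2 : a ≠ 0 → b ≠ 0 → d = 0) (n3 : a ≠ 0 → c ≠ 0 → d = 0)
    (n4 : b ≠ 0 → c ≠ 0 → d = 0) : (2 : ℤ) ∣ a + b + c + d := by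
  rcases va with rfl | rfl | rfl <;> rcases vb with rfl | rfl | rfl <;> rcases vc with rfl | rfl | rfl <;>
    rcases vd with rfl | rfl | rfl <;> omega

theorem Rect.no_pasch {f : I → J → Y → ℤ} (hf : Rect f) {i i' : I} (hi : i ≠ i')
    {j₁ j₂ j₃ j₄ : J} (h12 : j₁ ≠ j₂) (h13 : j₁ ≠ j₃) (h14 : j₁ ≠ j₄) (h23 : j₂ ≠ j₃) (h24 : j₂ ≠ j₄)
    (h34 : j₃ ≠ j₄)
    (n123 : ∀ y, f i j₁ y ≠ 0 → f i j₂ y ≠ 0 → f i j₃ y = 0)
    (n124 : ∀ y, f i j₁ y ≠ 0 → f i j₂ y ≠ 0 → f i j₄ y = 0)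
    (n134 : ∀ y, f i j₁ y ≠ 0 → f i j₃ y ≠ 0 → f i j₄ y = 0)
    (n234 : ∀ y, f i j₂ y ≠ 0 → f i j₃ y ≠ 0 → f i j₄ y = 0) : False := by
  classical
  obtain ⟨e12, m12⟩ := hf.meet_row hi h12
  obtain ⟨e13, m13⟩ := hf.meet_row hi h13
  obtain ⟨e14, m14⟩ := hf.meet_row hi h14
  obtain ⟨e23, m23⟩ := hf.meet_row hi h23
  obtain ⟨e24, m24⟩ := hf.meet_row hi h24
  obtain ⟨e34, m34⟩ := hf.meet_row hi h34
  have key : ∀ {A B C D : Y → ℤ} {b c d : Y}, ip A A = 3 → Meet A B b → Meet A C c → Meet A D d →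
      (∀ y, A y ≠ 0 → B y ≠ 0 → C y = 0) → (∀ y, A y ≠ 0 → B y ≠ 0 → D y = 0) →
      (∀ y, A y ≠ 0 → C y ≠ 0 → D y = 0) → ∀ y, A y ≠ 0 → B y ≠ 0 ∨ C y ≠ 0 ∨ D y ≠ 0 := by
    intro A B C D b c d hA hb hc hd hbc hbd hcd y hy
    have h1 : b ≠ c := fun e => hc.ne' (hbc c hc.ne (e ▸ hb.ne'))
    have h2 : b ≠ d := fun e => hd.ne' (hbd d hd.ne (e ▸ hb.ne'))
    have h3 : c ≠ d := fun e => hd.ne' (hcd d hd.ne (e ▸ hc.ne'))
    by_cases e1 : y = b
    · exact Or.inl (e1 ▸ hb.ne')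
    by_cases e2 : y = c
    · exact Or.inr (Or.inl (e2 ▸ hc.ne'))
    by_cases e3 : y = d
    · exact Or.inr (Or.inr (e3 ▸ hd.ne'))
    exact absurd (no_four hA h1 h2 (Ne.symm e1) h3 (Ne.symm e2) (Ne.symm e3) hb.ne hc.ne hd.ne) hy
  have k1 := key (hf.norm i j₁) m12 m13 m14 n123 n124 n134
  have k2 := key (hf.norm i j₂) m12.symm m23 m24 (fun y h1 h2 => n123 y h2 h1)
    (fun y h1 h2 => n124 y h2 h1) n234
  have k3 := key (hf.norm i j₃) m13.symm m23.symm m34 (fun y h1 h2 => by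
      by_contra h3
      exact h1 (n123 y h2 h3))
    (fun y h1 h2 => n134 y h2 h1) (fun y h1 h2 => n234 y h2 h1)
  have k4 := key (hf.norm i j₄) m14.symm m24.symm m34.symm (fun y h1 h2 => by
      by_contra h3
      exact h1 (n124 y h2 h3))
    (fun y h1 h2 => by
      by_contra h3
      exact h1 (n134 y h2 h3))
    (fun y h1 h2 => by
      by_contra h3
      exact h1 (n234 y h2 h3))
  have heven : ∀ y, (2 : ℤ) ∣ (f i j₁ + f i j₂ + f i j₃ + f i j₄) y := by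
    intro y
    simp only [Pi.add_apply]
    exact parity4 (val_cases (hf.norm i j₁) le_rfl y) (val_cases (hf.norm i j₂) le_rfl y)
      (val_cases (hf.norm i j₃) le_rfl y) (val_cases (hf.norm i j₄) le_rfl y) (k1 y) (k2 y) (k3 y) (k4 y)
      (n123 y) (n124 y) (n134 y) (n234 y)
  have h1 : ip (f i' j₁) (f i j₁ + f i j₂ + f i j₃ + f i j₄) = 1 := by
    rw [ip_add_right, ip_add_right, ip_add_right, hf.col i' i j₁ hi.symm, hf.off i' i j₁ j₂ hi.symm h12,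
      hf.off i' i j₁ j₃ hi.symm h13, hf.off i' i j₁ j₄ hi.symm h14]
    norm_num
  have h2 : (2 : ℤ) ∣ ip (f i' j₁) (f i j₁ + f i j₂ + f i j₃ + f i j₄) :=
    Finset.dvd_sum fun y _ => Dvd.dvd.mul_left (heven y) _
  rw [h1] at h2
  norm_num at h2

/-- Any three lines of a row are concurrent, given a fourth line and a second row. -/
theorem Rect.concurrent {f : I → J → Y → ℤ} (hf : Rect f) {i i' : I} (hi : i ≠ i')
    {j₁ j₂ j₃ j₄ : J} (h12 : j₁ ≠ j₂) (h13 : j₁ ≠ j₃) (h14 : j₁ ≠ j₄) (h23 : j₂ ≠ j₃) (h24 : j₂ ≠ j₄)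
    (h34 : j₃ ≠ j₄) : ∃ e, f i j₁ e ≠ 0 ∧ f i j₂ e ≠ 0 ∧ f i j₃ e ≠ 0 := by
  by_contra hcon
  push Not at hcon
  obtain ⟨e12, m12⟩ := hf.meet_row hi h12
  obtain ⟨e13, m13⟩ := hf.meet_row hi h13
  obtain ⟨e23, m23⟩ := hf.meet_row hi h23
  by_cases c1 : f i j₄ e12 = 0
  · by_cases c2 : f i j₄ e13 = 0
    · by_cases c3 : f i j₄ e23 = 0
      · refine hf.no_pasch hi h12 h13 h14 h23 h24 h34 (fun y h1 h2 => hcon y h1 h2) ?_ ?_ ?_
        · intro y h1 h2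
          rw [m12.uniq y h1 h2]
          exact c1
        · intro y h1 h2
          rw [m13.uniq y h1 h2]
          exact c2
        · intro y h1 h2
          rw [m23.uniq y h1 h2]
          exact c3
      · refine hf.no_transversal hi h23 h24 h34 h12.symm h13.symm h14.symm m23.ne m23.ne' c3 ?_
        by_contra h
        exact m23.ne' (hcon e23 h m23.ne)
    · refine hf.no_transversal hi h13 h14 h34 h12 h23.symm h24.symm m13.ne m13.ne' c2 ?_
      by_contra h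
      exact m13.ne' (hcon e13 m13.ne h)
  · exact hf.no_transversal hi h12 h14 h24 h13 h23 h34.symm m12.ne m12.ne' c1 (hcon e12 m12.ne m12.ne')

/-- At least four elements. -/
def Many (J : Type*) : Prop := ∀ a b c : J, ∃ d, d ≠ a ∧ d ≠ b ∧ d ≠ c

/-- At most two elements. -/
def Few (J : Type*) : Prop := ∀ a b c : J, a = b ∨ a = c ∨ b = c

theorem Rect.row_point {f : I → J → Y → ℤ} (hf : Rect f) {i i' : I} (hi : i ≠ i') (hJ : Many J)
    {j₁ j₂ : J} (h12 : j₁ ≠ j₂) : ∃ e, ∀ j, f i j e ≠ 0 := by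
  obtain ⟨e, he⟩ := hf.meet_row hi h12
  refine ⟨e, fun j => ?_⟩
  by_cases h1 : j = j₁
  · rw [h1]
    exact he.ne
  by_cases h2 : j = j₂
  · rw [h2]
    exact he.ne'
  obtain ⟨d, hd1, hd2, hd3⟩ := hJ j₁ j₂ j
  obtain ⟨e', h3, h4, h5⟩ := hf.concurrent hi h12 (Ne.symm h1) (Ne.symm hd1) (Ne.symm h2) (Ne.symm hd2)
    (Ne.symm hd3)
  rw [← he.uniq e' h3 h4]
  exact h5

/-- The pigeonhole pattern. -/
theorem pattern {A₂ A₃ A₄ g : Y → ℤ} (hg : ip g g = 3) {e b₂₃ b₂₄ b₃₄ : Y} (m23 : Meet A₂ A₃ b₂₃)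
    (m24 : Meet A₂ A₄ b₂₄) (m34 : Meet A₃ A₄ b₃₄) (h2 : A₂ e ≠ 0) (h3 : A₃ e ≠ 0) (h4 : A₄ e ≠ 0)
    (he : g e ≠ 0) (o2 : ip g A₂ = 0) (o3 : ip g A₃ = 0) (o4 : ip g A₄ = 0) : False := by
  obtain ⟨d₂, n2, g2, a2⟩ := exists_other_common o2 he h2
  obtain ⟨d₃, n3, g3, a3⟩ := exists_other_common o3 he h3
  obtain ⟨d₄, n4, g4, a4⟩ := exists_other_common o4 he h4
  have h23 : d₂ ≠ d₃ := fun h => n2 (by
    rw [m23.uniq d₂ a2 (h ▸ a3), m23.uniq e h2 h3])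
  have h24 : d₂ ≠ d₄ := fun h => n2 (by
    rw [m24.uniq d₂ a2 (h ▸ a4), m24.uniq e h2 h4])
  have h34 : d₃ ≠ d₄ := fun h => n3 (by
    rw [m34.uniq d₃ a3 (h ▸ a4), m34.uniq e h3 h4])
  exact g4 (no_four hg (Ne.symm n2) (Ne.symm n3) (Ne.symm n4) h23 h24 h34 he g2 g3)

/-- The unit vector at `e` with value `s`. -/
def unitV [DecidableEq Y] (e : Y) (s : ℤ) : Y → ℤ := fun y => if y = e then s else 0

theorem ip_unit_right [DecidableEq Y] (v : Y → ℤ) (e : Y) (s : ℤ) : ip v (unitV e s) = v e * s := by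
  unfold ip unitV
  rw [Finset.sum_eq_single e]
  · simp
  · intro y _ hy
    simp [hy]
  · intro h
    exact absurd (Finset.mem_univ _) h

theorem ip_unit_left [DecidableEq Y] (v : Y → ℤ) (e : Y) (s : ℤ) : ip (unitV e s) v = s * v e := by
  rw [ip_comm, ip_unit_right, mul_comm]

theorem unit_apply_ne [DecidableEq Y] {e d : Y} (s : ℤ) (h : d ≠ e) : unitV e s d = 0 := by
  simp [unitV, h]

theorem unit_apply_self [DecidableEq Y] (e : Y) (s : ℤ) : unitV e s e = s := by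
  simp [unitV]

/-- The standard form of a rectangle, given row and column points. -/
theorem Rect.decomp [DecidableEq I] [DecidableEq J] {f : I → J → Y → ℤ} (hf : Rect f) (hI : ∀ i : I, ∃ i', i' ≠ i) (hJ : Many J)
    (i₀ : I) (j₀ : J) (hr : ∀ i, ∃ e, ∀ j, f i j e ≠ 0) (hc : ∀ j, ∃ e, ∀ i, f i j e ≠ 0) :
    ∃ (x : I → Y → ℤ) (y : J → Y → ℤ) (z : I → J → Y → ℤ),
      (∀ i j, f i j = x i + y j + z i j) ∧
      (∀ i i', ip (x i) (x i') = if i = i' then 1 else 0) ∧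
      (∀ j j', ip (y j) (y j') = if j = j' then 1 else 0) ∧
      (∀ i j, ip (x i) (y j) = 0) ∧
      (∀ i i' j, ip (x i) (z i' j) = 0) ∧
      (∀ j i j', ip (y j) (z i j') = 0) ∧
      (∀ i i' j j', ip (z i j) (z i' j') = if i = i' ∧ j = j' then 1 else 0) := by
  classical
  choose r hr using hr
  choose c hc using hc
  -- distinct columns for the pigeonhole
  have hthree : ∀ j : J, ∃ j₂ j₃ j₄ : J, j₂ ≠ j ∧ j₃ ≠ j ∧ j₄ ≠ j ∧ j₂ ≠ j₃ ∧ j₂ ≠ j₄ ∧ j₃ ≠ j₄ := by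
    intro j
    obtain ⟨j₂, h2, -, -⟩ := hJ j j j
    obtain ⟨j₃, h3, h3', -⟩ := hJ j j₂ j₂
    obtain ⟨j₄, h4, h4', h4''⟩ := hJ j j₂ j₃
    exact ⟨j₂, j₃, j₄, h2, h3, h4, Ne.symm h3', Ne.symm h4', Ne.symm h4''⟩
  have hO1 : ∀ i i', i ≠ i' → r i ≠ r i' := by
    intro i i' hi e
    obtain ⟨j₂, j₃, j₄, h2, h3, h4, h23, h24, h34⟩ := hthree j₀
    obtain ⟨b23, m23⟩ := hf.meet_row hi h23
    obtain ⟨b24, m24⟩ := hf.meet_row hi h24
    obtain ⟨b34, m34⟩ := hf.meet_row hi h34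
    exact pattern (hf.norm i' j₀) m23 m24 m34 (hr i j₂) (hr i j₃) (hr i j₄) (e ▸ hr i' j₀)
      (hf.off i' i j₀ j₂ hi.symm h2.symm) (hf.off i' i j₀ j₃ hi.symm h3.symm)
      (hf.off i' i j₀ j₄ hi.symm h4.symm)
  have hO2 : ∀ i j, r i ≠ c j := by
    intro i j e
    obtain ⟨i', hi'⟩ := hI i
    obtain ⟨j₂, j₃, j₄, h2, h3, h4, h23, h24, h34⟩ := hthree j
    obtain ⟨b23, m23⟩ := hf.meet_row hi'.symm h23
    obtain ⟨b24, m24⟩ := hf.meet_row hi'.symm h24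
    obtain ⟨b34, m34⟩ := hf.meet_row hi'.symm h34
    exact pattern (hf.norm i' j) m23 m24 m34 (hr i j₂) (hr i j₃) (hr i j₄) (e ▸ hc j i')
      (hf.off i' i j j₂ hi' h2.symm) (hf.off i' i j j₃ hi' h3.symm) (hf.off i' i j j₄ hi' h4.symm)
  have hO3 : ∀ j j', j ≠ j' → c j ≠ c j' := by
    intro j j' hj e
    have h1 : ∀ i, r i = c j := by
      intro i
      obtain ⟨i', hi'⟩ := hI i
      obtain ⟨b, m⟩ := hf.meet_row hi'.symm hj
      rw [m.uniq (r i) (hr i j) (hr i j'), m.uniq (c j) (hc j i) (e ▸ hc j' i)]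
    obtain ⟨i', hi'⟩ := hI i₀
    exact hO1 i₀ i' hi'.symm ((h1 i₀).trans (h1 i').symm)
  -- signs
  have hrs : ∀ i j j', f i j (r i) = f i j' (r i) := by
    intro i j j'
    by_cases hj : j = j'
    · rw [hj]
    obtain ⟨i', hi'⟩ := hI i
    obtain ⟨b, m⟩ := hf.meet_row hi'.symm hj
    rw [m.uniq (r i) (hr i j) (hr i j')]
    exact m.eq
  have hcs : ∀ i i' j, f i j (c j) = f i' j (c j) := by
    intro i i' j
    by_cases hi : i = i'
    · rw [hi]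
    obtain ⟨j', hj'⟩ := hJ j j j
    obtain ⟨b, m⟩ := hf.meet_col hi hj'.1.symm
    rw [m.uniq (c j) (hc j i) (hc j i')]
    exact m.eq
  have hsq : ∀ (i : I) (j : J) (y : Y), f i j y ≠ 0 → f i j y * f i j y = 1 := by
    intro i j y h
    rcases val_cases (hf.norm i j) le_rfl y with h1 | h1 | h1
    · exact absurd h1 h
    · rw [h1]; norm_num
    · rw [h1]; norm_num
  have hrz : ∀ i i' j, i ≠ i' → f i j (r i') = 0 := by
    intro i i' j hi
    by_contra h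
    obtain ⟨j', hj'⟩ := hJ j j j
    obtain ⟨b, m⟩ := hf.meet_col hi hj'.1.symm
    apply hO2 i' j
    rw [m.uniq (r i') h (hr i' j), m.uniq (c j) (hc j i) (hc j i')]
  have hcz : ∀ i j j', j ≠ j' → f i j (c j') = 0 := by
    intro i j j' hj
    by_contra h
    obtain ⟨i', hi'⟩ := hI i
    obtain ⟨b, m⟩ := hf.meet_row hi'.symm hj
    apply hO2 i j'
    rw [m.uniq (r i) (hr i j) (hr i j'), m.uniq (c j') h (hc j' i)]
  set x : I → Y → ℤ := fun i => unitV (r i) (f i j₀ (r i)) with hx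
  set y : J → Y → ℤ := fun j => unitV (c j) (f i₀ j (c j)) with hy
  have hxx : ∀ i i', ip (x i) (x i') = if i = i' then 1 else 0 := by
    intro i i'
    simp only [hx]
    rw [ip_unit_left]
    by_cases h : i = i'
    · subst h
      rw [if_pos rfl, unit_apply_self, hsq i j₀ _ (hr i j₀)]
    · rw [if_neg h, unit_apply_ne _ (hO1 i i' h), mul_zero]
  have hyy : ∀ j j', ip (y j) (y j') = if j = j' then 1 else 0 := by
    intro j j'
    simp only [hy]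
    rw [ip_unit_left]
    by_cases h : j = j'
    · subst h
      rw [if_pos rfl, unit_apply_self, hsq i₀ j _ (hc j i₀)]
    · rw [if_neg h, unit_apply_ne _ (hO3 j j' h), mul_zero]
  have hxy : ∀ i j, ip (x i) (y j) = 0 := by
    intro i j
    simp only [hx, hy]
    rw [ip_unit_left, unit_apply_ne _ (hO2 i j), mul_zero]
  have hfx : ∀ i i' j, ip (f i j) (x i') = if i = i' then 1 else 0 := by
    intro i i' j
    simp only [hx]
    rw [ip_unit_right]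
    by_cases h : i = i'
    · subst h
      rw [if_pos rfl, hrs i j j₀, hsq i j₀ _ (hr i j₀)]
    · rw [if_neg h, hrz i i' j h, zero_mul]
  have hfy : ∀ i j j', ip (f i j) (y j') = if j = j' then 1 else 0 := by
    intro i j j'
    simp only [hy]
    rw [ip_unit_right]
    by_cases h : j = j'
    · subst h
      rw [if_pos rfl, hcs i i₀ j, hsq i₀ j _ (hc j i₀)]
    · rw [if_neg h, hcz i j j' h, zero_mul]
  refine ⟨x, y, fun i j => f i j - x i - y j, fun i j => ?_, hxx, hyy, hxy, ?_, ?_, ?_⟩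
  · funext t
    simp
  · intro i i' j
    rw [ip_comm, ip_sub_left, ip_sub_left, hfx, ip_comm (y j), hxy, hxx]
    by_cases h : i' = i
    · subst h
      simp
    · simp [h, Ne.symm h]
  · intro j i j'
    rw [ip_comm, ip_sub_left, ip_sub_left, hfy, hxy, hyy]
    by_cases h : j' = j
    · subst h
      simp
    · simp [h, Ne.symm h]
  · intro i i' j j'
    have e1 : ip (f i j - x i - y j) (f i' j' - x i' - y j') =
        ip (f i j) (f i' j') - ip (f i j) (x i') - ip (f i j) (y j') - ip (x i) (f i' j') + ip (x i) (x i') +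
        ip (x i) (y j') - ip (y j) (f i' j') + ip (y j) (x i') + ip (y j) (y j') := by
      simp only [ip_sub_left, ip_sub_right]
      ring
    rw [e1, hfx, hfy, ip_comm (x i), hfx, hxx, hxy, ip_comm (y j) (f i' j'), hfy, ip_comm (y j) (x i'), hxy, hyy]
    by_cases h1 : i = i' <;> by_cases h2 : j = j'
    · subst h1 h2
      rw [hf.norm]
      simp
    · subst h1
      rw [hf.row i j j' h2]
      simp [h2, Ne.symm h2]
    · subst h2
      rw [hf.col i i' j h1]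
      simp [h1, Ne.symm h1]
    · rw [hf.off i i' j j' h1 h2]
      simp [h1, h2, Ne.symm h1, Ne.symm h2]

/-- The standard form, with `Many`/`Few` hypotheses. -/
theorem Rect.decomp_right [DecidableEq I] [DecidableEq J] {f : I → J → Y → ℤ} (hf : Rect f) (hI : ∀ i : I, ∃ i', i' ≠ i)
    (hJ : Many J) (hI' : Many I ∨ Few I) (i₀ : I) (j₀ : J) :
    ∃ (x : I → Y → ℤ) (y : J → Y → ℤ) (z : I → J → Y → ℤ),
      (∀ i j, f i j = x i + y j + z i j) ∧
      (∀ i i', ip (x i) (x i') = if i = i' then 1 else 0) ∧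
      (∀ j j', ip (y j) (y j') = if j = j' then 1 else 0) ∧
      (∀ i j, ip (x i) (y j) = 0) ∧
      (∀ i i' j, ip (x i) (z i' j) = 0) ∧
      (∀ j i j', ip (y j) (z i j') = 0) ∧
      (∀ i i' j j', ip (z i j) (z i' j') = if i = i' ∧ j = j' then 1 else 0) := by
  obtain ⟨j₁, hj₁, -, -⟩ := hJ j₀ j₀ j₀
  refine hf.decomp hI hJ i₀ j₀ (fun i => ?_) (fun j => ?_)
  · obtain ⟨i', hi'⟩ := hI i
    exact hf.row_point hi'.symm hJ hj₁.symm
  · obtain ⟨i₁, hi₁⟩ := hI i₀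
    rcases hI' with hI' | hI'
    · exact hf.transpose.row_point (hJ j j j).choose_spec.1.symm hI' hi₁.symm
    · obtain ⟨e, he⟩ := hf.meet_col hi₁.symm (j := j) (j' := (hJ j j j).choose) (hJ j j j).choose_spec.1.symm
      refine ⟨e, fun i => ?_⟩
      rcases hI' i i₀ i₁ with h | h | h
      · rw [h]
        exact he.ne
      · rw [h]
        exact he.ne'
      · exact absurd h.symm hi₁

/-- The standard form in general. -/
theorem Rect.decomp_all [DecidableEq I] [DecidableEq J] {f : I → J → Y → ℤ} (hf : Rect f) (hI : ∀ i : I, ∃ i', i' ≠ i)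
    (hJ : ∀ j : J, ∃ j', j' ≠ j) (hcase : (Many J ∧ (Many I ∨ Few I)) ∨ (Many I ∧ (Many J ∨ Few J)))
    (i₀ : I) (j₀ : J) :
    ∃ (x : I → Y → ℤ) (y : J → Y → ℤ) (z : I → J → Y → ℤ),
      (∀ i j, f i j = x i + y j + z i j) ∧
      (∀ i i', ip (x i) (x i') = if i = i' then 1 else 0) ∧
      (∀ j j', ip (y j) (y j') = if j = j' then 1 else 0) ∧
      (∀ i j, ip (x i) (y j) = 0) ∧
      (∀ i i' j, ip (x i) (z i' j) = 0) ∧
      (∀ j i j', ip (y j) (z i j') = 0) ∧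
      (∀ i i' j j', ip (z i j) (z i' j') = if i = i' ∧ j = j' then 1 else 0) := by
  rcases hcase with ⟨h1, h2⟩ | ⟨h1, h2⟩
  · exact hf.decomp_right hI h1 h2 i₀ j₀
  · obtain ⟨y, x, z, h3, h4, h5, h6, h7, h8, h9⟩ := hf.transpose.decomp_right hJ h1 h2 j₀ i₀
    refine ⟨x, y, fun i j => z j i, ?_, h5, h4, fun i j => ?_, fun i i' j => h8 i j i', fun j i j' => h7 j j' i, ?_⟩
    · intro i j
      rw [h3 j i, add_comm (y j)]
    · rw [ip_comm]
      exact h6 j i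
    · intro i i' j j'
      rw [h9 j j' i i']
      simp only [and_comm]

end Rect

end Cfsg.Agent.H06.TICombo
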