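import Cfsg.Agent.S1505
import Cfsg.Agent.Lib.H06.TICombo3
import Cfsg.Agent.Lib.H06.CyclicTI
import Cfsg.Agent.Lib.H06.CharLin2
import Cfsg.Agent.Lib.H06.CharLin3
import Cfsg.Agent.Lib.H06.Brauer1
import Cfsg.Agent.Lib.H23.AcdTwo

/-!
# The cyclic TI family
-/

set_option autoImplicit false

namespace Cfsg.Agent.H06

open Cfsg Cfsg.Agent.H21 Cfsg.Agent.H06.TICombo
open scoped ComplexConjugate

universe u

section Comb

variable {G : Type u} [Group G] [Fintype G] [Fintype (IrrCharacter G)]

/-- Integer combination of irreducible characters. -/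
noncomputable def irrComb (v : IrrCharacter G → ℤ) : G → ℂ :=
  ∑ μ : IrrCharacter G, (v μ : ℂ) • (μ : G → ℂ)

theorem irrComb_add (v w : IrrCharacter G → ℤ) : irrComb (v + w) = irrComb v + irrComb w := by
  simp [irrComb, add_smul, Finset.sum_add_distrib]

theorem irrComb_gen (v : IrrCharacter G → ℤ) : IsGeneralizedCharacter G (irrComb v) := by
  refine gen_sum _ _ fun μ _ => ?_
  have h := gen_zsmul (gen_of_char (isCharacter_of_irr μ.2)) (v μ)
  convert h using 1
  funext g
  simp

theorem irrComb_inner_irr (w : IrrCharacter G → ℤ) (μ : IrrCharacter G) :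
    classInner (μ : G → ℂ) (irrComb w) = w μ := by
  classical
  rw [irrComb, classInner_sum_right, Finset.sum_eq_single μ]
  · rw [classInner_smul_right, classInner_irr_self μ.2, mul_one, map_intCast]
  · intro ν _ hν
    rw [classInner_smul_right, classInner_irr_ne μ.2 ν.2 (fun h => hν (Subtype.ext h).symm), mul_zero]
  · intro h
    exact absurd (Finset.mem_univ _) h

theorem irrComb_inner (v w : IrrCharacter G → ℤ) :
    classInner (irrComb v) (irrComb w) = (ip v w : ℂ) := by
  rw [irrComb, classInner_sum_left]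
  unfold ip
  push_cast
  refine Finset.sum_congr rfl fun μ _ => ?_
  rw [classInner_smul_left, irrComb_inner_irr]

theorem signedIrr_irrComb {v : IrrCharacter G → ℤ} (h : ip v v = 1) : SignedIrr (irrComb v) :=
  signedIrr_of_norm_one (irrComb_gen v) (by rw [irrComb_inner, h]; simp)

end Comb

section Orth

variable {G : Type u} [Group G] [Fintype G]

/-- If a sum of three orthogonal signed characters is orthogonal to a signed character, then so is
each summand. -/
theorem orth_of_sum_three {a b c e : G → ℂ} (ha : SignedIrr a) (hb : SignedIrr b) (hc : SignedIrr c)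
    (he : SignedIrr e) (hab : classInner a b = 0) (hac : classInner a c = 0) (hbc : classInner b c = 0)
    (h : classInner (a + b + c) e = 0) : classInner a e = 0 ∧ classInner b e = 0 ∧ classInner c e = 0 := by
  have key : ∀ {a b c : G → ℂ}, SignedIrr a → classInner a b = 0 → classInner a c = 0 →
      classInner (a + b + c) e = 0 → classInner a e = 0 := by
    intro a b c ha hab hac h
    by_contra hne
    obtain ⟨s, hs, hs2, hs3⟩ := ha.inner_cases he hne
    have hba : classInner b a = 0 := by rw [← classInner_comm_conj, hab, map_zero]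
    have hca : classInner c a = 0 := by rw [← classInner_comm_conj, hac, map_zero]
    rw [classInner_add_left, classInner_add_left, hs2, classInner_smul_right, classInner_smul_right,
      classInner_smul_right, hba, hca, ha.inner_self] at h
    have : s = 0 := by
      have hsc := sign_conj hs
      rw [hsc] at h
      simpa using h
    rcases hs with rfl | rfl <;> simp at this
  have hba : classInner b a = 0 := by rw [← classInner_comm_conj, hab, map_zero]
  have hca : classInner c a = 0 := by rw [← classInner_comm_conj, hac, map_zero]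
  have hcb : classInner c b = 0 := by rw [← classInner_comm_conj, hbc, map_zero]
  refine ⟨key ha hab hac h, key hb hba hbc ?_, key hc hca hcb ?_⟩
  · rw [add_comm b a]
    exact h
  · have : c + a + b = a + b + c := by abel
    rw [this]
    exact h

end Orth

section Counts

variable {X : Type*} [Finite X]

theorem many_of_card {o : X} {P : X → Prop} (h : 5 ≤ Nat.card {x // P x}) (ho : P o) :
    Many {x // x ≠ o ∧ P x} := by
  classical
  haveI : Fintype {x // P x} := Fintype.ofFinite _
  rintro ⟨a, ha⟩ ⟨b, hb⟩ ⟨c, hc⟩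
  rw [Nat.card_eq_fintype_card] at h
  let s : Finset {x // P x} := {⟨o, ho⟩, ⟨a, ha.2⟩, ⟨b, hb.2⟩, ⟨c, hc.2⟩}
  have hs : s.card ≤ 4 := Finset.card_le_four
  obtain ⟨d, -, hd⟩ := Finset.exists_mem_notMem_of_card_lt_card (s := s) (t := Finset.univ)
    (by rw [Finset.card_univ]; omega)
  simp only [s, Finset.mem_insert, Finset.mem_singleton, not_or] at hd
  refine ⟨⟨d.1, fun e => hd.1 (Subtype.ext e), d.2⟩, ?_, ?_, ?_⟩
  · intro e
    exact hd.2.1 (Subtype.ext (Subtype.mk.inj e))
  · intro e
    exact hd.2.2.1 (Subtype.ext (Subtype.mk.inj e))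
  · intro e
    exact hd.2.2.2 (Subtype.ext (Subtype.mk.inj e))

theorem few_of_card {o : X} {P : X → Prop} (h : Nat.card {x // P x} ≤ 3) (ho : P o) :
    Few {x // x ≠ o ∧ P x} := by
  classical
  haveI : Fintype {x // P x} := Fintype.ofFinite _
  rintro ⟨a, ha⟩ ⟨b, hb⟩ ⟨c, hc⟩
  rw [Nat.card_eq_fintype_card] at h
  by_contra hcon
  push Not at hcon
  obtain ⟨h1, h2, h3⟩ := hcon
  have h1' : a ≠ b := fun e => h1 (Subtype.ext e)
  have h2' : a ≠ c := fun e => h2 (Subtype.ext e)
  have h3' : b ≠ c := fun e => h3 (Subtype.ext e)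
  let s : Finset {x // P x} := {⟨o, ho⟩, ⟨a, ha.2⟩, ⟨b, hb.2⟩, ⟨c, hc.2⟩}
  have hs : s.card = 4 := by
    simp only [s]
    rw [Finset.card_insert_of_notMem, Finset.card_insert_of_notMem, Finset.card_insert_of_notMem,
      Finset.card_singleton]
    · simp only [Finset.mem_singleton, Subtype.mk.injEq]
      exact h3'
    · simp only [Finset.mem_insert, Finset.mem_singleton, Subtype.mk.injEq, not_or]
      exact ⟨h1', h2'⟩
    · simp only [Finset.mem_insert, Finset.mem_singleton, Subtype.mk.injEq, not_or]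
      exact ⟨ha.1.symm, hb.1.symm, hc.1.symm⟩
  have := Finset.card_le_univ s
  omega

theorem other_of_card {o : X} {P : X → Prop} (h : 3 ≤ Nat.card {x // P x}) (ho : P o)
    (i : {x // x ≠ o ∧ P x}) : ∃ i', i' ≠ i := by
  classical
  haveI : Fintype {x // P x} := Fintype.ofFinite _
  rw [Nat.card_eq_fintype_card] at h
  let s : Finset {x // P x} := {⟨o, ho⟩, ⟨i.1, i.2.2⟩}
  have hs : s.card ≤ 2 := Finset.card_le_two
  obtain ⟨d, -, hd⟩ := Finset.exists_mem_notMem_of_card_lt_card (s := s) (t := Finset.univ)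
    (by rw [Finset.card_univ]; omega)
  simp only [s, Finset.mem_insert, Finset.mem_singleton, not_or] at hd
  refine ⟨⟨d.1, fun e => hd.1 (Subtype.ext e), d.2⟩, ?_⟩
  intro e
  exact hd.2 (Subtype.ext (Subtype.mk.inj e))

theorem exists_ne_of_card {o : X} {P : X → Prop} (h : 2 ≤ Nat.card {x // P x}) (ho : P o) :
    Nonempty {x // x ≠ o ∧ P x} := by
  classical
  haveI : Fintype {x // P x} := Fintype.ofFinite _
  rw [Nat.card_eq_fintype_card] at h
  let s : Finset {x // P x} := {⟨o, ho⟩}
  obtain ⟨d, -, hd⟩ := Finset.exists_mem_notMem_of_card_lt_card (s := s) (t := Finset.univ)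
    (by rw [Finset.card_univ, Finset.card_singleton]; omega)
  simp only [s, Finset.mem_singleton] at hd
  exact ⟨⟨d.1, fun e => hd (Subtype.ext e), d.2⟩⟩

end Counts

section Coprime

variable {G : Type u} [Group G] [Finite G] {W₁ W₂ : Subgroup G}

/-- Subgroups with trivial intersection of a cyclic group have coprime orders. -/
theorem coprime_of_cyclic (hcyc : IsCyclic ↥(W₁ ⊔ W₂)) (hdisj : W₁ ⊓ W₂ = ⊥) :
    Nat.Coprime (Nat.card W₁) (Nat.card W₂) := by
  classical
  by_contra hcon
  obtain ⟨p, hp, h1, h2⟩ := Nat.Prime.not_coprime_iff_dvd.mp hcon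
  haveI : Fact p.Prime := ⟨hp⟩
  obtain ⟨a, ha⟩ := exists_prime_orderOf_dvd_card' p h1
  obtain ⟨b, hb⟩ := exists_prime_orderOf_dvd_card' p h2
  haveI : Fintype ↥(W₁ ⊔ W₂) := Fintype.ofFinite _
  let a' : ↥(W₁ ⊔ W₂) := ⟨a, Subgroup.mem_sup_left a.2⟩
  let b' : ↥(W₁ ⊔ W₂) := ⟨b, Subgroup.mem_sup_right b.2⟩
  have ha' : orderOf a' = p := by
    rw [← ha]
    have e1 : orderOf a' = orderOf (a' : G) := (Subgroup.orderOf_coe a').symm
    have e2 : orderOf a = orderOf (a : G) := (Subgroup.orderOf_coe a).symm
    rw [e1, e2]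
  have hb' : orderOf b' = p := by
    rw [← hb]
    have e1 : orderOf b' = orderOf (b' : G) := (Subgroup.orderOf_coe b').symm
    have e2 : orderOf b = orderOf (b : G) := (Subgroup.orderOf_coe b).symm
    rw [e1, e2]
  let S : Finset ↥(W₁ ⊔ W₂) := Finset.univ.filter (fun x => x ^ p = 1)
  have hS : S.card ≤ p := IsCyclic.card_pow_eq_one_le hp.pos
  let Z : Finset ↥(W₁ ⊔ W₂) := (Finset.range p).image (fun n => a' ^ n)
  have hZ : Z.card = p := by
    rw [Finset.card_image_of_injOn, Finset.card_range]
    intro m hm n hn e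
    have hm' : m < p := by simpa using hm
    have hn' : n < p := by simpa using hn
    exact pow_injOn_Iio_orderOf (by rw [ha']; exact hm') (by rw [ha']; exact hn') e
  have hZS : Z ⊆ S := by
    intro x hx
    obtain ⟨n, -, rfl⟩ := Finset.mem_image.mp hx
    simp only [S, Finset.mem_filter, Finset.mem_univ, true_and]
    rw [← pow_mul, mul_comm, pow_mul, ← ha', pow_orderOf_eq_one, one_pow]
  have heq : Z = S := Finset.eq_of_subset_of_card_le hZS (by rw [hZ]; exact hS)
  have hbS : b' ∈ S := by
    simp only [S, Finset.mem_filter, Finset.mem_univ, true_and]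
    rw [← hb', pow_orderOf_eq_one]
  rw [← heq] at hbS
  obtain ⟨n, -, hn⟩ := Finset.mem_image.mp hbS
  have hbW₁ : (b : G) ∈ W₁ := by
    have e : (b : G) = (a : G) ^ n := by
      have := congrArg Subtype.val hn
      simpa [a', b'] using this.symm
    rw [e]
    exact W₁.pow_mem a.2 n
  have hb1 : (b : G) ∈ W₁ ⊓ W₂ := Subgroup.mem_inf.mpr ⟨hbW₁, b.2⟩
  rw [hdisj, Subgroup.mem_bot] at hb1
  have : b = 1 := Subtype.ext hb1
  rw [this, orderOf_one] at hb
  exact hp.one_lt.ne hb

end Coprime

end Cfsg.Agent.H06
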