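import Cfsg.Agent.Lib.H06.CyclicTIFam

/-!
# The cyclic TI family: existence
-/

set_option autoImplicit false

namespace Cfsg.Agent.H06

open Cfsg Cfsg.Agent.H21 Cfsg.Agent.H06.TICombo
open scoped ComplexConjugate

universe u

section Fam

variable {G : Type u} [Group G] [Fintype G] {W₁ W₂ : Subgroup G}

/-- The induced function attached to a pair of linear characters. -/
noncomputable def tiT (W₁ W₂ : Subgroup G) (φ ψ : ↥(W₁ ⊔ W₂) →* ℂˣ) : G → ℂ :=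
  indFun (W₁ ⊔ W₂) (fun w => 1 - (φ w : ℂ) - (ψ w : ℂ) + (φ w : ℂ) * (ψ w : ℂ))

/-- The nontrivial characters trivial on `W₂`. -/
abbrev TIRow (W₁ W₂ : Subgroup G) :=
  {φ : ↥(W₁ ⊔ W₂) →* ℂˣ // φ ≠ 1 ∧ ∀ w : ↥(W₁ ⊔ W₂), (w : G) ∈ W₂ → φ w = 1}

/-- The nontrivial characters trivial on `W₁`. -/
abbrev TICol (W₁ W₂ : Subgroup G) :=
  {ψ : ↥(W₁ ⊔ W₂) →* ℂˣ // ψ ≠ 1 ∧ ∀ w : ↥(W₁ ⊔ W₂), (w : G) ∈ W₁ → ψ w = 1}

theorem tiT_gen (φ ψ : ↥(W₁ ⊔ W₂) →* ℂˣ) : IsGeneralizedCharacter G (tiT W₁ W₂ φ ψ) := by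
  haveI : Fintype ↥(W₁ ⊔ W₂) := Fintype.ofFinite _
  refine Brauer.gen_indFun _ ?_
  rw [alpha_eq]
  have hlin : ∀ ω : ↥(W₁ ⊔ W₂) →* ℂˣ, IsGeneralizedCharacter ↥(W₁ ⊔ W₂) (linFun ω) := fun ω =>
    gen_of_char (Cfsg.Agent.H23.isCharacter_hom ω)
  exact gen_add (gen_sub (gen_sub (hlin _) (hlin _)) (hlin _)) (hlin _)

open Classical in
theorem tiT_inner (hW : IsSelfNormalizingCyclic W₁ W₂) (i i' : TIRow W₁ W₂) (j j' : TICol W₁ W₂) :
    classInner (tiT W₁ W₂ i.1 j.1 - fun _ => 1) (tiT W₁ W₂ i'.1 j'.1 - fun _ => 1) =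
      ((if i = i' then 1 else 0) + (if j = j' then 1 else 0) +
        (if i = i' then 1 else 0) * (if j = j' then 1 else 0) : ℂ) := by
  classical
  obtain ⟨h1, h2⟩ := Cfsg.Agent.S1505.result W₁ W₂ hW i.1 i'.1 j.1 j'.1 i.2.1 i'.2.1 j.2.1 j'.2.1
    (fun w hw => ⟨i.2.2 w hw, i'.2.2 w hw⟩) (fun w hw => ⟨j.2.2 w hw, j'.2.2 w hw⟩)
  obtain ⟨h3, -⟩ := Cfsg.Agent.S1505.result W₁ W₂ hW i'.1 i'.1 j'.1 j'.1 i'.2.1 i'.2.1 j'.2.1 j'.2.1
    (fun w hw => ⟨i'.2.2 w hw, i'.2.2 w hw⟩) (fun w hw => ⟨j'.2.2 w hw, j'.2.2 w hw⟩)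
  have h4 : classInner (fun _ : G => (1 : ℂ)) (tiT W₁ W₂ i'.1 j'.1) = 1 := by
    rw [← classInner_comm_conj]
    change conj (classInner (tiT W₁ W₂ i'.1 j'.1) (fun _ : G => (1 : ℂ))) = 1
    unfold tiT
    rw [h3, map_one]
  have h5 : classInner (fun _ : G => (1 : ℂ)) (fun _ : G => (1 : ℂ)) = 1 :=
    classInner_irr_self isIrrCharacter_one
  rw [classInner_sub_left', classInner_sub_right', classInner_sub_right', h5, h4]
  unfold tiT
  rw [h1, h2]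
  have e1 : (i.1 = i'.1) ↔ i = i' := Subtype.ext_iff.symm
  have e2 : (j.1 = j'.1) ↔ j = j' := Subtype.ext_iff.symm
  by_cases h6 : i = i' <;> by_cases h7 : j = j'
  · rw [if_pos (e1.mpr h6), if_pos (e2.mpr h7), if_pos h6, if_pos h7]
    ring
  · rw [if_pos (e1.mpr h6), if_neg (fun h => h7 (e2.mp h)), if_pos h6, if_neg h7]
    ring
  · rw [if_neg (fun h => h6 (e1.mp h)), if_pos (e2.mpr h7), if_neg h6, if_pos h7]
    ring
  · rw [if_neg (fun h => h6 (e1.mp h)), if_neg (fun h => h7 (e2.mp h)), if_neg h6, if_neg h7]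
    ring

theorem tiT_inner_one (hW : IsSelfNormalizingCyclic W₁ W₂) (i : TIRow W₁ W₂) (j : TICol W₁ W₂) :
    classInner (tiT W₁ W₂ i.1 j.1 - fun _ => 1) (fun _ => 1) = 0 := by
  classical
  obtain ⟨h3, -⟩ := Cfsg.Agent.S1505.result W₁ W₂ hW i.1 i.1 j.1 j.1 i.2.1 i.2.1 j.2.1 j.2.1
    (fun w hw => ⟨i.2.2 w hw, i.2.2 w hw⟩) (fun w hw => ⟨j.2.2 w hw, j.2.2 w hw⟩)
  have h5 : classInner (fun _ : G => (1 : ℂ)) (fun _ : G => (1 : ℂ)) = 1 :=
    classInner_irr_self isIrrCharacter_one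
  rw [classInner_sub_left', h5]
  unfold tiT
  rw [h3, sub_self]

/-- The decomposition of the family. -/
theorem exists_xyz (hW : IsSelfNormalizingCyclic W₁ W₂) (hodd : Odd (Nat.card ↥(W₁ ⊔ W₂))) :
    ∃ (X : TIRow W₁ W₂ → G → ℂ) (Y : TICol W₁ W₂ → G → ℂ) (Z : TIRow W₁ W₂ → TICol W₁ W₂ → G → ℂ),
      (∀ i, SignedIrr (X i)) ∧ (∀ j, SignedIrr (Y j)) ∧ (∀ i j, SignedIrr (Z i j)) ∧
      (∀ i j, tiT W₁ W₂ i.1 j.1 = (fun _ => 1) + X i + Y j + Z i j) ∧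
      (∀ i i', i ≠ i' → classInner (X i) (X i') = 0) ∧
      (∀ j j', j ≠ j' → classInner (Y j) (Y j') = 0) ∧
      (∀ i j, classInner (X i) (Y j) = 0) ∧
      (∀ i i' j, classInner (X i) (Z i' j) = 0) ∧
      (∀ j i j', classInner (Y j) (Z i j') = 0) ∧
      (∀ i i' j j', ¬ (i = i' ∧ j = j') → classInner (Z i j) (Z i' j') = 0) ∧
      (∀ i, classInner (X i) (fun _ => 1) = 0) ∧
      (∀ j, classInner (Y j) (fun _ => 1) = 0) ∧
      (∀ i j, classInner (Z i j) (fun _ => 1) = 0) := by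
  classical
  haveI : Fintype (IrrCharacter G) := Fintype.ofFinite _
  haveI : Fintype ↥(W₁ ⊔ W₂) := Fintype.ofFinite _
  obtain ⟨hW₁, hW₂, hdisj, hcomm, hcyc, -⟩ := id hW
  have hcardW := card_sup_of_commute hcomm hdisj
  have hw₁ : 3 ≤ Nat.card W₁ ∧ Odd (Nat.card W₁) := by
    rw [hcardW] at hodd
    have h0 := (Nat.odd_mul.mp hodd).1
    obtain ⟨r, hr⟩ := h0
    have : Nat.card W₁ ≠ 1 := fun h => hW₁ ((Subgroup.card_eq_one).mp (by simpa using h))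
    exact ⟨by omega, ⟨r, hr⟩⟩
  have hw₂ : 3 ≤ Nat.card W₂ ∧ Odd (Nat.card W₂) := by
    rw [hcardW] at hodd
    have h0 := (Nat.odd_mul.mp hodd).2
    obtain ⟨r, hr⟩ := h0
    have : Nat.card W₂ ≠ 1 := fun h => hW₂ ((Subgroup.card_eq_one).mp (by simpa using h))
    exact ⟨by omega, ⟨r, hr⟩⟩
  have hcop := coprime_of_cyclic hcyc hdisj
  have hc₁ := card_ann_eq hcomm hdisj hcyc
  have hc₂ := card_ann_eq' hcomm hdisj hcyc
  haveI : Finite (↥(W₁ ⊔ W₂) →* ℂˣ) :=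
    finite_dual' (fun a b => Subtype.ext (comm_of_isCyclic hcyc a.2 b.2))
  have h1₁ : ∀ w : ↥(W₁ ⊔ W₂), (w : G) ∈ W₂ → (1 : ↥(W₁ ⊔ W₂) →* ℂˣ) w = 1 := fun _ _ => rfl
  have h1₂ : ∀ w : ↥(W₁ ⊔ W₂), (w : G) ∈ W₁ → (1 : ↥(W₁ ⊔ W₂) →* ℂˣ) w = 1 := fun _ _ => rfl
  have hI : ∀ i : TIRow W₁ W₂, ∃ i', i' ≠ i := other_of_card (by rw [hc₁]; exact hw₁.1) h1₁
  have hJ : ∀ j : TICol W₁ W₂, ∃ j', j' ≠ j := other_of_card (by rw [hc₂]; exact hw₂.1) h1₂
  obtain ⟨i₀⟩ : Nonempty (TIRow W₁ W₂) := exists_ne_of_card (by rw [hc₁]; omega) h1₁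
  obtain ⟨j₀⟩ : Nonempty (TICol W₁ W₂) := exists_ne_of_card (by rw [hc₂]; omega) h1₂
  have hMF : ∀ n : ℕ, 3 ≤ n → Odd n → n = 3 ∨ 5 ≤ n := by
    intro n h3 ⟨r, hr⟩
    omega
  have hcase : (Many (TICol W₁ W₂) ∧ (Many (TIRow W₁ W₂) ∨ Few (TIRow W₁ W₂))) ∨
      (Many (TIRow W₁ W₂) ∧ (Many (TICol W₁ W₂) ∨ Few (TICol W₁ W₂))) := by
    have a1 : Nat.card W₁ = 3 → Few (TIRow W₁ W₂) := fun h =>
      few_of_card (by rw [hc₁]; omega) h1₁
    have a2 : 5 ≤ Nat.card W₁ → Many (TIRow W₁ W₂) := fun h =>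
      many_of_card (by rw [hc₁]; omega) h1₁
    have b1 : Nat.card W₂ = 3 → Few (TICol W₁ W₂) := fun h =>
      few_of_card (by rw [hc₂]; omega) h1₂
    have b2 : 5 ≤ Nat.card W₂ → Many (TICol W₁ W₂) := fun h =>
      many_of_card (by rw [hc₂]; omega) h1₂
    rcases hMF _ hw₁.1 hw₁.2 with h1 | h1 <;> rcases hMF _ hw₂.1 hw₂.2 with h2 | h2
    · rw [h1, h2] at hcop
      norm_num at hcop
    · exact Or.inl ⟨b2 h2, Or.inr (a1 h1)⟩
    · exact Or.inr ⟨a2 h1, Or.inr (b1 h2)⟩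
    · exact Or.inl ⟨b2 h2, Or.inl (a2 h1)⟩
  -- coordinates
  have hV : ∀ (i : TIRow W₁ W₂) (j : TICol W₁ W₂),
      IsGeneralizedCharacter G (tiT W₁ W₂ i.1 j.1 - fun _ => 1) := fun i j =>
    gen_sub (tiT_gen _ _) (gen_of_char isCharacter_one)
  have hdec := fun (i : TIRow W₁ W₂) (j : TICol W₁ W₂) => gen_decomp (hV i j)
  choose c hc hc2 hc3 using hdec
  have hc' : ∀ i j, tiT W₁ W₂ i.1 j.1 - (fun _ => 1) = irrComb (c i j) := hc
  have hip : ∀ i i' j j', (ip (c i j) (c i' j') : ℂ) =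
      ((if i = i' then 1 else 0) + (if j = j' then 1 else 0) +
        (if i = i' then 1 else 0) * (if j = j' then 1 else 0) : ℂ) := by
    intro i i' j j'
    rw [← irrComb_inner, ← hc', ← hc']
    convert tiT_inner hW i i' j j'
  have hrect : Rect c := by
    refine ⟨fun i j => ?_, fun i j j' hj => ?_, fun i i' j hi => ?_, fun i i' j j' hi hj => ?_⟩
    · have := hip i i j j
      rw [if_pos rfl, if_pos rfl] at this
      have h3 : (ip (c i j) (c i j) : ℂ) = ((3 : ℤ) : ℂ) := by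
        rw [this]
        norm_num
      exact_mod_cast h3
    · have := hip i i j j'
      rw [if_pos rfl, if_neg hj] at this
      have h3 : (ip (c i j) (c i j') : ℂ) = ((1 : ℤ) : ℂ) := by
        rw [this]
        norm_num
      exact_mod_cast h3
    · have := hip i i' j j
      rw [if_neg hi, if_pos rfl] at this
      have h3 : (ip (c i j) (c i' j) : ℂ) = ((1 : ℤ) : ℂ) := by
        rw [this]
        norm_num
      exact_mod_cast h3
    · have := hip i i' j j'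
      rw [if_neg hi, if_neg hj] at this
      have h3 : (ip (c i j) (c i' j') : ℂ) = ((0 : ℤ) : ℂ) := by
        rw [this]
        norm_num
      exact_mod_cast h3
  obtain ⟨x, y, z, h1, h2, h3, h4, h5, h6, h7⟩ := hrect.decomp_all hI hJ hcase i₀ j₀
  have hsx : ∀ i, SignedIrr (irrComb (x i)) := fun i => signedIrr_irrComb (by rw [h2, if_pos rfl])
  have hsy : ∀ j, SignedIrr (irrComb (y j)) := fun j => signedIrr_irrComb (by rw [h3, if_pos rfl])
  have hsz : ∀ i j, SignedIrr (irrComb (z i j)) := fun i j =>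
    signedIrr_irrComb (by rw [h7, if_pos ⟨rfl, rfl⟩])
  have hox : ∀ i i', i ≠ i' → classInner (irrComb (x i)) (irrComb (x i')) = 0 := by
    intro i i' h
    rw [irrComb_inner, h2, if_neg h]
    simp
  have hoy : ∀ j j', j ≠ j' → classInner (irrComb (y j)) (irrComb (y j')) = 0 := by
    intro i i' h
    rw [irrComb_inner, h3, if_neg h]
    simp
  have hoxy : ∀ i j, classInner (irrComb (x i)) (irrComb (y j)) = 0 := by
    intro i j
    rw [irrComb_inner, h4]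
    simp
  have hoxz : ∀ i i' j, classInner (irrComb (x i)) (irrComb (z i' j)) = 0 := by
    intro i i' j
    rw [irrComb_inner, h5]
    simp
  have hoyz : ∀ j i j', classInner (irrComb (y j)) (irrComb (z i j')) = 0 := by
    intro j i j'
    rw [irrComb_inner, h6]
    simp
  have hozz : ∀ i i' j j', ¬ (i = i' ∧ j = j') → classInner (irrComb (z i j)) (irrComb (z i' j')) = 0 := by
    intro i i' j j' h
    rw [irrComb_inner, h7, if_neg h]
    simp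
  have hsum : ∀ i j, tiT W₁ W₂ i.1 j.1 - (fun _ => 1) =
      irrComb (x i) + irrComb (y j) + irrComb (z i j) := by
    intro i j
    rw [hc', h1, irrComb_add, irrComb_add]
  have hone := fun i j => orth_of_sum_three (e := fun _ => 1) (hsx i) (hsy j) (hsz i j)
    (Or.inl isIrrCharacter_one) (hoxy i j) (hoxz i i j) (hoyz j i j)
    (by rw [← hsum]; exact tiT_inner_one hW i j)
  refine ⟨fun i => irrComb (x i), fun j => irrComb (y j), fun i j => irrComb (z i j), hsx, hsy, hsz,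
    fun i j => ?_, hox, hoy, hoxy, hoxz, hoyz, hozz, fun i => (hone i j₀).1, fun j => (hone i₀ j).2.1,
    fun i j => (hone i j).2.2⟩
  have := hsum i j
  rw [sub_eq_iff_eq_add] at this
  rw [this]
  abel

end Fam

end Cfsg.Agent.H06
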