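import Cfsg.Agent.Lib.H06.CyclicTIFam2

/-!
# The cyclic TI family: assembly
-/

set_option autoImplicit false

namespace Cfsg.Agent.H06

open Cfsg Cfsg.Agent.H21 Cfsg.Agent.H06.TICombo
open scoped ComplexConjugate

universe u

/-- The family on the index set. -/
noncomputable def tiF {A B X' : Type*} (X : A → X' → ℂ) (Y : B → X' → ℂ) (Z : A → B → X' → ℂ) :
    Option A × Option B → X' → ℂ
  | (none, none) => fun _ => 1
  | (some i, none) => -X i
  | (none, some j) => -Y j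
  | (some i, some j) => Z i j

section Fam

variable {G : Type u} [Group G] [Fintype G] {W₁ W₂ : Subgroup G}

/-- The linear character attached to an index. -/
def tiG (k : Option (TIRow W₁ W₂) × Option (TICol W₁ W₂)) : ↥(W₁ ⊔ W₂) →* ℂˣ :=
  (k.1.elim 1 Subtype.val) * (k.2.elim 1 Subtype.val)

theorem tiG_triv₂ (a : Option (TIRow W₁ W₂)) (w : ↥(W₁ ⊔ W₂)) (hw : (w : G) ∈ W₂) :
    (a.elim (1 : ↥(W₁ ⊔ W₂) →* ℂˣ) Subtype.val) w = 1 := by
  cases a with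
  | none => rfl
  | some i => exact i.2.2 w hw

theorem tiG_triv₁ (a : Option (TICol W₁ W₂)) (w : ↥(W₁ ⊔ W₂)) (hw : (w : G) ∈ W₁) :
    (a.elim (1 : ↥(W₁ ⊔ W₂) →* ℂˣ) Subtype.val) w = 1 := by
  cases a with
  | none => rfl
  | some i => exact i.2.2 w hw

theorem tiG_inj (hcomm : ∀ a ∈ W₁, ∀ b ∈ W₂, a * b = b * a) :
    Function.Injective (tiG : Option (TIRow W₁ W₂) × Option (TICol W₁ W₂) → ↥(W₁ ⊔ W₂) →* ℂˣ) := by
  rintro ⟨a₁, a₂⟩ ⟨b₁, b₂⟩ h
  obtain ⟨h1, h2⟩ := (mul_eq_mul_iff hcomm (tiG_triv₂ a₁) (tiG_triv₂ b₁) (tiG_triv₁ a₂) (tiG_triv₁ b₂)).mp h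
  refine Prod.ext ?_ ?_
  · cases a₁ with
    | none =>
      cases b₁ with
      | none => rfl
      | some i => exact absurd h1.symm i.2.1
    | some i =>
      cases b₁ with
      | none => exact absurd h1 i.2.1
      | some i' => exact congrArg some (Subtype.ext h1)
  · cases a₂ with
    | none =>
      cases b₂ with
      | none => rfl
      | some i => exact absurd h2.symm i.2.1
    | some i =>
      cases b₂ with
      | none => exact absurd h2 i.2.1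
      | some i' => exact congrArg some (Subtype.ext h2)

theorem tiG_surj (hcomm : ∀ a ∈ W₁, ∀ b ∈ W₂, a * b = b * a) (hdisj : W₁ ⊓ W₂ = ⊥) :
    Function.Surjective (tiG : Option (TIRow W₁ W₂) × Option (TICol W₁ W₂) → ↥(W₁ ⊔ W₂) →* ℂˣ) := by
  classical
  intro ω
  obtain ⟨φ, ψ, hφ, hψ, rfl⟩ := exists_dual_decomp hcomm hdisj ω
  by_cases h1 : φ = 1 <;> by_cases h2 : ψ = 1
  · refine ⟨(none, none), ?_⟩
    rw [h1, h2]
    rfl
  · refine ⟨(none, some ⟨ψ, h2, hψ⟩), ?_⟩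
    rw [h1]
    rfl
  · refine ⟨(some ⟨φ, h1, hφ⟩, none), ?_⟩
    rw [h2]
    rfl
  · exact ⟨(some ⟨φ, h1, hφ⟩, some ⟨ψ, h2, hψ⟩), rfl⟩

/-- Agreement with the linear characters off `W₁ ∪ W₂`. -/
theorem family_eq_on {K : Type*} (hW : IsSelfNormalizingCyclic W₁ W₂) (F : K → G → ℂ)
    (g : K → ↥(W₁ ⊔ W₂) →* ℂˣ) (hg : Function.Injective g) (hcl : ∀ k, IsClassFunction G (F k))
    (hFF : ∀ a b, a ≠ b → classInner (F a) (F b) = 0) (hF1 : ∀ a, classInner (F a) (F a) = 1)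
    (hT : ∀ φ ψ : ↥(W₁ ⊔ W₂) →* ℂˣ, φ ≠ 1 → ψ ≠ 1 →
      (∀ w : ↥(W₁ ⊔ W₂), (w : G) ∈ W₂ → φ w = 1) → (∀ w : ↥(W₁ ⊔ W₂), (w : G) ∈ W₁ → ψ w = 1) →
      ∃ k₀ k₁ k₂ k₃, g k₀ = 1 ∧ g k₁ = φ ∧ g k₂ = ψ ∧ g k₃ = φ * ψ ∧
        tiT W₁ W₂ φ ψ = F k₀ - F k₁ - F k₂ + F k₃)
    (k : K) (w : ↥(W₁ ⊔ W₂)) (hw₁ : (w : G) ∉ W₁) (hw₂ : (w : G) ∉ W₂) :
    F k w = (g k w : ℂ) := by
  classical
  haveI : Fintype ↥(W₁ ⊔ W₂) := Fintype.ofFinite _
  obtain ⟨-, -, hdisj, hcomm, hcyc, -⟩ := id hW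
  have hV : ∀ a b : ↥(W₁ ⊔ W₂), a * b = b * a := fun a b =>
    Subtype.ext (comm_of_isCyclic hcyc a.2 b.2)
  set U₁ : Subgroup ↥(W₁ ⊔ W₂) := W₁.subgroupOf (W₁ ⊔ W₂) with hU₁
  set U₂ : Subgroup ↥(W₁ ⊔ W₂) := W₂.subgroupOf (W₁ ⊔ W₂) with hU₂
  have hdisj' : U₁ ⊓ U₂ = ⊥ := by
    rw [eq_bot_iff]
    intro x hx
    have h1 := Subgroup.mem_inf.mp hx
    have h2 : (x : G) ∈ W₁ ⊓ W₂ :=
      Subgroup.mem_inf.mpr ⟨Subgroup.mem_subgroupOf.mp h1.1, Subgroup.mem_subgroupOf.mp h1.2⟩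
    rw [hdisj, Subgroup.mem_bot] at h2
    rw [Subgroup.mem_bot]
    exact Subtype.ext h2
  have hdelta : ∀ a, classInner (F a) (F k) = classInner (linFun (g a)) (linFun (g k)) := by
    intro a
    rw [inner_lin]
    by_cases h : a = k
    · subst h
      rw [if_pos rfl, hF1]
    · rw [if_neg (fun e => h (hg e)), hFF a k h]
  have hzero := vanish_of_orth_alpha hV U₁ U₂ hdisj'
    (fun x => (starRingEnd ℂ) (F k x - (g k x : ℂ))) ?_ w
    (fun h => hw₁ (Subgroup.mem_subgroupOf.mp h)) (fun h => hw₂ (Subgroup.mem_subgroupOf.mp h))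
  · simp only [map_eq_zero] at hzero
    exact sub_eq_zero.mp hzero
  intro a b ha hb
  by_cases ha1 : a = 1
  · subst ha1
    simp
  by_cases hb1 : b = 1
  · subst hb1
    simp
  have ha' : ∀ w : ↥(W₁ ⊔ W₂), (w : G) ∈ W₂ → a w = 1 := fun w hw => ha w (Subgroup.mem_subgroupOf.mpr hw)
  have hb' : ∀ w : ↥(W₁ ⊔ W₂), (w : G) ∈ W₁ → b w = 1 := fun w hw => hb w (Subgroup.mem_subgroupOf.mpr hw)
  obtain ⟨k₀, k₁, k₂, k₃, e₀, e₁, e₂, e₃, h⟩ := hT a b ha1 hb1 ha' hb'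
  have h2 := frobenius_reciprocity (W₁ ⊔ W₂)
    (fun w => 1 - (a w : ℂ) - (b w : ℂ) + (a w : ℂ) * (b w : ℂ)) (F k) (hcl k)
  have h3 : classInner (tiT W₁ W₂ a b) (F k) = classInner
      (fun w : ↥(W₁ ⊔ W₂) => 1 - (a w : ℂ) - (b w : ℂ) + (a w : ℂ) * (b w : ℂ)) (linFun (g k)) := by
    rw [h, alpha_eq, classInner_add_left, classInner_sub_left', classInner_sub_left',
      classInner_add_left, classInner_sub_left', classInner_sub_left', hdelta, hdelta, hdelta, hdelta,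
      e₀, e₁, e₂, e₃]
  have h4 : classInner (fun w : ↥(W₁ ⊔ W₂) => 1 - (a w : ℂ) - (b w : ℂ) + (a w : ℂ) * (b w : ℂ))
      (fun x : ↥(W₁ ⊔ W₂) => F k x - (g k x : ℂ)) = 0 := by
    have e : (fun x : ↥(W₁ ⊔ W₂) => F k x - (g k x : ℂ)) =
        (fun x : ↥(W₁ ⊔ W₂) => F k x) - linFun (g k) := rfl
    rw [e, classInner_sub_right', sub_eq_zero]
    exact h2.symm.trans h3
  simp only [classInner] at h4
  have hne : ((Nat.card ↥(W₁ ⊔ W₂) : ℂ))⁻¹ ≠ 0 := inv_ne_zero (Nat.cast_ne_zero.mpr Nat.card_pos.ne')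
  exact (mul_eq_zero.mp h4).resolve_left hne

/-- Existence of the cyclic TI family. -/
theorem exists_family (hW : IsSelfNormalizingCyclic W₁ W₂) (hodd : Odd (Nat.card ↥(W₁ ⊔ W₂))) :
    ∃ χ : (↥(W₁ ⊔ W₂) →* ℂˣ) → (G → ℂ), IsCyclicTIFamily W₁ W₂ χ := by
  classical
  obtain ⟨X, Y, Z, hsx, hsy, hsz, hT, hox, hoy, hoxy, hoxz, hoyz, hozz, hx1, hy1, hz1⟩ := exists_xyz hW hodd
  obtain ⟨-, -, hdisj, hcomm, hcyc, -⟩ := id hW
  set F := tiF X Y Z with hF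
  have hsymm : ∀ {f g : G → ℂ}, classInner f g = 0 → classInner g f = 0 := by
    intro f g h
    rw [← classInner_comm_conj, h, map_zero]
  have hone : SignedIrr (fun _ : G => (1 : ℂ)) := Or.inl isIrrCharacter_one
  have hsF : ∀ k, SignedIrr (F k) := by
    rintro ⟨_ | i, _ | j⟩
    · exact hone
    · exact (hsy j).neg
    · exact (hsx i).neg
    · exact hsz i j
  have hF1 : ∀ a, classInner (F a) (F a) = 1 := fun a => (hsF a).inner_self
  have hFF : ∀ a b, a ≠ b → classInner (F a) (F b) = 0 := by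
    rintro ⟨_ | i, _ | j⟩ ⟨_ | i', _ | j'⟩ h
    · exact absurd rfl h
    · change classInner (fun _ => 1) (-Y j') = 0
      rw [classInner_neg_right', hsymm (hy1 j'), neg_zero]
    · change classInner (fun _ => 1) (-X i') = 0
      rw [classInner_neg_right', hsymm (hx1 i'), neg_zero]
    · exact hsymm (hz1 i' j')
    · change classInner (-Y j) (fun _ => 1) = 0
      rw [classInner_neg_left', hy1 j, neg_zero]
    · change classInner (-Y j) (-Y j') = 0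
      have hjj : j ≠ j' := fun e => h (by rw [e])
      rw [classInner_neg_left', classInner_neg_right', hoy j j' hjj, neg_zero, neg_zero]
    · change classInner (-Y j) (-X i') = 0
      rw [classInner_neg_left', classInner_neg_right', hsymm (hoxy i' j), neg_zero, neg_zero]
    · change classInner (-Y j) (Z i' j') = 0
      rw [classInner_neg_left', hoyz j i' j', neg_zero]
    · change classInner (-X i) (fun _ => 1) = 0
      rw [classInner_neg_left', hx1 i, neg_zero]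
    · change classInner (-X i) (-Y j') = 0
      rw [classInner_neg_left', classInner_neg_right', hoxy i j', neg_zero, neg_zero]
    · change classInner (-X i) (-X i') = 0
      have hii : i ≠ i' := fun e => h (by rw [e])
      rw [classInner_neg_left', classInner_neg_right', hox i i' hii, neg_zero, neg_zero]
    · change classInner (-X i) (Z i' j') = 0
      rw [classInner_neg_left', hoxz i i' j', neg_zero]
    · exact hz1 i j
    · change classInner (Z i j) (-Y j') = 0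
      rw [classInner_neg_right', hsymm (hoyz j' i j), neg_zero]
    · change classInner (Z i j) (-X i') = 0
      rw [classInner_neg_right', hsymm (hoxz i' i j), neg_zero]
    · refine hozz i i' j j' ?_
      rintro ⟨rfl, rfl⟩
      exact h rfl
  have hinj := tiG_inj (W₁ := W₁) (W₂ := W₂) hcomm
  have hsurj := tiG_surj (W₁ := W₁) (W₂ := W₂) hcomm hdisj
  set s := Function.surjInv hsurj with hs
  have hsg : ∀ k, s (tiG k) = k := Function.leftInverse_surjInv ⟨hinj, hsurj⟩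
  have hgs : ∀ ω, tiG (s ω) = ω := Function.rightInverse_surjInv hsurj
  have hmr : ∀ a : ↥(W₁ ⊔ W₂) →* ℂˣ, a * 1 = a := fun a => MonoidHom.ext fun w => by simp
  have hml : ∀ a : ↥(W₁ ⊔ W₂) →* ℂˣ, 1 * a = a := fun a => MonoidHom.ext fun w => by simp
  have hg00 : tiG ((none, none) : Option (TIRow W₁ W₂) × Option (TICol W₁ W₂)) = 1 := hmr 1
  have hg10 : ∀ i : TIRow W₁ W₂, tiG ((some i, none) : Option (TIRow W₁ W₂) × Option (TICol W₁ W₂)) = i.1 :=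
    fun i => hmr _
  have hg01 : ∀ j : TICol W₁ W₂, tiG ((none, some j) : Option (TIRow W₁ W₂) × Option (TICol W₁ W₂)) = j.1 :=
    fun j => hml _
  have hg11 : ∀ (i : TIRow W₁ W₂) (j : TICol W₁ W₂),
      tiG ((some i, some j) : Option (TIRow W₁ W₂) × Option (TICol W₁ W₂)) = i.1 * j.1 := fun i j => rfl
  have hTF : ∀ φ ψ : ↥(W₁ ⊔ W₂) →* ℂˣ, φ ≠ 1 → ψ ≠ 1 →
      (∀ w : ↥(W₁ ⊔ W₂), (w : G) ∈ W₂ → φ w = 1) → (∀ w : ↥(W₁ ⊔ W₂), (w : G) ∈ W₁ → ψ w = 1) →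
      ∃ k₀ k₁ k₂ k₃, tiG k₀ = 1 ∧ tiG k₁ = φ ∧ tiG k₂ = ψ ∧ tiG k₃ = φ * ψ ∧
        tiT W₁ W₂ φ ψ = F k₀ - F k₁ - F k₂ + F k₃ := by
    intro φ ψ h1 h2 h3 h4
    refine ⟨(none, none), (some ⟨φ, h1, h3⟩, none), (none, some ⟨ψ, h2, h4⟩),
      (some ⟨φ, h1, h3⟩, some ⟨ψ, h2, h4⟩), hg00, hg10 _, hg01 _, hg11 _ _, ?_⟩
    have := hT ⟨φ, h1, h3⟩ ⟨ψ, h2, h4⟩
    simp only at this
    rw [this]
    change (fun _ => 1) + X _ + Y _ + Z _ _ = (fun _ => 1) - (-X _) - (-Y _) + Z _ _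
    abel
  refine ⟨fun ω => F (s ω), ?_, ?_, ?_, ?_, ?_⟩
  · exact fun ω => hsF (s ω)
  · intro ω ω'
    by_cases h : ω = ω'
    · subst h
      rw [if_pos rfl]
      exact hF1 _
    · rw [if_neg h]
      refine hFF _ _ fun e => h ?_
      rw [← hgs ω, ← hgs ω', e]
  · show F (s 1) = _
    rw [← hg00, hsg]
    rfl
  · intro ω w hw₁ hw₂
    have := family_eq_on hW F tiG hinj (fun k => gen_isClass (hsF k).isGeneralized) hFF hF1 hTF (s ω) w hw₁ hw₂
    rw [hgs] at this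
    exact this
  · intro φ ψ h1 h2 h3 h4
    have e1 : s φ = (some ⟨φ, h1, h3⟩, none) :=
      (congrArg s (hg10 ⟨φ, h1, h3⟩).symm).trans (hsg _)
    have e2 : s ψ = (none, some ⟨ψ, h2, h4⟩) :=
      (congrArg s (hg01 ⟨ψ, h2, h4⟩).symm).trans (hsg _)
    have e3 : s (φ * ψ) = (some ⟨φ, h1, h3⟩, some ⟨ψ, h2, h4⟩) :=
      (congrArg s (hg11 ⟨φ, h1, h3⟩ ⟨ψ, h2, h4⟩).symm).trans (hsg _)
    have := hT ⟨φ, h1, h3⟩ ⟨ψ, h2, h4⟩
    simp only [tiT] at this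
    rw [this]
    funext g
    simp only [e1, e2, e3]
    change 1 + X _ g + Y _ g + Z _ _ g = 1 - (-X _) g - (-Y _) g + Z _ _ g
    simp only [Pi.neg_apply]
    ring

end Fam

end Cfsg.Agent.H06
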