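import Cfsg.Agent.Lib.H06.DadeGen1
import Cfsg.Agent.Lib.H06.Brauer1

/-!
# Orbit sums of induced generalized characters; signs of permutations of invariant subsets.
-/

set_option autoImplicit false

namespace Cfsg.Agent.H06.DadeGen

open Cfsg Cfsg.Agent.H21 Cfsg.Agent.H06

universe u

section Orbit

variable {L : Type u} [Group L] [Fintype L] {Ω : Type u} [Fintype Ω] [MulAction L Ω]

open Classical in
/-- Induction from a stabilizer, as an orbit sum. -/
theorem orbit_ind (w : Ω → L → ℂ)
    (hw : ∀ (s : Ω) (g y : L), y • s = s → w (g • s) (g * y * g⁻¹) = w s y) (s₀ : Ω) (x : L) :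
    indFun (MulAction.stabilizer L s₀) (fun y => w s₀ y) x =
      ∑ s ∈ Finset.univ.filter (fun s => s ∈ MulAction.orbit L s₀),
        if x • s = s then w s x else 0 := by
  set St := MulAction.stabilizer L s₀ with hSt
  set φ : Ω → ℂ := fun s => if x • s = s then w s x else 0 with hφ
  have hext : ∀ g : L, extendByZero St (fun y => w s₀ y) (g⁻¹ * x * g) = φ (g • s₀) := by
    intro g
    simp only [hφ]
    by_cases h : x • (g • s₀) = g • s₀
    · rw [if_pos h]
      have hm : g⁻¹ * x * g ∈ St := by
        rw [hSt, MulAction.mem_stabilizer_iff, mul_smul, mul_smul, h, inv_smul_smul]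
      have h1 := extendByZero_coe St (fun y => w s₀ y) ⟨_, hm⟩
      simp only at h1
      rw [h1]
      have h2 := hw s₀ g _ hm
      have h3 : g * (g⁻¹ * x * g) * g⁻¹ = x := by group
      rw [h3] at h2
      exact h2.symm
    · rw [if_neg h]
      apply extendByZero_of_not_mem
      intro hm
      apply h
      have h1 : (g⁻¹ * x * g) • s₀ = s₀ := hm
      have h2 := congrArg (g • ·) h1
      simp only [mul_smul, smul_inv_smul] at h2
      exact h2
  have hfib : ∀ s ∈ Finset.univ.filter (fun s => s ∈ MulAction.orbit L s₀),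
      ((Finset.univ.filter fun g : L => g • s₀ = s).card : ℂ) = Nat.card St := by
    intro s hs
    obtain ⟨g₀, rfl⟩ := MulAction.mem_orbit_iff.mp (Finset.mem_filter.mp hs).2
    rw [← Fintype.card_subtype, ← Nat.card_eq_fintype_card]
    congr 1
    refine Nat.card_congr
      ⟨fun g => ⟨g₀⁻¹ * g.1, ?_⟩, fun h => ⟨g₀ * h.1, ?_⟩, ?_, ?_⟩
    · show (g₀⁻¹ * g.1) • s₀ = s₀
      rw [mul_smul, g.2, inv_smul_smul]
    · show (g₀ * h.1) • s₀ = g₀ • s₀
      rw [mul_smul]
      congr 1
      exact h.2
    · intro g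
      apply Subtype.ext
      simp
    · intro h
      apply Subtype.ext
      simp
  simp only [indFun, hext]
  have hmaps : ∀ g ∈ (Finset.univ : Finset L),
      g • s₀ ∈ Finset.univ.filter (fun s => s ∈ MulAction.orbit L s₀) := by
    intro g _
    exact Finset.mem_filter.mpr ⟨Finset.mem_univ _, MulAction.mem_orbit s₀ g⟩
  rw [← Finset.sum_fiberwise_of_maps_to hmaps]
  have h1 : ∀ s ∈ Finset.univ.filter (fun s => s ∈ MulAction.orbit L s₀),
      ∑ g ∈ Finset.univ.filter (fun g : L => g • s₀ = s), φ (g • s₀) = (Nat.card St : ℂ) * φ s := by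
    intro s hs
    rw [Finset.sum_congr rfl (g := fun _ => φ s)
      (fun g hg => by rw [(Finset.mem_filter.mp hg).2]), Finset.sum_const, nsmul_eq_mul, hfib s hs]
  rw [Finset.sum_congr rfl h1, ← Finset.mul_sum, ← mul_assoc,
    inv_mul_cancel₀ (Nat.cast_ne_zero.mpr Nat.card_pos.ne'), one_mul]

open Classical in
/-- Orbit sums of induced generalized characters. -/
theorem gen_orbit_sum (w : Ω → L → ℂ)
    (hw : ∀ (s : Ω) (g y : L), y • s = s → w (g • s) (g * y * g⁻¹) = w s y)
    (hgen : ∀ s, IsGeneralizedCharacter (MulAction.stabilizer L s) (fun y => w s y)) :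
    IsGeneralizedCharacter L (fun x => ∑ s : Ω, if x • s = s then w s x else 0) := by
  haveI : Fintype (MulAction.orbitRel.Quotient L Ω) := Fintype.ofFinite _
  have key : (fun x => ∑ s : Ω, if x • s = s then w s x else 0) =
      ∑ q : MulAction.orbitRel.Quotient L Ω,
        indFun (MulAction.stabilizer L (Quotient.out q)) (fun y => w (Quotient.out q) y) := by
    funext x
    rw [Finset.sum_apply]
    simp only [orbit_ind w hw]
    rw [← Finset.sum_fiberwise Finset.univ
      (fun s : Ω => (Quotient.mk'' s : MulAction.orbitRel.Quotient L Ω))]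
    refine Finset.sum_congr rfl fun q _ => ?_
    refine Finset.sum_congr ?_ fun _ _ => rfl
    ext s
    simp only [Finset.mem_filter, Finset.mem_univ, true_and]
    rw [← MulAction.orbitRel.Quotient.mem_orbit,
      MulAction.orbitRel.Quotient.orbit_eq_orbit_out q Quotient.out_eq']
  rw [key]
  refine gen_sum _ _ fun q _ => ?_
  exact Cfsg.Agent.H06.Brauer.gen_indFun _ (hgen _)

end Orbit

section Sign

open scoped Pointwise

variable {L : Type u} [Group L] {X : Type u} [Fintype X] [DecidableEq X] [MulAction L X]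

theorem mem_of_smul_mem {S : Finset X} {y : L} (hy : y • S = S) (a : X) : y • a ∈ S ↔ a ∈ S := by
  conv_lhs => rw [← hy]
  exact Finset.smul_mem_smul_finset_iff y

/-- The permutation of an invariant subset. -/
def permOf (S : Finset X) (y : L) (hy : y • S = S) : Equiv.Perm {a // a ∈ S} :=
  (MulAction.toPerm y).subtypePerm (mem_of_smul_mem hy)

open Classical in
/-- The sign of the permutation of an invariant subset. -/
noncomputable def sgnVal (S : Finset X) (y : L) : ℤ :=
  if hy : y • S = S then ((Equiv.Perm.sign (permOf S y hy) : ℤˣ) : ℤ) else 1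

theorem sgnVal_sq (S : Finset X) (y : L) : sgnVal S y = 1 ∨ sgnVal S y = -1 := by
  unfold sgnVal
  split_ifs with hy
  · rcases Int.units_eq_one_or (Equiv.Perm.sign (permOf S y hy)) with h | h <;> simp [h]
  · exact Or.inl rfl

theorem sgnVal_mul {S : Finset X} {y₁ y₂ : L} (h₁ : y₁ • S = S) (h₂ : y₂ • S = S) :
    sgnVal S (y₁ * y₂) = sgnVal S y₁ * sgnVal S y₂ := by
  have h : (y₁ * y₂) • S = S := by rw [mul_smul, h₂, h₁]
  unfold sgnVal
  have e : permOf S (y₁ * y₂) h = permOf S y₁ h₁ * permOf S y₂ h₂ := by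
    apply Equiv.ext
    intro a
    apply Subtype.ext
    show (y₁ * y₂) • a.1 = y₁ • (y₂ • a.1)
    rw [mul_smul]
  rw [dif_pos h, dif_pos h₁, dif_pos h₂, e, map_mul, Units.val_mul]

theorem sgnVal_one (S : Finset X) : sgnVal S (1 : L) = 1 := by
  have h : (1 : L) • S = S := one_smul _ _
  unfold sgnVal
  rw [dif_pos h]
  have : permOf S (1 : L) h = 1 := by
    ext a
    simp [permOf]
  rw [this]
  simp

theorem sgnVal_conj {S : Finset X} {y : L} (hy : y • S = S) (g : L) :
    sgnVal (g • S) (g * y * g⁻¹) = sgnVal S y := by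
  have h : (g * y * g⁻¹) • (g • S) = g • S := by
    rw [← mul_smul, inv_mul_cancel_right, mul_smul, hy]
  unfold sgnVal
  rw [dif_pos h, dif_pos hy]
  suffices key : Equiv.Perm.sign (permOf S y hy) = Equiv.Perm.sign (permOf (g • S) (g * y * g⁻¹) h) by
    rw [key]
  refine Equiv.Perm.sign_bij (f := permOf S y hy) (g := permOf (g • S) (g * y * g⁻¹) h)
    (fun a _ => ⟨g • a.1, (Finset.smul_mem_smul_finset_iff g).mpr a.2⟩)
    ?_ ?_ ?_
  · intro a _ _
    apply Subtype.ext
    show g • (y • a.1) = (g * y * g⁻¹) • (g • a.1)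
    rw [mul_smul, mul_smul, inv_smul_smul]
  · intro a b _ _ hab
    apply Subtype.ext
    have := Subtype.mk.inj hab
    exact MulAction.injective g this
  · intro b hb
    have hb2 : g⁻¹ • b.1 ∈ S := by
      have := b.2
      rw [Finset.mem_smul_finset] at this
      obtain ⟨c, hc, hc2⟩ := this
      rw [← hc2, inv_smul_smul]
      exact hc
    refine ⟨⟨g⁻¹ • b.1, hb2⟩, ?_, ?_⟩
    · intro he
      apply hb
      apply Subtype.ext
      have h1 : y • (g⁻¹ • b.1) = g⁻¹ • b.1 := congrArg Subtype.val he
      show (g * y * g⁻¹) • b.1 = b.1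
      rw [mul_smul, mul_smul, h1, smul_inv_smul]
    · apply Subtype.ext
      simp

theorem sgnVal_insert {S : Finset X} {y : L} {a : X} (ha : a ∉ S) (hya : y • a = a)
    (hy : y • S = S) : sgnVal (insert a S) y = sgnVal S y := by
  have h : y • (insert a S) = insert a S := by
    rw [Finset.smul_finset_insert, hya, hy]
  unfold sgnVal
  rw [dif_pos h, dif_pos hy]
  suffices key : Equiv.Perm.sign (permOf S y hy) = Equiv.Perm.sign (permOf (insert a S) y h) by
    rw [key]
  refine Equiv.Perm.sign_bij (f := permOf S y hy) (g := permOf (insert a S) y h)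
    (fun b _ => ⟨b.1, Finset.mem_insert_of_mem b.2⟩) ?_ ?_ ?_
  · intro b _ _
    apply Subtype.ext
    rfl
  · intro b c _ _ hbc
    apply Subtype.ext
    exact Subtype.mk.inj hbc
  · intro b hb
    have hne : y • b.1 ≠ b.1 := by
      intro he
      apply hb
      apply Subtype.ext
      exact he
    have hb2 : b.1 ∈ S := by
      rcases Finset.mem_insert.mp b.2 with h1 | h1
      · exact absurd (by rw [h1]; exact hya) hne
      · exact h1
    refine ⟨⟨b.1, hb2⟩, ?_, rfl⟩
    intro he
    apply hne
    have h1 : y • b.1 = b.1 := congrArg Subtype.val he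
    exact h1

theorem sgnVal_empty (y : L) : sgnVal (∅ : Finset X) y = 1 := by
  have h : y • (∅ : Finset X) = ∅ := Finset.smul_finset_empty y
  unfold sgnVal
  rw [dif_pos h]
  have : permOf (∅ : Finset X) y h = 1 := by
    ext a
    exact absurd a.2 (Finset.notMem_empty _)
  rw [this]
  simp

theorem sgnVal_singleton {y : L} {a : X} (hya : y • a = a) : sgnVal ({a} : Finset X) y = 1 := by
  have h := sgnVal_insert (S := ∅) (y := y) (a := a) (Finset.notMem_empty _) hya
    (Finset.smul_finset_empty y)
  rw [sgnVal_empty] at h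
  simpa using h

end Sign

end Cfsg.Agent.H06.DadeGen
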