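import Cfsg.Agent.Lib.H06.DadeGen2

/-!
# Integrality of the Dade map: the alternating sum over subsets of `A`.

For a character `χ` of `G`, the function `a ↦ |H a|⁻¹ Σ_{u ∈ H a} χ (a u)` on `A` agrees with a
generalized character of `L`, namely an alternating sum over `L`-orbits of nonempty subsets `S ⊆ A`
of characters induced from `N_L(S)` (the action of `N_L(S)` on the fixed points of `⋂_{b ∈ S} H b`,
twisted by the sign of the permutation of `S`).
-/

set_option autoImplicit false

namespace Cfsg.Agent.H06.DadeGen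

open Cfsg Cfsg.Agent.H21 Cfsg.Agent.H06
open scoped Pointwise

universe u

section Main

variable {G : Type u} [Group G] [Fintype G] {A : Set G} {L : Subgroup G} {H : G → Subgroup G}

theorem dade_mem_H (hD : DadeHypothesis A L H) {a b r : G} (ha : a ∈ A) (hb : b ∈ A)
    (hr : r ∈ Subgroup.centralizer ({a} : Set G)) (hrn : r ^ Nat.card (H b) = 1) : r ∈ H a := by
  obtain ⟨h, hh, c, hc, hk⟩ := dade_factor hD ha hr
  have hcC := (Subgroup.mem_inf.mp hc).2
  have hpow : ∀ n : ℕ, ∃ h' ∈ H a, (h * c) ^ n = h' * c ^ n := by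
    intro n
    induction n with
    | zero => exact ⟨1, Subgroup.one_mem _, by simp⟩
    | succ n ih =>
      obtain ⟨h', hh', e⟩ := ih
      refine ⟨h' * (c ^ n * h * (c ^ n)⁻¹), Subgroup.mul_mem _ hh'
        (hD.conj_mem_H a ha _ (Subgroup.pow_mem _ hcC n) h hh), ?_⟩
      rw [pow_succ, e, pow_succ]
      group
  obtain ⟨h', hh', e⟩ := hpow (Nat.card (H b))
  rw [← hk, hrn] at e
  have hcn : c ^ Nat.card (H b) ∈ H a := by
    have : c ^ Nat.card (H b) = h'⁻¹ := eq_inv_of_mul_eq_one_right e.symm
    rw [this]
    exact Subgroup.inv_mem _ hh'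
  have hcn2 : c ^ Nat.card (H b) ∈ L ⊓ Subgroup.centralizer ({a} : Set G) := Subgroup.pow_mem _ hc _
  have hcn3 : c ^ Nat.card (H b) = 1 := by
    have h3 : c ^ Nat.card (H b) ∈ H a ⊓ (L ⊓ Subgroup.centralizer ({a} : Set G)) :=
      Subgroup.mem_inf.mpr ⟨hcn, hcn2⟩
    rw [hD.inf_eq_bot a ha, Subgroup.mem_bot] at h3
    exact h3
  have hc1 : orderOf c ∣ Nat.card (H b) := orderOf_dvd_of_pow_eq_one hcn3
  have hc2 : orderOf c ∣ Nat.card ↥(L ⊓ Subgroup.centralizer ({a} : Set G)) :=
    Subgroup.orderOf_dvd_natCard _ hc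
  have hc3 : orderOf c = 1 := Nat.eq_one_of_dvd_coprimes (hD.coprime b hb a ha) hc1 hc2
  rw [orderOf_eq_one_iff] at hc3
  rw [hk, hc3, mul_one]
  exact hh

/-- The intersection of the subgroups `H b`, `b ∈ S`. -/
def interH (H : G → Subgroup G) (S : Finset A) : Subgroup G := ⨅ b ∈ S, H (b : G)

theorem mem_interH {S : Finset A} {u : G} : u ∈ interH H S ↔ ∀ b ∈ S, u ∈ H (b : G) := by
  simp [interH, Subgroup.mem_iInf]

variable [Fintype A] [DecidableEq A] [MulAction L A] (hact : ∀ (y : L) (a : A), ((y • a : A) : G) = y * a * y⁻¹)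

include hact

theorem mem_interH_smul (hD : DadeHypothesis A L H) (g : L) (S : Finset A) (u : G) :
    u ∈ interH H (g • S) ↔ (g : G)⁻¹ * u * g ∈ interH H S := by
  rw [mem_interH, mem_interH]
  constructor
  · intro h b hb
    have h1 := h (g • b) (Finset.smul_mem_smul_finset hb)
    have h2 := hact g b
    rw [h2] at h1
    refine dade_H_conj hD (a := g * b * (g : G)⁻¹) (b := b) (g := (g : G)⁻¹)
      (hD.conj_mem g g.2 b b.2) b.2 (by group) h1 |> fun h3 => ?_
    simpa using h3
  · intro h c hc
    obtain ⟨b, hb, rfl⟩ := Finset.mem_smul_finset.mp hc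
    have h1 := h b hb
    rw [hact g b]
    have h3 := dade_H_conj hD (a := b) (b := g * b * (g : G)⁻¹) (g := g) b.2
      (hD.conj_mem g g.2 b b.2) rfl h1
    have e : (g : G) * ((g : G)⁻¹ * u * g) * (g : G)⁻¹ = u := by group
    rwa [e] at h3

theorem interH_normalized (hD : DadeHypothesis A L H) {y : L} {S : Finset A} (hy : y • S = S)
    (r : G) (hr : r ∈ interH H S) : (y : G) * r * (y : G)⁻¹ ∈ interH H S := by
  have h := (mem_interH_smul hact hD y S ((y : G) * r * (y : G)⁻¹)).mpr (by
    have e : (y : G)⁻¹ * ((y : G) * r * (y : G)⁻¹) * y = r := by group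
    rwa [e])
  rwa [hy] at h

omit hact [Fintype A] [DecidableEq A] [MulAction L A] in
theorem avg_conj {R R' : Subgroup G} {f : G → ℂ} (hf : IsClassFunction G f) (g y : G)
    (hR : ∀ u, u ∈ R' ↔ g⁻¹ * u * g ∈ R) : avg R' f (g * y * g⁻¹) = avg R f y := by
  classical
  have hcard : Nat.card R' = Nat.card R := by
    refine Nat.card_congr ⟨fun u => ⟨g⁻¹ * u * g, (hR u).mp u.2⟩,
      fun v => ⟨g * v * g⁻¹, (hR _).mpr (by simpa [mul_assoc] using v.2)⟩, ?_, ?_⟩
    · intro u
      apply Subtype.ext
      show g * (g⁻¹ * (u : G) * g) * g⁻¹ = u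
      group
    · intro v
      apply Subtype.ext
      show g⁻¹ * (g * (v : G) * g⁻¹) * g = v
      group
  simp only [avg]
  rw [hcard]
  congr 1
  refine Fintype.sum_equiv (MulAut.conj g⁻¹).toEquiv _ _ fun u => ?_
  show (if u ∈ R' then f (g * y * g⁻¹ * u) else 0) =
    if g⁻¹ * u * g⁻¹⁻¹ ∈ R then f (y * (g⁻¹ * u * g⁻¹⁻¹)) else 0
  have e : g⁻¹ * u * g⁻¹⁻¹ = g⁻¹ * u * g := by group
  rw [e]
  by_cases hu : u ∈ R'
  · rw [if_pos hu, if_pos ((hR u).mp hu)]
    have := hf (y * (g⁻¹ * u * g)) g
    rw [← this]
    congr 1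
    group
  · rw [if_neg hu, if_neg (fun h => hu ((hR u).mpr h))]

omit hact in
/-- The weights. -/
noncomputable def wt (H : G → Subgroup G) (χ : G → ℂ) (S : Finset A) (y : L) : ℂ :=
  if S = ∅ then 0 else ((-1 : ℂ) ^ (S.card - 1)) * (sgnVal S y : ℂ) * avg (interH H S) χ (y : G)

theorem wt_conj (hD : DadeHypothesis A L H) {χ : G → ℂ} (hχ : IsClassFunction G χ)
    (S : Finset A) (g y : L) (hy : y • S = S) : wt H χ (g • S) (g * y * g⁻¹) = wt H χ S y := by
  unfold wt
  by_cases hS : S = ∅
  · subst hS
    simp
  · have hS' : g • S ≠ ∅ := by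
      intro h
      apply hS
      have := congrArg (g⁻¹ • ·) h
      simpa using this
    rw [if_neg hS, if_neg hS', Finset.card_smul_finset, sgnVal_conj hy g]
    congr 1
    have := avg_conj (R := interH H S) (R' := interH H (g • S)) hχ (g : G) (y : G)
      (fun u => mem_interH_smul hact hD g S u)
    simpa using this

theorem wt_gen (hD : DadeHypothesis A L H) {χ : G → ℂ} (hχ : IsCharacter G χ) (S : Finset A) :
    IsGeneralizedCharacter (MulAction.stabilizer L S)
      (fun y : MulAction.stabilizer L S => wt (A := A) (L := L) H χ S (y : L)) := by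
  by_cases hS : S = ∅
  · subst hS
    have : (fun y : MulAction.stabilizer L (∅ : Finset A) => wt (A := A) (L := L) H χ ∅ (y : L)) = 0 := by
      funext y
      simp [wt]
    rw [this]
    exact isGeneralized_zero
  · have h1 : IsCharacter (MulAction.stabilizer L S)
        (fun y => avg (interH H S) χ (((L.subtype.comp (MulAction.stabilizer L S).subtype) y))) := by
      refine avg_isCharacter _ _ (fun y r hr => ?_) hχ
      exact interH_normalized hact hD y.2 r hr
    have h2 : IsCharacter (MulAction.stabilizer L S) (fun y => (sgnVal S (y : L) : ℂ)) := by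
      refine Cfsg.Agent.H10.isCharacter_of_mul _ (fun a b => ?_) ?_
      · show ((sgnVal S ((a : L) * (b : L)) : ℤ) : ℂ) = _
        rw [sgnVal_mul a.2 b.2]
        push_cast
        rfl
      · show ((sgnVal S (1 : L) : ℤ) : ℂ) = 1
        rw [sgnVal_one]
        simp
    have h3 := gen_of_char (isCharacter_mul h2 h1)
    have h4 := gen_zsmul h3 ((-1 : ℤ) ^ (S.card - 1))
    convert h4 using 1
    funext y
    simp only [wt, if_neg hS, Pi.smul_apply, Pi.mul_apply, smul_eq_mul]
    simp [mul_assoc]

/-- Toggling an element fixed by `a`. -/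
theorem wt_toggle (hD : DadeHypothesis A L H) {χ : G → ℂ} (hχ : IsClassFunction G χ)
    (a : A) (aL : L) (haL : (aL : G) = a) {S : Finset A} (hS : S ≠ ∅) (ha : a ∉ S)
    (hyS : aL • S = S) (hya : aL • a = a) :
    wt H χ (insert a S) aL = - wt H χ S aL := by
  have hins : insert a S ≠ ∅ := Finset.insert_ne_empty a S
  unfold wt
  rw [if_neg hS, if_neg hins, sgnVal_insert ha hya hyS, Finset.card_insert_of_notMem ha]
  -- the averages agree
  obtain ⟨b, hb⟩ := Finset.nonempty_iff_ne_empty.mpr hS
  have hnorm : ∀ x ∈ interH H S, (a : G) * x * (a : G)⁻¹ ∈ interH H S := by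
    intro x hx
    have := interH_normalized hact hD hyS x hx
    rwa [haL] at this
  have hRb : interH H S ≤ H b := fun u hu => mem_interH.mp hu b hb
  have hcop : (orderOf (a : G)).Coprime (Nat.card (interH H S)) := by
    have h1 := dade_coprime_order hD b.2 a.2 (u := 1) (Subgroup.one_mem _)
    have h2 : Nat.card (interH H S) ∣ Nat.card (H b) := Subgroup.card_dvd_of_le hRb
    have h3 : (Nat.card (H b)).Coprime (orderOf (a : G)) := by
      have h4 := hD.coprime b b.2 a a.2
      have h5 : orderOf (a : G) ∣ Nat.card ↥(L ⊓ Subgroup.centralizer ({(a : G)} : Set G)) := by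
        apply Subgroup.orderOf_dvd_natCard
        refine Subgroup.mem_inf.mpr ⟨hD.subset a.2, Subgroup.mem_centralizer_iff.mpr ?_⟩
        rintro _ rfl
        rfl
      exact Nat.Coprime.coprime_dvd_right h5 h4
    exact (Nat.Coprime.coprime_dvd_left h2 h3).symm
  have hclass := avg_coprime hnorm hcop hχ
  have hinter : interH H (insert a S) = interH H S ⊓ Subgroup.centralizer ({(a : G)} : Set G) := by
    ext u
    rw [Subgroup.mem_inf, mem_interH]
    constructor
    · intro h
      refine ⟨mem_interH.mpr fun c hc => h c (Finset.mem_insert_of_mem hc), ?_⟩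
      exact hD.le_centralizer a a.2 (h a (Finset.mem_insert_self a S))
    · rintro ⟨h1, h2⟩ c hc
      rcases Finset.mem_insert.mp hc with rfl | hc
      · refine dade_mem_H hD c.2 b.2 h2 ?_
        have h3 : (⟨u, hRb h1⟩ : H b) ^ Nat.card (H b) = 1 := pow_card_eq_one'
        have h4 := congrArg Subtype.val h3
        rw [SubmonoidClass.coe_pow] at h4
        exact h4
      · exact mem_interH.mp h1 c hc
  rw [haL, hinter, ← hclass]
  have hcard : S.card ≠ 0 := Finset.card_ne_zero.mpr (Finset.nonempty_iff_ne_empty.mpr hS)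
  have e : S.card + 1 - 1 = (S.card - 1) + 1 := by omega
  rw [e, pow_succ]
  ring

/-- The alternating sum has the right value on `A`. -/
theorem sum_wt (hD : DadeHypothesis A L H) {χ : G → ℂ} (hχ : IsClassFunction G χ)
    (a : A) (aL : L) (haL : (aL : G) = a) :
    ∑ S : Finset A, (if aL • S = S then wt H χ S aL else 0) = avg (H a) χ a := by
  classical
  have hya : aL • a = a := by
    apply Subtype.ext
    rw [hact]
    simp [haL]
  let T : Finset (Finset A) := Finset.univ.filter fun S => aL • S = S
  have h1 : ∑ S : Finset A, (if aL • S = S then wt H χ S aL else 0) = ∑ S ∈ T, wt H χ S aL := by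
    rw [Finset.sum_ite, Finset.sum_const_zero, add_zero]
  rw [h1]
  have hmem : ∀ S, S ∈ T ↔ aL • S = S := fun S => by simp [T]
  have hsingle : ({a} : Finset A) ∈ T := by
    rw [hmem, Finset.smul_finset_singleton, hya]
  have hempty : (∅ : Finset A) ∈ T := by
    rw [hmem, Finset.smul_finset_empty]
  have hne : ({a} : Finset A) ≠ ∅ := Finset.singleton_ne_empty a
  let T' : Finset (Finset A) := (T.erase ∅).erase {a}
  have hT' : ∀ S, S ∈ T' ↔ S ≠ {a} ∧ S ≠ ∅ ∧ aL • S = S := by
    intro S
    simp only [T', Finset.mem_erase, hmem]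
  have hzero : ∑ S ∈ T', wt H χ S aL = 0 := by
    have hinv : ∀ S ∈ T', (if a ∈ S then S.erase a else insert a S) ∈ T' := by
      intro S hS
      obtain ⟨h1, h2, h3⟩ := (hT' S).mp hS
      rw [hT']
      split_ifs with ha
      · refine ⟨?_, ?_, ?_⟩
        · intro h
          have := Finset.mem_erase.mp (h ▸ Finset.mem_singleton_self a : a ∈ S.erase a)
          exact this.1 rfl
        · intro h
          apply h1
          ext c
          simp only [Finset.mem_singleton]
          constructor
          · intro hc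
            by_contra hca
            have : c ∈ S.erase a := Finset.mem_erase.mpr ⟨hca, hc⟩
            rw [h] at this
            exact Finset.notMem_empty _ this
          · rintro rfl
            exact ha
        · rw [← Finset.sdiff_singleton_eq_erase, Finset.smul_finset_sdiff,
            Finset.smul_finset_singleton, hya, h3]
      · refine ⟨?_, Finset.insert_ne_empty a S, ?_⟩
        · intro h
          apply h2
          ext c
          simp only [Finset.notMem_empty, iff_false]
          intro hc
          have h4 : c ∈ insert a S := Finset.mem_insert_of_mem hc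
          rw [h, Finset.mem_singleton] at h4
          exact ha (h4 ▸ hc)
        · rw [Finset.smul_finset_insert, hya, h3]
    refine Finset.sum_involution (fun S _ => if a ∈ S then S.erase a else insert a S) ?_ ?_ hinv ?_
    · intro S hS
      obtain ⟨h1, h2, h3⟩ := (hT' S).mp hS
      split_ifs with ha
      · have hS1 : S.erase a ≠ ∅ := by
          have := hinv S hS
          rw [if_pos ha] at this
          exact ((hT' _).mp this).2.1
        have hS2 : aL • S.erase a = S.erase a := by
          have := hinv S hS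
          rw [if_pos ha] at this
          exact ((hT' _).mp this).2.2
        have := wt_toggle hact hD hχ a aL haL hS1 (Finset.notMem_erase a S) hS2 hya
        rw [Finset.insert_erase ha] at this
        rw [this]
        ring
      · rw [wt_toggle hact hD hχ a aL haL h2 ha h3 hya]
        ring
    · intro S _ _
      split_ifs with ha
      · intro h
        have := Finset.notMem_erase a S
        rw [h] at this
        exact this ha
      · intro h
        rw [← h] at ha
        exact ha (Finset.mem_insert_self a S)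
    · intro S _
      split_ifs with h1 h2 h2
      · exact absurd h2 (Finset.notMem_erase a S)
      · exact Finset.insert_erase h1
      · exact Finset.erase_insert h1
      · exact absurd (Finset.mem_insert_self a S) h2
  have h2 : ∑ S ∈ T, wt H χ S aL = wt H χ {a} aL + (wt (A := A) H χ ∅ aL + ∑ S ∈ T', wt H χ S aL) := by
    rw [← Finset.add_sum_erase T _ hempty, ← Finset.add_sum_erase (T.erase ∅) _
      (Finset.mem_erase.mpr ⟨hne, hsingle⟩)]
    ring
  rw [h2, hzero]
  have h3 : wt (A := A) H χ ∅ aL = 0 := by simp [wt]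
  have h4 : wt H χ {a} aL = avg (H a) χ a := by
    unfold wt
    rw [if_neg hne, sgnVal_singleton hya]
    have h5 : interH H ({a} : Finset A) = H a := by
      ext u
      rw [mem_interH]
      simp
    rw [h5, haL]
    simp
  rw [h3, h4]
  ring

end Main

section Final

variable {G : Type u} [Group G] [Fintype G] {A : Set G} {L : Subgroup G} {H : G → Subgroup G}

/-- The action on `A`. -/
def dadeAct (hD : DadeHypothesis A L H) : MulAction L A where
  smul y a := ⟨y * a * (y : G)⁻¹, hD.conj_mem y y.2 a a.2⟩
  one_smul a := by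
    apply Subtype.ext
    show ((1 : L) : G) * a * ((1 : L) : G)⁻¹ = a
    simp
  mul_smul x y a := by
    apply Subtype.ext
    show ((x * y : L) : G) * a * ((x * y : L) : G)⁻¹ = x * (y * a * (y : G)⁻¹) * (x : G)⁻¹
    simp only [Subgroup.coe_mul]
    group

/-- **The adjoint of the Dade map takes generalized values.** -/
theorem exists_gen_adjoint (hD : DadeHypothesis A L H) {χ : G → ℂ} (hχ : IsCharacter G χ) :
    ∃ ψ : L → ℂ, IsGeneralizedCharacter L ψ ∧
      ∀ a : L, (a : G) ∈ A → ψ a = avg (H a) χ a := by
  classical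
  letI : MulAction L A := dadeAct hD
  haveI : Fintype A := Fintype.ofFinite A
  have hact : ∀ (y : L) (a : A), ((y • a : A) : G) = y * a * (y : G)⁻¹ := fun _ _ => rfl
  haveI : Fintype (IrrCharacter G) := Fintype.ofFinite _
  have hcl : IsClassFunction G χ := isClassFunction_of_isCharacter hχ
  refine ⟨_, gen_orbit_sum (wt H χ) (fun S g y hy => wt_conj hact hD hcl S g y hy)
    (fun S => wt_gen hact hD hχ S), ?_⟩
  intro a ha
  have h := sum_wt hact hD hcl ⟨a, ha⟩ a rfl
  rw [← h]
  refine Finset.sum_congr rfl fun S _ => ?_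
  congr

end Final

end Cfsg.Agent.H06.DadeGen
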