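import Cfsg.Agent.Lib.H06.DadeGen3
import Cfsg.Agent.Lib.H23.CharAvg

/-!
# The Dade map is integral; Dade images of `χ - conj χ`.
-/

set_option autoImplicit false

namespace Cfsg.Agent.H06.DadeGen

open Cfsg Cfsg.Agent.H21 Cfsg.Agent.H06
open scoped ComplexConjugate

universe u

section

variable {G : Type u} [Group G] [Fintype G]

/-- A class function with integer inner products with irreducible characters is a generalized
character. -/
theorem gen_of_inner_int {f : G → ℂ} (hf : IsClassFunction G f)
    (h : ∀ χ : IrrCharacter G, ∃ n : ℤ, classInner f (χ : G → ℂ) = n) :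
    IsGeneralizedCharacter G f := by
  classical
  haveI : Fintype (IrrCharacter G) := Fintype.ofFinite _
  rw [classFunction_expansion f hf]
  refine gen_sum _ _ fun χ _ => ?_
  obtain ⟨n, hn⟩ := h χ
  rw [hn]
  have := gen_zsmul (gen_of_char (isCharacter_of_irr χ.2)) n
  convert this using 1
  funext g
  simp

variable {A : Set G} {L : Subgroup G} {H : G → Subgroup G} [Fintype L]

/-- **The Dade map sends generalized characters vanishing off `A` to generalized characters.** -/
theorem dade_gen (hD : DadeHypothesis A L H) {α : L → ℂ} (hα : IsGeneralizedCharacter L α)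
    (hαA : ∀ x : L, (x : G) ∉ A → α x = 0) : IsGeneralizedCharacter G (dadeIsometry A L H α) := by
  classical
  haveI : Fintype (IrrCharacter G) := Fintype.ofFinite _
  have hcl := gen_isClass hα
  refine gen_of_inner_int (dade_isClass hD hcl) fun χ => ?_
  have hχ := isCharacter_of_irr χ.2
  obtain ⟨ψ, hψ, hval⟩ := exists_gen_adjoint hD hχ
  have hin := dade_inner hD hcl hαA (χ : G → ℂ) ψ (isClassFunction_of_isCharacter hχ) (fun a ha => by
    rw [hval a ha, finsum_mem_subgroup]
    simp only [avg])
  rw [hin]
  exact gen_inner_int hα hψ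

theorem dade_conjFun (α : L → ℂ) :
    conjFun (dadeIsometry A L H α) = dadeIsometry A L H (conjFun α) := by
  classical
  funext g
  simp only [conjFun, dadeIsometry]
  split_ifs with h
  · rfl
  · simp

theorem dade_neg (α : L → ℂ) : dadeIsometry A L H (-α) = - dadeIsometry A L H α := by
  classical
  funext g
  simp only [Pi.neg_apply, dadeIsometry]
  split_ifs with h
  · rfl
  · simp

theorem dade_zero : dadeIsometry A L H (0 : L → ℂ) = 0 := by
  classical
  funext g
  simp only [Pi.zero_apply, dadeIsometry]
  split_ifs with h <;> rfl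

/-- **Dade images of `χ - conj χ`.** -/
theorem dade_sub_conj (hD : DadeHypothesis A L H) {χ : L → ℂ} (hχ : IsIrrCharacter L χ)
    (hsupp : ∀ x : L, x ≠ 1 → (x : G) ∉ A → χ x = 0) :
    ∃ μ : G → ℂ, IsIrrCharacter G μ ∧ dadeIsometry A L H (χ - conjFun χ) = μ - conjFun μ := by
  classical
  by_cases hreal : conjFun χ = χ
  · refine ⟨fun _ => 1, isIrrCharacter_one, ?_⟩
    rw [hreal, sub_self, dade_zero]
    funext g
    simp [conjFun]
  have hχc := isCharacter_of_irr hχ
  have hconjirr : IsIrrCharacter L (conjFun χ) := Cfsg.Agent.H23.isIrrCharacter_conjFun hχ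
  have hαgen : IsGeneralizedCharacter L (χ - conjFun χ) :=
    ⟨_, _, hχc, isCharacter_of_irr hconjirr, rfl⟩
  have hαA : ∀ x : L, (x : G) ∉ A → (χ - conjFun χ) x = 0 := by
    intro x hx
    simp only [Pi.sub_apply, conjFun]
    by_cases h1 : x = 1
    · subst h1
      obtain ⟨n, hn, -⟩ := isCharacter_one_eq hχc
      rw [hn]
      simp
    · rw [hsupp x h1 hx]
      simp
  have hcl := gen_isClass hαgen
  set f := dadeIsometry A L H (χ - conjFun χ) with hf
  have hfgen : IsGeneralizedCharacter G f := dade_gen hD hαgen hαA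
  have hnorm : classInner f f = 2 := by
    rw [hf, dade_isometry hD hcl hαA hcl, classInner_sub_left', classInner_sub_right',
      classInner_sub_right', classInner_irr_self hχ, classInner_irr_self hconjirr,
      classInner_irr_ne hχ hconjirr (fun h => hreal h.symm),
      classInner_irr_ne hconjirr hχ hreal]
    ring
  have hconjf : conjFun f = - f := by
    rw [hf, dade_conjFun]
    have : conjFun (χ - conjFun χ) = -(χ - conjFun χ) := by
      funext x
      simp [conjFun]
    rw [this, dade_neg]
  obtain ⟨a, b, ha, hb, hab, hfab⟩ := exists_of_norm_two hfgen hnorm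
  obtain ⟨e₁, μ₁, he₁, hμ₁, rfl⟩ := ha.exists_sign
  obtain ⟨e₂, μ₂, he₂, hμ₂, rfl⟩ := hb.exists_sign
  have hμ12 : classInner μ₁ μ₂ = 0 := by
    rw [classInner_smul_left, classInner_smul_right, sign_conj he₂] at hab
    have h1 := sign_ne_zero he₁
    have h2 := sign_ne_zero he₂
    have h3 : e₁ * e₂ * classInner μ₁ μ₂ = 0 := by
      linear_combination hab
    exact (mul_eq_zero.mp h3).resolve_left (mul_ne_zero h1 h2)
  have hμ21 : classInner μ₂ μ₁ = 0 := by
    rw [← classInner_comm_conj, hμ12, map_zero]
  have hconj1 : IsIrrCharacter G (conjFun μ₁) := Cfsg.Agent.H23.isIrrCharacter_conjFun hμ₁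
  have hconj2 : IsIrrCharacter G (conjFun μ₂) := Cfsg.Agent.H23.isIrrCharacter_conjFun hμ₂
  -- inner product of both sides of `conj f = - f` with `μ₁`
  have hfc : conjFun f = e₁ • conjFun μ₁ + e₂ • conjFun μ₂ := by
    rw [hfab]
    funext g
    simp only [conjFun, Pi.add_apply, Pi.smul_apply, smul_eq_mul, map_add, map_mul, sign_conj he₁,
      sign_conj he₂]
  have hin1 : e₁ * classInner (conjFun μ₁) μ₁ + e₂ * classInner (conjFun μ₂) μ₁ = - e₁ := by
    have h1 : classInner (conjFun f) μ₁ = - e₁ := by
      rw [hconjf, classInner_neg_left', hfab, classInner_add_left, classInner_smul_left,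
        classInner_smul_left, classInner_irr_self hμ₁, hμ21]
      ring
    rw [hfc, classInner_add_left, classInner_smul_left, classInner_smul_left] at h1
    exact h1
  have hcase1 : conjFun μ₁ ≠ μ₁ := by
    intro h
    rw [h, classInner_irr_self hμ₁] at hin1
    by_cases h2 : conjFun μ₂ = μ₁
    · rw [h2, classInner_irr_self hμ₁] at hin1
      have h3 : conjFun (conjFun μ₂) = conjFun μ₁ := by rw [h2]
      rw [conjFun_conjFun, h] at h3
      rw [h3, classInner_irr_self hμ₁] at hμ12
      exact one_ne_zero hμ12
    · rw [classInner_irr_ne hconj2 hμ₁ h2] at hin1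
      have h3 : 2 * e₁ = 0 := by linear_combination hin1
      have h4 := sign_ne_zero he₁
      simp [h4] at h3
  have hin2 : e₂ * classInner (conjFun μ₂) μ₁ = - e₁ := by
    rw [classInner_irr_ne hconj1 hμ₁ hcase1] at hin1
    linear_combination hin1
  have hcase2 : conjFun μ₂ = μ₁ := by
    by_contra h
    rw [classInner_irr_ne hconj2 hμ₁ h] at hin2
    have h4 := sign_ne_zero he₁
    simp at hin2
    exact h4 hin2
  rw [hcase2, classInner_irr_self hμ₁] at hin2
  have hμ₂eq : μ₂ = conjFun μ₁ := by
    rw [← hcase2, conjFun_conjFun]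
  have he : e₂ = - e₁ := by linear_combination hin2
  rcases he₁ with rfl | rfl
  · refine ⟨μ₁, hμ₁, ?_⟩
    rw [hfab, he, hμ₂eq]
    funext g
    simp
    ring
  · refine ⟨conjFun μ₁, hconj1, ?_⟩
    rw [hfab, he, hμ₂eq, conjFun_conjFun]
    funext g
    simp
    ring

end

end Cfsg.Agent.H06.DadeGen
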