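import Cfsg.Agent.Lib.H06.FittingHall
import Cfsg.Agent.Lib.H06.Dade

/-! A Frobenius-type group `K ⋊ B` acting fixed-point-freely on an abelian group `Y` forces
`Y` to have exponent dividing `|K|` (helper6). -/

set_option autoImplicit false

namespace Cfsg.Agent.H06

open Finset

variable {Γ Y : Type*} [Group Γ] [Finite Γ] [CommGroup Y]

/-- The norm of a nontrivial subgroup acting fixed-point-freely is trivial. -/
theorem norm_subgroup_trivial (act : Γ → Y → Y)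
    (hmul : ∀ a b y, act (a * b) y = act a (act b y)) (hhom : ∀ a y z, act a (y * z) = act a y * act a z)
    [Fintype Γ] (X : Subgroup Γ) [Fintype X] {x₀ : Γ} (hx₀ : x₀ ∈ X)
    (hfix : ∀ y, act x₀ y = y → y = 1) (z : Y) :
    ∏ x : X, act x z = 1 := by
  apply hfix
  let φ : Y →* Y := MonoidHom.mk' (act x₀) (hhom x₀)
  have h1 : act x₀ (∏ x : X, act x z) = ∏ x : X, act x₀ (act x z) := map_prod φ _ _
  rw [h1]
  simp_rw [← hmul]
  exact Equiv.prod_comp (Equiv.mulLeft (⟨x₀, hx₀⟩ : X)) (fun x : X => act (x : Γ) z)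

theorem frobenius_norm (act : Γ → Y → Y) (hone : ∀ y, act 1 y = y)
    (hmul : ∀ a b y, act (a * b) y = act a (act b y)) (hhom : ∀ a y z, act a (y * z) = act a y * act a z)
    (K B : Subgroup Γ) (hKB : ∀ b ∈ B, ∀ k ∈ K, b * k * b⁻¹ ∈ K) (hdisj : K ⊓ B = ⊥)
    (hfpf : ∀ a ∈ K ⊔ B, a ≠ 1 → ∀ y, act a y = y → y = 1)
    (hcomm : ∀ b ∈ B, b ≠ 1 → ∀ k ∈ K, k ≠ 1 → b * k ≠ k * b)
    (hKne : K ≠ ⊥) (hBne : B ≠ ⊥) (y : Y) : y ^ Nat.card K = 1 := by
  classical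
  haveI : Fintype Γ := Fintype.ofFinite Γ
  set A : Subgroup Γ := K ⊔ B with hA
  obtain ⟨⟨k₀, hk₀⟩, hk₀1⟩ := Subgroup.ne_bot_iff_exists_ne_one.mp hKne
  obtain ⟨⟨b₀, hb₀⟩, hb₀1⟩ := Subgroup.ne_bot_iff_exists_ne_one.mp hBne
  have hk₀1' : k₀ ≠ 1 := fun h => hk₀1 (Subtype.ext h)
  have hb₀1' : b₀ ≠ 1 := fun h => hb₀1 (Subtype.ext h)
  have hKA : K ≤ A := le_sup_left
  have hBA : B ≤ A := le_sup_right
  -- the three norms
  have hnA : ∏ a : A, act a y = 1 :=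
    norm_subgroup_trivial act hmul hhom A (hKA hk₀) (hfpf k₀ (hKA hk₀) hk₀1') y
  have hnK : ∏ a : K, act a y = 1 :=
    norm_subgroup_trivial act hmul hhom K hk₀ (hfpf k₀ (hKA hk₀) hk₀1') y
  have hnB : ∀ z, ∏ b : B, act b z = 1 := fun z =>
    norm_subgroup_trivial act hmul hhom B hb₀ (hfpf b₀ (hBA hb₀) hb₀1') z
  -- cards
  have hgen : ∀ m ∈ A, ∃ a ∈ K, ∃ b ∈ B, m = a * b := fun m hm =>
    mem_sup_of_normalizes hKB hm
  have hcard : Nat.card K * Nat.card B = Nat.card A :=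
    card_mul_card_of_compl (A := K) (B := B) (M := A) ⟨hKA, hBA, hdisj, hgen⟩
  -- decompose the product over `A`
  have hsplit := Fintype.prod_subtype_mul_prod_subtype (fun a : A => (a : Γ) ∈ K) (fun a : A => act (a : Γ) y)
  -- first factor
  have h1 : ∏ a : {a : A // (a : Γ) ∈ K}, act ((a : A) : Γ) y = 1 := by
    rw [← hnK]
    let e : {a : A // (a : Γ) ∈ K} ≃ K :=
      { toFun := fun a => ⟨(a : A), a.2⟩
        invFun := fun k => ⟨⟨k, hKA k.2⟩, k.2⟩
        left_inv := fun a => rfl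
        right_inv := fun k => rfl }
    exact e.prod_comp (fun k : K => act (k : Γ) y)
  -- the index type
  let ι := K × {b : B // b ≠ 1}
  have hmem : ∀ p : ι, (p.1 : Γ) * ((p.2 : B) : Γ) * (p.1 : Γ)⁻¹ ∈ A := fun p =>
    A.mul_mem (A.mul_mem (hKA p.1.2) (hBA (p.2 : B).2)) (A.inv_mem (hKA p.1.2))
  -- unique decomposition
  have huniq : ∀ {a a' b b' : Γ}, a ∈ K → a' ∈ K → b ∈ B → b' ∈ B → a * b = a' * b' → a = a' ∧ b = b' := by
    intro a a' b b' ha ha' hb hb' he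
    have h2 : a'⁻¹ * a = b' * b⁻¹ := by
      rw [inv_mul_eq_iff_eq_mul, ← mul_assoc, ← he]; group
    have h3 : a'⁻¹ * a ∈ K ⊓ B :=
      Subgroup.mem_inf.mpr ⟨K.mul_mem (K.inv_mem ha') ha, h2 ▸ B.mul_mem hb' (B.inv_mem hb)⟩
    rw [hdisj, Subgroup.mem_bot] at h3
    constructor
    · rw [inv_mul_eq_one] at h3; exact h3.symm
    · rw [h3] at h2
      have := h2.symm
      rw [mul_inv_eq_one] at this
      exact this.symm
  have hnotK : ∀ p : ι, (p.1 : Γ) * ((p.2 : B) : Γ) * (p.1 : Γ)⁻¹ ∉ K := by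
    intro p h
    have h2 : ((p.2 : B) : Γ) ∈ K := by
      have h3 : ((p.2 : B) : Γ) = (p.1 : Γ)⁻¹ * ((p.1 : Γ) * ((p.2 : B) : Γ) * (p.1 : Γ)⁻¹) * (p.1 : Γ) := by group
      rw [h3]
      exact K.mul_mem (K.mul_mem (K.inv_mem p.1.2) h) p.1.2
    have h4 : ((p.2 : B) : Γ) ∈ K ⊓ B := Subgroup.mem_inf.mpr ⟨h2, (p.2 : B).2⟩
    rw [hdisj, Subgroup.mem_bot] at h4
    exact p.2.2 (Subtype.ext h4)
  let φ : ι → {a : A // ¬ (a : Γ) ∈ K} := fun p => ⟨⟨_, hmem p⟩, hnotK p⟩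
  have hφinj : Function.Injective φ := by
    rintro ⟨⟨k, hk⟩, ⟨⟨b, hb⟩, hb1⟩⟩ ⟨⟨k', hk'⟩, ⟨⟨b', hb'⟩, hb1'⟩⟩ he
    have he' : k * b * k⁻¹ = k' * b' * k'⁻¹ := congrArg (fun a => ((a : {a : A // ¬ (a : Γ) ∈ K}) : A).1) he
    have h2 : (k * (b * k⁻¹ * b⁻¹)) * b = (k' * (b' * k'⁻¹ * b'⁻¹)) * b' := by
      calc (k * (b * k⁻¹ * b⁻¹)) * b = k * b * k⁻¹ := by group
        _ = k' * b' * k'⁻¹ := he'
        _ = (k' * (b' * k'⁻¹ * b'⁻¹)) * b' := by group
    obtain ⟨h3, h4⟩ := huniq (K.mul_mem hk (hKB b hb _ (K.inv_mem hk)))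
      (K.mul_mem hk' (hKB b' hb' _ (K.inv_mem hk'))) hb hb' h2
    subst h4
    have h5 : k'⁻¹ * k ∈ K := K.mul_mem (K.inv_mem hk') hk
    have hb1'' : b ≠ 1 := fun h => hb1 (Subtype.ext h)
    have h6 : k = k' := by
      by_contra hne
      have h7 : k'⁻¹ * k ≠ 1 := by
        intro h
        rw [inv_mul_eq_one] at h
        exact hne h.symm
      apply hcomm b hb hb1'' _ h5 h7
      -- from `k b k⁻¹ = k' b k'⁻¹`
      have h8 : (k'⁻¹ * k) * b * (k'⁻¹ * k)⁻¹ = b := by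
        calc (k'⁻¹ * k) * b * (k'⁻¹ * k)⁻¹ = k'⁻¹ * (k * b * k⁻¹) * k' := by group
          _ = k'⁻¹ * (k' * b * k'⁻¹) * k' := by rw [he']
          _ = b := by group
      rw [mul_inv_eq_iff_eq_mul] at h8
      exact h8.symm
    subst h6
    rfl
  have hφbij : Function.Bijective φ := by
    rw [Fintype.bijective_iff_injective_and_card]
    refine ⟨hφinj, ?_⟩
    have hc1 : Fintype.card ι = Nat.card K * (Nat.card B - 1) := by
      rw [Fintype.card_prod, Fintype.card_subtype_compl, Fintype.card_subtype_eq, Nat.card_eq_fintype_card,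
        Nat.card_eq_fintype_card]
    have hc2 : Fintype.card {a : A // ¬ (a : Γ) ∈ K} = Nat.card A - Nat.card K := by
      rw [Fintype.card_subtype_compl]
      have h3 : Fintype.card {a : A // (a : Γ) ∈ K} = Nat.card K := by
        rw [Nat.card_eq_fintype_card]
        apply Fintype.card_congr
        exact
          { toFun := fun a => ⟨(a : A), a.2⟩
            invFun := fun k => ⟨⟨k, hKA k.2⟩, k.2⟩
            left_inv := fun a => rfl
            right_inv := fun k => rfl }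
      rw [h3, Nat.card_eq_fintype_card (α := A)]
    rw [hc1, hc2, ← hcard, Nat.mul_sub, mul_one]
  -- second factor
  have h2 : ∏ a : {a : A // ¬ (a : Γ) ∈ K}, act ((a : A) : Γ) y = (y ^ Nat.card K)⁻¹ := by
    rw [← hφbij.prod_comp]
    show ∏ p : ι, act ((p.1 : Γ) * ((p.2 : B) : Γ) * (p.1 : Γ)⁻¹) y = _
    rw [Fintype.prod_prod_type]
    have hinner : ∀ k : K, ∏ b : {b : B // b ≠ 1}, act ((k : Γ) * ((b : B) : Γ) * (k : Γ)⁻¹) y = y⁻¹ := by
      intro k
      have h3 := Fintype.prod_subtype_mul_prod_subtype (fun b : B => b = 1)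
        (fun b : B => act ((k : Γ) * (b : Γ) * (k : Γ)⁻¹) y)
      have h5 : ∀ b : {b : B // b = 1}, act ((k : Γ) * ((b : B) : Γ) * (k : Γ)⁻¹) y = y := by
        rintro ⟨b, rfl⟩
        simp [hone]
      have h6 : ∏ b : B, act ((k : Γ) * (b : Γ) * (k : Γ)⁻¹) y = 1 := by
        let ψ : Y →* Y := MonoidHom.mk' (act (k : Γ)) (hhom (k : Γ))
        have h7 : ∀ b : B, act ((k : Γ) * (b : Γ) * (k : Γ)⁻¹) y = ψ (act (b : Γ) (act (k : Γ)⁻¹ y)) := by
          intro b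
          show _ = act (k : Γ) (act (b : Γ) (act (k : Γ)⁻¹ y))
          rw [hmul, hmul]
        rw [Finset.prod_congr rfl (fun b _ => h7 b), ← map_prod, hnB, map_one]
      have hc : ∀ (inst : Fintype {b : B // b = 1}), @Fintype.card _ inst = 1 := fun inst => by
        rw [Fintype.card_eq_one_iff]
        exact ⟨⟨1, rfl⟩, fun ⟨b, hb⟩ => Subtype.ext hb⟩
      have hfirst : ∀ (inst : Fintype {b : B // b = 1}),
          (@Finset.prod _ _ _ (@Finset.univ _ inst)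
            (fun b : {b : B // b = 1} => act ((k : Γ) * ((b : B) : Γ) * (k : Γ)⁻¹) y)) = y := by
        intro inst
        rw [Finset.prod_congr rfl (fun b _ => h5 b), Finset.prod_const, Finset.card_univ, hc, pow_one]
      rw [h6, hfirst] at h3
      exact (eq_inv_of_mul_eq_one_right h3)
    rw [Finset.prod_congr rfl (fun k _ => hinner k)]
    simp [Nat.card_eq_fintype_card]
  rw [h1, h2, one_mul, hnA] at hsplit
  exact inv_eq_one.mp hsplit

end Cfsg.Agent.H06
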