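import Cfsg.Agent.S0559
import Cfsg.Agent.S0561
import Cfsg.Agent.S0562
import Cfsg.Agent.S0581
import Cfsg.Agent.Lib.H01.Frobenius
import Cfsg.Agent.Lib.H01.Solv2
import Cfsg.Agent.Lib.H01.Fitting
import Cfsg.Agent.Lib.Lead.Burnside
import Cfsg.Agent.Lib.H06.FittingHall
import Mathlib

/-!
Kegel--Wielandt, coprime case: basic material.
-/

set_option autoImplicit false

namespace Cfsg.Agent.H06

universe u

open scoped Pointwise

section nilparts

theorem kw_pPrimeCore_normal {X : Type u} [Group X] (p : ℕ) : (Cfsg.pPrimeCore p X).Normal :=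
  Subgroup.sSup_normal _ (fun _ h => h.1)

theorem kw_le_pPrimeCore {X : Type u} [Group X] {p : ℕ} {D : Subgroup X} (hD : D.Normal)
    (h : (Nat.card D).Coprime p) : D ≤ Cfsg.pPrimeCore p X :=
  le_sSup ⟨hD, h⟩

variable {N : Type u} [Group N] [Finite N] [Group.IsNilpotent N]

theorem kw_sylow_le_pCore (p : ℕ) [Fact p.Prime] (P : Sylow p N) :
    (P : Subgroup N) ≤ Cfsg.pCore p N :=
  Cfsg.Agent.H01.le_pCore inferInstance P.isPGroup'

theorem kw_pgroup_le_pCore (p : ℕ) [Fact p.Prime] {D : Subgroup N} (hD : IsPGroup p D) :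
    D ≤ Cfsg.pCore p N := by
  obtain ⟨P, hP⟩ := hD.exists_le_sylow
  exact hP.trans (kw_sylow_le_pCore p P)

theorem kw_pCore_pPrime_disjoint (p : ℕ) [Fact p.Prime] :
    Disjoint (Cfsg.pCore p N) (Cfsg.pPrimeCore p N) := by
  apply Subgroup.disjoint_def.mpr
  intro x hx hx'
  have h1 : IsPGroup p (Cfsg.pCore p N) := Cfsg.Agent.H01.pCore_isPGroup p
  have h2 := Cfsg.Agent.H06.coprime_card_pPrimeCore (G := N) p
  have h3 : orderOf x ∣ Nat.card (Cfsg.pPrimeCore p N) := by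
    have := orderOf_dvd_natCard (⟨x, hx'⟩ : Cfsg.pPrimeCore p N)
    rwa [Subgroup.orderOf_mk] at this
  obtain ⟨k, hk⟩ := h1 ⟨x, hx⟩
  have h4 : orderOf x ∣ p ^ k := by
    apply orderOf_dvd_of_pow_eq_one
    have := congrArg Subtype.val hk
    simpa using this
  have h5 : orderOf x = 1 :=
    Nat.eq_one_of_dvd_coprimes (Nat.Coprime.pow_right k h2) h3 h4
  exact orderOf_eq_one_iff.mp h5

theorem kw_pCore_pPrime_commute (p : ℕ) [Fact p.Prime] {x y : N}
    (hx : x ∈ Cfsg.pCore p N) (hy : y ∈ Cfsg.pPrimeCore p N) : Commute x y :=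
  Subgroup.commute_of_normal_of_disjoint _ _ (Cfsg.Agent.H01.pCore_normal p)
    (kw_pPrimeCore_normal p) (kw_pCore_pPrime_disjoint p) x y hx hy

theorem kw_pCore_le_pPrime {p r : ℕ} [Fact p.Prime] [Fact r.Prime] (hpr : r ≠ p) :
    Cfsg.pCore r N ≤ Cfsg.pPrimeCore p N := by
  apply kw_le_pPrimeCore (Cfsg.Agent.H01.pCore_normal r)
  have h1 : IsPGroup r (Cfsg.pCore r N) := Cfsg.Agent.H01.pCore_isPGroup r
  obtain ⟨k, hk⟩ := h1.exists_card_eq
  rw [hk]
  exact Nat.Coprime.pow_left k ((Nat.coprime_primes Fact.out Fact.out).mpr hpr)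

theorem kw_sup_eq_top (p : ℕ) [Fact p.Prime] :
    Cfsg.pCore p N ⊔ Cfsg.pPrimeCore p N = ⊤ := by
  apply Cfsg.Agent.H01.eq_top_of_forall_sylow_le
  intro r hr
  obtain ⟨P⟩ : Nonempty (Sylow r N) := inferInstance
  refine ⟨P, ?_⟩
  by_cases hrp : r = p
  · subst hrp
    exact (kw_sylow_le_pCore r P).trans le_sup_left
  · exact ((kw_sylow_le_pCore r P).trans (kw_pCore_le_pPrime hrp)).trans le_sup_right

theorem kw_decomp (p : ℕ) [Fact p.Prime] (x : N) :
    ∃ u ∈ Cfsg.pCore p N, ∃ v ∈ Cfsg.pPrimeCore p N, x = u * v := by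
  haveI := kw_pPrimeCore_normal (X := N) p
  have h : x ∈ Cfsg.pCore p N ⊔ Cfsg.pPrimeCore p N := by rw [kw_sup_eq_top]; trivial
  obtain ⟨u, hu, v, hv, huv⟩ := Subgroup.mem_sup_of_normal_right.mp h
  exact ⟨u, hu, v, hv, huv.symm⟩

theorem kw_card_parts (p : ℕ) [Fact p.Prime] :
    Nat.card (Cfsg.pCore p N) * Nat.card (Cfsg.pPrimeCore p N) = Nat.card N := by
  have hc : Subgroup.IsComplement' (Cfsg.pCore p N) (Cfsg.pPrimeCore p N) := by
    apply Subgroup.isComplement'_of_disjoint_and_mul_eq_univ (kw_pCore_pPrime_disjoint p)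
    ext x
    simp only [Set.mem_mul, SetLike.mem_coe, Set.mem_univ, iff_true]
    obtain ⟨u, hu, v, hv, huv⟩ := kw_decomp p x
    exact ⟨u, hu, v, hv, huv.symm⟩
  exact hc.card_mul

theorem kw_mem_pCore_of_pow {p : ℕ} [Fact p.Prime] {x : N} {k : ℕ} (hx : x ^ p ^ k = 1) :
    x ∈ Cfsg.pCore p N := by
  have h : IsPGroup p (Subgroup.zpowers x) := by
    obtain ⟨j, _, hj⟩ := (Nat.dvd_prime_pow Fact.out).mp (orderOf_dvd_of_pow_eq_one hx)
    apply IsPGroup.of_card (n := j)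
    rw [Nat.card_zpowers, hj]
  exact kw_pgroup_le_pCore p h (Subgroup.mem_zpowers x)

theorem kw_mem_pPrime_of_coprime {p : ℕ} [Fact p.Prime] {x : N} (hx : (orderOf x).Coprime p) :
    x ∈ Cfsg.pPrimeCore p N := by
  obtain ⟨u, hu, v, hv, rfl⟩ := kw_decomp p x
  have hc := kw_pCore_pPrime_commute p hu hv
  have h1 : (u * v) ^ orderOf (u * v) = 1 := pow_orderOf_eq_one _
  rw [hc.mul_pow] at h1
  have h2 : u ^ orderOf (u * v) = (v ^ orderOf (u * v))⁻¹ := eq_inv_of_mul_eq_one_left h1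
  have h3 : u ^ orderOf (u * v) ∈ Cfsg.pCore p N := pow_mem hu _
  have h4 : u ^ orderOf (u * v) ∈ Cfsg.pPrimeCore p N := by
    rw [h2]; exact inv_mem (pow_mem hv _)
  have h5 : u ^ orderOf (u * v) = 1 := Subgroup.disjoint_def.mp (kw_pCore_pPrime_disjoint p) h3 h4
  have h6 : IsPGroup p (Cfsg.pCore p N) := Cfsg.Agent.H01.pCore_isPGroup p
  obtain ⟨k, hk⟩ := h6 ⟨u, hu⟩
  have h7 : u ^ p ^ k = 1 := by
    have := congrArg Subtype.val hk
    simpa using this
  have h8 : orderOf u = 1 :=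
    Nat.eq_one_of_dvd_coprimes (Nat.Coprime.pow_right k hx) (orderOf_dvd_of_pow_eq_one h5)
      (orderOf_dvd_of_pow_eq_one h7)
  rw [orderOf_eq_one_iff.mp h8, one_mul]
  exact hv

theorem kw_pCore_ne_bot {p : ℕ} [Fact p.Prime] (hp : p ∣ Nat.card N) : Cfsg.pCore p N ≠ ⊥ := by
  obtain ⟨P⟩ : Nonempty (Sylow p N) := inferInstance
  intro h
  have h1 := kw_sylow_le_pCore p P
  rw [h, le_bot_iff] at h1
  exact P.ne_bot_of_dvd_card hp h1

theorem kw_pPrime_ne_bot {p r : ℕ} [Fact p.Prime] [Fact r.Prime] (hrp : r ≠ p)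
    (hr : r ∣ Nat.card N) : Cfsg.pPrimeCore p N ≠ ⊥ := by
  intro h
  have h1 := kw_pCore_le_pPrime (N := N) hrp
  rw [h, le_bot_iff] at h1
  exact kw_pCore_ne_bot hr h1

end nilparts

section pair

variable {G : Type u} [Group G]

/-- The `p`-part of a nilpotent subgroup, as a subgroup of the ambient group. -/
def kwS (A : Subgroup G) (p : ℕ) : Subgroup G := (Cfsg.pCore p A).map A.subtype

/-- The `p'`-part of a nilpotent subgroup, as a subgroup of the ambient group. -/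
def kwC (A : Subgroup G) (p : ℕ) : Subgroup G := (Cfsg.pPrimeCore p A).map A.subtype

theorem kwS_le (A : Subgroup G) (p : ℕ) : kwS A p ≤ A := by
  rintro _ ⟨x, _, rfl⟩; exact x.2

theorem kwC_le (A : Subgroup G) (p : ℕ) : kwC A p ≤ A := by
  rintro _ ⟨x, _, rfl⟩; exact x.2

theorem kw_conj_mem {g x : G} {J : Subgroup G} :
    x ∈ MulAut.conj g • J ↔ g⁻¹ * x * g ∈ J := by
  rw [Subgroup.mem_pointwise_smul_iff_inv_smul_mem, MulAut.smul_def, MulAut.conj_inv_apply]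

theorem kw_mem_normalizer_of {H : Subgroup G} [Finite G] {g : G}
    (h : ∀ x ∈ H, g * x * g⁻¹ ∈ H) : g ∈ Subgroup.normalizer (H : Set G) := by
  classical
  rw [Subgroup.mem_normalizer_iff]
  have hinj : Function.Injective (fun x : H => (⟨g * x * g⁻¹, h x x.2⟩ : H)) := by
    intro a b hab
    have := congrArg Subtype.val hab
    simp only [mul_left_inj, mul_right_inj] at this
    exact Subtype.ext this
  have hsurj := (Finite.injective_iff_surjective.mp hinj)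
  intro x
  constructor
  · exact h x
  · intro hx
    obtain ⟨a, ha⟩ := hsurj ⟨g * x * g⁻¹, hx⟩
    have := congrArg Subtype.val ha
    simp only [mul_left_inj, mul_right_inj] at this
    rw [← this]
    exact a.2

variable (A : Subgroup G)

theorem kwS_normalized (p : ℕ) : A ≤ Subgroup.normalizer (kwS A p : Set G) := by
  intro a ha
  rw [Subgroup.mem_normalizer_iff]
  intro x
  haveI : (Cfsg.pCore p A).Normal := Cfsg.Agent.H01.pCore_normal p
  constructor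
  · rintro ⟨y, hy, rfl⟩
    exact ⟨⟨a, ha⟩ * y * (⟨a, ha⟩ : A)⁻¹, Subgroup.Normal.conj_mem ‹_› _ hy _, rfl⟩
  · rintro ⟨y, hy, hxy⟩
    refine ⟨(⟨a, ha⟩ : A)⁻¹ * y * (⟨a, ha⟩ : A)⁻¹⁻¹, Subgroup.Normal.conj_mem ‹_› _ hy _, ?_⟩
    simp only [Subgroup.subtype_apply] at hxy
    simp only [Subgroup.subtype_apply, inv_inv, Subgroup.coe_mul, Subgroup.coe_inv]
    rw [hxy]; group

theorem kwC_normalized (p : ℕ) : A ≤ Subgroup.normalizer (kwC A p : Set G) := by
  intro a ha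
  rw [Subgroup.mem_normalizer_iff]
  intro x
  haveI : (Cfsg.pPrimeCore p A).Normal := kw_pPrimeCore_normal p
  constructor
  · rintro ⟨y, hy, rfl⟩
    exact ⟨⟨a, ha⟩ * y * (⟨a, ha⟩ : A)⁻¹, Subgroup.Normal.conj_mem ‹_› _ hy _, rfl⟩
  · rintro ⟨y, hy, hxy⟩
    refine ⟨(⟨a, ha⟩ : A)⁻¹ * y * (⟨a, ha⟩ : A)⁻¹⁻¹, Subgroup.Normal.conj_mem ‹_› _ hy _, ?_⟩
    simp only [Subgroup.subtype_apply] at hxy
    simp only [Subgroup.subtype_apply, inv_inv, Subgroup.coe_mul, Subgroup.coe_inv]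
    rw [hxy]; group

section nil

variable [Finite G] {A} (hA : Group.IsNilpotent A)
include hA

theorem kw_commute (p : ℕ) [Fact p.Prime] {x y : G} (hx : x ∈ kwS A p) (hy : y ∈ kwC A p) :
    Commute x y := by
  obtain ⟨u, hu, rfl⟩ := hx
  obtain ⟨v, hv, rfl⟩ := hy
  have := kw_pCore_pPrime_commute p hu hv
  exact congrArg Subtype.val this

theorem kw_split (p : ℕ) [Fact p.Prime] {a : G} (ha : a ∈ A) :
    ∃ u ∈ kwS A p, ∃ v ∈ kwC A p, a = u * v := by
  obtain ⟨u, hu, v, hv, huv⟩ := kw_decomp p (⟨a, ha⟩ : A)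
  refine ⟨u, ⟨u, hu, rfl⟩, v, ⟨v, hv, rfl⟩, ?_⟩
  exact congrArg Subtype.val huv

theorem kw_le_of_normalized (p : ℕ) [Fact p.Prime] {J : Subgroup G}
    (h1 : kwS A p ≤ Subgroup.normalizer (J : Set G))
    (h2 : kwC A p ≤ Subgroup.normalizer (J : Set G)) :
    A ≤ Subgroup.normalizer (J : Set G) := by
  intro a ha
  obtain ⟨u, hu, v, hv, rfl⟩ := kw_split hA p ha
  exact mul_mem (h1 hu) (h2 hv)

theorem kwS_isPGroup (p : ℕ) [Fact p.Prime] : IsPGroup p (kwS A p) :=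
  (Cfsg.Agent.H01.pCore_isPGroup (G := A) p).map _

theorem card_kwS (p : ℕ) : Nat.card (kwS A p) = Nat.card (Cfsg.pCore p A) :=
  Subgroup.card_map_of_injective A.subtype_injective

theorem card_kwC (p : ℕ) : Nat.card (kwC A p) = Nat.card (Cfsg.pPrimeCore p A) :=
  Subgroup.card_map_of_injective A.subtype_injective

theorem kwC_coprime (p : ℕ) [Fact p.Prime] : (Nat.card (kwC A p)).Coprime p := by
  rw [card_kwC hA]
  exact Cfsg.Agent.H06.coprime_card_pPrimeCore p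

theorem kw_card_split (p : ℕ) [Fact p.Prime] :
    Nat.card (kwS A p) * Nat.card (kwC A p) = Nat.card A := by
  rw [card_kwS hA, card_kwC hA]
  exact kw_card_parts p

theorem kw_pgroup_le (p : ℕ) [Fact p.Prime] {D : Subgroup G} (hDA : D ≤ A) (hD : IsPGroup p D) :
    D ≤ kwS A p := by
  intro x hx
  have h1 : IsPGroup p (D.subgroupOf A) :=
    hD.of_injective (Subgroup.subgroupOfEquivOfLe hDA).toMonoidHom
      (Subgroup.subgroupOfEquivOfLe hDA).injective
  exact ⟨⟨x, hDA hx⟩, kw_pgroup_le_pCore p h1 (Subgroup.mem_subgroupOf.mpr hx), rfl⟩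

theorem kw_mem_kwS_of_pow {p : ℕ} [Fact p.Prime] {x : G} {k : ℕ} (hx : x ∈ A) (h : x ^ p ^ k = 1) :
    x ∈ kwS A p := by
  refine ⟨⟨x, hx⟩, kw_mem_pCore_of_pow (k := k) ?_, rfl⟩
  apply Subtype.ext
  simpa using h

theorem kw_mem_kwC_of_coprime {p : ℕ} [Fact p.Prime] {x : G} (hx : x ∈ A)
    (h : (orderOf x).Coprime p) : x ∈ kwC A p := by
  refine ⟨⟨x, hx⟩, kw_mem_pPrime_of_coprime ?_, rfl⟩
  rwa [Subgroup.orderOf_mk]

theorem kwS_le_kwC {p r : ℕ} [Fact p.Prime] [Fact r.Prime] (hrp : r ≠ p) : kwS A r ≤ kwC A p :=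
  Subgroup.map_mono (kw_pCore_le_pPrime hrp)

theorem kwS_ne_bot {p : ℕ} [Fact p.Prime] (hp : p ∣ Nat.card A) : kwS A p ≠ ⊥ := by
  intro h
  have := (Subgroup.map_eq_bot_iff_of_injective _ A.subtype_injective).mp h
  exact kw_pCore_ne_bot hp this

theorem kwC_ne_bot {p r : ℕ} [Fact p.Prime] [Fact r.Prime] (hrp : r ≠ p) (hr : r ∣ Nat.card A) :
    kwC A p ≠ ⊥ := by
  intro h
  have := (Subgroup.map_eq_bot_iff_of_injective _ A.subtype_injective).mp h
  exact kw_pPrime_ne_bot hrp hr this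

end nil

end pair

end Cfsg.Agent.H06
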