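import Cfsg.Agent.Lib.H06.KW9

/-!
Kegel--Wielandt, coprime case: the final count.
-/

set_option autoImplicit false

namespace Cfsg.Agent.H06

universe u

open scoped Pointwise

theorem kw_burnside_one {G γ : Type u} [Group G] [Fintype G] [MulAction G γ] [Finite γ] [Nonempty γ]
    [h : MulAction.IsPretransitive G γ] :
    ∑ g : G, Nat.card (MulAction.fixedBy γ g) = Fintype.card G := by
  classical
  haveI := Fintype.ofFinite γ
  haveI : Subsingleton (MulAction.orbitRel.Quotient G γ) :=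
    (MulAction.pretransitive_iff_subsingleton_quotient G γ).mp h
  haveI : Nonempty (MulAction.orbitRel.Quotient G γ) := by
    obtain ⟨x⟩ := ‹Nonempty γ›
    exact ⟨Quotient.mk _ x⟩
  have h1 := MulAction.sum_card_fixedBy_eq_card_orbits_mul_card_group G γ
  have h2 : Fintype.card (Quotient (MulAction.orbitRel G γ)) = 1 := by
    haveI h5 : Subsingleton (Quotient (MulAction.orbitRel G γ)) :=
      ‹Subsingleton (MulAction.orbitRel.Quotient G γ)›
    haveI h6 : Nonempty (Quotient (MulAction.orbitRel G γ)) :=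
      ‹Nonempty (MulAction.orbitRel.Quotient G γ)›
    exact Nat.le_antisymm (Fintype.card_le_one_iff_subsingleton.mpr h5) Fintype.card_pos
  rw [h2, one_mul] at h1
  rw [← h1]
  apply Finset.sum_congr rfl
  intro g _
  exact Nat.card_eq_fintype_card

theorem kw_burn {G α β : Type u} [Group G] [Fintype G] [MulAction G α] [MulAction G β] [Finite α]
    [Finite β] [Nonempty α] [Nonempty β] [MulAction.IsPretransitive G α]
    [MulAction.IsPretransitive G β] [MulAction.IsPretransitive G (α × β)] :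
    ∑ g : G, (((Nat.card (MulAction.fixedBy α g) : ℕ) : ℤ) - 1) *
      (((Nat.card (MulAction.fixedBy β g) : ℕ) : ℤ) - 1) = 0 := by
  have h1 := kw_burnside_one (G := G) (γ := α)
  have h2 := kw_burnside_one (G := G) (γ := β)
  have h3 := kw_burnside_one (G := G) (γ := α × β)
  have h4 : ∀ g : G, Nat.card (MulAction.fixedBy (α × β) g) =
      Nat.card (MulAction.fixedBy α g) * Nat.card (MulAction.fixedBy β g) := by
    intro g
    rw [← Nat.card_prod]
    apply Nat.card_congr
    exact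
      { toFun := fun p => (⟨p.1.1, congrArg Prod.fst p.2⟩, ⟨p.1.2, congrArg Prod.snd p.2⟩)
        invFun := fun p => ⟨(p.1.1, p.2.1), Prod.ext p.1.2 p.2.2⟩
        left_inv := fun p => rfl
        right_inv := fun p => rfl }
  simp_rw [h4] at h3
  have h5 : ∑ g : G, (((Nat.card (MulAction.fixedBy α g) : ℕ) : ℤ) - 1) *
      (((Nat.card (MulAction.fixedBy β g) : ℕ) : ℤ) - 1) =
      ((∑ g : G, Nat.card (MulAction.fixedBy α g) * Nat.card (MulAction.fixedBy β g) : ℕ) : ℤ) -
        ((∑ g : G, Nat.card (MulAction.fixedBy α g) : ℕ) : ℤ) -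
        ((∑ g : G, Nat.card (MulAction.fixedBy β g) : ℕ) : ℤ) + (Fintype.card G : ℤ) := by
    push_cast
    rw [← Finset.sum_sub_distrib, ← Finset.sum_sub_distrib]
    have h6 : (Fintype.card G : ℤ) = ∑ _g : G, (1 : ℤ) := by simp
    rw [h6, ← Finset.sum_add_distrib]
    apply Finset.sum_congr rfl
    intro g _
    ring
  rw [h5, h3, h1, h2]
  ring

theorem kw_quot_fix {G : Type u} [Group G] (M : Subgroup G) (g c : G) :
    g • (c : G ⧸ M) = (c : G ⧸ M) ↔ c⁻¹ * g * c ∈ M := by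
  rw [MulAction.Quotient.smul_coe, smul_eq_mul, QuotientGroup.eq]
  have h1 : (g * c)⁻¹ * c = (c⁻¹ * g * c)⁻¹ := by group
  rw [h1, inv_mem_iff]

section ctx

variable {G : Type u} [Group G] [Finite G] {A B : Subgroup G} (hc : KwCtx G)
include hc

theorem kw_count_aux (h : KwPair A B) (g : G) {a b : G ⧸ kwN A} (ha : g • a = a) (hb : g • b = b)
    (hab : a ≠ b) : ∃ z : G ⧸ kwN B, g • z = z := by
  obtain ⟨c, rfl⟩ := QuotientGroup.mk_surjective a
  obtain ⟨d, rfl⟩ := QuotientGroup.mk_surjective b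
  have hc1 := (kw_quot_fix _ g c).mp ha
  have hd1 := (kw_quot_fix _ g d).mp hb
  by_cases hg : g ^ Nat.card B = 1
  · obtain ⟨z, hz⟩ := Cfsg.Agent.S0581.result B (Subgroup.zpowers g) h.nilB
        h.symm.coprime_index_A (by
          intro q _ hqd
          rw [Nat.card_zpowers] at hqd
          exact hqd.trans (orderOf_dvd_of_pow_eq_one hg))
    have hgz : g ∈ MulAut.conj z • B := hz (Subgroup.mem_zpowers g)
    exact ⟨(z : G ⧸ kwN B), (kw_quot_fix _ g z).mpr (Subgroup.le_normalizer (kw_conj_mem.mp hgz))⟩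
  · exfalso
    have hpow : ∀ e : G, e⁻¹ * g * e ∈ kwN A → e⁻¹ * g ^ Nat.card B * e ∈ A := by
      intro e he
      have h1 : e⁻¹ * g ^ Nat.card B * e = (e⁻¹ * g * e) ^ Nat.card B := by
        have h3 : e⁻¹ * g * e = e⁻¹ * g * e⁻¹⁻¹ := by rw [inv_inv]
        rw [h3, conj_pow, inv_inv]
      rw [h1]
      apply kw_mem_of_normalizer (pow_mem he _) _ h.coprime_index_A
      rw [← pow_mul, mul_comm, ← h.card]
      exact pow_card_eq_one'
    have h1 := hpow c hc1
    have h2 := hpow d hd1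
    have h3 : c⁻¹ * g ^ Nat.card B * c ≠ 1 := by
      intro h4
      apply hg
      have h5 : g ^ Nat.card B = c * (c⁻¹ * g ^ Nat.card B * c) * c⁻¹ := by group
      rw [h5, h4]
      group
    have h4 : c⁻¹ * g ^ Nat.card B * c ∈ MulAut.conj (c⁻¹ * d) • A := by
      rw [kw_conj_mem]
      have h5 : (c⁻¹ * d)⁻¹ * (c⁻¹ * g ^ Nat.card B * c) * (c⁻¹ * d) =
          d⁻¹ * g ^ Nat.card B * d := by group
      rw [h5]
      exact h2
    have h5 := kw_TI hc h h1 h3 h4
    exact hab (QuotientGroup.eq.mpr h5)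

theorem kw_final (h : KwPair A B) : False := by
  classical
  haveI := Fintype.ofFinite G
  have hM : kwN A ≠ ⊤ := kw_N_ne_top_of_le hc h (kw_A_ne_bot hc h) le_rfl
  have hR : kwN B ≠ ⊤ := kw_N_ne_top_of_le hc h.symm (kw_B_ne_bot hc h) le_rfl
  haveI hp : MulAction.IsPretransitive G ((G ⧸ kwN A) × (G ⧸ kwN B)) := by
    have key : ∀ p : (G ⧸ kwN A) × (G ⧸ kwN B), ∃ g : G,
        g • (((1 : G) : G ⧸ kwN A), ((1 : G) : G ⧸ kwN B)) = p := by
      rintro ⟨p, q⟩
      obtain ⟨a, rfl⟩ := QuotientGroup.mk_surjective p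
      obtain ⟨b, rfl⟩ := QuotientGroup.mk_surjective q
      obtain ⟨m, hm, r, hr, hmr⟩ := h.fac (a⁻¹ * b)
      refine ⟨a * m, ?_⟩
      apply Prod.ext
      · show (a * m) • ((1 : G) : G ⧸ kwN A) = (a : G ⧸ kwN A)
        rw [MulAction.Quotient.smul_coe, smul_eq_mul, mul_one, QuotientGroup.eq]
        have h1 : (a * m)⁻¹ * a = m⁻¹ := by group
        rw [h1]
        exact inv_mem (Subgroup.le_normalizer hm)
      · show (a * m) • ((1 : G) : G ⧸ kwN B) = (b : G ⧸ kwN B)
        rw [MulAction.Quotient.smul_coe, smul_eq_mul, mul_one, QuotientGroup.eq]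
        have h1 : (a * m)⁻¹ * b = r := by
          have h2 : b = a * (m * r) := by rw [← hmr]; group
          rw [h2]; group
        rw [h1]
        exact Subgroup.le_normalizer hr
    refine ⟨fun x y => ?_⟩
    obtain ⟨g₁, rfl⟩ := key x
    obtain ⟨g₂, rfl⟩ := key y
    exact ⟨g₂ * g₁⁻¹, by rw [smul_smul, inv_mul_cancel_right]⟩
  have hsum := kw_burn (G := G) (α := G ⧸ kwN A) (β := G ⧸ kwN B)
  have hnn : ∀ g : G, 0 ≤ (((Nat.card (MulAction.fixedBy (G ⧸ kwN A) g) : ℕ) : ℤ) - 1) *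
      (((Nat.card (MulAction.fixedBy (G ⧸ kwN B) g) : ℕ) : ℤ) - 1) := by
    intro g
    by_cases h2 : 1 < Nat.card (MulAction.fixedBy (G ⧸ kwN A) g)
    · haveI := (Finite.one_lt_card_iff_nontrivial).mp h2
      obtain ⟨a, b, hab⟩ := exists_pair_ne (MulAction.fixedBy (G ⧸ kwN A) g)
      obtain ⟨z, hz⟩ := kw_count_aux hc h g a.2 b.2 (fun h0 => hab (Subtype.ext h0))
      haveI : Nonempty (MulAction.fixedBy (G ⧸ kwN B) g) := ⟨⟨z, hz⟩⟩
      have h3 : 0 < Nat.card (MulAction.fixedBy (G ⧸ kwN B) g) := Nat.card_pos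
      apply mul_nonneg <;> omega
    · by_cases h2' : 1 < Nat.card (MulAction.fixedBy (G ⧸ kwN B) g)
      · haveI := (Finite.one_lt_card_iff_nontrivial).mp h2'
        obtain ⟨a, b, hab⟩ := exists_pair_ne (MulAction.fixedBy (G ⧸ kwN B) g)
        obtain ⟨z, hz⟩ := kw_count_aux hc h.symm g a.2 b.2 (fun h0 => hab (Subtype.ext h0))
        haveI : Nonempty (MulAction.fixedBy (G ⧸ kwN A) g) := ⟨⟨z, hz⟩⟩
        have h3 : 0 < Nat.card (MulAction.fixedBy (G ⧸ kwN A) g) := Nat.card_pos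
        apply mul_nonneg <;> omega
      · apply mul_nonneg_of_nonpos_of_nonpos <;> omega
  have hpos : 0 < (((Nat.card (MulAction.fixedBy (G ⧸ kwN A) (1 : G)) : ℕ) : ℤ) - 1) *
      (((Nat.card (MulAction.fixedBy (G ⧸ kwN B) (1 : G)) : ℕ) : ℤ) - 1) := by
    have h1 : Nat.card (MulAction.fixedBy (G ⧸ kwN A) (1 : G)) = (kwN A).index := by
      rw [MulAction.fixedBy_one_eq_univ, Nat.card_coe_set_eq, Set.ncard_univ]
      rfl
    have h2 : Nat.card (MulAction.fixedBy (G ⧸ kwN B) (1 : G)) = (kwN B).index := by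
      rw [MulAction.fixedBy_one_eq_univ, Nat.card_coe_set_eq, Set.ncard_univ]
      rfl
    have h3 : 1 < (kwN A).index := Subgroup.one_lt_index_of_ne_top hM
    have h4 : 1 < (kwN B).index := Subgroup.one_lt_index_of_ne_top hR
    rw [h1, h2]
    apply mul_pos <;> omega
  have := Finset.sum_pos' (s := Finset.univ) (fun g _ => hnn g) ⟨1, Finset.mem_univ _, hpos⟩
  rw [hsum] at this
  exact lt_irrefl _ this

end ctx

end Cfsg.Agent.H06
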