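import Cfsg.Agent.Lib.H06.KW10

/-!
Kegel--Wielandt, coprime case: the theorem.
-/

set_option autoImplicit false

namespace Cfsg.Agent.H06

universe u

open scoped Pointwise

theorem kw_normal_fac {G : Type u} [Group G] [Finite G] {A B : Subgroup G} (h : KwPair A B)
    (N : Subgroup G) [N.Normal] : KwFac N (N ⊓ A) (N ⊓ B) := by
  have hcop : (Nat.card (N ⊓ A : Subgroup G)).Coprime (Nat.card (N ⊓ B : Subgroup G)) :=
    Nat.Coprime.coprime_dvd_left (Subgroup.card_dvd_of_le inf_le_right)
      (Nat.Coprime.coprime_dvd_right (Subgroup.card_dvd_of_le inf_le_right) h.cop)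
  have hx := kw_card_inf_mul N A
  have hy := kw_card_inf_mul N B
  have hxd : A.relIndex (N ⊔ A) ∣ Nat.card B := by
    rw [← h.index_A]
    exact ⟨_, (Subgroup.relIndex_mul_index (le_sup_right : A ≤ N ⊔ A)).symm⟩
  have hyd : B.relIndex (N ⊔ B) ∣ Nat.card A := by
    rw [← h.index_B]
    exact ⟨_, (Subgroup.relIndex_mul_index (le_sup_right : B ≤ N ⊔ B)).symm⟩
  set x := A.relIndex (N ⊔ A) with hxdef
  set y := B.relIndex (N ⊔ B) with hydef
  set a := Nat.card (N ⊓ A : Subgroup G) with hadef
  set b := Nat.card (N ⊓ B : Subgroup G) with hbdef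
  have hb : b ∣ x := by
    have h1 : b ∣ x * a := by
      rw [hx, ← hy]
      exact dvd_mul_left _ _
    exact (Nat.Coprime.dvd_of_dvd_mul_right hcop.symm h1)
  obtain ⟨c, hc⟩ := hb
  have hb0 : 0 < b := Nat.card_pos
  have hy2 : y = c * a := by
    have h1 : b * (c * a) = b * y := by
      rw [← mul_assoc, ← hc, hx, ← hy, mul_comm]
    exact (Nat.eq_of_mul_eq_mul_left hb0 h1).symm
  have hc1 : c = 1 := by
    have h1 : c ∣ Nat.card B := (Dvd.intro_left b hc.symm).trans hxd
    have h2 : c ∣ Nat.card A := (Dvd.intro _ hy2.symm).trans hyd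
    exact Nat.eq_one_of_dvd_coprimes h.cop h2 h1
  have hcard : Nat.card N = a * b := by
    rw [← hx, hc, hc1, mul_one, mul_comm]
  have hAB : ∀ z, z ∈ N ⊓ A → z ∈ N ⊓ B → z = 1 := fun z hz hz' => h.eq_one hz.2 hz'.2
  let f : (N ⊓ A : Subgroup G) × (N ⊓ B : Subgroup G) → N :=
    fun p => ⟨p.1 * p.2, mul_mem p.1.2.1 p.2.2.1⟩
  have hfi : Function.Injective f := by
    rintro ⟨u, v⟩ ⟨u', v'⟩ huv
    have h1 : (u : G) * v = u' * v' := congrArg Subtype.val huv
    have h2 : (u' : G)⁻¹ * u = v' * (v : G)⁻¹ := by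
      rw [eq_mul_inv_iff_mul_eq, mul_assoc, h1, inv_mul_cancel_left]
    have h3 : (u' : G)⁻¹ * u = 1 :=
      hAB _ (mul_mem (inv_mem u'.2) u.2) (by rw [h2]; exact mul_mem v'.2 (inv_mem v.2))
    have h4 : v' * (v : G)⁻¹ = 1 := by rw [← h2, h3]
    ext
    · exact (inv_mul_eq_one.mp h3).symm
    · exact (mul_inv_eq_one.mp h4).symm
  have hfb : Function.Bijective f := by
    apply (Nat.bijective_iff_injective_and_card f).mpr
    exact ⟨hfi, by rw [Nat.card_prod, hcard]⟩
  refine ⟨inf_le_left, inf_le_left, hcop, ?_⟩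
  intro g hg
  obtain ⟨⟨u, v⟩, huv⟩ := hfb.2 ⟨g, hg⟩
  exact ⟨u, u.2, v, v.2, (congrArg Subtype.val huv).symm⟩

theorem kw_pair_subgroupOf {G : Type u} [Group G] [Finite G] {L H K : Subgroup G} (hf : KwFac L H K)
    (hH : Group.IsNilpotent H) (hK : Group.IsNilpotent K) :
    KwPair (H.subgroupOf L) (K.subgroupOf L) where
  nilA := Group.nilpotent_of_surjective (Subgroup.subgroupOfEquivOfLe hf.hle).symm.toMonoidHom
    (Subgroup.subgroupOfEquivOfLe hf.hle).symm.surjective
  nilB := Group.nilpotent_of_surjective (Subgroup.subgroupOfEquivOfLe hf.kle).symm.toMonoidHom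
    (Subgroup.subgroupOfEquivOfLe hf.kle).symm.surjective
  cop := by
    rw [Nat.card_congr (Subgroup.subgroupOfEquivOfLe hf.hle).toEquiv,
      Nat.card_congr (Subgroup.subgroupOfEquivOfLe hf.kle).toEquiv]
    exact hf.cop
  fac := by
    intro g
    obtain ⟨h, hh, k, hk, hg⟩ := hf.fac g g.2
    exact ⟨⟨h, hf.hle hh⟩, Subgroup.mem_subgroupOf.mpr hh, ⟨k, hf.kle hk⟩,
      Subgroup.mem_subgroupOf.mpr hk, Subtype.ext hg⟩

theorem kw_pair_quot {G : Type u} [Group G] [Finite G] {A B : Subgroup G} (h : KwPair A B)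
    (N : Subgroup G) [N.Normal] :
    KwPair (A.map (QuotientGroup.mk' N)) (B.map (QuotientGroup.mk' N)) where
  nilA := by
    haveI := h.nilA
    exact Group.nilpotent_of_surjective ((QuotientGroup.mk' N).subgroupMap A)
      ((QuotientGroup.mk' N).subgroupMap_surjective A)
  nilB := by
    haveI := h.nilB
    exact Group.nilpotent_of_surjective ((QuotientGroup.mk' N).subgroupMap B)
      ((QuotientGroup.mk' N).subgroupMap_surjective B)
  cop := Nat.Coprime.coprime_dvd_left (Subgroup.card_map_dvd A _)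
    (Nat.Coprime.coprime_dvd_right (Subgroup.card_map_dvd B _) h.cop)
  fac := by
    intro g
    obtain ⟨g, rfl⟩ := QuotientGroup.mk'_surjective N g
    obtain ⟨a, ha, b, hb, rfl⟩ := h.fac g
    exact ⟨_, ⟨a, ha, rfl⟩, _, ⟨b, hb, rfl⟩, map_mul _ a b⟩

/-- The coprime Kegel--Wielandt theorem. -/
theorem kw_solvable_aux : ∀ (n : ℕ) (G : Type u) [Group G] [Finite G], Nat.card G = n →
    ∀ A B : Subgroup G, KwPair A B → Group.IsSolvable G := by
  intro n
  induction n using Nat.strong_induction_on with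
  | _ n IHn =>
    intro G _ _ hn A B h
    by_contra hns
    have hL : ∀ L H K : Subgroup G, L ≠ ⊤ → KwFac L H K → Group.IsNilpotent H →
        Group.IsNilpotent K → Group.IsSolvable L := by
      intro L H K hLt hf hH hK
      have hlt : Nat.card L < n := by
        have h1 := L.card_mul_index
        have h2 := Subgroup.one_lt_index_of_ne_top hLt
        have h3 : 0 < Nat.card L := Nat.card_pos
        rw [← hn, ← h1]
        nlinarith
      exact IHn _ hlt L rfl _ _ (kw_pair_subgroupOf hf hH hK)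
    haveI hnt : Nontrivial G := by
      by_contra hs
      rw [not_nontrivial_iff_subsingleton] at hs
      exact hns inferInstance
    have hsimple : IsSimpleGroup G := by
      refine ⟨fun N hN => ?_⟩
      by_contra hne
      push Not at hne
      obtain ⟨hN0, hNt⟩ := hne
      have h1 : Group.IsSolvable N := hL N _ _ hNt (kw_normal_fac h N)
        (nilpotent_of_le inf_le_right h.nilA) (nilpotent_of_le inf_le_right h.nilB)
      have hlt : Nat.card (G ⧸ N) < n := by
        have h3 := N.card_mul_index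
        have h4 : 1 < Nat.card N := (Subgroup.one_lt_card_iff_ne_bot N).mpr hN0
        have h5 : 0 < N.index := Nat.pos_of_ne_zero Subgroup.index_ne_zero_of_finite
        show N.index < n
        rw [← hn, ← h3]
        nlinarith
      have h2 : Group.IsSolvable (G ⧸ N) := IHn _ hlt (G ⧸ N) rfl _ _ (kw_pair_quot h N)
      apply hns
      refine solvable_of_ker_le_range N.subtype (QuotientGroup.mk' N) ?_
      intro x hx
      rw [MonoidHom.mem_ker] at hx
      exact ⟨⟨x, (QuotientGroup.eq_one_iff x).mp hx⟩, rfl⟩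
    exact kw_final ⟨hsimple, hns, hL⟩ h

theorem kw_solvable {G : Type u} [Group G] [Finite G] {A B : Subgroup G} (h : KwPair A B) :
    Group.IsSolvable G :=
  kw_solvable_aux _ G rfl A B h

end Cfsg.Agent.H06
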