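import Cfsg.Agent.Lib.H06.KW11
import Cfsg.Agent.Lib.H18.Prod

/-!
Kegel--Wielandt, general case: permuting `p`-subgroups.
-/

set_option autoImplicit false

namespace Cfsg.Agent.H06

universe u

open scoped Pointwise

variable {G : Type u} [Group G]

/-- `U H ⊆ H U`. -/
def KwPerm (H U : Subgroup G) : Prop := ∀ u ∈ U, ∀ h ∈ H, ∃ h' ∈ H, ∃ u' ∈ U, u * h = h' * u'

theorem kwPerm_of_set {S H U : Subgroup G} (hS : (S : Set G) = (H : Set G) * (U : Set G)) :
    KwPerm H U := by
  intro u hu h hh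
  have h1 : u ∈ S := by
    have : u ∈ (S : Set G) := by
      rw [hS]
      exact ⟨1, one_mem _, u, hu, one_mul u⟩
    exact this
  have h2 : h ∈ S := by
    have : h ∈ (S : Set G) := by
      rw [hS]
      exact ⟨h, hh, 1, one_mem _, mul_one h⟩
    exact this
  have h3 : u * h ∈ (S : Set G) := mul_mem h1 h2
  rw [hS] at h3
  obtain ⟨a, ha, b, hb, hab⟩ := h3
  exact ⟨a, ha, b, hb, hab.symm⟩

theorem kwPerm_set {H U : Subgroup G} (h : KwPerm H U) :
    ∃ S : Subgroup G, (S : Set G) = (H : Set G) * (U : Set G) := by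
  refine ⟨{ carrier := (H : Set G) * (U : Set G)
            mul_mem' := ?_
            one_mem' := ⟨1, one_mem _, 1, one_mem _, one_mul 1⟩
            inv_mem' := ?_ }, rfl⟩
  · rintro _ _ ⟨a, ha, b, hb, rfl⟩ ⟨c, hc, d, hd, rfl⟩
    obtain ⟨c', hc', b', hb', hbc⟩ := h b hb c hc
    refine ⟨a * c', mul_mem ha hc', b' * d, mul_mem hb' hd, ?_⟩
    simp only
    rw [mul_assoc a b, ← mul_assoc b c, hbc]
    group
  · rintro _ ⟨a, ha, b, hb, rfl⟩
    obtain ⟨c', hc', b', hb', hbc⟩ := h b⁻¹ (inv_mem hb) a⁻¹ (inv_mem ha)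
    refine ⟨c', hc', b', hb', ?_⟩
    simp only
    rw [mul_inv_rev, hbc]

theorem kwPerm_sup {H₁ H₂ U : Subgroup G} (h1 : KwPerm H₁ U) (h2 : KwPerm H₂ U) :
    KwPerm (H₁ ⊔ H₂) U := by
  have gen : ∀ b ∈ U, ∀ y ∈ (H₁ : Set G) ∪ (H₂ : Set G), ∃ c ∈ H₁ ⊔ H₂, ∃ d ∈ U, b * y = c * d := by
    intro b hb y hy
    rcases hy with hy | hy
    · obtain ⟨c, hc, d, hd, hcd⟩ := h1 b hb y hy
      exact ⟨c, (le_sup_left : H₁ ≤ H₁ ⊔ H₂) hc, d, hd, hcd⟩
    · obtain ⟨c, hc, d, hd, hcd⟩ := h2 b hb y hy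
      exact ⟨c, (le_sup_right : H₂ ≤ H₁ ⊔ H₂) hc, d, hd, hcd⟩
  have geninv : ∀ y ∈ (H₁ : Set G) ∪ (H₂ : Set G), y⁻¹ ∈ (H₁ : Set G) ∪ (H₂ : Set G) := by
    intro y hy
    rcases hy with hy | hy
    · exact Or.inl (inv_mem hy)
    · exact Or.inr (inv_mem hy)
  have key : ∀ h ∈ H₁ ⊔ H₂, ∀ u ∈ U, ∃ h' ∈ H₁ ⊔ H₂, ∃ u' ∈ U, u * h = h' * u' := by
    intro h hh
    rw [Subgroup.sup_eq_closure] at hh
    induction hh using Subgroup.closure_induction_right with
    | one =>
      intro u hu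
      exact ⟨1, one_mem _, u, hu, by simp⟩
    | mul_right x hx y hy ih =>
      intro u hu
      obtain ⟨a, ha, b, hb, hab⟩ := ih u hu
      obtain ⟨c, hc, d, hd, hcd⟩ := gen b hb y hy
      exact ⟨a * c, mul_mem ha hc, d, hd, by
        rw [← mul_assoc, hab, mul_assoc, hcd, mul_assoc]⟩
    | mul_inv_cancel x hx y hy ih =>
      intro u hu
      obtain ⟨a, ha, b, hb, hab⟩ := ih u hu
      obtain ⟨c, hc, d, hd, hcd⟩ := gen b hb _ (geninv y hy)
      exact ⟨a * c, mul_mem ha hc, d, hd, by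
        rw [← mul_assoc, hab, mul_assoc, hcd, mul_assoc]⟩
  intro u hu h hh
  exact key h hh u hu

theorem kwPerm_conj {H U : Subgroup G} (h : KwPerm H U) (x : G) :
    KwPerm (MulAut.conj x • H) (MulAut.conj x • U) := by
  intro u hu a ha
  obtain ⟨c, hc, d, hd, hcd⟩ := h _ (kw_conj_mem.mp hu) _ (kw_conj_mem.mp ha)
  refine ⟨x * c * x⁻¹, ?_, x * d * x⁻¹, ?_, ?_⟩
  · rw [kw_conj_mem]
    have : x⁻¹ * (x * c * x⁻¹) * x = c := by group
    rwa [this]
  · rw [kw_conj_mem]
    have : x⁻¹ * (x * d * x⁻¹) * x = d := by group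
    rwa [this]
  · calc u * a = x * ((x⁻¹ * u * x) * (x⁻¹ * a * x)) * x⁻¹ := by group
      _ = x * (c * d) * x⁻¹ := by rw [hcd]
      _ = x * c * x⁻¹ * (x * d * x⁻¹) := by group

theorem kw_perm_pgroup [Finite G] {p : ℕ} [Fact p.Prime] {H U : Subgroup G} (hH : IsPGroup p H)
    (hU : IsPGroup p U) (h : KwPerm H U) : ∃ S : Subgroup G, IsPGroup p S ∧ H ≤ S ∧ U ≤ S := by
  obtain ⟨S, hS⟩ := kwPerm_set h
  have hF := Cfsg.Agent.H18.card_set_mul_mul_card_inf H U
  rw [← hS] at hF
  have h1 : Nat.card S ∣ Nat.card H * Nat.card U := by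
    have h2 : Nat.card ((S : Set G) : Set G) = Nat.card S := rfl
    rw [← hF, h2]
    exact dvd_mul_right _ _
  obtain ⟨i, hi⟩ := hH.exists_card_eq
  obtain ⟨j, hj⟩ := hU.exists_card_eq
  rw [hi, hj, ← pow_add] at h1
  obtain ⟨k, _, hk⟩ := (Nat.dvd_prime_pow Fact.out).mp h1
  refine ⟨S, IsPGroup.of_card hk, ?_, ?_⟩
  · intro x hx
    have : x ∈ (S : Set G) := by
      rw [hS]
      exact ⟨x, hx, 1, one_mem _, mul_one x⟩
    exact this
  · intro x hx
    have : x ∈ (S : Set G) := by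
      rw [hS]
      exact ⟨1, one_mem _, x, hx, one_mul x⟩
    exact this

/-- Kegel's lemma on permuting `p`-subgroups. -/
theorem kw_KP [Finite G] {p : ℕ} [Fact p.Prime] {Y N : Subgroup G}
    (hNY : N ≤ Subgroup.normalClosure (Y : Set G))
    (hNX : ∀ X : Subgroup G, IsPGroup p X → X ≠ ⊥ → ¬ N ≤ kwN X) (hY : IsPGroup p Y) :
    ∀ X : Subgroup G, IsPGroup p X → X ≠ ⊥ → (∀ g : G, KwPerm X (MulAut.conj g • Y)) → False := by
  intro X
  induction X using WellFoundedGT.induction with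
  | ind X IH =>
    intro hXp hX0 hperm
    by_cases hall : ∀ g : G, ∀ b ∈ MulAut.conj g • Y, b ∈ kwN X
    · apply hNX X hXp hX0
      apply hNY.trans
      apply (Subgroup.closure_le _).mpr
      intro x hx
      obtain ⟨z, hz, hzx⟩ := Group.mem_conjugatesOfSet_iff.mp hx
      obtain ⟨g, rfl⟩ := isConj_iff.mp hzx
      apply hall g
      rw [kw_conj_mem]
      have : g⁻¹ * (g * z * g⁻¹) * g = z := by group
      rw [this]
      exact hz
    · push Not at hall
      obtain ⟨g, b, hb, hbN⟩ := hall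
      have hlt : X < X ⊔ MulAut.conj b • X := by
        refine lt_of_le_of_ne le_sup_left ?_
        intro h0
        apply hbN
        apply kw_mem_normalizer_of
        intro x hx
        have h1 : b * x * b⁻¹ ∈ MulAut.conj b • X := by
          rw [kw_conj_mem]
          have : b⁻¹ * (b * x * b⁻¹) * b = x := by group
          rwa [this]
        have h2 : b * x * b⁻¹ ∈ X ⊔ MulAut.conj b • X := (le_sup_right : _ ≤ X ⊔ _) h1
        rwa [← h0] at h2
      refine IH _ hlt ?_ (ne_bot_of_gt hlt) ?_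
      · have hYg : IsPGroup p (MulAut.conj g • Y : Subgroup G) := by
          obtain ⟨k, hk⟩ := hY.exists_card_eq
          exact IsPGroup.of_card (n := k) (by rw [KwPair.card_conj_eq, hk])
        obtain ⟨S, hSp, hXS, hYS⟩ := kw_perm_pgroup hXp hYg (hperm g)
        apply hSp.to_le
        apply sup_le hXS
        intro x hx
        have h1 := hXS (kw_conj_mem.mp hx)
        have h2 := hYS hb
        have h3 : x = b * (b⁻¹ * x * b) * b⁻¹ := by group
        rw [h3]
        exact mul_mem (mul_mem h2 h1) (inv_mem h2)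
      · intro h
        apply kwPerm_sup (hperm h)
        have h1 := kwPerm_conj (hperm (b⁻¹ * h)) b
        have h2 : MulAut.conj b • MulAut.conj (b⁻¹ * h) • Y = MulAut.conj h • Y := by
          rw [smul_smul, ← map_mul, mul_inv_cancel_left]
        rwa [h2] at h1

/-- The image of a characteristic subgroup of a normal subgroup is normal. -/
theorem kw_map_char_normal (N : Subgroup G) [N.Normal] (C : Subgroup N) [hC : C.Characteristic] :
    (C.map N.subtype).Normal := by
  refine ⟨fun x hx g => ?_⟩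
  obtain ⟨c, hc, rfl⟩ := hx
  have h1 := (Subgroup.characteristic_iff_comap_eq.mp hC (MulAut.conjNormal g)⁻¹)
  have h2 : MulAut.conjNormal g c ∈ C := by
    rw [← h1]
    show ((MulAut.conjNormal g)⁻¹ (MulAut.conjNormal g c)) ∈ C
    simpa using hc
  refine ⟨_, h2, ?_⟩
  simp [MulAut.conjNormal_apply]

theorem kw_pCore_char {X : Type u} [Group X] [Finite X] (p : ℕ) [Fact p.Prime] :
    (Cfsg.pCore p X).Characteristic := by
  rw [Subgroup.characteristic_iff_comap_le]
  intro φ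
  apply Cfsg.Agent.H01.le_pCore
  · exact (Cfsg.Agent.H01.pCore_normal p).comap _
  · exact (Cfsg.Agent.H01.pCore_isPGroup p).comap_of_injective _ φ.injective

/-- A minimal normal nonabelian subgroup is not normalized by `p`-subgroups' overgroup. -/
theorem kw_no_normalized [Finite G] {p : ℕ} [Fact p.Prime] {N : Subgroup G} [N.Normal]
    (hmin : ∀ L : Subgroup G, L.Normal → L ≠ ⊥ → N ≤ L)
    (hna : ¬ ∀ x ∈ N, ∀ y ∈ N, Commute x y) :
    ∀ X : Subgroup G, IsPGroup p X → X ≠ ⊥ → ¬ N ≤ kwN X := by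
  intro X hXp hX0 hN
  by_cases hT : N ⊓ X = ⊥
  · apply hna
    have hXC : X ≤ Subgroup.centralizer (N : Set G) := by
      intro x hx
      rw [Subgroup.mem_centralizer_iff]
      intro n hn
      have h1 : n * x * n⁻¹ * x⁻¹ ∈ X := mul_mem (kw_N_conj (hN hn) hx) (inv_mem hx)
      have h2 : n * x * n⁻¹ * x⁻¹ ∈ N := by
        have h3 : n * x * n⁻¹ * x⁻¹ = n * (x * n⁻¹ * x⁻¹) := by group
        rw [h3]
        exact mul_mem hn (Subgroup.Normal.conj_mem ‹_› _ (inv_mem hn) x)
      have h4 : n * x * n⁻¹ * x⁻¹ ∈ N ⊓ X := ⟨h2, h1⟩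
      rw [hT] at h4
      have h5 : n * x * n⁻¹ = x := mul_inv_eq_one.mp h4
      calc n * x = (n * x * n⁻¹) * n := by group
        _ = x * n := by rw [h5]
    have hCn : (Subgroup.centralizer (N : Set G)).Normal := inferInstance
    have hC0 : Subgroup.centralizer (N : Set G) ≠ ⊥ := fun h0 => hX0 (le_bot_iff.mp (h0 ▸ hXC))
    have h1 := hmin _ hCn hC0
    intro a ha b hb
    have h2 := Subgroup.mem_centralizer_iff.mp (h1 ha) b hb
    exact h2.symm
  · exfalso
    haveI : (Cfsg.pCore p N).Characteristic := kw_pCore_char p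
    have hOn : ((Cfsg.pCore p N).map N.subtype).Normal := kw_map_char_normal N _
    have hTn : ((N ⊓ X).subgroupOf N).Normal := by
      refine ⟨fun t ht g => ?_⟩
      have h1 : (t : G) ∈ N ⊓ X := Subgroup.mem_subgroupOf.mp ht
      apply Subgroup.mem_subgroupOf.mpr
      exact Subgroup.mem_inf.mpr ⟨mul_mem (mul_mem g.2 t.2) (inv_mem g.2),
        kw_N_conj (hN g.2) (Subgroup.mem_inf.mp h1).2⟩
    have hTp : IsPGroup p ((N ⊓ X).subgroupOf N) := by
      have h1 : IsPGroup p (N ⊓ X : Subgroup G) := hXp.to_le inf_le_right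
      have e := Subgroup.subgroupOfEquivOfLe (inf_le_left : N ⊓ X ≤ N)
      exact h1.of_injective e.toMonoidHom e.injective
    have hTO : (N ⊓ X).subgroupOf N ≤ Cfsg.pCore p N := Cfsg.Agent.H01.le_pCore hTn hTp
    have hO0 : (Cfsg.pCore p N).map N.subtype ≠ ⊥ := by
      intro h0
      have h1 := (Subgroup.map_eq_bot_iff_of_injective _ N.subtype_injective).mp h0
      rw [h1, le_bot_iff] at hTO
      apply hT
      rw [eq_bot_iff]
      intro z hz
      have h2 : (⟨z, hz.1⟩ : N) ∈ (N ⊓ X).subgroupOf N := Subgroup.mem_subgroupOf.mpr hz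
      rw [hTO] at h2
      exact congrArg Subtype.val h2
    have h1 := hmin _ hOn hO0
    have hNp : IsPGroup p N := ((Cfsg.Agent.H01.pCore_isPGroup (G := N) p).map N.subtype).to_le h1
    have hN0 : N ≠ ⊥ := by
      intro h0
      apply hT
      rw [h0, bot_inf_eq]
    haveI : Nontrivial N := (Subgroup.nontrivial_iff_ne_bot N).mpr hN0
    haveI := hNp.center_nontrivial
    have hZn : ((Subgroup.center N).map N.subtype).Normal := kw_map_char_normal N _
    have hZ0 : (Subgroup.center N).map N.subtype ≠ ⊥ := by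
      intro h0
      have h2 := (Subgroup.map_eq_bot_iff_of_injective _ N.subtype_injective).mp h0
      have h3 := (Subgroup.nontrivial_iff_ne_bot _).mp ‹Nontrivial (Subgroup.center N)›
      exact h3 h2
    have h2 := hmin _ hZn hZ0
    apply hna
    intro a ha b hb
    obtain ⟨c, hc, rfl⟩ := h2 ha
    have h3 := hc.comm (⟨b, hb⟩ : N)
    have h4 := congrArg (fun z : N => (z : G)) h3
    have h5 : (c : G) * b = b * c := h4
    exact h5

end Cfsg.Agent.H06
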