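import Cfsg.Agent.Lib.H06.KW12
import Cfsg.Agent.S0560

/-!
Kegel--Wielandt, general case.
-/

set_option autoImplicit false

namespace Cfsg.Agent.H06

universe u

open scoped Pointwise

theorem kw_conj_eq_of_N {G : Type u} [Group G] {J : Subgroup G} {g : G} (hg : g ∈ kwN J) :
    MulAut.conj g • J = J := by
  ext x
  rw [kw_conj_mem]
  constructor
  · intro h
    have h1 := kw_N_conj hg h
    have h2 : g * (g⁻¹ * x * g) * g⁻¹ = x := by group
    rwa [h2] at h1
  · intro h
    exact kw_N_conj' hg h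

theorem kw_sylow_map_eq {G : Type u} [Group G] [Finite G] {A : Subgroup G}
    (hA : Group.IsNilpotent A) (p : ℕ) [Fact p.Prime] (P : Sylow p A) :
    (P : Subgroup A).map A.subtype = kwS A p := by
  have h1 : (P : Subgroup A) = Cfsg.pCore p A :=
    le_antisymm (kw_sylow_le_pCore p P) (Cfsg.Agent.H01.pCore_le_sylow p P)
  rw [h1]
  rfl

theorem kw_card_univ_mul {G : Type u} [Group G] [Finite G] {C D : Subgroup G}
    (h : ∀ g : G, ∃ c ∈ C, ∃ d ∈ D, g = c * d) :
    Nat.card G * Nat.card (C ⊓ D : Subgroup G) = Nat.card C * Nat.card D := by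
  rw [← Cfsg.Agent.H18.card_set_mul_mul_card_inf C D]
  congr 1
  have h1 : ((C : Set G) * (D : Set G) : Set G) = Set.univ := by
    ext g
    simp only [Set.mem_univ, iff_true]
    obtain ⟨c, hc, d, hd, rfl⟩ := h g
    exact ⟨c, hc, d, hd, rfl⟩
  rw [h1, Nat.card_coe_set_eq, Set.ncard_univ]

open commutatorElement in
theorem kw565_aux : ∀ (n : ℕ) (G : Type u) [Group G] [Finite G], Nat.card G = n →
    ∀ A B : Subgroup G, Group.IsNilpotent A → Group.IsNilpotent B →
    (∀ g, ∃ a ∈ A, ∃ b ∈ B, g = a * b) → (A ≠ ⊤ ∨ B ≠ ⊤) →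
    ∃ N : Subgroup G, N.Normal ∧ N ≠ ⊤ ∧ (A ≤ N ∨ B ≤ N) := by
  intro n
  induction n using Nat.strong_induction_on with
  | _ n IHn =>
  intro G _ _ hn A B hA hB hAB hproper
  by_contra hno
  have hnoA : ∀ M : Subgroup G, M.Normal → M ≠ ⊤ → ¬ A ≤ M := fun M h1 h2 h3 =>
    hno ⟨M, h1, h2, Or.inl h3⟩
  have hnoB : ∀ M : Subgroup G, M.Normal → M ≠ ⊤ → ¬ B ≤ M := fun M h1 h2 h3 =>
    hno ⟨M, h1, h2, Or.inr h3⟩
  have hnotnil : ¬ Group.IsNilpotent G := by
    intro hnil
    have hcoat : ∀ C : Subgroup G, C ≠ ⊤ → ∃ M : Subgroup G, M.Normal ∧ M ≠ ⊤ ∧ C ≤ M := by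
      intro C hC
      obtain ⟨M, hM, hCM⟩ := (eq_top_or_exists_le_coatom C).resolve_left hC
      exact ⟨M, Subgroup.NormalizerCondition.normal_of_coatom M
        (normalizerCondition_of_isNilpotent (G := G)) hM, hM.1, hCM⟩
    rcases hproper with h | h
    · obtain ⟨M, hM1, hM2, hM3⟩ := hcoat A h
      exact hnoA M hM1 hM2 hM3
    · obtain ⟨M, hM1, hM2, hM3⟩ := hcoat B h
      exact hnoB M hM1 hM2 hM3
  have hnilTop : ∀ C : Subgroup G, Group.IsNilpotent C → C ≠ ⊤ := by
    rintro C hC rfl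
    apply hnotnil
    exact Group.nilpotent_of_surjective (⊤ : Subgroup G).subtype (fun g => ⟨⟨g, trivial⟩, rfl⟩)
  have hAt := hnilTop A hA
  have hBt := hnilTop B hB
  have hL : ∀ L : Subgroup G, L.Normal → L ≠ ⊥ → A ⊔ L = ⊤ ∧ B ⊔ L = ⊤ := by
    intro L hLn hL0
    haveI := hLn
    by_contra hcon
    have hcm : ∀ C : Subgroup G, C.map (QuotientGroup.mk' L) = ⊤ → C ⊔ L = ⊤ := by
      intro C hC
      have h1 := Subgroup.comap_map_eq (QuotientGroup.mk' L) C
      rw [hC, Subgroup.comap_top, QuotientGroup.ker_mk'] at h1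
      exact h1.symm
    have hpr : A.map (QuotientGroup.mk' L) ≠ ⊤ ∨ B.map (QuotientGroup.mk' L) ≠ ⊤ := by
      by_contra h
      push Not at h
      exact hcon ⟨hcm A h.1, hcm B h.2⟩
    have hlt : Nat.card (G ⧸ L) < n := by
      have h3 := L.card_mul_index
      have h4 : 1 < Nat.card L := (Subgroup.one_lt_card_iff_ne_bot L).mpr hL0
      have h5 : 0 < L.index := Nat.pos_of_ne_zero Subgroup.index_ne_zero_of_finite
      show L.index < n
      rw [← hn, ← h3]
      nlinarith
    obtain ⟨Nb, hNbn, hNbt, hcase⟩ := IHn _ hlt (G ⧸ L) rfl (A.map (QuotientGroup.mk' L))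
      (B.map (QuotientGroup.mk' L))
      (Group.nilpotent_of_surjective ((QuotientGroup.mk' L).subgroupMap A)
        ((QuotientGroup.mk' L).subgroupMap_surjective A))
      (Group.nilpotent_of_surjective ((QuotientGroup.mk' L).subgroupMap B)
        ((QuotientGroup.mk' L).subgroupMap_surjective B))
      (by
        intro g
        obtain ⟨g, rfl⟩ := QuotientGroup.mk'_surjective L g
        obtain ⟨a, ha, b, hb, rfl⟩ := hAB g
        exact ⟨_, ⟨a, ha, rfl⟩, _, ⟨b, hb, rfl⟩, map_mul _ a b⟩)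
      hpr
    have hNt : Nb.comap (QuotientGroup.mk' L) ≠ ⊤ := by
      intro h
      apply hNbt
      rw [eq_top_iff]
      intro x _
      obtain ⟨g, rfl⟩ := QuotientGroup.mk'_surjective L x
      have : g ∈ Nb.comap (QuotientGroup.mk' L) := by rw [h]; trivial
      exact this
    rcases hcase with h | h
    · exact hnoA _ (hNbn.comap _) hNt (fun a ha => h ⟨a, ha, rfl⟩)
    · exact hnoB _ (hNbn.comap _) hNt (fun a ha => h ⟨a, ha, rfl⟩)
  have hQnil : ∀ (L : Subgroup G) [L.Normal], L ≠ ⊥ → Group.IsNilpotent (G ⧸ L) := by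
    intro L hLn hL0
    obtain ⟨h1, _⟩ := hL L hLn hL0
    apply Group.nilpotent_of_surjective ((QuotientGroup.mk' L).comp A.subtype)
    intro x
    obtain ⟨g, rfl⟩ := QuotientGroup.mk'_surjective L x
    have h2 : g ∈ A ⊔ L := by rw [h1]; trivial
    obtain ⟨a, ha, l, hl, rfl⟩ := Subgroup.mem_sup_of_normal_right.mp h2
    refine ⟨⟨a, ha⟩, ?_⟩
    simp only [MonoidHom.comp_apply, Subgroup.subtype_apply, map_mul]
    have h3 : QuotientGroup.mk' L l = 1 := (QuotientGroup.eq_one_iff l).mpr hl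
    rw [h3, mul_one]
  have hint : ∀ L₁ L₂ : Subgroup G, L₁.Normal → L₂.Normal → L₁ ≠ ⊥ → L₂ ≠ ⊥ → L₁ ⊓ L₂ ≠ ⊥ := by
    intro L₁ L₂ h1 h2 h3 h4 h0
    haveI := h1
    haveI := h2
    haveI := hQnil L₁ h3
    haveI := hQnil L₂ h4
    apply hnotnil
    apply Subgroup.isNilpotent_of_ker_le_center ((QuotientGroup.mk' L₁).prod (QuotientGroup.mk' L₂))
    intro x hx
    have h5 : x ∈ L₁ ⊓ L₂ := by
      rw [MonoidHom.mem_ker, MonoidHom.prod_apply, Prod.mk_eq_one] at hx
      exact ⟨(QuotientGroup.eq_one_iff x).mp hx.1, (QuotientGroup.eq_one_iff x).mp hx.2⟩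
    rw [h0] at h5
    have h6 : x = 1 := h5
    rw [h6]
    exact one_mem _
  haveI hnt : Nontrivial G := by
    by_contra hs
    rw [not_nontrivial_iff_subsingleton] at hs
    rcases hproper with h | h
    · exact h (Subsingleton.elim _ _)
    · exact h (Subsingleton.elim _ _)
  obtain ⟨N, hNm⟩ := exists_minimal_of_wellFoundedLT (fun L : Subgroup G => L.Normal ∧ L ≠ ⊥)
    ⟨⊤, inferInstance, top_ne_bot⟩
  obtain ⟨⟨hNn, hN0⟩, hNle⟩ := hNm
  haveI := hNn
  have hmin : ∀ L : Subgroup G, L.Normal → L ≠ ⊥ → N ≤ L := by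
    intro L h1 h2
    have h3 := hNle (y := N ⊓ L) ⟨Subgroup.normal_inf_normal N L, hint N L hNn h1 hN0 h2⟩ inf_le_left
    exact h3.trans inf_le_right
  by_cases hab : ∀ x ∈ N, ∀ y ∈ N, Commute x y
  · -- the abelian case
    haveI hnilN : Group.IsNilpotent N := by
      letI : CommGroup N := { (inferInstance : Group N) with
        mul_comm := fun a b => Subtype.ext (hab a a.2 b b.2).eq }
      exact CommGroup.isNilpotent
    have hcN : Nat.card N ≠ 1 := fun h => hN0 (Subgroup.card_eq_one.mp h)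
    obtain ⟨r, hr, hrd⟩ := Nat.exists_prime_and_dvd hcN
    haveI : Fact r.Prime := ⟨hr⟩
    haveI : (Cfsg.pCore r N).Characteristic := kw_pCore_char r
    have hSn : (kwS N r).Normal := kw_map_char_normal N _
    have hNS := hmin _ hSn (kwS_ne_bot hnilN hrd)
    have hNr : IsPGroup r N := (kwS_isPGroup hnilN r).to_le hNS
    obtain ⟨k, hk⟩ := hNr.exists_card_eq
    have key : ∀ C : Subgroup G, C ≠ ⊤ → C ⊔ N = ⊤ → N ⊓ C = ⊥ := by
      intro C hCt hCN
      by_contra hT
      have hTn : (N ⊓ C).Normal := by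
        refine ⟨fun t ht g => ?_⟩
        have hg : g ∈ C ⊔ N := by rw [hCN]; trivial
        obtain ⟨c, hc, l, hl, rfl⟩ := Subgroup.mem_sup_of_normal_right.mp hg
        have h1 : c * l * t * (c * l)⁻¹ = c * t * c⁻¹ := by
          have h2 := (hab l hl t ht.1).eq
          calc c * l * t * (c * l)⁻¹ = c * (l * t) * l⁻¹ * c⁻¹ := by group
            _ = c * (t * l) * l⁻¹ * c⁻¹ := by rw [h2]
            _ = c * t * c⁻¹ := by group
        rw [h1]
        exact Subgroup.mem_inf.mpr ⟨Subgroup.Normal.conj_mem ‹_› _ ht.1 c,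
          mul_mem (mul_mem hc ht.2) (inv_mem hc)⟩
      have h1 := hmin _ hTn hT
      apply hCt
      rw [← hCN]
      exact (sup_eq_left.mpr (h1.trans inf_le_right)).symm
    have hcard : ∀ C : Subgroup G, C ≠ ⊤ → C ⊔ N = ⊤ → Nat.card G = Nat.card C * Nat.card N := by
      intro C hCt hCN
      have h1 : ∀ g : G, ∃ c ∈ C, ∃ d ∈ N, g = c * d := by
        intro g
        have hg : g ∈ C ⊔ N := by rw [hCN]; trivial
        obtain ⟨c, hc, l, hl, hcl⟩ := Subgroup.mem_sup_of_normal_right.mp hg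
        exact ⟨c, hc, l, hl, hcl.symm⟩
      have h2 := kw_card_univ_mul h1
      have h3 : C ⊓ N = ⊥ := by rw [inf_comm]; exact key C hCt hCN
      rw [h3, Subgroup.card_bot, mul_one] at h2
      exact h2
    have hGA := hcard A hAt (hL N hNn hN0).1
    have hGB := hcard B hBt (hL N hNn hN0).2
    have hGAB := kw_card_univ_mul hAB
    have hBpos : 0 < Nat.card B := Nat.card_pos
    have hApos : 0 < Nat.card A := Nat.card_pos
    have h1 : Nat.card N * Nat.card (A ⊓ B : Subgroup G) = Nat.card A := by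
      apply Nat.eq_of_mul_eq_mul_right hBpos
      calc Nat.card N * Nat.card (A ⊓ B : Subgroup G) * Nat.card B
          = (Nat.card B * Nat.card N) * Nat.card (A ⊓ B : Subgroup G) := by ring
        _ = Nat.card G * Nat.card (A ⊓ B : Subgroup G) := by rw [hGB]
        _ = Nat.card A * Nat.card B := hGAB
    have h2 : Nat.card N * Nat.card (A ⊓ B : Subgroup G) = Nat.card B := by
      apply Nat.eq_of_mul_eq_mul_right hApos
      calc Nat.card N * Nat.card (A ⊓ B : Subgroup G) * Nat.card A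
          = (Nat.card A * Nat.card N) * Nat.card (A ⊓ B : Subgroup G) := by ring
        _ = Nat.card G * Nat.card (A ⊓ B : Subgroup G) := by rw [hGA]
        _ = Nat.card A * Nat.card B := hGAB
        _ = Nat.card B * Nat.card A := mul_comm _ _
    have hinfpos : 0 < Nat.card (A ⊓ B : Subgroup G) := Nat.card_pos
    have hrA : (A ⊓ B).relIndex A = Nat.card N := by
      have h3 := relIndex_mul_card_of_le' (inf_le_left : A ⊓ B ≤ A)
      rw [← h1] at h3
      exact Nat.eq_of_mul_eq_mul_right hinfpos h3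
    have hrB : (A ⊓ B).relIndex B = Nat.card N := by
      have h3 := relIndex_mul_card_of_le' (inf_le_right : A ⊓ B ≤ B)
      rw [← h2] at h3
      exact Nat.eq_of_mul_eq_mul_right hinfpos h3
    have hC1 : kwC A r ≤ A ⊓ B := kw_normal_le (kwC_le A r) inf_le_left (kwC_normalized A r) (by
      rw [hrA, hk]
      exact Nat.Coprime.pow_right k (kwC_coprime hA r))
    have hC2 : kwC B r ≤ A ⊓ B := kw_normal_le (kwC_le B r) inf_le_right (kwC_normalized B r) (by
      rw [hrB, hk]
      exact Nat.Coprime.pow_right k (kwC_coprime hB r))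
    have hord : ∀ C : Subgroup G, Group.IsNilpotent C → ∀ x ∈ kwC C r, (orderOf x).Coprime r := by
      intro C hC x hx
      have h12 := orderOf_dvd_natCard (⟨x, hx⟩ : kwC C r)
      rw [Subgroup.orderOf_mk] at h12
      exact Nat.Coprime.coprime_dvd_left h12 (kwC_coprime hC r)
    have hC3 : kwC A r ≤ kwC B r := fun x hx =>
      kw_mem_kwC_of_coprime hB (hC1 hx).2 (hord A hA x hx)
    have hC4 : kwC B r ≤ kwC A r := fun x hx =>
      kw_mem_kwC_of_coprime hA (hC2 hx).1 (hord B hB x hx)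
    have hCeq : kwC B r = kwC A r := le_antisymm hC4 hC3
    have hCn : (kwC A r).Normal := by
      apply Subgroup.normalizer_eq_top_iff.mp
      rw [eq_top_iff]
      intro g _
      obtain ⟨a, ha, b, hb, rfl⟩ := hAB g
      refine mul_mem (kwC_normalized A r ha) ?_
      have := kwC_normalized B r hb
      rwa [hCeq] at this
    have hC0 : kwC A r = ⊥ := by
      by_contra hC0
      have h3 := hmin _ hCn hC0
      obtain ⟨⟨x, hx⟩, hx1⟩ := (Subgroup.ne_bot_iff_exists_ne_one).mp hN0
      have hx1' : x ≠ 1 := fun h5 => hx1 (Subtype.ext h5)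
      apply hx1'
      have h4 := hord A hA x (h3 hx)
      obtain ⟨j, hj⟩ := hNr ⟨x, hx⟩
      have h5 : x ^ r ^ j = 1 := by
        have := congrArg Subtype.val hj
        simpa using this
      have h6 : x ^ orderOf x = 1 := pow_orderOf_eq_one x
      exact kw_eq_one_of_pow_coprime (Nat.Coprime.pow_right j h4) h6 h5
    apply hnotnil
    have h3 := kw_card_split hA r
    rw [hC0, Subgroup.card_bot, mul_one] at h3
    obtain ⟨j, hj⟩ := (kwS_isPGroup hA r).exists_card_eq
    have h4 : IsPGroup r G := IsPGroup.of_card (n := j + k) (by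
      rw [hGA, ← h3, hj, hk, pow_add])
    exact h4.isNilpotent
  · -- the nonabelian case
    have hcop : (Nat.card A).Coprime (Nat.card B) := by
      by_contra hnc
      obtain ⟨p, hp, hpA, hpB⟩ := Nat.Prime.not_coprime_iff_dvd.mp hnc
      haveI : Fact p.Prime := ⟨hp⟩
      obtain ⟨P, Q, R, hR⟩ := Cfsg.Agent.S0560.result A B hAB p
      rw [kw_sylow_map_eq hA, kw_sylow_map_eq hB] at hR
      have hXY : KwPerm (kwS A p) (kwS B p) := kwPerm_of_set hR
      have hperm : ∀ g : G, KwPerm (kwS A p) (MulAut.conj g • kwS B p) := by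
        intro g
        obtain ⟨a, ha, b, hb, rfl⟩ := hAB g
        have h1 := kwPerm_conj hXY a
        rw [kw_conj_eq_of_N (kwS_normalized A p ha)] at h1
        have h2 : MulAut.conj (a * b) • kwS B p = MulAut.conj a • kwS B p := by
          rw [map_mul, mul_smul, kw_conj_eq_of_N (kwS_normalized B p hb)]
        rw [h2]
        exact h1
      have hY0 := kwS_ne_bot hB hpB
      have hNY : N ≤ Subgroup.normalClosure (kwS B p : Set G) := by
        apply hmin _ Subgroup.normalClosure_normal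
        intro h0
        apply hY0
        rw [eq_bot_iff, ← h0]
        exact Subgroup.le_normalClosure
      exact kw_KP hNY (kw_no_normalized hmin hab) (kwS_isPGroup hB p) _ (kwS_isPGroup hA p)
        (kwS_ne_bot hA hpA) hperm
    haveI hs : Group.IsSolvable G := kw_solvable (⟨hA, hB, hcop, hAB⟩ : KwPair A B)
    haveI : Nontrivial N := (Subgroup.nontrivial_iff_ne_bot N).mpr hN0
    have hDn : ((commutator N).map N.subtype).Normal := kw_map_char_normal N _
    by_cases hD0 : (commutator N).map N.subtype = ⊥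
    · apply hab
      have h1 := (Subgroup.map_eq_bot_iff_of_injective _ N.subtype_injective).mp hD0
      intro x hx y hy
      have h2 : ⁅(⟨x, hx⟩ : N), (⟨y, hy⟩ : N)⁆ ∈ commutator N :=
        Subgroup.commutator_mem_commutator (Subgroup.mem_top _) (Subgroup.mem_top _)
      rw [h1] at h2
      have h3 : ⁅(⟨x, hx⟩ : N), (⟨y, hy⟩ : N)⁆ = 1 := h2
      have h4 := commutatorElement_eq_one_iff_mul_comm.mp h3
      exact congrArg Subtype.val h4
    · have h1 := hmin _ hDn hD0
      have h2 := IsSolvable.commutator_lt_top_of_nontrivial N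
      apply h2.ne
      rw [eq_top_iff]
      rintro x -
      obtain ⟨c, hc, hcx⟩ := h1 x.2
      have : c = x := Subtype.ext hcx
      rwa [← this]

/-- The statement on proper normal subgroups. -/
theorem kw565 {G : Type u} [Group G] [Finite G] (A B : Subgroup G) (hA : Group.IsNilpotent A)
    (hB : Group.IsNilpotent B) (hAB : ∀ g, ∃ a ∈ A, ∃ b ∈ B, g = a * b) (hproper : A ≠ ⊤ ∨ B ≠ ⊤) :
    ∃ N : Subgroup G, N.Normal ∧ N ≠ ⊤ ∧ (A ≤ N ∨ B ≤ N) :=
  kw565_aux _ G rfl A B hA hB hAB hproper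

/-- The Kegel--Wielandt theorem. -/
theorem kw564_aux : ∀ (n : ℕ) (G : Type u) [Group G] [Finite G], Nat.card G = n →
    ∀ A B : Subgroup G, Group.IsNilpotent A → Group.IsNilpotent B →
    (∀ g, ∃ a ∈ A, ∃ b ∈ B, g = a * b) → Group.IsSolvable G := by
  intro n
  induction n using Nat.strong_induction_on with
  | _ n IHn =>
  intro G _ _ hn A B hA hB hAB
  have hTop : ∀ C : Subgroup G, Group.IsNilpotent C → C = ⊤ → Group.IsSolvable G := by
    rintro C hC rfl
    haveI : Group.IsNilpotent G :=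
      Group.nilpotent_of_surjective (⊤ : Subgroup G).subtype (fun g => ⟨⟨g, trivial⟩, rfl⟩)
    infer_instance
  by_cases hAt : A = ⊤
  · exact hTop A hA hAt
  by_cases hBt : B = ⊤
  · exact hTop B hB hBt
  obtain ⟨N, hNn, hNt, hcase⟩ := kw565 A B hA hB hAB (Or.inl hAt)
  haveI := hNn
  have hltN : Nat.card N < n := by
    have h1 := N.card_mul_index
    have h2 := Subgroup.one_lt_index_of_ne_top hNt
    have h3 : 0 < Nat.card N := Nat.card_pos
    rw [← hn, ← h1]
    nlinarith
  have hpart : ∀ (X Y : Subgroup G), Group.IsNilpotent X → Group.IsNilpotent Y →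
      (∀ g, ∃ a ∈ X, ∃ b ∈ Y, g = a * b) → X ≤ N → Group.IsSolvable G := by
    intro X Y hX hY hXY hXN
    have hNs : Group.IsSolvable N := by
      refine IHn _ hltN N rfl (X.subgroupOf N) ((N ⊓ Y).subgroupOf N) ?_ ?_ ?_
      · exact Group.nilpotent_of_surjective (Subgroup.subgroupOfEquivOfLe hXN).symm.toMonoidHom
          (Subgroup.subgroupOfEquivOfLe hXN).symm.surjective
      · have h1 : Group.IsNilpotent (N ⊓ Y : Subgroup G) := nilpotent_of_le inf_le_right hY
        have e := Subgroup.subgroupOfEquivOfLe (inf_le_left : N ⊓ Y ≤ N)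
        exact Group.nilpotent_of_surjective e.symm.toMonoidHom e.symm.surjective
      · intro g
        obtain ⟨a, ha, b, hb, hg⟩ := hXY g
        have hbN : b ∈ N := by
          have h2 : b = a⁻¹ * g := by rw [hg]; group
          rw [h2]
          exact mul_mem (inv_mem (hXN ha)) g.2
        exact ⟨⟨a, hXN ha⟩, Subgroup.mem_subgroupOf.mpr ha, ⟨b, hbN⟩,
          Subgroup.mem_subgroupOf.mpr ⟨hbN, hb⟩, Subtype.ext hg⟩
    have hQ : Group.IsNilpotent (G ⧸ N) := by
      apply Group.nilpotent_of_surjective ((QuotientGroup.mk' N).comp Y.subtype)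
      intro x
      obtain ⟨g, rfl⟩ := QuotientGroup.mk'_surjective N x
      obtain ⟨a, ha, b, hb, rfl⟩ := hXY g
      refine ⟨⟨b, hb⟩, ?_⟩
      simp only [MonoidHom.comp_apply, Subgroup.subtype_apply, map_mul]
      have h3 : QuotientGroup.mk' N a = 1 := (QuotientGroup.eq_one_iff a).mpr (hXN ha)
      rw [h3, one_mul]
    refine solvable_of_ker_le_range N.subtype (QuotientGroup.mk' N) ?_
    intro x hx
    rw [MonoidHom.mem_ker] at hx
    exact ⟨⟨x, (QuotientGroup.eq_one_iff x).mp hx⟩, rfl⟩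
  rcases hcase with h | h
  · exact hpart A B hA hB hAB h
  · refine hpart B A hB hA ?_ h
    intro g
    obtain ⟨a, ha, b, hb, hab⟩ := hAB g⁻¹
    refine ⟨b⁻¹, inv_mem hb, a⁻¹, inv_mem ha, ?_⟩
    rw [← mul_inv_rev, ← hab, inv_inv]

theorem kw564 {G : Type u} [Group G] [Finite G] (A B : Subgroup G) (hA : Group.IsNilpotent A)
    (hB : Group.IsNilpotent B) (hAB : ∀ g, ∃ a ∈ A, ∃ b ∈ B, g = a * b) : Group.IsSolvable G :=
  kw564_aux _ G rfl A B hA hB hAB

end Cfsg.Agent.H06
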