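import Cfsg.Agent.Lib.H06.KW1

/-!
Kegel--Wielandt, coprime case: coprime factorizations of subgroups.
-/

set_option autoImplicit false

namespace Cfsg.Agent.H06

universe u

open scoped Pointwise

variable {G : Type u} [Group G]

/-- The normalizer of a subgroup. -/
abbrev kwN (X : Subgroup G) : Subgroup G := Subgroup.normalizer (X : Set G)

theorem kw_mem_N_of_commute {D : Subgroup G} {y : G} (h : ∀ d ∈ D, Commute y d) : y ∈ kwN D := by
  rw [Subgroup.mem_normalizer_iff]
  intro x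
  constructor
  · intro hx
    rw [(h x hx).eq, mul_assoc, mul_inv_cancel, mul_one]
    exact hx
  · intro hx
    have h1 := (h _ hx).inv_left.eq
    have h2 : x = y⁻¹ * (y * x * y⁻¹) * y := by group
    rw [h2, h1, inv_mul_cancel_right]
    exact hx

theorem kw_N_conj {D : Subgroup G} {g x : G} (hg : g ∈ kwN D) (hx : x ∈ D) : g * x * g⁻¹ ∈ D :=
  (Subgroup.mem_normalizer_iff.mp hg x).mp hx

theorem kw_N_conj' {D : Subgroup G} {g x : G} (hg : g ∈ kwN D) (hx : x ∈ D) : g⁻¹ * x * g ∈ D := by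
  have := kw_N_conj (inv_mem hg) hx
  rwa [inv_inv] at this

theorem kw_le_N (D : Subgroup G) : D ≤ kwN D := Subgroup.le_normalizer

theorem kw_card_inf_mul {X : Type u} [Group X] [Finite X] (N A : Subgroup X) [N.Normal] :
    A.relIndex (N ⊔ A) * Nat.card (N ⊓ A : Subgroup X) = Nat.card N := by
  have h1 : N.relIndex (N ⊔ A) = N.relIndex A := Subgroup.relIndex_sup_left A N
  have h2 : (N ⊓ A).relIndex A = N.relIndex A := Subgroup.inf_relIndex_right N A
  have h3 := relIndex_mul_card_of_le' (le_sup_left : N ≤ N ⊔ A)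
  have h4 := relIndex_mul_card_of_le' (le_sup_right : A ≤ N ⊔ A)
  have h5 := relIndex_mul_card_of_le' (inf_le_right : N ⊓ A ≤ A)
  have h6 : 0 < (N ⊓ A).relIndex A := by
    have := Nat.card_pos (α := A)
    rw [← h5] at this
    exact Nat.pos_of_mul_pos_right this |> fun h => by omega
  apply Nat.eq_of_mul_eq_mul_left h6
  rw [h2, ← h1, h3, h1, ← h2]
  calc _ = A.relIndex (N ⊔ A) * ((N ⊓ A).relIndex A * Nat.card (N ⊓ A : Subgroup X)) := by ring
    _ = _ := by rw [h5, h4]

/-- A normalized subgroup whose order is coprime to the relative index of `S` lies in `S`. -/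
theorem kw_normal_le [Finite G] {E D S : Subgroup G} (hDE : D ≤ E) (hSE : S ≤ E) (hN : E ≤ kwN D)
    (hc : (Nat.card D).Coprime (S.relIndex E)) : D ≤ S := by
  have hn : (D.subgroupOf E).Normal := (Subgroup.normal_subgroupOf_iff_le_normalizer hDE).mpr hN
  set D' := D.subgroupOf E with hD'
  set S' := S.subgroupOf E with hS'
  have h1 := kw_card_inf_mul D' S'
  have h2 : S'.relIndex (D' ⊔ S') ∣ Nat.card D' := ⟨_, h1.symm⟩
  have h3 : S'.relIndex (D' ⊔ S') ∣ S'.index :=
    ⟨_, (Subgroup.relIndex_mul_index (le_sup_right : S' ≤ D' ⊔ S')).symm⟩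
  have h4 : Nat.card D' = Nat.card D := Nat.card_congr (Subgroup.subgroupOfEquivOfLe hDE).toEquiv
  have h5 : S'.index = S.relIndex E := rfl
  rw [h4] at h2
  rw [h5] at h3
  have h6 : S'.relIndex (D' ⊔ S') = 1 := Nat.eq_one_of_dvd_coprimes hc h2 h3
  have h7 : D' ⊔ S' ≤ S' := Subgroup.relIndex_eq_one.mp h6
  have h8 : D' ≤ S' := le_sup_left.trans h7
  intro x hx
  have := h8 (Subgroup.mem_subgroupOf.mpr (show ((⟨x, hDE hx⟩ : E) : G) ∈ D from hx))
  exact Subgroup.mem_subgroupOf.mp this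

/-- Coprime factorization of a subgroup. -/
structure KwFac (E H K : Subgroup G) : Prop where
  hle : H ≤ E
  kle : K ≤ E
  cop : (Nat.card H).Coprime (Nat.card K)
  fac : ∀ g ∈ E, ∃ h ∈ H, ∃ k ∈ K, g = h * k

namespace KwFac

variable {E H K : Subgroup G}

theorem symm (h : KwFac E H K) : KwFac E K H where
  hle := h.kle
  kle := h.hle
  cop := h.cop.symm
  fac := by
    intro g hg
    obtain ⟨a, ha, b, hb, hab⟩ := h.fac g⁻¹ (inv_mem hg)
    refine ⟨b⁻¹, inv_mem hb, a⁻¹, inv_mem ha, ?_⟩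
    rw [← mul_inv_rev, ← hab, inv_inv]

theorem disj [Finite G] (h : KwFac E H K) : H ⊓ K = ⊥ := Subgroup.inf_eq_bot_of_coprime h.cop

theorem eq_one [Finite G] (h : KwFac E H K) {x : G} (hx : x ∈ H) (hx' : x ∈ K) : x = 1 := by
  have h1 : x ∈ H ⊓ K := ⟨hx, hx'⟩
  rw [h.disj] at h1
  exact h1

theorem card [Finite G] (h : KwFac E H K) : Nat.card E = Nat.card H * Nat.card K := by
  rw [← Nat.card_prod]
  symm
  apply Nat.card_eq_of_bijective (fun p : H × K => (⟨p.1 * p.2, mul_mem (h.hle p.1.2) (h.kle p.2.2)⟩ : E))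
  constructor
  · rintro ⟨a, b⟩ ⟨c, d⟩ hab
    have h1 : (a : G) * b = c * d := congrArg Subtype.val hab
    have h2 : (c : G)⁻¹ * a = d * (b : G)⁻¹ := by
      rw [eq_mul_inv_iff_mul_eq, mul_assoc, h1, inv_mul_cancel_left]
    have h3 : (c : G)⁻¹ * a = 1 :=
      h.eq_one (mul_mem (inv_mem c.2) a.2) (by rw [h2]; exact mul_mem d.2 (inv_mem b.2))
    have h4 : d * (b : G)⁻¹ = 1 := by rw [← h2, h3]
    ext
    · exact (inv_mul_eq_one.mp h3).symm
    · exact (mul_inv_eq_one.mp h4).symm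
  · rintro ⟨g, hg⟩
    obtain ⟨a, ha, b, hb, hab⟩ := h.fac g hg
    exact ⟨(⟨a, ha⟩, ⟨b, hb⟩), Subtype.ext hab.symm⟩

theorem relIndex_right [Finite G] (h : KwFac E H K) : H.relIndex E = Nat.card K := by
  have h1 := relIndex_mul_card_of_le' h.hle
  rw [h.card, mul_comm (Nat.card H)] at h1
  exact Nat.eq_of_mul_eq_mul_right Nat.card_pos h1

theorem relIndex_left [Finite G] (h : KwFac E H K) : K.relIndex E = Nat.card H :=
  h.symm.relIndex_right

/-- A normalized subgroup of order prime to `|H|` lies in `K`. -/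
theorem le_right [Finite G] (h : KwFac E H K) {D : Subgroup G} (hDE : D ≤ E) (hN : E ≤ kwN D)
    (hc : (Nat.card D).Coprime (Nat.card H)) : D ≤ K :=
  kw_normal_le hDE h.kle hN (by rwa [h.relIndex_left])

theorem le_left [Finite G] (h : KwFac E H K) {D : Subgroup G} (hDE : D ≤ E) (hN : E ≤ kwN D)
    (hc : (Nat.card D).Coprime (Nat.card K)) : D ≤ H :=
  h.symm.le_right hDE hN hc

/-- A prime-power subgroup normalized by `E` lies in one of the factors. -/
theorem pgroup_le [Finite G] (h : KwFac E H K) {D : Subgroup G} {r : ℕ} (hr : r.Prime)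
    (hD : IsPGroup r D) (hDE : D ≤ E) (hN : E ≤ kwN D) : D ≤ H ∨ D ≤ K := by
  haveI : Fact r.Prime := ⟨hr⟩
  obtain ⟨k, hk⟩ := hD.exists_card_eq
  by_cases hrK : r ∣ Nat.card K
  · right
    apply h.le_right hDE hN
    rw [hk]
    apply Nat.Coprime.pow_left
    rw [Nat.Prime.coprime_iff_not_dvd hr]
    intro hrH
    have := Nat.dvd_gcd hrH hrK
    rw [h.cop] at this
    exact hr.one_lt.ne' (Nat.dvd_one.mp this)
  · left
    apply h.le_left hDE hN
    rw [hk]
    apply Nat.Coprime.pow_left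
    rwa [Nat.Prime.coprime_iff_not_dvd hr]

end KwFac

end Cfsg.Agent.H06
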