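import Cfsg.Agent.Lib.H06.KW2

/-!
Kegel--Wielandt, coprime case: permutability and Fitting arguments inside subgroups.
-/

set_option autoImplicit false

namespace Cfsg.Agent.H06

universe u

open scoped Pointwise

variable {G : Type u} [Group G]

theorem kw_sub_normal_N {L A₁ : Subgroup G} {x : L} (hx : (x : G) ∈ kwN A₁) :
    x ∈ Subgroup.normalizer ((A₁.subgroupOf L : Subgroup L) : Set L) := by
  rw [Subgroup.mem_normalizer_iff]
  intro y
  have := Subgroup.mem_normalizer_iff.mp hx (y : G)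
  simpa [Subgroup.mem_subgroupOf] using this

theorem kw_map_normal {E : Subgroup G} (D : Subgroup E) [D.Normal] : E ≤ kwN (D.map E.subtype) := by
  intro x hx
  rw [Subgroup.mem_normalizer_iff]
  intro y
  constructor
  · rintro ⟨z, hz, rfl⟩
    exact ⟨⟨x, hx⟩ * z * (⟨x, hx⟩ : E)⁻¹, Subgroup.Normal.conj_mem ‹_› _ hz _, rfl⟩
  · rintro ⟨z, hz, hzy⟩
    refine ⟨(⟨x, hx⟩ : E)⁻¹ * z * (⟨x, hx⟩ : E)⁻¹⁻¹, Subgroup.Normal.conj_mem ‹_› _ hz _, ?_⟩
    simp only [Subgroup.subtype_apply] at hzy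
    simp only [Subgroup.subtype_apply, inv_inv, Subgroup.coe_mul, Subgroup.coe_inv]
    rw [hzy]; group

theorem kw_map_le {E H : Subgroup G} {D : Subgroup E} (h : D ≤ H.subgroupOf E) :
    D.map E.subtype ≤ H := by
  rintro _ ⟨z, hz, rfl⟩
  exact Subgroup.mem_subgroupOf.mp (h hz)

theorem kw_le_subgroupOf {E H : Subgroup G} {D : Subgroup E} (h : D.map E.subtype ≤ H) :
    D ≤ H.subgroupOf E := fun z hz => Subgroup.mem_subgroupOf.mpr (h ⟨z, hz, rfl⟩)

/-- Hall condition through a factorization. -/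
theorem kw_hall_of_fac [Finite G] {L H K A₁ : Subgroup G} (h : KwFac L H K) (hA₁ : A₁ ≤ H)
    (hc : (Nat.card A₁).Coprime (A₁.relIndex H)) : (Nat.card A₁).Coprime (A₁.relIndex L) := by
  rw [← Subgroup.relIndex_mul_relIndex A₁ H L hA₁ h.hle, h.relIndex_right]
  apply Nat.Coprime.mul_right hc
  exact Nat.Coprime.coprime_dvd_left (Subgroup.card_dvd_of_le hA₁) h.cop

theorem kw_perm [Finite G] {L H K A₁ B₁ : Subgroup G} (hLs : Group.IsSolvable L)
    (hfac : ∀ g ∈ L, ∃ h ∈ H, ∃ k ∈ K, g = h * k) (hH : H ≤ L) (hK : K ≤ L)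
    (hA₁ : A₁ ≤ H) (hB₁ : B₁ ≤ K) (hAn : H ≤ kwN A₁) (hBn : K ≤ kwN B₁)
    (hAh : (Nat.card A₁).Coprime (A₁.relIndex L)) (hBh : (Nat.card B₁).Coprime (B₁.relIndex L)) :
    ∃ S : Subgroup G, S ≤ L ∧ (S : Set G) = (A₁ : Set G) * (B₁ : Set G) := by
  have hA1 : A₁.subgroupOf L ≤ H.subgroupOf L :=
    fun x hx => Subgroup.mem_subgroupOf.mpr (hA₁ (Subgroup.mem_subgroupOf.mp hx))
  have hB1 : B₁.subgroupOf L ≤ K.subgroupOf L :=
    fun x hx => Subgroup.mem_subgroupOf.mpr (hB₁ (Subgroup.mem_subgroupOf.mp hx))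
  have hAn' : ((A₁.subgroupOf L).subgroupOf (H.subgroupOf L)).Normal := by
    apply (Subgroup.normal_subgroupOf_iff_le_normalizer hA1).mpr
    intro x hx
    exact kw_sub_normal_N (hAn (Subgroup.mem_subgroupOf.mp hx))
  have hBn' : ((B₁.subgroupOf L).subgroupOf (K.subgroupOf L)).Normal := by
    apply (Subgroup.normal_subgroupOf_iff_le_normalizer hB1).mpr
    intro x hx
    exact kw_sub_normal_N (hBn (Subgroup.mem_subgroupOf.mp hx))
  have hcA : Nat.card (A₁.subgroupOf L) = Nat.card A₁ :=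
    Nat.card_congr (Subgroup.subgroupOfEquivOfLe (hA₁.trans hH)).toEquiv
  have hcB : Nat.card (B₁.subgroupOf L) = Nat.card B₁ :=
    Nat.card_congr (Subgroup.subgroupOfEquivOfLe (hB₁.trans hK)).toEquiv
  obtain ⟨S', hS'⟩ := Cfsg.Agent.S0561.result (G := L) (H.subgroupOf L) (K.subgroupOf L)
    (A₁.subgroupOf L) (B₁.subgroupOf L)
    (by
      intro g
      obtain ⟨h, hh, k, hk, hg⟩ := hfac g g.2
      exact ⟨⟨h, hH hh⟩, Subgroup.mem_subgroupOf.mpr hh, ⟨k, hK hk⟩,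
        Subgroup.mem_subgroupOf.mpr hk, Subtype.ext hg⟩)
    hA1 hAn' hB1 hBn' (by rw [hcA]; exact hAh) (by rw [hcB]; exact hBh) 1 1
  refine ⟨S'.map L.subtype, Subgroup.map_subtype_le _, ?_⟩
  simp only [map_one, one_smul] at hS'
  ext x
  constructor
  · rintro ⟨y, hy, rfl⟩
    have hy' : y ∈ (S' : Set L) := hy
    rw [hS'] at hy'
    obtain ⟨a, ha, b, hb, rfl⟩ := hy'
    exact ⟨a, ha, b, hb, rfl⟩
  · rintro ⟨a, ha, b, hb, rfl⟩
    refine ⟨⟨a, hH (hA₁ ha)⟩ * ⟨b, hK (hB₁ hb)⟩, ?_, rfl⟩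
    show _ ∈ (S' : Set L)
    rw [hS']
    exact ⟨_, ha, _, hb, rfl⟩

theorem kw_exists_pCore {X : Type u} [Group X] [Finite X] [Group.IsSolvable X] [Nontrivial X] :
    ∃ r : ℕ, r.Prime ∧ Cfsg.pCore r X ≠ ⊥ := by
  by_contra hne
  push Not at hne
  have h1 : Cfsg.fittingSubgroup X = ⊥ := by
    rw [Cfsg.Agent.H01.fitting_eq_iSup_pCore]
    apply le_bot_iff.mp
    apply iSup_le
    rintro ⟨r, hr⟩
    exact (hne r hr).le
  have h2 := Cfsg.Agent.H01.centralizer_fitting_le (G := X)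
  rw [h1] at h2
  obtain ⟨x, hx⟩ := exists_ne (1 : X)
  have h3 : x ∈ Subgroup.centralizer (((⊥ : Subgroup X)) : Set X) := by
    rw [Subgroup.mem_centralizer_iff]
    intro y hy
    have : y = 1 := hy
    rw [this, one_mul, mul_one]
  exact hx (h2 h3)

theorem kw_dich [Finite G] {E H K : Subgroup G} (hs : Group.IsSolvable E) (hne : E ≠ ⊥)
    (h : KwFac E H K) :
    ∃ (r : ℕ) (D : Subgroup G), r.Prime ∧ D ≠ ⊥ ∧ IsPGroup r D ∧ D ≤ E ∧ E ≤ kwN D ∧
      (D ≤ H ∨ D ≤ K) := by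
  haveI : Nontrivial E := (Subgroup.nontrivial_iff_ne_bot E).mpr hne
  obtain ⟨r, hr, hrE⟩ := kw_exists_pCore (X := E)
  haveI : Fact r.Prime := ⟨hr⟩
  haveI : (Cfsg.pCore r E).Normal := Cfsg.Agent.H01.pCore_normal r
  have hD : IsPGroup r ((Cfsg.pCore r E).map E.subtype) :=
    (Cfsg.Agent.H01.pCore_isPGroup (G := E) r).map _
  have hDE : (Cfsg.pCore r E).map E.subtype ≤ E := Subgroup.map_subtype_le _
  have hN := kw_map_normal (Cfsg.pCore r E)
  refine ⟨r, _, hr, ?_, hD, hDE, hN, h.pgroup_le hr hD hDE hN⟩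
  intro h0
  exact hrE ((Subgroup.map_eq_bot_iff_of_injective _ E.subtype_injective).mp h0)

theorem kw_fit_pair [Finite G] {E H K : Subgroup G} (hs : Group.IsSolvable E) (h : KwFac E H K) :
    ∃ O₁ O₂ : Subgroup G, O₁ ≤ H ∧ O₂ ≤ K ∧ E ≤ kwN O₁ ∧ E ≤ kwN O₂ ∧
      ∀ v ∈ E, (∀ o ∈ O₁, Commute v o) → (∀ o ∈ O₂, Commute v o) →
        ∃ ξ ∈ O₁, ∃ η ∈ O₂, v = ξ * η := by
  set O₁' := (H.subgroupOf E).normalCore with hO₁'
  set O₂' := (K.subgroupOf E).normalCore with hO₂'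
  haveI : O₁'.Normal := Subgroup.normalCore_normal _
  haveI : O₂'.Normal := Subgroup.normalCore_normal _
  refine ⟨O₁'.map E.subtype, O₂'.map E.subtype, kw_map_le (Subgroup.normalCore_le _),
    kw_map_le (Subgroup.normalCore_le _), kw_map_normal _, kw_map_normal _, ?_⟩
  intro v hv hv1 hv2
  set v' : E := ⟨v, hv⟩ with hv'
  have hfit : Cfsg.fittingSubgroup E ≤ O₁' ⊔ O₂' := by
    rw [Cfsg.Agent.H01.fitting_eq_iSup_pCore]
    apply iSup_le
    rintro ⟨r, hr⟩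
    haveI : Fact r.Prime := ⟨hr⟩
    haveI : (Cfsg.pCore r E).Normal := Cfsg.Agent.H01.pCore_normal r
    have hD : IsPGroup r ((Cfsg.pCore r E).map E.subtype) :=
      (Cfsg.Agent.H01.pCore_isPGroup (G := E) r).map _
    rcases h.pgroup_le hr hD (Subgroup.map_subtype_le _) (kw_map_normal _) with h1 | h1
    · exact (Subgroup.normal_le_normalCore.mpr (kw_le_subgroupOf h1)).trans le_sup_left
    · exact (Subgroup.normal_le_normalCore.mpr (kw_le_subgroupOf h1)).trans le_sup_right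
  have hC : O₁' ⊔ O₂' ≤ Subgroup.centralizer ({v'} : Set E) := by
    apply sup_le
    · intro y hy
      rw [Subgroup.mem_centralizer_singleton_iff]
      exact Subtype.ext (hv1 _ ⟨y, hy, rfl⟩).eq.symm
    · intro y hy
      rw [Subgroup.mem_centralizer_singleton_iff]
      exact Subtype.ext (hv2 _ ⟨y, hy, rfl⟩).eq.symm
  have hv3 : v' ∈ Subgroup.centralizer ((Cfsg.fittingSubgroup E : Subgroup E) : Set E) := by
    rw [Subgroup.mem_centralizer_iff]
    intro y hy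
    have := hC (hfit hy)
    rw [Subgroup.mem_centralizer_singleton_iff] at this
    exact this
  have hv4 := Cfsg.Agent.H01.centralizer_fitting_le (G := E) hv3
  obtain ⟨ξ, hξ, η, hη, hξη⟩ := Subgroup.mem_sup_of_normal_right.mp (hfit hv4)
  refine ⟨ξ, ⟨ξ, hξ, rfl⟩, η, ⟨η, hη, rfl⟩, ?_⟩
  have := congrArg Subtype.val hξη
  exact this.symm

theorem kw_fit_single [Finite G] {E : Subgroup G} (hs : Group.IsSolvable E) (p : ℕ) [Fact p.Prime]
    (hr : ∀ (r : ℕ) (D : Subgroup G), r.Prime → r ≠ p → IsPGroup r D → D ≤ E → E ≤ kwN D → D = ⊥) :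
    ∃ O : Subgroup G, IsPGroup p O ∧ O ≤ E ∧ E ≤ kwN O ∧
      ∀ v ∈ E, (∀ o ∈ O, Commute v o) → v ∈ O := by
  haveI : (Cfsg.pCore p E).Normal := Cfsg.Agent.H01.pCore_normal p
  refine ⟨(Cfsg.pCore p E).map E.subtype, (Cfsg.Agent.H01.pCore_isPGroup (G := E) p).map _,
    Subgroup.map_subtype_le _, kw_map_normal _, ?_⟩
  intro v hv hv1
  have hfit : Cfsg.fittingSubgroup E ≤ Cfsg.pCore p E := by
    rw [Cfsg.Agent.H01.fitting_eq_iSup_pCore]
    apply iSup_le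
    rintro ⟨r, hr'⟩
    haveI : Fact r.Prime := ⟨hr'⟩
    haveI : (Cfsg.pCore r E).Normal := Cfsg.Agent.H01.pCore_normal r
    by_cases hrp : r = p
    · subst hrp; exact le_rfl
    · have := hr r _ hr' hrp ((Cfsg.Agent.H01.pCore_isPGroup (G := E) r).map _)
        (Subgroup.map_subtype_le _) (kw_map_normal _)
      rw [(Subgroup.map_eq_bot_iff_of_injective _ E.subtype_injective).mp this]
      exact bot_le
  have hv3 : (⟨v, hv⟩ : E) ∈ Subgroup.centralizer ((Cfsg.fittingSubgroup E : Subgroup E) : Set E) := by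
    rw [Subgroup.mem_centralizer_iff]
    intro y hy
    exact Subtype.ext (hv1 _ ⟨y, hfit hy, rfl⟩).eq.symm
  have hv4 := Cfsg.Agent.H01.centralizer_fitting_le (G := E) hv3
  exact ⟨_, hfit hv4, rfl⟩

end Cfsg.Agent.H06
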