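import Cfsg.Agent.Lib.H06.KW3

/-!
Kegel--Wielandt, coprime case: minimal counterexample set-up, first steps.
-/

set_option autoImplicit false

namespace Cfsg.Agent.H06

universe u

open scoped Pointwise

variable {G : Type u} [Group G]

/-- Two nilpotent subgroups of coprime orders whose product is the whole group. -/
structure KwPair (A B : Subgroup G) : Prop where
  nilA : Group.IsNilpotent A
  nilB : Group.IsNilpotent B
  cop : (Nat.card A).Coprime (Nat.card B)
  fac : ∀ g, ∃ a ∈ A, ∃ b ∈ B, g = a * b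

/-- A minimal counterexample. -/
structure KwCtx (G : Type u) [Group G] [Finite G] : Prop where
  simple : IsSimpleGroup G
  nonsolv : ¬ Group.IsSolvable G
  ih : ∀ L H K : Subgroup G, L ≠ ⊤ → KwFac L H K → Group.IsNilpotent H → Group.IsNilpotent K →
    Group.IsSolvable L

theorem kw_eq_one_of_pow_coprime {x : G} {m n : ℕ} (hc : m.Coprime n) (hm : x ^ m = 1)
    (hn : x ^ n = 1) : x = 1 :=
  orderOf_eq_one_iff.mp (Nat.eq_one_of_dvd_coprimes hc (orderOf_dvd_of_pow_eq_one hm)
    (orderOf_dvd_of_pow_eq_one hn))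

theorem kw_pow_card_eq_one [Finite G] {A : Subgroup G} {x : G} (hx : x ∈ A) : x ^ Nat.card A = 1 := by
  have h1 : ((⟨x, hx⟩ : A) ^ Nat.card A : A) = 1 := pow_card_eq_one'
  have h2 := congrArg Subtype.val h1
  simpa only [Subgroup.coe_pow, Subgroup.coe_one] using h2

/-- `x ∈ N(J)` with order prime to the index of `J` lies in `J`. -/
theorem kw_mem_of_normalizer [Finite G] {J : Subgroup G} {h : G} {n : ℕ} (hN : h ∈ kwN J)
    (hn : h ^ n = 1) (hc : n.Coprime J.index) : h ∈ J := by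
  have hnorm : (J.subgroupOf (kwN J)).Normal :=
    (Subgroup.normal_subgroupOf_iff_le_normalizer (Subgroup.le_normalizer)).mpr le_rfl
  set q : (kwN J) ⧸ (J.subgroupOf (kwN J)) := ((⟨h, hN⟩ : kwN J) : (kwN J) ⧸ (J.subgroupOf (kwN J)))
    with hq
  have h1 : q ^ n = 1 := by
    rw [hq, ← QuotientGroup.mk_pow]
    have : (⟨h, hN⟩ : kwN J) ^ n = 1 := Subtype.ext hn
    rw [this]; rfl
  have h2 : q ^ J.relIndex (kwN J) = 1 := by
    have := pow_card_eq_one' (x := q)
    rwa [← Subgroup.index_eq_card] at this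
  have h3 : J.relIndex (kwN J) ∣ J.index :=
    ⟨_, (Subgroup.relIndex_mul_index (Subgroup.le_normalizer)).symm⟩
  have h4 : q = 1 := kw_eq_one_of_pow_coprime (Nat.Coprime.coprime_dvd_right h3 hc) h1 h2
  have h5 := (QuotientGroup.eq_one_iff _).mp h4
  exact Subgroup.mem_subgroupOf.mp h5

/-- A prime-order power of a nontrivial element. -/
theorem kw_prime_power [Finite G] {x : G} (hx : x ≠ 1) :
    ∃ (n p : ℕ), p.Prime ∧ x ^ n ≠ 1 ∧ (x ^ n) ^ p = 1 := by
  have h0 : orderOf x ≠ 1 := fun h => hx (orderOf_eq_one_iff.mp h)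
  obtain ⟨p, hp, hd⟩ := Nat.exists_prime_and_dvd h0
  refine ⟨orderOf x / p, p, hp, ?_, ?_⟩
  · intro h
    have h1 := orderOf_dvd_of_pow_eq_one h
    have h2 : 0 < orderOf x := orderOf_pos x
    have h3 := Nat.le_of_dvd (Nat.div_pos (Nat.le_of_dvd h2 hd) hp.pos) h1
    have h4 := Nat.div_lt_self h2 hp.one_lt
    omega
  · rw [← pow_mul, Nat.div_mul_cancel hd, pow_orderOf_eq_one]

theorem kw_central [Finite G] {A : Subgroup G} (hA : Group.IsNilpotent A) {p : ℕ} [Fact p.Prime]
    (hp : p ∣ Nat.card A) : ∃ y ∈ kwS A p, y ≠ 1 ∧ ∀ a ∈ A, Commute y a := by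
  have h1 : IsPGroup p (kwS A p) := kwS_isPGroup hA p
  haveI : Nontrivial (kwS A p) := (Subgroup.nontrivial_iff_ne_bot _).mpr (kwS_ne_bot hA hp)
  haveI := h1.center_nontrivial
  obtain ⟨y, hy⟩ := exists_ne (1 : Subgroup.center (kwS A p))
  refine ⟨y.1.1, y.1.2, ?_, ?_⟩
  · intro h
    exact hy (Subtype.ext (Subtype.ext h))
  · intro a ha
    obtain ⟨u, hu, v, hv, rfl⟩ := kw_split hA p ha
    apply Commute.mul_right
    · have h3 := y.2.comm (⟨u, hu⟩ : kwS A p)
      have h4 := congrArg (fun z : kwS A p => (z : G)) h3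
      have h5 : (y.1.1 : G) * u = u * y.1.1 := h4
      exact h5
    · exact kw_commute hA p y.1.2 hv

/-- A central element of prime order `p`. -/
theorem kw_central_prime [Finite G] {A : Subgroup G} (hA : Group.IsNilpotent A) {p : ℕ}
    [Fact p.Prime] (hp : p ∣ Nat.card A) : ∃ y ∈ kwS A p, y ≠ 1 ∧ y ^ p = 1 ∧ ∀ a ∈ A, Commute y a := by
  obtain ⟨y, hy, hy1, hc⟩ := kw_central hA hp
  have h1 : IsPGroup p (kwS A p) := kwS_isPGroup hA p
  obtain ⟨k, hk⟩ := h1 ⟨y, hy⟩
  have h2 : y ^ p ^ k = 1 := by simpa using congrArg Subtype.val hk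
  obtain ⟨m, -, hm⟩ := (Nat.dvd_prime_pow Fact.out).mp (orderOf_dvd_of_pow_eq_one h2)
  have hm0 : m ≠ 0 := by
    rintro rfl
    rw [pow_zero] at hm
    exact hy1 (orderOf_eq_one_iff.mp hm)
  obtain ⟨m, rfl⟩ := Nat.exists_eq_succ_of_ne_zero hm0
  refine ⟨y ^ p ^ m, pow_mem hy _, ?_, ?_, fun a ha => (hc a ha).pow_left _⟩
  · intro h
    have := orderOf_dvd_of_pow_eq_one h
    rw [hm] at this
    have h3 := (Nat.pow_dvd_pow_iff_le_right (Fact.out : p.Prime).one_lt).mp this
    omega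
  · rw [← pow_mul, ← pow_succ, ← hm, pow_orderOf_eq_one]

section pairs

variable [Finite G] {A B : Subgroup G}

namespace KwPair

theorem symm (h : KwPair A B) : KwPair B A where
  nilA := h.nilB
  nilB := h.nilA
  cop := h.cop.symm
  fac := by
    intro g
    obtain ⟨a, ha, b, hb, hab⟩ := h.fac g⁻¹
    refine ⟨b⁻¹, inv_mem hb, a⁻¹, inv_mem ha, ?_⟩
    rw [← mul_inv_rev, ← hab, inv_inv]

theorem facTop (h : KwPair A B) : KwFac ⊤ A B where
  hle := le_top
  kle := le_top
  cop := h.cop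
  fac := fun g _ => h.fac g

theorem card (h : KwPair A B) : Nat.card G = Nat.card A * Nat.card B := by
  have := h.facTop.card
  rwa [Nat.card_congr (Subgroup.topEquiv (G := G)).toEquiv] at this

theorem index_A (h : KwPair A B) : A.index = Nat.card B := by
  have h1 := A.index_mul_card
  rw [h.card, mul_comm (Nat.card A)] at h1
  exact Nat.eq_of_mul_eq_mul_right Nat.card_pos h1

theorem index_B (h : KwPair A B) : B.index = Nat.card A := h.symm.index_A

theorem eq_one (h : KwPair A B) {x : G} (hx : x ∈ A) (hx' : x ∈ B) : x = 1 := h.facTop.eq_one hx hx'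

theorem fac_inf (h : KwPair A B) {S : Subgroup G} (hS : A ≤ S) : KwFac S A (S ⊓ B) where
  hle := hS
  kle := inf_le_left
  cop := Nat.Coprime.coprime_dvd_right (Subgroup.card_dvd_of_le inf_le_right) h.cop
  fac := by
    intro g hg
    obtain ⟨a, ha, b, hb, rfl⟩ := h.fac g
    exact ⟨a, ha, b, ⟨(Subgroup.mul_mem_cancel_left _ (hS ha)).mp hg, hb⟩, rfl⟩

theorem fac_of (h : KwPair A B) {L : Subgroup G}
    (hf : ∀ g ∈ L, ∃ a ∈ L ⊓ A, ∃ b ∈ L ⊓ B, g = a * b) : KwFac L (L ⊓ A) (L ⊓ B) where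
  hle := inf_le_left
  kle := inf_le_left
  cop := Nat.Coprime.coprime_dvd_left (Subgroup.card_dvd_of_le inf_le_right)
    (Nat.Coprime.coprime_dvd_right (Subgroup.card_dvd_of_le inf_le_right) h.cop)
  fac := hf

/-- The sub-factorization of the normalizer of a join of normal pieces. -/
theorem fac_N (h : KwPair A B) {P Q : Subgroup G} (hP : P ≤ A) (hQ : Q ≤ B) (hPn : A ≤ kwN P)
    (hQn : B ≤ kwN Q) : KwFac (kwN (P ⊔ Q)) (kwN (P ⊔ Q) ⊓ A) (kwN (P ⊔ Q) ⊓ B) :=
  h.fac_of (Cfsg.Agent.S0562.result A B P Q h.fac hP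
    ((Subgroup.normal_subgroupOf_iff_le_normalizer hP).mpr hPn) hQ
    ((Subgroup.normal_subgroupOf_iff_le_normalizer hQ).mpr hQn))

theorem card_conj_eq (J : Subgroup G) (g : G) : Nat.card (MulAut.conj g • J : Subgroup G) = Nat.card J :=
  Nat.card_congr (Subgroup.equivSMul (MulAut.conj g) J).toEquiv.symm

theorem nil_conj {J : Subgroup G} (hJ : Group.IsNilpotent J) (g : G) :
    Group.IsNilpotent (MulAut.conj g • J : Subgroup G) :=
  Group.nilpotent_of_surjective (Subgroup.equivSMul (MulAut.conj g) J).toMonoidHom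
    (Subgroup.equivSMul (MulAut.conj g) J).surjective

theorem conj_right (h : KwPair A B) (g : G) : KwPair A (MulAut.conj g • B) where
  nilA := h.nilA
  nilB := nil_conj h.nilB g
  cop := by rw [card_conj_eq]; exact h.cop
  fac := by
    intro x
    obtain ⟨a, ha, b, hb, rfl⟩ := h.fac g
    obtain ⟨c, hc, d, hd, hcd⟩ := h.fac (a⁻¹ * x * a)
    refine ⟨a * c * a⁻¹, mul_mem (mul_mem ha hc) (inv_mem ha), (a * b) * (b⁻¹ * d * b) * (a * b)⁻¹, ?_, ?_⟩
    · rw [kw_conj_mem]
      have h1 : (a * b)⁻¹ * ((a * b) * (b⁻¹ * d * b) * (a * b)⁻¹) * (a * b) = b⁻¹ * d * b := by group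
      rw [h1]
      exact mul_mem (mul_mem (inv_mem hb) hd) hb
    · have h1 : x = a * (a⁻¹ * x * a) * a⁻¹ := by group
      rw [h1, hcd]
      group

theorem conj_left (h : KwPair A B) (g : G) : KwPair (MulAut.conj g • A) B :=
  (h.symm.conj_right g).symm

theorem coprime_index_A (h : KwPair A B) : (Nat.card A).Coprime A.index := by
  rw [h.index_A]; exact h.cop

theorem coprime_of_prime_dvd (h : KwPair A B) {p : ℕ} (hp : p.Prime) (hd : p ∣ Nat.card A) :
    p.Coprime (Nat.card B) := by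
  rw [hp.coprime_iff_not_dvd]
  intro hd'
  have := Nat.dvd_gcd hd hd'
  rw [h.cop] at this
  exact hp.one_lt.ne' (Nat.dvd_one.mp this)

end KwPair

/-- Hall conditions for the parts of a nilpotent group. -/
theorem kw_hallS {A H : Subgroup G} (hA : Group.IsNilpotent A) (p : ℕ) [Fact p.Prime]
    (h1 : kwS A p ≤ H) (h2 : H ≤ A) : (Nat.card (kwS A p)).Coprime ((kwS A p).relIndex H) := by
  have h3 : (kwS A p).relIndex H ∣ (kwS A p).relIndex A :=
    ⟨_, (Subgroup.relIndex_mul_relIndex _ _ _ h1 h2).symm⟩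
  have h4 := relIndex_mul_card_of_le' (kwS_le A p)
  have h5 : (kwS A p).relIndex A = Nat.card (kwC A p) := by
    have h6 := kw_card_split hA p
    rw [← h6, mul_comm] at h4
    exact Nat.eq_of_mul_eq_mul_left Nat.card_pos h4
  rw [h5] at h3
  apply Nat.Coprime.coprime_dvd_right h3
  obtain ⟨k, hk⟩ := (kwS_isPGroup hA p).exists_card_eq
  rw [hk]
  exact Nat.Coprime.pow_left k (kwC_coprime hA p).symm

theorem kw_hallC {A H : Subgroup G} (hA : Group.IsNilpotent A) (p : ℕ) [Fact p.Prime]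
    (h1 : kwC A p ≤ H) (h2 : H ≤ A) : (Nat.card (kwC A p)).Coprime ((kwC A p).relIndex H) := by
  have h3 : (kwC A p).relIndex H ∣ (kwC A p).relIndex A :=
    ⟨_, (Subgroup.relIndex_mul_relIndex _ _ _ h1 h2).symm⟩
  have h4 := relIndex_mul_card_of_le' (kwC_le A p)
  have h5 : (kwC A p).relIndex A = Nat.card (kwS A p) := by
    have h6 := kw_card_split hA p
    rw [← h6] at h4
    exact Nat.eq_of_mul_eq_mul_right Nat.card_pos h4
  rw [h5] at h3
  apply Nat.Coprime.coprime_dvd_right h3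
  obtain ⟨k, hk⟩ := (kwS_isPGroup hA p).exists_card_eq
  rw [hk]
  exact Nat.Coprime.pow_right k (kwC_coprime hA p)

end pairs

section ctx

variable [Finite G] {A B : Subgroup G} (hc : KwCtx G)
include hc

theorem kw_center_trivial {y : G} (hy : ∀ g, Commute y g) : y = 1 := by
  haveI := hc.simple
  have h1 : (Subgroup.center G).Normal := inferInstance
  rcases h1.eq_bot_or_eq_top with h2 | h2
  · have h3 : y ∈ Subgroup.center G := by
      rw [Subgroup.mem_center_iff]
      intro g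
      exact (hy g).eq.symm
    rw [h2] at h3
    exact h3
  · exfalso
    apply hc.nonsolv
    apply isSolvable_of_comm
    intro a b
    have h3 : a ∈ Subgroup.center G := by rw [h2]; trivial
    exact (Subgroup.mem_center_iff.mp h3 b).symm

end ctx

end Cfsg.Agent.H06
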