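import Cfsg.Agent.Lib.H06.KW4

/-!
Kegel--Wielandt, coprime case: first steps in a minimal counterexample.
-/

set_option autoImplicit false

namespace Cfsg.Agent.H06

universe u

open scoped Pointwise

variable {G : Type u} [Group G]

theorem kw_fac_of_set {S H K : Subgroup G} (hS : (S : Set G) = (H : Set G) * (K : Set G))
    (hc : (Nat.card H).Coprime (Nat.card K)) : KwFac S H K where
  hle := by
    intro x hx
    have : x ∈ (S : Set G) := by
      rw [hS]
      exact ⟨x, hx, 1, one_mem _, mul_one x⟩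
    exact this
  kle := by
    intro x hx
    have : x ∈ (S : Set G) := by
      rw [hS]
      exact ⟨1, one_mem _, x, hx, one_mul x⟩
    exact this
  cop := hc
  fac := by
    intro g hg
    have : g ∈ (S : Set G) := hg
    rw [hS] at this
    obtain ⟨a, ha, b, hb, rfl⟩ := this
    exact ⟨a, ha, b, hb, rfl⟩

section ctx

variable [Finite G] {A B : Subgroup G} (hc : KwCtx G)
include hc

theorem kw_A_ne_top (h : KwPair A B) : A ≠ ⊤ := by
  rintro rfl
  apply hc.nonsolv
  haveI := h.nilA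
  haveI : Group.IsNilpotent G := Group.nilpotent_of_surjective (⊤ : Subgroup G).subtype
    (fun g => ⟨⟨g, trivial⟩, rfl⟩)
  infer_instance

theorem kw_B_ne_bot (h : KwPair A B) : B ≠ ⊥ := by
  rintro rfl
  apply kw_A_ne_top hc h
  rw [eq_top_iff]
  intro g _
  obtain ⟨a, ha, b, hb, rfl⟩ := h.fac g
  have : b = 1 := hb
  rw [this, mul_one]
  exact ha

theorem kw_A_ne_bot (h : KwPair A B) : A ≠ ⊥ := kw_B_ne_bot hc h.symm

theorem kw_B_ne_top (h : KwPair A B) : B ≠ ⊤ := kw_A_ne_top hc h.symm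

theorem kw_N_ne_top {D : Subgroup G} (h0 : D ≠ ⊥) (h1 : D ≠ ⊤) : kwN D ≠ ⊤ := by
  intro h
  have h2 : D.Normal := Subgroup.normalizer_eq_top_iff.mp h
  haveI := hc.simple
  rcases h2.eq_bot_or_eq_top with h3 | h3
  · exact h0 h3
  · exact h1 h3

theorem kw_N_ne_top_of_le (h : KwPair A B) {D : Subgroup G} (h0 : D ≠ ⊥) (hD : D ≤ A) :
    kwN D ≠ ⊤ := by
  refine kw_N_ne_top hc h0 ?_
  rintro rfl
  exact kw_A_ne_top hc h (top_le_iff.mp hD)

theorem kw_central_proper (h : KwPair A B) {S : Subgroup G} (hS : S ≠ ⊤) (hA : A ≤ S) {y : G}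
    (hy : y ∈ S) (hyc : ∀ b ∈ B, Commute y b) : y = 1 := by
  haveI := hc.simple
  have h1 : Subgroup.normalClosure ({y} : Set G) ≤ S := by
    apply (Subgroup.closure_le _).mpr
    intro x hx
    obtain ⟨z, hz, hzx⟩ := Group.mem_conjugatesOfSet_iff.mp hx
    have hz' : z = y := hz
    subst hz'
    obtain ⟨g, rfl⟩ := isConj_iff.mp hzx
    obtain ⟨a, ha, b, hb, rfl⟩ := h.fac g
    have h2 : a * b * z * (a * b)⁻¹ = a * z * a⁻¹ := by
      have h3 := (hyc b hb).eq
      calc a * b * z * (a * b)⁻¹ = a * (b * z) * b⁻¹ * a⁻¹ := by group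
        _ = a * (z * b) * b⁻¹ * a⁻¹ := by rw [h3]
        _ = a * z * a⁻¹ := by group
    show a * b * z * (a * b)⁻¹ ∈ S
    rw [h2]
    exact mul_mem (mul_mem (hA ha) hy) (inv_mem (hA ha))
  have h2 : (Subgroup.normalClosure ({y} : Set G)).Normal := Subgroup.normalClosure_normal
  rcases h2.eq_bot_or_eq_top with h3 | h3
  · have h4 : y ∈ Subgroup.normalClosure ({y} : Set G) :=
      Subgroup.subset_normalClosure (Set.mem_singleton y)
    rw [h3] at h4
    exact h4
  · exact absurd (top_le_iff.mp (h3 ▸ h1)) hS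

theorem kw_two_primes (h : KwPair A B) {p : ℕ} (hp : p.Prime) :
    ∃ r : ℕ, r.Prime ∧ r ≠ p ∧ r ∣ Nat.card A := by
  by_contra hne
  push Not at hne
  have h1 : Nat.card A = p ^ (Nat.card A).primeFactorsList.length :=
    Nat.eq_prime_pow_of_unique_prime_dvd Nat.card_pos.ne' (fun {d} hd hd' => by
      by_contra hdp
      exact hne d hd hdp hd')
  haveI := hc.simple
  have hB1 : Nat.card B ≠ 1 := by
    intro h2
    exact kw_B_ne_bot hc h ((Subgroup.card_eq_one).mp h2)
  obtain ⟨q, hq, hqd⟩ := Nat.exists_prime_and_dvd hB1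
  haveI : Fact q.Prime := ⟨hq⟩
  obtain ⟨y, _, hy1, hyc⟩ := kw_central h.nilB hqd
  have h2 : B ≤ Subgroup.centralizer ({y} : Set G) := by
    intro b hb
    rw [Subgroup.mem_centralizer_singleton_iff]
    exact (hyc b hb).eq.symm
  have h3 : (Subgroup.centralizer ({y} : Set G)).index ∣ p ^ (Nat.card A).primeFactorsList.length := by
    rw [← h1, ← h.index_B]
    exact Subgroup.index_dvd_of_le h2
  obtain ⟨j, _, hj⟩ := (Nat.dvd_prime_pow hp).mp h3
  by_cases hj0 : j = 0
  · subst hj0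
    rw [pow_zero, Subgroup.index_eq_one] at hj
    apply hy1
    apply kw_center_trivial hc
    intro g
    have : g ∈ Subgroup.centralizer ({y} : Set G) := by rw [hj]; trivial
    rw [Subgroup.mem_centralizer_singleton_iff] at this
    exact this.symm
  · exact Cfsg.Agent.Lead.not_class_prime_pow p j hp hj0 y hj

theorem kw_prime_dvd (h : KwPair A B) : ∃ p : ℕ, p.Prime ∧ p ∣ Nat.card A := by
  obtain ⟨r, hr, _, hd⟩ := kw_two_primes hc h Nat.prime_two
  exact ⟨r, hr, hd⟩

theorem kw_solv (h : KwPair A B) {L H K : Subgroup G} (hL : L ≠ ⊤) (hf : KwFac L H K) (hH : H ≤ A)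
    (hK : K ≤ B) : Group.IsSolvable L :=
  hc.ih L H K hL hf (nilpotent_of_le hH h.nilA) (nilpotent_of_le hK h.nilB)

theorem kw_claim_aux (h : KwPair A B) {p q : ℕ} [Fact p.Prime] [Fact q.Prime] (hq : q ∣ Nat.card B)
    {D : Subgroup G} (hD0 : D ≠ ⊥) (hD : D ≤ kwS A p) (hP : kwS A p ≤ kwN D)
    (hQ : kwS B q ≤ kwN D) : False := by
  have hA : A ≤ kwN D := kw_le_of_normalized h.nilA p hP
    (fun c hc' => kw_mem_N_of_commute (fun d hd => (kw_commute h.nilA p (hD hd) hc').symm))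
  have hN := kw_N_ne_top_of_le hc h hD0 (hD.trans (kwS_le A p))
  obtain ⟨y, hy, hy1, hyc⟩ := kw_central h.nilB hq
  exact hy1 (kw_central_proper hc h hN hA (hQ hy) hyc)

/-- Claim 1: a Sylow subgroup of `A` and one of `B` generate the whole group. -/
theorem kw_claim1 (h : KwPair A B) {p q : ℕ} [Fact p.Prime] [Fact q.Prime] (hp : p ∣ Nat.card A)
    (hq : q ∣ Nat.card B) : kwS A p ⊔ kwS B q = ⊤ := by
  by_contra hne
  have hP : kwS A p ≤ A := kwS_le A p
  have hQ : kwS B q ≤ B := kwS_le B q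
  have hX0 : kwS A p ⊔ kwS B q ≠ ⊥ := fun h0 =>
    kwS_ne_bot h.nilA hp (le_bot_iff.mp (le_sup_left.trans h0.le))
  have hL : kwN (kwS A p ⊔ kwS B q) ≠ ⊤ := kw_N_ne_top hc hX0 hne
  have hF := h.fac_N hP hQ (kwS_normalized A p) (kwS_normalized B q)
  have hLs := kw_solv hc h hL hF inf_le_right inf_le_right
  have hPL : kwS A p ≤ kwN (kwS A p ⊔ kwS B q) ⊓ A :=
    le_inf (le_sup_left.trans Subgroup.le_normalizer) hP
  have hQL : kwS B q ≤ kwN (kwS A p ⊔ kwS B q) ⊓ B :=
    le_inf (le_sup_right.trans Subgroup.le_normalizer) hQ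
  obtain ⟨S, hSL, hS⟩ := kw_perm hLs hF.fac hF.hle hF.kle hPL hQL
    (inf_le_right.trans (kwS_normalized A p)) (inf_le_right.trans (kwS_normalized B q))
    (kw_hall_of_fac hF hPL (kw_hallS h.nilA p hPL inf_le_right))
    (kw_hall_of_fac hF.symm hQL (kw_hallS h.nilB q hQL inf_le_right))
  have hFS : KwFac S (kwS A p) (kwS B q) := kw_fac_of_set hS
    (Nat.Coprime.coprime_dvd_left (Subgroup.card_dvd_of_le hP)
      (Nat.Coprime.coprime_dvd_right (Subgroup.card_dvd_of_le hQ) h.cop))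
  have hSne : S ≠ ⊤ := by
    rintro rfl
    exact hL (top_le_iff.mp hSL)
  have hS0 : S ≠ ⊥ := fun h0 => kwS_ne_bot h.nilA hp (le_bot_iff.mp (hFS.hle.trans h0.le))
  have hSs := kw_solv hc h hSne hFS hP hQ
  obtain ⟨r, D, hr, hD0, _, _, hDN, hDle⟩ := kw_dich hSs hS0 hFS
  rcases hDle with hD | hD
  · exact kw_claim_aux hc h hq hD0 hD (hFS.hle.trans hDN) (hFS.kle.trans hDN)
  · exact kw_claim_aux hc h.symm hp hD0 hD (hFS.kle.trans hDN) (hFS.hle.trans hDN)

end ctx

end Cfsg.Agent.H06
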