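import Cfsg.Agent.Lib.H06.KW5

/-!
Kegel--Wielandt, coprime case: overgroups of `A` normalize `A`.
-/

set_option autoImplicit false

namespace Cfsg.Agent.H06

universe u

open scoped Pointwise

variable {G : Type u} [Group G]

theorem kw_conj_transport {t a o : G} (hk : Commute a (t * o * t⁻¹)) :
    Commute (t⁻¹ * a * t) o := by
  have hk' : a * (t * o * t⁻¹) = (t * o * t⁻¹) * a := hk
  show (t⁻¹ * a * t) * o = o * (t⁻¹ * a * t)
  calc (t⁻¹ * a * t) * o = t⁻¹ * (a * (t * o * t⁻¹)) * t := by group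
    _ = t⁻¹ * ((t * o * t⁻¹) * a) * t := by rw [hk']
    _ = o * (t⁻¹ * a * t) := by group

/-- If `a * t` centralizes `O`, normalized by `a` and `t`, then the powers of `t` act as the inverse
powers of `a`. -/
theorem kw_pow_action {O : Subgroup G} {a t : G} (ha : a ∈ kwN O)
    (hct : ∀ o ∈ O, Commute (a * t) o) (n : ℕ) :
    ∀ o ∈ O, t ^ n * o * (t ^ n)⁻¹ = (a ^ n)⁻¹ * o * a ^ n := by
  have h1 : ∀ o ∈ O, t * o * t⁻¹ = a⁻¹ * o * a := by
    intro o ho
    have h2 : (a * t) * o = o * (a * t) := hct o ho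
    calc t * o * t⁻¹ = a⁻¹ * ((a * t) * o) * t⁻¹ := by group
      _ = a⁻¹ * (o * (a * t)) * t⁻¹ := by rw [h2]
      _ = a⁻¹ * o * a := by group
  induction n with
  | zero => intro o _; simp
  | succ n ih =>
    intro o ho
    have h3 := ih _ (kw_N_conj' ha ho)
    calc t ^ (n + 1) * o * (t ^ (n + 1))⁻¹ = t ^ n * (t * o * t⁻¹) * (t ^ n)⁻¹ := by
          rw [pow_succ]; group
      _ = t ^ n * (a⁻¹ * o * a) * (t ^ n)⁻¹ := by rw [h1 o ho]
      _ = (a ^ n)⁻¹ * (a⁻¹ * o * a) * a ^ n := h3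
      _ = (a ^ (n + 1))⁻¹ * o * a ^ (n + 1) := by
          rw [pow_succ' a n]; group

section ctx

variable [Finite G] {A B : Subgroup G} (hc : KwCtx G)
include hc

theorem kw_step3_aux (h : KwPair A B) {S : Subgroup G} (hS : S ≠ ⊤) (hAS : A ≤ S) (p : ℕ)
    [Fact p.Prime] (hp : p ∣ Nat.card A) : ∀ a ∈ kwC A p, ∀ t ∈ S ⊓ B, t⁻¹ * a * t ∈ A := by
  have hF0 : KwFac S A (S ⊓ B) := h.fac_inf hAS
  have hSs := kw_solv hc h hS hF0 le_rfl inf_le_right
  have hPA : kwS A p ≤ A := kwS_le A p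
  obtain ⟨E, hES, hE⟩ := kw_perm hSs hF0.fac hF0.hle hF0.kle hPA le_rfl (kwS_normalized A p)
    Subgroup.le_normalizer (kw_hall_of_fac hF0 hPA (kw_hallS h.nilA p hPA le_rfl))
    (kw_hall_of_fac hF0.symm le_rfl (by simp))
  have hFE : KwFac E (kwS A p) (S ⊓ B) := kw_fac_of_set hE
    (Nat.Coprime.coprime_dvd_left (Subgroup.card_dvd_of_le hPA) hF0.cop)
  have hEne : E ≠ ⊤ := by
    rintro rfl
    exact hS (top_le_iff.mp hES)
  have hEs := kw_solv hc h hEne hFE hPA inf_le_right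
  have hno : ∀ (r : ℕ) (D : Subgroup G), r.Prime → r ≠ p → IsPGroup r D → D ≤ E → E ≤ kwN D →
      D = ⊥ := by
    intro r D hr hrp hD hDE hDN
    by_contra hD0
    haveI : Fact r.Prime := ⟨hr⟩
    have hDT : D ≤ S ⊓ B := by
      apply hFE.le_right hDE hDN
      obtain ⟨i, hi⟩ := hD.exists_card_eq
      obtain ⟨j, hj⟩ := (kwS_isPGroup h.nilA p).exists_card_eq
      rw [hi, hj]
      exact Nat.Coprime.pow _ _ ((Nat.coprime_primes hr Fact.out).mpr hrp)
    have hDB : D ≤ B := hDT.trans inf_le_right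
    obtain ⟨s, hs, hsr, hsd⟩ := kw_two_primes hc h.symm hr
    haveI : Fact s.Prime := ⟨hs⟩
    have hDu : D ≤ kwS B r := kw_pgroup_le h.nilB r hDB hD
    have h1 : kwS B s ≤ kwN D := by
      intro c hc'
      apply kw_mem_N_of_commute
      intro d hd
      exact (kw_commute h.nilB r (hDu hd) (kwS_le_kwC h.nilB hsr hc')).symm
    have h2 : kwS A p ⊔ kwS B s ≤ kwN D := sup_le (hFE.hle.trans hDN) h1
    rw [kw_claim1 hc h hp hsd] at h2
    exact kw_N_ne_top_of_le hc h.symm hD0 hDB (top_le_iff.mp h2)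
  obtain ⟨O, hOp, hOE, hON, hOC⟩ := kw_fit_single hEs p hno
  have hpB : p.Coprime (Nat.card (S ⊓ B : Subgroup G)) :=
    Nat.Coprime.coprime_dvd_right (Subgroup.card_dvd_of_le inf_le_right)
      (h.coprime_of_prime_dvd Fact.out hp)
  have hOP : O ≤ kwS A p := by
    apply hFE.le_left hOE hON
    obtain ⟨i, hi⟩ := hOp.exists_card_eq
    rw [hi]
    exact Nat.Coprime.pow_left _ hpB
  have hAN : A ≤ kwN O := kw_le_of_normalized h.nilA p (hFE.hle.trans hON)
    (fun c hc' => kw_mem_N_of_commute (fun d hd => (kw_commute h.nilA p (hOP hd) hc').symm))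
  have hTN : S ⊓ B ≤ kwN O := hFE.kle.trans hON
  intro a ha t ht
  have hcomm : ∀ o ∈ O, Commute (t⁻¹ * a * t) o := by
    intro o ho
    apply kw_conj_transport
    have h1 : t * o * t⁻¹ ∈ O := kw_N_conj (hTN ht) ho
    exact (kw_commute h.nilA p (hOP h1) ha).symm
  have hmemS : t⁻¹ * a * t ∈ S :=
    mul_mem (mul_mem (inv_mem ht.1) (hAS (kwC_le A p ha))) ht.1
  obtain ⟨a₁, ha₁, t₁, ht₁, hfac⟩ := hF0.fac _ hmemS
  rw [hfac] at hcomm ⊢
  have hact := kw_pow_action (hAN ha₁) hcomm (Nat.card A)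
  rw [kw_pow_card_eq_one ha₁] at hact
  have htc : ∀ o ∈ O, Commute (t₁ ^ Nat.card A) o := by
    intro o ho
    have h1 := hact o ho
    simp only [inv_one, one_mul, mul_one] at h1
    have h2 : t₁ ^ Nat.card A * o = o * t₁ ^ Nat.card A := by
      rw [← mul_inv_eq_iff_eq_mul]; exact h1
    exact h2
  have h1 : t₁ ^ Nat.card A ∈ O := hOC _ (hFE.kle (pow_mem ht₁ _)) htc
  have h2 : t₁ ^ Nat.card A = 1 :=
    h.eq_one (kwS_le A p (hOP h1)) (pow_mem ht₁.2 _)
  have h3 : t₁ = 1 := kw_eq_one_of_pow_coprime h.cop h2 (kw_pow_card_eq_one ht₁.2)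
  rw [h3, mul_one]
  exact ha₁

/-- Step 3: a proper overgroup of `A` normalizes `A`. -/
theorem kw_step3 (h : KwPair A B) {S : Subgroup G} (hS : S ≠ ⊤) (hAS : A ≤ S) : S ≤ kwN A := by
  obtain ⟨p, hp, hpd⟩ := kw_prime_dvd hc h
  obtain ⟨r, hr, hrp, hrd⟩ := kw_two_primes hc h hp
  haveI : Fact p.Prime := ⟨hp⟩
  haveI : Fact r.Prime := ⟨hr⟩
  have hF0 : KwFac S A (S ⊓ B) := h.fac_inf hAS
  intro s hs
  obtain ⟨a, ha, t, ht, rfl⟩ := hF0.fac s hs
  refine mul_mem (Subgroup.le_normalizer ha) ?_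
  rw [← inv_inv t]
  apply inv_mem
  apply kw_mem_normalizer_of
  intro x hx
  rw [inv_inv]
  obtain ⟨u, hu, v, hv, rfl⟩ := kw_split h.nilA p hx
  have h1 := kw_step3_aux hc h hS hAS r hrd u (kwS_le_kwC h.nilA (Ne.symm hrp) hu) t ht
  have h2 := kw_step3_aux hc h hS hAS p hpd v hv t ht
  have h3 : t⁻¹ * (u * v) * t = (t⁻¹ * u * t) * (t⁻¹ * v * t) := by group
  rw [h3]
  exact mul_mem h1 h2

/-- `N(D)` of a subgroup normalized by `A` normalizes `A`. -/
theorem kw_N_le_N (h : KwPair A B) {D : Subgroup G} (hD0 : D ≠ ⊥) (hD : D ≠ ⊤) (hAD : A ≤ kwN D) :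
    kwN D ≤ kwN A :=
  kw_step3 hc h (kw_N_ne_top hc hD0 hD) hAD

/-- Sub-step: a subgroup containing `B_{q'}` factorizes with a subgroup normalized by `B`. -/
theorem kw_sub59 (h : KwPair A B) {L : Subgroup G} (hL : L ≠ ⊤) (hF : KwFac L (L ⊓ A) (L ⊓ B))
    {q : ℕ} [Fact q.Prime] (hq : q ∣ Nat.card B) (hK : kwC B q ≤ L) :
    ∃ D : Subgroup G, D ≠ ⊥ ∧ D ≤ B ∧ B ≤ kwN D ∧ L ⊓ A ≤ kwN D := by
  have hLs := kw_solv hc h hL hF inf_le_right inf_le_right
  have hKB : kwC B q ≤ L ⊓ B := le_inf hK (kwC_le B q)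
  obtain ⟨E, hEL, hE⟩ := kw_perm hLs hF.fac hF.hle hF.kle le_rfl hKB Subgroup.le_normalizer
    (inf_le_right.trans (kwC_normalized B q)) (kw_hall_of_fac hF le_rfl (by simp))
    (kw_hall_of_fac hF.symm hKB (kw_hallC h.nilB q hKB inf_le_right))
  have hFE : KwFac E (L ⊓ A) (kwC B q) := kw_fac_of_set hE
    (Nat.Coprime.coprime_dvd_right (Subgroup.card_dvd_of_le hKB) hF.cop)
  have hEne : E ≠ ⊤ := by
    rintro rfl
    exact hL (top_le_iff.mp hEL)
  obtain ⟨s, hs, hsq, hsd⟩ := kw_two_primes hc h.symm (Fact.out : q.Prime)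
  haveI : Fact s.Prime := ⟨hs⟩
  have hK0 : kwC B q ≠ ⊥ := kwC_ne_bot h.nilB hsq hsd
  have hE0 : E ≠ ⊥ := fun h0 => hK0 (le_bot_iff.mp (hFE.kle.trans h0.le))
  have hEs := kw_solv hc h hEne hFE inf_le_right (kwC_le B q)
  obtain ⟨r, D, hr, hD0, hDp, hDE, hDN, hDle⟩ := kw_dich hEs hE0 hFE
  haveI : Fact r.Prime := ⟨hr⟩
  rcases hDle with hD | hD
  · exfalso
    have hDA : D ≤ A := hD.trans inf_le_right
    have hDr : D ≤ kwS A r := kw_pgroup_le h.nilA r hDA hDp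
    obtain ⟨r', hr', hr'r, hr'd⟩ := kw_two_primes hc h hr
    haveI : Fact r'.Prime := ⟨hr'⟩
    have h1 : kwS A r' ≤ kwN D := by
      intro c hc'
      apply kw_mem_N_of_commute
      intro d hd
      exact (kw_commute h.nilA r (hDr hd) (kwS_le_kwC h.nilA hr'r hc')).symm
    have h2 : kwS B s ≤ kwN D := (kwS_le_kwC h.nilB hsq).trans (hFE.kle.trans hDN)
    have h3 : kwS A r' ⊔ kwS B s ≤ kwN D := sup_le h1 h2
    rw [kw_claim1 hc h hr'd hsd] at h3
    exact kw_N_ne_top_of_le hc h hD0 hDA (top_le_iff.mp h3)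
  · refine ⟨D, hD0, hD.trans (kwC_le B q), ?_, hFE.hle.trans hDN⟩
    apply kw_le_of_normalized h.nilB q
    · intro c hc'
      apply kw_mem_N_of_commute
      intro d hd
      exact kw_commute h.nilB q hc' (hD hd)
    · exact hFE.kle.trans hDN

/-- Step 5: a central element of `A` commutes with no nontrivial element of `B`. -/
theorem kw_step5 (h : KwPair A B) {x v : G} (hx : x ∈ A) (hx1 : x ≠ 1)
    (hxc : ∀ a ∈ A, Commute x a) (hv : v ∈ B) (hv1 : v ≠ 1) (hvx : Commute v x) : False := by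
  obtain ⟨n, q, hq, hn1, hnq⟩ := kw_prime_power hv1
  haveI : Fact q.Prime := ⟨hq⟩
  set w := v ^ n with hw
  have hwB : w ∈ B := pow_mem hv n
  have hwx : Commute w x := hvx.pow_left n
  have hqd : q ∣ Nat.card B := by
    rw [← orderOf_eq_prime hnq hn1]
    have := orderOf_dvd_natCard (⟨w, hwB⟩ : B)
    rwa [Subgroup.orderOf_mk] at this
  have hwS : w ∈ kwS B q := kw_mem_kwS_of_pow h.nilB (k := 1) hwB (by rwa [pow_one])
  set X : Subgroup G := Subgroup.zpowers x ⊔ kwC B q with hX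
  have hXc : X ≤ Subgroup.centralizer ({w} : Set G) := by
    apply sup_le
    · rw [Subgroup.zpowers_le, Subgroup.mem_centralizer_singleton_iff]
      exact hwx.eq.symm
    · intro c hc'
      rw [Subgroup.mem_centralizer_singleton_iff]
      exact (kw_commute h.nilB q hwS hc').eq.symm
  have hXne : X ≠ ⊤ := by
    intro h0
    apply hn1
    apply kw_center_trivial hc
    intro g
    have h1 : g ∈ Subgroup.centralizer ({w} : Set G) := hXc (h0 ▸ Subgroup.mem_top g)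
    rw [Subgroup.mem_centralizer_singleton_iff] at h1
    exact h1.symm
  have hX0 : X ≠ ⊥ := by
    intro h0
    have h1 : x ∈ X := (le_sup_left : Subgroup.zpowers x ≤ X) (Subgroup.mem_zpowers x)
    rw [h0] at h1
    exact hx1 h1
  have hL := kw_N_ne_top hc hX0 hXne
  have hzA : Subgroup.zpowers x ≤ A := by rwa [Subgroup.zpowers_le]
  have hzN : A ≤ kwN (Subgroup.zpowers x) := by
    intro a ha
    apply kw_mem_N_of_commute
    intro d hd
    obtain ⟨k, rfl⟩ := Subgroup.mem_zpowers_iff.mp hd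
    exact ((hxc a ha).symm.zpow_right k)
  have hF := h.fac_N hzA (kwC_le B q) hzN (kwC_normalized B q)
  have hKL : kwC B q ≤ kwN X := (le_sup_right : kwC B q ≤ X).trans Subgroup.le_normalizer
  obtain ⟨D, hD0, hDB, hBN, hAN⟩ := kw_sub59 hc h hL hF hqd hKL
  have hxN : x ∈ kwN D :=
    hAN ⟨Subgroup.le_normalizer ((le_sup_left : Subgroup.zpowers x ≤ X) (Subgroup.mem_zpowers x)), hx⟩
  exact hx1 (kw_central_proper hc h.symm (kw_N_ne_top_of_le hc h.symm hD0 hDB) hBN hxN hxc)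

/-- The centralizer of a nontrivial central element of `A` is `A`. -/
theorem kw_cent_eq (h : KwPair A B) {x : G} (hx : x ∈ A) (hx1 : x ≠ 1)
    (hxc : ∀ a ∈ A, Commute x a) {g : G} (hg : Commute g x) : g ∈ A := by
  obtain ⟨a, ha, b, hb, rfl⟩ := h.fac g
  by_cases hb1 : b = 1
  · rw [hb1, mul_one]; exact ha
  · exfalso
    refine kw_step5 hc h hx hx1 hxc hb hb1 ?_
    have h1 : Commute a x := (hxc a ha).symm
    have h2 : Commute (a⁻¹ * (a * b)) x := h1.inv_left.mul_left hg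
    rwa [inv_mul_cancel_left] at h2

end ctx

end Cfsg.Agent.H06
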