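import Cfsg.Agent.Lib.H06.KW6

/-!
Kegel--Wielandt, coprime case: conjugates of `A` containing central elements; generation.
-/

set_option autoImplicit false

namespace Cfsg.Agent.H06

universe u

open scoped Pointwise

variable {G : Type u} [Group G]

theorem kw_commute_of_N {X Y : Subgroup G} (hXY : X ≤ kwN Y) (hYX : Y ≤ kwN X)
    (h1 : ∀ z, z ∈ X → z ∈ Y → z = 1) {a b : G} (ha : a ∈ X) (hb : b ∈ Y) : Commute a b := by
  have h2 : a * b * a⁻¹ * b⁻¹ ∈ Y := mul_mem (kw_N_conj (hXY ha) hb) (inv_mem hb)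
  have h3 : a * b * a⁻¹ * b⁻¹ ∈ X := by
    have h4 : a * b * a⁻¹ * b⁻¹ = a * (b * a⁻¹ * b⁻¹) := by group
    rw [h4]
    exact mul_mem ha (kw_N_conj (hYX hb) (inv_mem ha))
  have h5 := h1 _ h3 h2
  show a * b = b * a
  have h6 : a * b * a⁻¹ = b := mul_inv_eq_one.mp h5
  calc a * b = (a * b * a⁻¹) * a := by group
    _ = b * a := by rw [h6]

/-- A fixed-point-free action on `O` makes `k ↦ x⁻¹ k⁻¹ x k` surjective. -/
theorem kw_fpf [Finite G] {O : Subgroup G} {x : G} (hxN : x ∈ kwN O)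
    (hfpf : ∀ k ∈ O, Commute k x → k = 1) {η : G} (hη : η ∈ O) :
    ∃ k ∈ O, x⁻¹ * k⁻¹ * x * k = η := by
  let φ : O → O := fun k => ⟨x⁻¹ * (k : G)⁻¹ * x * k,
    mul_mem (kw_N_conj' hxN (inv_mem k.2)) k.2⟩
  have hinj : Function.Injective φ := by
    intro a b hab
    have h1 : x⁻¹ * (a : G)⁻¹ * x * a = x⁻¹ * (b : G)⁻¹ * x * b := congrArg Subtype.val hab
    have h2 : (b : G) * (a : G)⁻¹ * x = x * ((b : G) * (a : G)⁻¹) := by
      have h3 : (a : G)⁻¹ * x * a = (b : G)⁻¹ * x * b := by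
        have h4 : x * (x⁻¹ * (a : G)⁻¹ * x * a) = x * (x⁻¹ * (b : G)⁻¹ * x * b) := by rw [h1]
        simpa [mul_assoc] using h4
      calc (b : G) * (a : G)⁻¹ * x = (b : G) * ((a : G)⁻¹ * x * a) * (a : G)⁻¹ := by group
        _ = (b : G) * ((b : G)⁻¹ * x * b) * (a : G)⁻¹ := by rw [h3]
        _ = x * ((b : G) * (a : G)⁻¹) := by group
    have h5 := hfpf _ (mul_mem b.2 (inv_mem a.2)) h2
    exact (Subtype.ext (mul_inv_eq_one.mp h5)).symm
  obtain ⟨k, hk⟩ := (Finite.injective_iff_surjective.mp hinj) ⟨η, hη⟩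
  exact ⟨k, k.2, congrArg Subtype.val hk⟩

section ctx

variable [Finite G] {A B : Subgroup G} (hc : KwCtx G)
include hc

theorem kw_conj_fix (h : KwPair A B) {a g : G} {p : ℕ} (hp : p.Prime) (ha : a ∈ A) (ha1 : a ≠ 1)
    (hap : a ^ p = 1) (hag : a ∈ MulAut.conj g • A) (hC : ∀ c, Commute c a → c ∈ kwN A) :
    g ∈ kwN A := by
  haveI : Fact p.Prime := ⟨hp⟩
  have h1 : g⁻¹ * a * g ∈ A := kw_conj_mem.mp hag
  have h2 : (g⁻¹ * a * g) ^ p ^ 1 = 1 := by
    have h3 : g⁻¹ * a * g = g⁻¹ * a * g⁻¹⁻¹ := by rw [inv_inv]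
    rw [pow_one, h3, conj_pow, hap]
    group
  have h3 : g⁻¹ * a * g ∈ kwS A p := kw_mem_kwS_of_pow h.nilA h1 h2
  have h4 : ∀ c ∈ kwC A p, g * c * g⁻¹ ∈ kwC A p := by
    intro c hc'
    have h5 : Commute (g⁻¹ * a * g) c := kw_commute h.nilA p h3 hc'
    have h6 : Commute (g * c * g⁻¹) a := by
      have h7 : (g⁻¹ * a * g) * c = c * (g⁻¹ * a * g) := h5
      show (g * c * g⁻¹) * a = a * (g * c * g⁻¹)
      calc (g * c * g⁻¹) * a = g * (c * (g⁻¹ * a * g)) * g⁻¹ := by group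
        _ = g * ((g⁻¹ * a * g) * c) * g⁻¹ := by rw [h7]
        _ = a * (g * c * g⁻¹) := by group
    have h8 := hC _ h6
    have hcA := kwC_le A p hc'
    have h9 : (g * c * g⁻¹) ^ Nat.card A = 1 := by
      rw [conj_pow, kw_pow_card_eq_one hcA]
      group
    have h10 := kw_mem_of_normalizer h8 h9 h.coprime_index_A
    apply kw_mem_kwC_of_coprime h.nilA h10
    have h11 : orderOf (g * c * g⁻¹) = orderOf c := by
      have := MulEquiv.orderOf_eq (MulAut.conj g) c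
      rwa [MulAut.conj_apply] at this
    rw [h11]
    have h12 := orderOf_dvd_natCard (⟨c, hc'⟩ : kwC A p)
    rw [Subgroup.orderOf_mk] at h12
    exact Nat.Coprime.coprime_dvd_left h12 (kwC_coprime h.nilA p)
  have h5 : g ∈ kwN (kwC A p) := kw_mem_normalizer_of h4
  obtain ⟨r, hr, hrp, hrd⟩ := kw_two_primes hc h hp
  haveI : Fact r.Prime := ⟨hr⟩
  have hC0 : kwC A p ≠ ⊥ := kwC_ne_bot h.nilA hrp hrd
  have hCt : kwC A p ≠ ⊤ := by
    intro h0
    exact kw_A_ne_top hc h (top_le_iff.mp (h0 ▸ kwC_le A p))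
  exact kw_N_le_N hc h hC0 hCt (kwC_normalized A p) h5

/-- Step 6. -/
theorem kw_step6 (h : KwPair A B) {x g : G} (hx : x ∈ A) (hx1 : x ≠ 1)
    (hxc : ∀ a ∈ A, Commute x a) (hxg : x ∈ MulAut.conj g • A) : g ∈ kwN A := by
  obtain ⟨n, p, hp, hn1, hnp⟩ := kw_prime_power hx1
  refine kw_conj_fix hc h hp (pow_mem hx n) hn1 hnp (pow_mem hxg n) ?_
  intro c hc'
  exact Subgroup.le_normalizer
    (kw_cent_eq hc h (pow_mem hx n) hn1 (fun a ha => (hxc a ha).pow_left n) hc')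

/-- Step 7: central elements of `A` and `B` generate the group. -/
theorem kw_step7 (h : KwPair A B) {x y : G} (hx : x ∈ A) (hx1 : x ≠ 1)
    (hxc : ∀ a ∈ A, Commute x a) (hy : y ∈ B) (hy1 : y ≠ 1) (hyc : ∀ b ∈ B, Commute y b) :
    Subgroup.zpowers x ⊔ Subgroup.zpowers y = ⊤ := by
  by_contra hne
  have hxX : x ∈ Subgroup.zpowers x ⊔ Subgroup.zpowers y :=
    (le_sup_left : Subgroup.zpowers x ≤ _) (Subgroup.mem_zpowers x)
  have hyX : y ∈ Subgroup.zpowers x ⊔ Subgroup.zpowers y :=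
    (le_sup_right : Subgroup.zpowers y ≤ _) (Subgroup.mem_zpowers y)
  have hX0 : Subgroup.zpowers x ⊔ Subgroup.zpowers y ≠ ⊥ := by
    intro h0
    rw [h0] at hxX
    exact hx1 hxX
  have hL := kw_N_ne_top hc hX0 hne
  have hzA : Subgroup.zpowers x ≤ A := by rwa [Subgroup.zpowers_le]
  have hzB : Subgroup.zpowers y ≤ B := by rwa [Subgroup.zpowers_le]
  have hzN : A ≤ kwN (Subgroup.zpowers x) := by
    intro a ha
    apply kw_mem_N_of_commute
    intro d hd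
    obtain ⟨k, rfl⟩ := Subgroup.mem_zpowers_iff.mp hd
    exact ((hxc a ha).symm.zpow_right k)
  have hzN' : B ≤ kwN (Subgroup.zpowers y) := by
    intro a ha
    apply kw_mem_N_of_commute
    intro d hd
    obtain ⟨k, rfl⟩ := Subgroup.mem_zpowers_iff.mp hd
    exact ((hyc a ha).symm.zpow_right k)
  have hF := h.fac_N hzA hzB hzN hzN'
  have hLs := kw_solv hc h hL hF inf_le_right inf_le_right
  obtain ⟨O₁, O₂, hO₁, hO₂, hN₁, hN₂, hfit⟩ := kw_fit_pair hLs hF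
  have hxL : x ∈ kwN (Subgroup.zpowers x ⊔ Subgroup.zpowers y) := Subgroup.le_normalizer hxX
  have hyL : y ∈ kwN (Subgroup.zpowers x ⊔ Subgroup.zpowers y) := Subgroup.le_normalizer hyX
  have hO₁A : O₁ ≤ A := hO₁.trans inf_le_right
  have hO₂B : O₂ ≤ B := hO₂.trans inf_le_right
  have hO₁L : O₁ ≤ kwN O₂ := (hO₁.trans inf_le_left).trans hN₂
  have hO₂L : O₂ ≤ kwN O₁ := (hO₂.trans inf_le_left).trans hN₁
  have hcomm : ∀ {a b : G}, a ∈ O₁ → b ∈ O₂ → Commute a b := fun ha hb =>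
    kw_commute_of_N hO₁L hO₂L (fun z hz hz' => h.eq_one (hO₁A hz) (hO₂B hz')) ha hb
  -- the commutator
  have hw1 : ∀ o ∈ O₁, Commute (x⁻¹ * y⁻¹ * x * y) o := by
    intro o ho
    have h1 : Commute (y⁻¹ * x * y) o := by
      apply kw_conj_transport
      exact hxc _ (hO₁A (kw_N_conj (hN₁ hyL) ho))
    have h2 : Commute x⁻¹ o := (hxc o (hO₁A ho)).inv_left
    have h3 : x⁻¹ * y⁻¹ * x * y = x⁻¹ * (y⁻¹ * x * y) := by group
    rw [h3]
    exact h2.mul_left h1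
  have hw2 : ∀ o ∈ O₂, Commute (x⁻¹ * y⁻¹ * x * y) o := by
    intro o ho
    have h1 : Commute (x⁻¹ * y⁻¹ * x) o := by
      apply kw_conj_transport
      exact (hyc _ (hO₂B (kw_N_conj (hN₂ hxL) ho))).inv_left
    exact h1.mul_left (hyc o (hO₂B ho))
  have hwL : x⁻¹ * y⁻¹ * x * y ∈ kwN (Subgroup.zpowers x ⊔ Subgroup.zpowers y) :=
    mul_mem (mul_mem (mul_mem (inv_mem hxL) (inv_mem hyL)) hxL) hyL
  obtain ⟨ξ, hξ, η, hη, hw⟩ := hfit _ hwL hw1 hw2
  have hfpf : ∀ k ∈ O₂, Commute k x → k = 1 := by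
    intro k hk hkx
    by_contra hk1
    exact kw_step5 hc h hx hx1 hxc (hO₂B hk) hk1 hkx
  obtain ⟨k, hk, hkη⟩ := kw_fpf (hN₂ hxL) hfpf hη
  have hξk : ξ * k = k * ξ := hcomm hξ hk
  have hξη : ξ * η = η * ξ := hcomm hξ hη
  have ht : (y * k⁻¹)⁻¹ * x * (y * k⁻¹) = x * ξ := by
    have h1 : y⁻¹ * x * y = x * (ξ * η) := by
      rw [← hw]; group
    have h2 : x * η = k⁻¹ * x * k := by
      rw [← hkη]; group
    calc (y * k⁻¹)⁻¹ * x * (y * k⁻¹) = k * (y⁻¹ * x * y) * k⁻¹ := by group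
      _ = k * (x * (ξ * η)) * k⁻¹ := by rw [h1]
      _ = k * (x * (η * ξ)) * k⁻¹ := by rw [hξη]
      _ = k * ((x * η) * ξ) * k⁻¹ := by group
      _ = k * ((k⁻¹ * x * k) * ξ) * k⁻¹ := by rw [h2]
      _ = x * (k * ξ) * k⁻¹ := by group
      _ = x * (ξ * k) * k⁻¹ := by rw [hξk]
      _ = x * ξ := by group
  have htB : y * k⁻¹ ∈ B := mul_mem hy (inv_mem (hO₂B hk))
  have htA : x ∈ MulAut.conj (y * k⁻¹) • A := by
    rw [kw_conj_mem, ht]
    exact mul_mem hx (hO₁A hξ)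
  have htN := kw_step6 hc h hx hx1 hxc htA
  by_cases ht1 : y * k⁻¹ = 1
  · have hyk : y = k := mul_inv_eq_one.mp ht1
    have h1 : x⁻¹ * y * x ∈ B := by
      rw [hyk]
      exact hO₂B (kw_N_conj' (hN₂ hxL) hk)
    have h2 : y ∈ MulAut.conj x • B := kw_conj_mem.mpr h1
    have h3 := kw_step6 hc h.symm hy hy1 hyc h2
    exact hx1 (kw_central_proper hc h.symm (kw_N_ne_top_of_le hc h.symm
      (kw_B_ne_bot hc h) le_rfl) Subgroup.le_normalizer h3 hxc)
  · have hξc : ∀ a ∈ A, Commute ξ a := by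
      intro a ha
      have h1 : Commute ((y * k⁻¹)⁻¹ * x * (y * k⁻¹)) a := by
        apply kw_conj_transport
        exact hxc _ (kw_N_conj htN ha)
      rw [ht] at h1
      have h2 : Commute (x⁻¹ * (x * ξ)) a := (hxc a ha).inv_left.mul_left h1
      rwa [inv_mul_cancel_left] at h2
    by_cases hξ1 : ξ = 1
    · have h1 : Commute (y * k⁻¹) x := by
        rw [hξ1, mul_one] at ht
        have h2 : (y * k⁻¹) * x = x * (y * k⁻¹) := by
          calc (y * k⁻¹) * x = (y * k⁻¹) * ((y * k⁻¹)⁻¹ * x * (y * k⁻¹)) := by rw [ht]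
            _ = x * (y * k⁻¹) := by group
        exact h2
      exact ht1 (h.eq_one (kw_cent_eq hc h hx hx1 hxc h1) htB)
    · have h1 : ∀ z ∈ O₂, z = 1 := by
        intro z hz
        have h2 : Commute z ξ := (hcomm hξ hz).symm
        exact h.eq_one (kw_cent_eq hc h (hO₁A hξ) hξ1 hξc h2) (hO₂B hz)
      have h2 := h1 k hk
      rw [h2, inv_one, mul_one] at htN
      exact hy1 (kw_central_proper hc h (kw_N_ne_top_of_le hc h (kw_A_ne_bot hc h) le_rfl)
        Subgroup.le_normalizer htN hyc)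

/-- Step 8: `x ∈ Z(A)#` normalizes no nontrivial subgroup of order prime to `|A|`. -/
theorem kw_step8 (h : KwPair A B) {x : G} (hx : x ∈ A) (hx1 : x ≠ 1)
    (hxc : ∀ a ∈ A, Commute x a) {J : Subgroup G} (hJ0 : J ≠ ⊥)
    (hJc : (Nat.card J).Coprime (Nat.card A)) (hxJ : x ∈ kwN J) : False := by
  obtain ⟨z, hz⟩ := Cfsg.Agent.S0581.result B J h.nilB h.symm.coprime_index_A (by
    intro p hp hpd
    have h1 : p ∣ Nat.card G := hpd.trans (Subgroup.card_subgroup_dvd_card J)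
    rw [h.card] at h1
    rcases (Nat.Prime.dvd_mul hp).mp h1 with h2 | h2
    · exfalso
      have := Nat.dvd_gcd hpd h2
      rw [hJc] at this
      exact hp.one_lt.ne' (Nat.dvd_one.mp this)
    · exact h2)
  have h1 := h.conj_right z
  obtain ⟨q, hq, hqd⟩ := kw_prime_dvd hc h1.symm
  haveI : Fact q.Prime := ⟨hq⟩
  obtain ⟨y, hy, hy1, hyc⟩ := kw_central h1.nilB hqd
  have hyB := kwS_le _ q hy
  have hyJ : y ∈ kwN J := kw_mem_N_of_commute (fun d hd => hyc d (hz hd))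
  have h2 := kw_step7 hc h1 hx hx1 hxc hyB hy1 hyc
  have h3 : Subgroup.zpowers x ⊔ Subgroup.zpowers y ≤ kwN J :=
    sup_le ((Subgroup.zpowers_le).mpr hxJ) ((Subgroup.zpowers_le).mpr hyJ)
  rw [h2] at h3
  exact kw_N_ne_top_of_le hc h1.symm hJ0 hz (top_le_iff.mp h3)

/-- Step 9. -/
theorem kw_step9 (h : KwPair A B) {t : G} (ht : t ∈ B) (ht1 : t ≠ 1) (htN : t ∈ kwN A) {c : G}
    (hct : Commute c t) : c ∈ kwN B := by
  obtain ⟨n, q, hq, hn1, hnq⟩ := kw_prime_power ht1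
  haveI : Fact q.Prime := ⟨hq⟩
  set w := t ^ n with hw
  have hwB : w ∈ B := pow_mem ht n
  have hwN : w ∈ kwN A := pow_mem htN n
  have hcw : Commute c w := hct.pow_right n
  have hqd : q ∣ Nat.card B := by
    rw [← orderOf_eq_prime hnq hn1]
    have := orderOf_dvd_natCard (⟨w, hwB⟩ : B)
    rwa [Subgroup.orderOf_mk] at this
  have hwS : w ∈ kwS B q := kw_mem_kwS_of_pow h.nilB (k := 1) hwB (by rwa [pow_one])
  have hF : KwFac (Subgroup.centralizer ({w} : Set G))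
      (Subgroup.centralizer ({w} : Set G) ⊓ A) (Subgroup.centralizer ({w} : Set G) ⊓ B) := by
    apply h.fac_of
    intro g hg
    rw [Subgroup.mem_centralizer_singleton_iff] at hg
    obtain ⟨a, ha, b, hb, rfl⟩ := h.fac g
    have h1 : a⁻¹ * w * a = b * w * b⁻¹ := by
      have h2 : (a * b) * w * (a * b)⁻¹ = w := by
        rw [hg]; group
      calc a⁻¹ * w * a = a⁻¹ * ((a * b) * w * (a * b)⁻¹) * a := by rw [h2]
        _ = b * w * b⁻¹ := by group
    have h2 : b * w * b⁻¹ ∈ kwN A := by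
      rw [← h1]
      exact mul_mem (mul_mem (inv_mem (Subgroup.le_normalizer ha)) hwN) (Subgroup.le_normalizer ha)
    have h3 : w * (b * w * b⁻¹)⁻¹ = a * ((b * w * b⁻¹) * a⁻¹ * (b * w * b⁻¹)⁻¹) := by
      rw [← h1]; group
    have h4 : w * (b * w * b⁻¹)⁻¹ = 1 := by
      apply h.eq_one
      · rw [h3]
        exact mul_mem ha (kw_N_conj h2 (inv_mem ha))
      · exact mul_mem hwB (inv_mem (mul_mem (mul_mem hb hwB) (inv_mem hb)))
    have h5 : b * w * b⁻¹ = w := (mul_inv_eq_one.mp h4).symm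
    have hbc : b ∈ Subgroup.centralizer ({w} : Set G) := by
      rw [Subgroup.mem_centralizer_singleton_iff]
      exact mul_inv_eq_iff_eq_mul.mp h5
    have hac : a ∈ Subgroup.centralizer ({w} : Set G) := by
      rw [Subgroup.mem_centralizer_singleton_iff]
      have h6 : a * w * a⁻¹ = w := by
        have h7 : a⁻¹ * w * a = w := by rw [h1, h5]
        calc a * w * a⁻¹ = a * (a⁻¹ * w * a) * a⁻¹ := by rw [h7]
          _ = w := by group
      exact mul_inv_eq_iff_eq_mul.mp h6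
    exact ⟨a, ⟨hac, ha⟩, b, ⟨hbc, hb⟩, rfl⟩
  have hCne : Subgroup.centralizer ({w} : Set G) ≠ ⊤ := by
    intro h0
    apply hn1
    apply kw_center_trivial hc
    intro g
    have h1 : g ∈ Subgroup.centralizer ({w} : Set G) := h0 ▸ Subgroup.mem_top g
    rw [Subgroup.mem_centralizer_singleton_iff] at h1
    exact h1.symm
  have hK : kwC B q ≤ Subgroup.centralizer ({w} : Set G) := by
    intro d hd
    rw [Subgroup.mem_centralizer_singleton_iff]
    exact (kw_commute h.nilB q hwS hd).eq.symm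
  obtain ⟨D, hD0, hDB, hBN, hAN⟩ := kw_sub59 hc h hCne hF hqd hK
  have h1 : kwN D ≤ kwN B := by
    apply kw_N_le_N hc h.symm hD0 _ hBN
    rintro rfl
    exact kw_B_ne_top hc h (top_le_iff.mp hDB)
  obtain ⟨a, ha, b, hb, hab⟩ := hF.fac c (by
    rw [Subgroup.mem_centralizer_singleton_iff]; exact hcw.eq)
  rw [hab]
  exact mul_mem (h1 (hAN ha)) (Subgroup.le_normalizer hb.2)

end ctx

end Cfsg.Agent.H06
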