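import Cfsg.Agent.Lib.H06.KW7

/-!
Kegel--Wielandt, coprime case: Frobenius' theorem on a central quotient.
-/

set_option autoImplicit false

namespace Cfsg.Agent.H06

universe u

open scoped Pointwise

theorem kw_central_ext {Y : Type u} [Group Y] [Finite Y] (Z M : Subgroup Y) [M.Normal] (hZM : Z ≤ M)
    (hZc : ∀ z ∈ Z, ∀ g, Commute z g) (n : ℕ) (hn : (Z.subgroupOf M).index = n)
    (hcop : (Nat.card Z).Coprime n) (hn1 : n ≠ 1) :
    ∃ J : Subgroup Y, J.Normal ∧ J ≠ ⊥ ∧ Nat.card J = n := by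
  haveI hZ' : (Z.subgroupOf M).Normal := by
    refine ⟨fun z hz g => ?_⟩
    have h1 : (z : Y) ∈ Z := Subgroup.mem_subgroupOf.mp hz
    have h2 : g * z * g⁻¹ = z := by
      apply Subtype.ext
      have h3 := (hZc _ h1 (g : Y)).eq
      simp only [Subgroup.coe_mul, Subgroup.coe_inv]
      rw [← h3]
      group
    rw [h2]
    exact hz
  have hcardZ : Nat.card (Z.subgroupOf M) = Nat.card Z :=
    Nat.card_congr (Subgroup.subgroupOfEquivOfLe hZM).toEquiv
  obtain ⟨C, hC⟩ := Subgroup.exists_right_complement'_of_coprime (N := Z.subgroupOf M)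
    (by rw [hcardZ, hn]; exact hcop)
  have hCn : Nat.card C = n := by
    have h1 := hC.card_mul
    have h2 := (Z.subgroupOf M).card_mul_index
    rw [← h2] at h1
    rw [← hn]
    exact Nat.eq_of_mul_eq_mul_left Nat.card_pos h1
  have hJcard : Nat.card (C.map M.subtype) = n := by
    rw [Subgroup.card_map_of_injective M.subtype_injective, hCn]
  refine ⟨C.map M.subtype, ?_, ?_, hJcard⟩
  · refine ⟨fun j hj g => ?_⟩
    have hjn : j ^ n = 1 := by
      rw [← hJcard]
      exact kw_pow_card_eq_one hj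
    obtain ⟨c₀, _, rfl⟩ := hj
    have hm : g * (c₀ : Y) * g⁻¹ ∈ M := Subgroup.Normal.conj_mem ‹_› _ c₀.2 g
    obtain ⟨⟨z', c'⟩, hzc⟩ := hC.2 ⟨g * (c₀ : Y) * g⁻¹, hm⟩
    have hzc' : ((z' : M) : Y) * ((c' : M) : Y) = g * (c₀ : Y) * g⁻¹ := congrArg Subtype.val hzc
    have hz : ((z' : M) : Y) ∈ Z := Subgroup.mem_subgroupOf.mp z'.2
    have hc'J : ((c' : M) : Y) ∈ C.map M.subtype := ⟨c', c'.2, rfl⟩
    have hc'n : ((c' : M) : Y) ^ n = 1 := by
      rw [← hJcard]
      exact kw_pow_card_eq_one hc'J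
    have h1 : (((z' : M) : Y) * ((c' : M) : Y)) ^ n = 1 := by
      rw [hzc', conj_pow]
      simp only [Subgroup.subtype_apply] at hjn
      rw [hjn]
      group
    rw [(hZc _ hz _).mul_pow, hc'n, mul_one] at h1
    have h2 : ((z' : M) : Y) = 1 := kw_eq_one_of_pow_coprime hcop (kw_pow_card_eq_one hz) h1
    simp only [Subgroup.subtype_apply]
    rw [← hzc', h2, one_mul]
    exact hc'J
  · intro h0
    rw [h0, Subgroup.card_bot] at hJcard
    exact hn1 hJcard.symm

theorem kw_frob_quot {Y : Type u} [Group Y] [Finite Y] (E Z : Subgroup Y) (hZE : Z ≤ E)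
    (hZc : ∀ z ∈ Z, ∀ g, Commute z g) (hu : ∃ u ∈ E, u ∉ Z) (hcE : ∃ c, c ∉ E)
    (hfrob : ∀ g u, u ∈ E → g⁻¹ * u * g ∈ E → u ∉ Z → g ∈ E) (a : ℕ)
    (ha : Nat.card Z ∣ a) (hs : ∀ s : ℕ, s.Prime → s ∣ a → ∃ u ∈ E, u ∉ Z ∧ u ^ s = 1) :
    ∃ M : Subgroup Y, M.Normal ∧ M ≠ ⊥ ∧ (Nat.card M).Coprime a := by
  haveI hZn : Z.Normal := by
    refine ⟨fun z hz g => ?_⟩
    have h2 : g * z * g⁻¹ = z := by
      rw [← (hZc z hz g).eq]
      group
    rw [h2]
    exact hz
  let π : Y →* Y ⧸ Z := QuotientGroup.mk' Z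
  have hπs : Function.Surjective π := QuotientGroup.mk'_surjective Z
  have hπ1 : ∀ g, π g = 1 ↔ g ∈ Z := fun g => QuotientGroup.eq_one_iff g
  have hmem : ∀ g, π g ∈ E.map π ↔ g ∈ E := by
    intro g
    constructor
    · rintro ⟨e, he, hge⟩
      have h1 : π (e⁻¹ * g) = 1 := by
        rw [map_mul, map_inv, hge, inv_mul_cancel]
      have h2 := hZE ((hπ1 _).mp h1)
      have h3 := mul_mem he h2
      rwa [mul_inv_cancel_left] at h3
    · intro h
      exact ⟨g, h, rfl⟩
  have hF : Cfsg.IsFrobeniusComplement (E.map π) := by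
    refine ⟨?_, ?_, ?_⟩
    · obtain ⟨u, hu1, hu2⟩ := hu
      intro h0
      have h1 : π u ∈ E.map π := (hmem u).mpr hu1
      rw [h0] at h1
      exact hu2 ((hπ1 u).mp h1)
    · obtain ⟨c, hc⟩ := hcE
      intro h0
      have h1 : π c ∈ E.map π := by rw [h0]; trivial
      exact hc ((hmem c).mp h1)
    · intro g0 hg0
      obtain ⟨g, rfl⟩ := hπs g0
      rw [eq_bot_iff]
      rintro v ⟨hv1, hv2⟩
      obtain ⟨u, rfl⟩ := hπs v
      have hu1 : u ∈ E := (hmem u).mp hv1
      have hv3 := kw_conj_mem.mp hv2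
      have hu2 : g⁻¹ * u * g ∈ E := by
        apply (hmem _).mp
        simpa only [map_mul, map_inv] using hv3
      rw [Subgroup.mem_bot, hπ1]
      by_contra huZ
      exact hg0 ((hmem g).mpr (hfrob g u hu1 hu2 huZ))
  obtain ⟨N, _, hNn, hNc⟩ := Cfsg.Agent.H01.frobenius_theorem (E.map π) hF
  have hNidx : (E.map π).index = Nat.card N := hNc.index_eq_card
  have hdvd := Cfsg.Agent.H01.card_dvd_index_sub_one hF
  rw [hNidx] at hdvd
  have hN1 : Nat.card N ≠ 1 := by
    intro h0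
    rw [h0, Subgroup.index_eq_one] at hNidx
    exact hF.2.1 hNidx
  have hcopE : (Nat.card (E.map π)).Coprime (Nat.card N) := by
    obtain ⟨m, hm⟩ := hdvd
    have hpos : 0 < Nat.card N := Nat.card_pos
    have h1 : Nat.card N = Nat.card (E.map π) * m + 1 := by omega
    rw [h1]
    simp
  have hcopa : (Nat.card N).Coprime a := by
    apply Nat.Coprime.symm
    apply Nat.coprime_of_dvd
    intro s hs1 hs2 hs3
    obtain ⟨u, hu1, hu2, hu3⟩ := hs s hs1 hs2
    have h1 : π u ∈ E.map π := (hmem u).mpr hu1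
    have h2 : π u ≠ 1 := fun h => hu2 ((hπ1 u).mp h)
    have h3 : (π u) ^ s = 1 := by rw [← map_pow, hu3, map_one]
    haveI : Fact s.Prime := ⟨hs1⟩
    have h4 : orderOf (π u) = s := orderOf_eq_prime h3 h2
    have h5 : s ∣ Nat.card (E.map π) := by
      rw [← h4]
      have := orderOf_dvd_natCard (⟨π u, h1⟩ : E.map π)
      rwa [Subgroup.orderOf_mk] at this
    have h6 := Nat.dvd_gcd h5 hs3
    rw [hcopE] at h6
    exact hs1.one_lt.ne' (Nat.dvd_one.mp h6)
  -- the preimage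
  have hpre : (N.comap π).Normal := hNn.comap π
  have hZM : Z ≤ N.comap π := by
    intro z hz
    have h1 : π z = 1 := (hπ1 z).mpr hz
    show π z ∈ N
    rw [h1]
    exact one_mem _
  have hidx : (Z.subgroupOf (N.comap π)).index = Nat.card N := by
    have h1 := Subgroup.index_ker (π.subgroupComap N)
    have h2 : (π.subgroupComap N).ker = Z.subgroupOf (N.comap π) := by
      ext x
      rw [MonoidHom.mem_ker, Subgroup.mem_subgroupOf, ← hπ1]
      constructor
      · intro h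
        exact congrArg Subtype.val h
      · intro h
        exact Subtype.ext h
    rw [h2] at h1
    rw [h1, MonoidHom.range_eq_top.mpr
      (MonoidHom.subgroupComap_surjective_of_surjective π N hπs)]
    exact Nat.card_congr (Subgroup.topEquiv (G := N)).toEquiv
  obtain ⟨J, hJn, hJ0, hJc⟩ := kw_central_ext Z (N.comap π) hZM hZc (Nat.card N) hidx
    (Nat.Coprime.coprime_dvd_left ha hcopa.symm) hN1
  exact ⟨J, hJn, hJ0, by rw [hJc]; exact hcopa⟩

end Cfsg.Agent.H06
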