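import Cfsg.Agent.Lib.H06.KW8

/-!
Kegel--Wielandt, coprime case: centralizers of nontrivial subgroups of `A`.
-/

set_option autoImplicit false

namespace Cfsg.Agent.H06

universe u

open scoped Pointwise

variable {G : Type u} [Group G]

section ctx

variable [Finite G] {A B : Subgroup G} (hc : KwCtx G)
include hc

theorem kw_step10_aux (h : KwPair A B) {X : Subgroup G} (hXA : X ≤ A) (hX0 : X ≠ ⊥)
    (IH : ∀ X' : Subgroup G, X < X' → X' ≤ A → ∀ c, (∀ w ∈ X', Commute c w) → c ∈ kwN A) :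
    ∀ c, (∀ w ∈ X, Commute c w) → c ∈ kwN A := by
  intro c₀ hc₀
  by_contra hc₀N
  obtain ⟨p, hp, hpd⟩ := kw_prime_dvd hc h
  haveI : Fact p.Prime := ⟨hp⟩
  obtain ⟨x, hxS, hx1, hxc⟩ := kw_central h.nilA hpd
  have hxA := kwS_le A p hxS
  have hnoX : ∀ y ∈ A, y ≠ 1 → (∀ a ∈ A, Commute y a) → y ∉ X := by
    intro y hy hy1 hyc hyX
    exact hc₀N (Subgroup.le_normalizer (kw_cent_eq hc h hy hy1 hyc (hc₀ y hyX)))
  obtain ⟨⟨w₀, hw₀⟩, hw₀1'⟩ := (Subgroup.ne_bot_iff_exists_ne_one).mp hX0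
  have hw₀1 : w₀ ≠ 1 := fun h1 => hw₀1' (Subtype.ext h1)
  have hb : ∀ g, (∀ w ∈ X, Commute g w) → g ∈ kwN A → g ∈ A := by
    intro g hgX hgN
    by_cases hg1 : g ^ Nat.card A = 1
    · exact kw_mem_of_normalizer hgN hg1 h.coprime_index_A
    · exfalso
      have hg₁B : (g ^ Nat.card A) ^ Nat.card B = 1 := by
        rw [← pow_mul, ← h.card]; exact pow_card_eq_one'
      obtain ⟨z, hz⟩ := Cfsg.Agent.S0581.result B (Subgroup.zpowers (g ^ Nat.card A)) h.nilB
        h.symm.coprime_index_A (by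
          intro q _ hqd
          rw [Nat.card_zpowers] at hqd
          exact hqd.trans (orderOf_dvd_of_pow_eq_one hg₁B))
      have hg₁z : g ^ Nat.card A ∈ MulAut.conj z • B := hz (Subgroup.mem_zpowers _)
      have h₁ := h.conj_right z
      have hg₁N : g ^ Nat.card A ∈ kwN A := pow_mem hgN _
      have hwN : (w₀ : G) ∈ kwN (MulAut.conj z • B) :=
        kw_step9 hc h₁ hg₁z hg1 hg₁N ((hgX w₀ hw₀).symm.pow_right _)
      exact hc₀N (kw_step9 hc h₁.symm (hXA hw₀) hw₀1 hwN (hc₀ w₀ hw₀))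
  have hcc : ∀ g u, (∀ w ∈ X, Commute g w) → u ∈ A → (∀ w ∈ X, Commute u w) →
      g⁻¹ * u * g ∈ A → u ∉ X → g ∈ A := by
    intro g u hgX huA huX hu' huN
    have hu'X : ∀ w ∈ X, Commute (g⁻¹ * u * g) w := fun w hw =>
      ((hgX w hw).inv_left.mul_left (huX w hw)).mul_left (hgX w hw)
    have hu'N : g⁻¹ * u * g ∉ X := by
      intro h1
      have h2 : g * (g⁻¹ * u * g) = (g⁻¹ * u * g) * g := hgX _ h1
      have h4 : u = g⁻¹ * u * g := by
        have h5 : g * (g⁻¹ * u * g) * g⁻¹ = u := by group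
        rw [h2, mul_inv_cancel_right] at h5
        exact h5.symm
      exact huN (h4 ▸ h1)
    have hX'' : X < X ⊔ Subgroup.zpowers (g⁻¹ * u * g) := by
      refine lt_of_le_of_ne le_sup_left ?_
      intro h1
      apply hu'N
      rw [h1]
      exact (le_sup_right : Subgroup.zpowers _ ≤ _) (Subgroup.mem_zpowers _)
    have hX''A : X ⊔ Subgroup.zpowers (g⁻¹ * u * g) ≤ A :=
      sup_le hXA ((Subgroup.zpowers_le).mpr hu')
    have hcent : X ⊔ Subgroup.zpowers (g⁻¹ * u * g) ≤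
        Subgroup.centralizer ({g⁻¹ * x * g} : Set G) := by
      apply sup_le
      · intro w hw
        rw [Subgroup.mem_centralizer_singleton_iff]
        have h1 : Commute (g⁻¹ * x * g) w :=
          ((hgX w hw).inv_left.mul_left (hxc w (hXA hw))).mul_left (hgX w hw)
        exact h1.eq.symm
      · rw [Subgroup.zpowers_le, Subgroup.mem_centralizer_singleton_iff]
        have h1 : Commute (g⁻¹ * x * g) (g⁻¹ * u * g) := by
          have h2 : x * u = u * x := hxc u huA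
          show (g⁻¹ * x * g) * (g⁻¹ * u * g) = (g⁻¹ * u * g) * (g⁻¹ * x * g)
          calc (g⁻¹ * x * g) * (g⁻¹ * u * g) = g⁻¹ * (x * u) * g := by group
            _ = g⁻¹ * (u * x) * g := by rw [h2]
            _ = (g⁻¹ * u * g) * (g⁻¹ * x * g) := by group
        exact h1.eq.symm
    have hx' : g⁻¹ * x * g ∈ kwN A := by
      apply IH _ hX'' hX''A
      intro w hw
      have h1 := hcent hw
      rw [Subgroup.mem_centralizer_singleton_iff] at h1
      exact h1.symm
    have hx'1 : (g⁻¹ * x * g) ^ Nat.card A = 1 := by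
      have h3 : g⁻¹ * x * g = g⁻¹ * x * g⁻¹⁻¹ := by rw [inv_inv]
      rw [h3, conj_pow, kw_pow_card_eq_one hxA]
      group
    have hx'A := kw_mem_of_normalizer hx' hx'1 h.coprime_index_A
    exact hb g hgX (kw_step6 hc h hxA hx1 hxc (kw_conj_mem.mpr hx'A))
  have hmemY : ∀ g, g ∈ Subgroup.centralizer (X : Set G) ↔ ∀ w ∈ X, Commute g w := by
    intro g
    rw [Subgroup.mem_centralizer_iff]
    constructor
    · intro h1 w hw
      exact (h1 w hw).symm
    · intro h1 w hw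
      exact (h1 w hw).symm
  have hAY : ∀ y ∈ A, (∀ a ∈ A, Commute y a) → y ∈ Subgroup.centralizer (X : Set G) :=
    fun y _ hyc => (hmemY y).mpr (fun w hw => hyc w (hXA hw))
  obtain ⟨M, hMn, hM0, hMc⟩ := kw_frob_quot (Y := Subgroup.centralizer (X : Set G))
    (A.subgroupOf _) (X.subgroupOf _)
    (fun z hz => Subgroup.mem_subgroupOf.mpr (hXA (Subgroup.mem_subgroupOf.mp hz)))
    (fun z hz g => Subtype.ext ((((hmemY g.1).mp g.2) z.1 (Subgroup.mem_subgroupOf.mp hz)).symm).eq)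
    ⟨⟨x, hAY x hxA hxc⟩, Subgroup.mem_subgroupOf.mpr hxA,
      fun h1 => hnoX x hxA hx1 hxc (Subgroup.mem_subgroupOf.mp h1)⟩
    ⟨⟨c₀, (hmemY c₀).mpr hc₀⟩, fun h1 =>
      hc₀N (Subgroup.le_normalizer (Subgroup.mem_subgroupOf.mp h1))⟩
    (fun g u hu hgu huZ => by
      apply Subgroup.mem_subgroupOf.mpr
      apply hcc g.1 u.1 ((hmemY g.1).mp g.2) (Subgroup.mem_subgroupOf.mp hu) ((hmemY u.1).mp u.2)
        (Subgroup.mem_subgroupOf.mp hgu)
      exact fun h1 => huZ (Subgroup.mem_subgroupOf.mpr h1))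
    (Nat.card A)
    (by
      rw [← Subgroup.card_map_of_injective (Subgroup.centralizer (X : Set G)).subtype_injective]
      apply Subgroup.card_dvd_of_le
      rintro _ ⟨z, hz, rfl⟩
      exact hXA (Subgroup.mem_subgroupOf.mp hz))
    (by
      intro s hs hsd
      haveI : Fact s.Prime := ⟨hs⟩
      obtain ⟨y, hyS, hy1, hys, hyc⟩ := kw_central_prime h.nilA hsd
      have hyA := kwS_le A s hyS
      refine ⟨⟨y, hAY y hyA hyc⟩, Subgroup.mem_subgroupOf.mpr hyA,
        fun h1 => hnoX y hyA hy1 hyc (Subgroup.mem_subgroupOf.mp h1), ?_⟩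
      exact Subtype.ext hys)
  haveI := hMn
  have hJ0 : M.map (Subgroup.centralizer (X : Set G)).subtype ≠ ⊥ := fun h0 =>
    hM0 ((Subgroup.map_eq_bot_iff_of_injective _ (Subgroup.subtype_injective _)).mp h0)
  refine kw_step8 hc h hxA hx1 hxc hJ0 ?_ (kw_map_normal M (hAY x hxA hxc))
  rw [Subgroup.card_map_of_injective (Subgroup.subtype_injective _)]
  exact hMc

/-- Step 10. -/
theorem kw_step10 (h : KwPair A B) : ∀ X : Subgroup G, X ≤ A → X ≠ ⊥ → ∀ c, (∀ w ∈ X, Commute c w) →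
    c ∈ kwN A := by
  intro X
  induction X using WellFoundedGT.induction with
  | ind X IH =>
    intro hXA hX0
    apply kw_step10_aux hc h hXA hX0
    intro X' hlt hle
    exact IH X' hlt hle (ne_bot_of_gt hlt)

/-- Step 11: `A` is a TI-subgroup. -/
theorem kw_TI (h : KwPair A B) {a g : G} (ha : a ∈ A) (ha1 : a ≠ 1) (hag : a ∈ MulAut.conj g • A) :
    g ∈ kwN A := by
  obtain ⟨n, p, hp, hn1, hnp⟩ := kw_prime_power ha1
  refine kw_conj_fix hc h hp (pow_mem ha n) hn1 hnp (pow_mem hag n) ?_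
  intro c hc'
  apply kw_step10 hc h (Subgroup.zpowers (a ^ n)) ((Subgroup.zpowers_le).mpr (pow_mem ha n))
    (Subgroup.zpowers_ne_bot.mpr hn1) c
  intro w hw
  obtain ⟨k, rfl⟩ := Subgroup.mem_zpowers_iff.mp hw
  exact hc'.zpow_right k

end ctx

end Cfsg.Agent.H06
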