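import Mathlib

/-! Livingstone–Wagner: basic vocabulary. -/

set_option autoImplicit false

namespace Cfsg.Agent.H06.LW

open Equiv Finset

universe u
variable {α : Type u} [Fintype α] [DecidableEq α]

/-- Every injective partial map on a `t`-set extends to an element of `G`. -/
def Ext (G : Subgroup (Perm α)) (t : ℕ) : Prop :=
  ∀ D : Finset α, D.card = t → ∀ f : α → α, Set.InjOn f D → ∃ g ∈ G, ∀ x ∈ D, g x = f x

/-- `j`-homogeneity, in terms of finsets. -/
def Hmg (G : Subgroup (Perm α)) (j : ℕ) : Prop :=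
  ∀ A B : Finset α, A.card = j → B.card = j → ∃ g ∈ G, A.image g = B

theorem ext_of_trans {G : Subgroup (Perm α)} {t : ℕ}
    (h : MulAction.IsMultiplyPretransitive G α t) : Ext G t := by
  intro D hD f hf
  have e := D.equivFinOfCardEq hD
  let u : Fin t ↪ α := ⟨fun i => (e.symm i : α), fun i j hij => e.symm.injective (Subtype.ext hij)⟩
  let v : Fin t ↪ α := ⟨fun i => f (e.symm i : α),
    fun i j hij => e.symm.injective (Subtype.ext (hf (e.symm i).2 (e.symm j).2 hij))⟩
  obtain ⟨g, hg⟩ := h.exists_smul_eq u v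
  refine ⟨g, g.2, fun x hx => ?_⟩
  have h3 : (g : Perm α) (e.symm (e ⟨x, hx⟩) : α) = f (e.symm (e ⟨x, hx⟩) : α) :=
    DFunLike.congr_fun hg (e ⟨x, hx⟩)
  simpa using h3

theorem trans_of_ext {G : Subgroup (Perm α)} {t : ℕ} (h : Ext G t) :
    MulAction.IsMultiplyPretransitive G α t := by
  refine ⟨fun u v => ?_⟩
  have hinj : Set.InjOn (Function.extend u v id) ((univ.map u : Finset α) : Set α) := by
    intro x hx y hy hxy
    simp only [coe_map, coe_univ, Set.image_univ, Set.mem_range] at hx hy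
    obtain ⟨i, rfl⟩ := hx
    obtain ⟨j, rfl⟩ := hy
    rw [u.injective.extend_apply, u.injective.extend_apply] at hxy
    rw [v.injective hxy]
  obtain ⟨g, hg, h2⟩ := h (univ.map u) (by simp) _ hinj
  refine ⟨⟨g, hg⟩, ?_⟩
  ext i
  have := h2 (u i) (by simp)
  rw [u.injective.extend_apply] at this
  simpa using this

open scoped Pointwise in
theorem hmg_of_pretrans {G : Subgroup (Perm α)} {j : ℕ}
    (h : MulAction.IsPretransitive G (Set.powersetCard α j)) : Hmg G j := by
  intro A B hA hB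
  obtain ⟨g, hg⟩ := h.exists_smul_eq (Set.powersetCard.ofCard hA) (Set.powersetCard.ofCard hB)
  refine ⟨g, g.2, ?_⟩
  have h2 : g • A = B := congrArg Subtype.val hg
  rw [← h2]
  ext x
  simp [Finset.mem_smul_finset, Subgroup.smul_def, Perm.smul_def]

theorem hmg_of_ext {G : Subgroup (Perm α)} {t : ℕ} (h : Ext G t) : Hmg G t := by
  intro A B hA hB
  have e : A ≃ B := Finset.equivOfCardEq (hA.trans hB.symm)
  obtain ⟨g, hg, h2⟩ := h A hA (fun x => if hx : x ∈ A then (e ⟨x, hx⟩ : α) else x) (by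
    intro x hx y hy hxy
    have hx' : x ∈ A := hx
    have hy' : y ∈ A := hy
    simp only [hx', hy', dif_pos] at hxy
    have := e.injective (Subtype.ext hxy)
    exact congrArg Subtype.val this)
  refine ⟨g, hg, ?_⟩
  apply Finset.eq_of_subset_of_card_le
  · intro y hy
    obtain ⟨x, hx, rfl⟩ := Finset.mem_image.1 hy
    rw [h2 x hx, dif_pos hx]
    exact (e ⟨x, hx⟩).2
  · rw [Finset.card_image_of_injective _ g.injective, hA, hB]

/-- pointwise stabilizer in `G` -/
def pf (G : Subgroup (Perm α)) (S : Finset α) : Subgroup (Perm α) where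
  carrier := {g | g ∈ G ∧ ∀ x ∈ S, g x = x}
  mul_mem' := by
    rintro a b ⟨ha, ha'⟩ ⟨hb, hb'⟩
    exact ⟨G.mul_mem ha hb, fun x hx => by simp [Perm.mul_apply, hb' x hx, ha' x hx]⟩
  one_mem' := ⟨G.one_mem, fun _ _ => rfl⟩
  inv_mem' := by
    rintro a ⟨ha, ha'⟩
    exact ⟨G.inv_mem ha, fun x hx => by rw [Perm.inv_eq_iff_eq]; exact (ha' x hx).symm⟩

theorem mem_pf {G : Subgroup (Perm α)} {S : Finset α} {g : Perm α} :
    g ∈ pf G S ↔ g ∈ G ∧ ∀ x ∈ S, g x = x := Iff.rfl

/-- setwise stabilizer in `G` -/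
def stS (G : Subgroup (Perm α)) (A : Finset α) : Subgroup (Perm α) where
  carrier := {g | g ∈ G ∧ A.image g = A}
  mul_mem' := by
    rintro a b ⟨ha, ha'⟩ ⟨hb, hb'⟩
    refine ⟨G.mul_mem ha hb, ?_⟩
    have : A.image (a * b) = (A.image b).image a := by
      rw [Finset.image_image]; rfl
    rw [this, hb', ha']
  one_mem' := ⟨G.one_mem, by simp⟩
  inv_mem' := by
    rintro a ⟨ha, ha'⟩
    refine ⟨G.inv_mem ha, ?_⟩
    have : (A.image a).image (a⁻¹ : Perm α) = A := by
      rw [Finset.image_image]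
      have : ((a⁻¹ : Perm α) : α → α) ∘ a = id := by ext x; simp
      rw [this, Finset.image_id]
    conv_lhs => rw [← ha']
    exact this

theorem mem_stS {G : Subgroup (Perm α)} {A : Finset α} {g : Perm α} :
    g ∈ stS G A ↔ g ∈ G ∧ A.image g = A := Iff.rfl

theorem card_pf_image {G : Subgroup (Perm α)} {h : Perm α} (hh : h ∈ G) (S : Finset α) :
    Nat.card (pf G (S.image h)) = Nat.card (pf G S) := by
  refine Nat.card_congr ⟨fun g => ⟨h⁻¹ * g * h, ?_⟩, fun g => ⟨h * g * h⁻¹, ?_⟩, ?_, ?_⟩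
  · refine ⟨G.mul_mem (G.mul_mem (G.inv_mem hh) g.2.1) hh, fun x hx => ?_⟩
    have := g.2.2 (h x) (Finset.mem_image_of_mem _ hx)
    simp [Perm.mul_apply, this]
  · refine ⟨G.mul_mem (G.mul_mem hh g.2.1) (G.inv_mem hh), fun x hx => ?_⟩
    obtain ⟨y, hy, rfl⟩ := Finset.mem_image.1 hx
    simp [Perm.mul_apply, g.2.2 y hy]
  · intro g; ext x; simp [Perm.mul_apply]
  · intro g; ext x; simp [Perm.mul_apply]

theorem card_pf_of_hmg {G : Subgroup (Perm α)} {j : ℕ} (h : Hmg G j) {A B : Finset α}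
    (hA : A.card = j) (hB : B.card = j) : Nat.card (pf G A) = Nat.card (pf G B) := by
  obtain ⟨g, hg, rfl⟩ := h A B hA hB
  exact (card_pf_image hg A).symm

theorem pf_anti (G : Subgroup (Perm α)) {S T : Finset α} (h : S ⊆ T) : pf G T ≤ pf G S :=
  fun _ hg => ⟨hg.1, fun x hx => hg.2 x (h hx)⟩

open Classical in
/-- orbit as a finset -/
noncomputable def orbF (H : Subgroup (Perm α)) (z : α) : Finset α :=
  univ.filter (fun y => ∃ h ∈ H, h z = y)

theorem mem_orbF {H : Subgroup (Perm α)} {z y : α} : y ∈ orbF H z ↔ ∃ h ∈ H, h z = y := by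
  simp [orbF]

theorem self_mem_orbF (H : Subgroup (Perm α)) (z : α) : z ∈ orbF H z :=
  mem_orbF.2 ⟨1, H.one_mem, rfl⟩

theorem orbF_eq {H : Subgroup (Perm α)} {z y : α} (hy : y ∈ orbF H z) : orbF H y = orbF H z := by
  obtain ⟨h, hh, rfl⟩ := mem_orbF.1 hy
  ext w
  simp only [mem_orbF]
  constructor
  · rintro ⟨k, hk, rfl⟩
    exact ⟨k * h, H.mul_mem hk hh, rfl⟩
  · rintro ⟨k, hk, rfl⟩
    exact ⟨k * h⁻¹, H.mul_mem hk (H.inv_mem hh), by simp [Perm.mul_apply]⟩

theorem dvd_card_of_orbits (H : Subgroup (Perm α)) (Z : Finset α)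
    (hZ : ∀ h ∈ H, ∀ z ∈ Z, h z ∈ Z) (e : ℕ) (he : ∀ z ∈ Z, (orbF H z).card = e) : e ∣ Z.card := by
  classical
  rw [Finset.card_eq_sum_card_image (orbF H) Z]
  refine Finset.dvd_sum fun O hO => ?_
  obtain ⟨z, hz, rfl⟩ := Finset.mem_image.1 hO
  have : Z.filter (fun y => orbF H y = orbF H z) = orbF H z := by
    ext y
    simp only [Finset.mem_filter]
    constructor
    · rintro ⟨_, h2⟩
      rw [← h2]
      exact self_mem_orbF H y
    · intro hy
      refine ⟨?_, orbF_eq hy⟩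
      obtain ⟨h, hh, rfl⟩ := mem_orbF.1 hy
      exact hZ h hh z hz
  rw [this, he z hz]

/-- orbit–stabilizer count in `Nat.card` form. -/
theorem card_orbit_mul {H : Type*} [Group H] {X : Type*} [MulAction H X] (x : X) :
    (MulAction.orbit H x).ncard * Nat.card (MulAction.stabilizer H x) = Nat.card H := by
  rw [← MulAction.index_stabilizer, mul_comm]
  exact Subgroup.card_mul_index _

theorem card_orbF_mul (G : Subgroup (Perm α)) (S : Finset α) (z : α) :
    (orbF (pf G S) z).card * Nat.card (pf G (insert z S)) = Nat.card (pf G S) := by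
  have h1 := card_orbit_mul (H := pf G S) z
  have h2 : MulAction.orbit (pf G S) z = ((orbF (pf G S) z : Finset α) : Set α) := by
    ext y
    simp only [MulAction.mem_orbit_iff, Finset.mem_coe, mem_orbF, Subgroup.smul_def, Perm.smul_def]
    constructor
    · rintro ⟨h, rfl⟩
      exact ⟨h, h.2, rfl⟩
    · rintro ⟨h, hh, rfl⟩
      exact ⟨⟨h, hh⟩, rfl⟩
  have h3 : Nat.card (MulAction.stabilizer (pf G S) z) = Nat.card (pf G (insert z S)) := by
    refine Nat.card_congr ⟨fun g => ⟨g.1.1, g.1.2.1, fun x hx => ?_⟩,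
      fun g => ⟨⟨g.1, g.2.1, fun x hx => g.2.2 x (Finset.mem_insert_of_mem hx)⟩, ?_⟩, ?_, ?_⟩
    · rcases Finset.mem_insert.1 hx with rfl | hx
      · exact g.2
      · exact g.1.2.2 x hx
    · show (g.1 : Perm α) z = z
      exact g.2.2 z (Finset.mem_insert_self _ _)
    · intro g; rfl
    · intro g; rfl
  rw [h2, Set.ncard_coe_finset, h3] at h1
  exact h1

end Cfsg.Agent.H06.LW
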