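import Cfsg.Agent.Lib.H06.LW9

/-! Livingstone–Wagner: assembling the cases. -/

set_option autoImplicit false

namespace Cfsg.Agent.H06.LW

open Equiv Finset

universe u
variable {α : Type u} [Fintype α] [DecidableEq α]
variable {G : Subgroup (Perm α)} {t : ℕ}

theorem num_t1 {κ l m' h' h : ℕ} (hm : m' + 1 = κ * l) (hl : 2 ≤ l) (h1 : l * h' = 2)
    (h2 : l * m' * h = 6) : (m' = 1 ∧ κ = 1) ∨ (m' = 3 ∧ κ = 2 ∧ h' = 1) := by
  have hl2 : l ≤ 2 := Nat.le_of_dvd (by norm_num) ⟨h', h1.symm⟩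
  have : l = 2 := by omega
  subst this
  have hm' : m' ≤ 6 := Nat.le_of_dvd (by norm_num) ⟨2 * h, by rw [← h2]; ring⟩
  interval_cases m' <;> omega

theorem num_t2 {κ l m' h' h : ℕ} (hm : m' + 1 = κ * l) (hl : 2 ≤ l) (h1 : l * h' = 6)
    (h2 : l * m' * h = 24) (hκ : ¬ 2 ∣ κ) :
    (m' = 1 ∧ κ = 1) ∨ (m' = 2 ∧ κ = 1) ∨ (m' = 8 ∧ κ = 3 ∧ h = 1) := by
  have hl2 : l ≤ 6 := Nat.le_of_dvd (by norm_num) ⟨h', h1.symm⟩
  have hm' : m' ≤ 24 := Nat.le_of_dvd (by norm_num) ⟨l * h, by rw [← h2]; ring⟩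
  interval_cases l <;> first
    | omega
    | (interval_cases m' <;> omega)

theorem num_t3 {κ l m' h' h : ℕ} (hm : m' + 1 = κ * l) (hl : 2 ≤ l) (h1 : l * h' = 24)
    (h2 : l * m' * h = 120) (hκ : ¬ 2 ∣ κ) :
    (m' = 1 ∧ κ = 1) ∨ (m' = 5 ∧ (κ = 1 ∨ κ = 3)) ∨ (m' = 2 ∧ κ = 1) ∨ (m' = 8 ∧ h = 5) ∨
      (m' = 20 ∧ κ = 7) ∨ (m' = 3 ∧ κ = 1) := by
  have hl2 : l ≤ 24 := Nat.le_of_dvd (by norm_num) ⟨h', h1.symm⟩
  have hm' : m' ≤ 120 := Nat.le_of_dvd (by norm_num) ⟨l * h, by rw [← h2]; ring⟩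
  interval_cases l <;> first
    | omega
    | (interval_cases m' <;> omega)

/-- The case `t = 1`, `m = 4` does not occur. -/
theorem t1_m4 (hC : Core G 1) {D : Finset α} (hD : D.card = 1) (hκ : Nat.card (pf G D) = 2)
    (hB : ∀ A : Finset α, A.card = 2 → Nat.card (Bg G A) = 1) : False := by
  obtain ⟨x, hx⟩ := exists_prime_orderOf_dvd_card' (G := pf G D) 2 (by rw [hκ])
  have h1 : x ^ 2 = 1 := by rw [← hx]; exact pow_orderOf_eq_one x
  have h2 : (x : Perm α) * x = 1 := by
    have := congrArg Subtype.val h1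
    simpa [pow_two] using this
  have hne : (x : Perm α) ≠ 1 := by
    intro e
    have h3 : x = 1 := Subtype.ext e
    rw [h3, orderOf_one] at hx
    omega
  obtain ⟨a, ha⟩ := exists_notMem hC hD
  have hxa : (x : Perm α) a ≠ a := by
    intro h
    apply hne
    refine eq_one_of_fix hC x.2.1 (S := insert a D)
      (by rw [Finset.card_insert_of_notMem ha, hD]) fun y hy => ?_
    rcases Finset.mem_insert.1 hy with rfl | hy
    · exact h
    · exact x.2.2 y hy
  have hA : ({a, (x : Perm α) a} : Finset α).card = 2 := Finset.card_pair (Ne.symm hxa)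
  have hst : (x : Perm α) ∈ stS G {a, (x : Perm α) a} := by
    refine ⟨x.2.1, ?_⟩
    apply Finset.eq_of_subset_of_card_le
    · intro y hy
      obtain ⟨w, hw, rfl⟩ := Finset.mem_image.1 hy
      simp only [Finset.mem_insert, Finset.mem_singleton] at hw ⊢
      rcases hw with rfl | rfl
      · exact Or.inr rfl
      · exact Or.inl (sq_apply h2 _)
    · rw [Finset.card_image_of_injective _ (x : Perm α).injective]
  have h3 := hB _ hA
  rw [← card_Bg hC hA] at h3
  have h4 := Subgroup.eq_bot_of_card_eq _ h3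
  rw [h4] at hst
  exact hne (by simpa using hst)

/-- The complete list of possibilities. -/
theorem main_cases (hC : Core G t) (ht1 : 1 ≤ t) {D : Finset α} (hD : D.card = t) :
    (Fintype.card α - t = 2 ∧ Nat.card (pf G D) = 1) ∨
    (t = 2 ∧ Fintype.card α - t = 3 ∧ Nat.card (pf G D) = 1) ∨
    (t = 3 ∧ Fintype.card α - t = 3 ∧ Nat.card (pf G D) = 1) ∨
    (t = 3 ∧ Fintype.card α - t = 6 ∧ (Nat.card (pf G D) = 1 ∨ Nat.card (pf G D) = 3)) := by
  have hbig := hC.big
  obtain ⟨m', hm'⟩ : ∃ m', Fintype.card α - t = m' + 1 := ⟨Fintype.card α - t - 1, by omega⟩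
  have hm'2 : Fintype.card α - t - 1 = m' := by omega
  have hdvd := kappa_dvd hC hD
  have hκne := kappa_ne hC hD
  have hκpos : 0 < Nat.card (pf G D) := Nat.card_pos
  obtain ⟨κ, hκ⟩ : ∃ κ, κ = Nat.card (pf G D) := ⟨_, rfl⟩
  rw [← hκ] at hdvd hκne hκpos ⊢
  rw [hm'] at hdvd hκne ⊢
  obtain ⟨l, hl⟩ := hdvd
  have hl2 : 2 ≤ l := by
    have h1 : l ≠ 0 := by
      rintro rfl
      omega
    have h2 : l ≠ 1 := by
      rintro rfl
      omega
    omega
  -- the numerical identities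
  have hA : ∃ A : Finset α, A.card = t + 1 := by
    obtain ⟨A, -, hA⟩ := Finset.exists_subset_card_eq (s := (univ : Finset α)) (n := t + 1)
      (by rw [Finset.card_univ]; omega)
    exact ⟨A, hA⟩
  have hB : ∃ B : Finset α, B.card = t + 2 := by
    obtain ⟨B, -, hB⟩ := Finset.exists_subset_card_eq (s := (univ : Finset α)) (n := t + 2)
      (by rw [Finset.card_univ]; omega)
    exact ⟨B, hB⟩
  have hn1 : ∀ A : Finset α, A.card = t + 1 → (t + 1).factorial = l * Nat.card (Bg G A) := by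
    intro A hA
    have h1 := numeric1 hC hD hA
    rw [← hκ, hm', hl, mul_assoc] at h1
    exact Nat.eq_of_mul_eq_mul_left hκpos h1
  have hn2 : ∀ B : Finset α, B.card = t + 2 → (t + 2).factorial = l * m' * Nat.card (stS G B) := by
    intro B hB
    have h1 := numeric2 hC hD hB
    rw [← hκ, hm'2, hm', hl, mul_assoc, mul_assoc] at h1
    have h2 := Nat.eq_of_mul_eq_mul_left hκpos h1
    rw [h2]
    ring
  obtain ⟨A₀, hA₀⟩ := hA
  obtain ⟨B₀, hB₀⟩ := hB
  have hn1₀ := hn1 A₀ hA₀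
  have hn2₀ := hn2 B₀ hB₀
  by_cases ht2 : t = 1
  · subst ht2
    have e1 : (1 + 1).factorial = 2 := by decide
    have e2 : (1 + 2).factorial = 6 := by decide
    rw [e1] at hn1₀
    rw [e2] at hn2₀
    rcases num_t1 hl hl2 hn1₀.symm hn2₀.symm with ⟨h1, h2⟩ | ⟨h1, h2, h3⟩
    · left
      exact ⟨by omega, h2⟩
    · exfalso
      refine t1_m4 hC hD (hκ ▸ h2) fun A hA => ?_
      have h4 := hn1 A hA
      rw [e1] at h4
      have h5 : l = 2 := by
        rw [h1, h2] at hl
        omega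
      rw [h5] at h4
      omega
  have ht : 2 ≤ t := by omega
  have hodd : ¬ 2 ∣ κ := hκ ▸ kappa_odd hC ht hD
  by_cases hmeven : 2 ∣ Fintype.card α - t
  · -- even `m`
    by_cases ht4 : 4 ≤ t
    · have hm4 : ¬ 4 ≤ Fintype.card α - t := fun h => even_large hC ht4 hmeven h
      have hm2 : m' = 1 := by omega
      left
      refine ⟨by omega, ?_⟩
      have hκ2 : κ * l = 2 := by omega
      have : κ ≤ 1 := by
        by_contra hcon
        have : 2 * 2 ≤ κ * l := Nat.mul_le_mul (by omega) hl2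
        omega
      omega
    · have ht' : t = 2 ∨ t = 3 := by omega
      rcases ht' with rfl | rfl
      · have e1 : (2 + 1).factorial = 6 := by decide
        have e2 : (2 + 2).factorial = 24 := by decide
        rw [e1] at hn1₀
        rw [e2] at hn2₀
        rcases num_t2 hl hl2 hn1₀.symm hn2₀.symm hodd with ⟨h1, h2⟩ | ⟨h1, h2⟩ | ⟨h1, h2, -⟩
        · left; exact ⟨by omega, h2⟩
        · omega
        · omega
      · have e1 : (3 + 1).factorial = 24 := by decide
        have e2 : (3 + 2).factorial = 120 := by decide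
        rw [e1] at hn1₀
        rw [e2] at hn2₀
        rcases num_t3 hl hl2 hn1₀.symm hn2₀.symm hodd with ⟨h1, h2⟩ | ⟨h1, h2⟩ | ⟨h1, h2⟩ |
          ⟨h1, h2⟩ | ⟨h1, h2⟩ | ⟨h1, h2⟩
        · left; exact ⟨by omega, h2⟩
        · right; right; right; exact ⟨rfl, by omega, h2⟩
        · omega
        · omega
        · omega
        · exfalso
          refine t3_m4 hC (by omega) fun D' hD' => ?_
          rw [card_pf_of_hmg (hmg_of_ext hC.ext) hD' hD, ← hκ, h2]
  · -- odd `m`
    have ht3 := odd_small hC ht hmeven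
    have ht' : t = 2 ∨ t = 3 := by omega
    rcases ht' with rfl | rfl
    · have e1 : (2 + 1).factorial = 6 := by decide
      have e2 : (2 + 2).factorial = 24 := by decide
      rw [e1] at hn1₀
      rw [e2] at hn2₀
      rcases num_t2 hl hl2 hn1₀.symm hn2₀.symm hodd with ⟨h1, h2⟩ | ⟨h1, h2⟩ | ⟨h1, h2, h3⟩
      · omega
      · right; left; exact ⟨rfl, by omega, h2⟩
      · exfalso
        obtain ⟨B, hB, hB2⟩ := inv_stS hC ht (by omega)
        have h4 := hn2 B hB
        rw [e2] at h4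
        have h5 : l = 3 := by
          rw [h1, h2] at hl
          omega
        rw [h5, h1] at h4
        have h6 : Nat.card (stS G B) = 1 := by omega
        rw [h6] at hB2
        omega
    · have e1 : (3 + 1).factorial = 24 := by decide
      have e2 : (3 + 2).factorial = 120 := by decide
      rw [e1] at hn1₀
      rw [e2] at hn2₀
      rcases num_t3 hl hl2 hn1₀.symm hn2₀.symm hodd with ⟨h1, h2⟩ | ⟨h1, h2⟩ | ⟨h1, h2⟩ |
        ⟨h1, h2⟩ | ⟨h1, h2⟩ | ⟨h1, h2⟩
      · omega
      · omega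
      · right; right; left; exact ⟨rfl, by omega, h2⟩
      · exfalso
        obtain ⟨B, hB, hB2⟩ := inv_stS hC ht (by omega)
        have h4 := hn2 B hB
        rw [e2, h1] at h4
        -- `l * 8 * h = 120` with `l = 3`
        have hl3 : l = 3 := by
          rw [h2] at hn2₀
          rw [h1] at hl hn2₀
          have : l * 8 * 5 = 120 := hn2₀.symm
          omega
        rw [hl3] at h4
        omega
      · exact absurd (hκ ▸ h2) (fun h => t3_m21 hC (by omega) hD h)
      · omega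

end Cfsg.Agent.H06.LW
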