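import Cfsg.Agent.Lib.H06.LW10

/-! Livingstone–Wagner: the theorem on homogeneous non-transitive groups. -/

set_option autoImplicit false

namespace Cfsg.Agent.H06.LW

open Equiv Finset

universe u
variable {α : Type u} [Fintype α] [DecidableEq α]

theorem lw_main (G : Subgroup (Perm α)) {k : ℕ} (hk : 3 ≤ k) (hkn : k ≤ Fintype.card α)
    (ht : MulAction.IsMultiplyPretransitive G α (k - 2))
    (hnt : ¬ MulAction.IsMultiplyPretransitive G α (k - 1))
    (hh1 : MulAction.IsPretransitive G (Set.powersetCard α (k - 1)))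
    (hh : MulAction.IsPretransitive G (Set.powersetCard α k)) :
    (k = Fintype.card α ∧ G = alternatingGroup α) ∨
    (Fintype.card α = 5 ∧ k = 4 ∧ Nat.card G = 20) ∨
    (Fintype.card α = 6 ∧ k = 5 ∧ Nat.card G = 120) ∨
    (Fintype.card α = 9 ∧ k = 5 ∧ (Nat.card G = 504 ∨ Nat.card G = 1512)) := by
  obtain ⟨t, rfl⟩ : ∃ t, k = t + 2 := ⟨k - 2, by omega⟩
  have e1 : t + 2 - 2 = t := by omega
  have e2 : t + 2 - 1 = t + 1 := by omega
  rw [e1] at ht
  rw [e2] at hnt hh1
  have hC : Core G t :=
    ⟨ext_of_trans ht, hmg_of_pretrans hh1, hmg_of_pretrans hh, fun h => hnt (trans_of_ext h), hkn⟩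
  obtain ⟨D, -, hD⟩ := Finset.exists_subset_card_eq (s := (univ : Finset α)) (n := t)
    (by rw [Finset.card_univ]; omega)
  have hG := card_G hC hD
  rcases main_cases hC (by omega) hD with ⟨h1, h2⟩ | ⟨h0, h1, h2⟩ | ⟨h0, h1, h2⟩ | ⟨h0, h1, h3⟩
  · left
    refine ⟨by omega, ?_⟩
    rw [h2, mul_one] at hG
    apply Equiv.Perm.eq_alternatingGroup_of_index_eq_two
    have h3 := Subgroup.card_mul_index G
    rw [hG, Nat.card_eq_fintype_card (α := Perm α), Fintype.card_perm] at h3
    have h4 : Fintype.card α = t + 2 := by omega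
    have h5 : (Fintype.card α).factorial = (Fintype.card α).descFactorial t * 2 := by
      rw [h4, ← Nat.descFactorial_self (t + 2), Nat.descFactorial_succ, Nat.descFactorial_succ]
      have h6 : t + 2 - (t + 1) = 1 := by omega
      have h7 : t + 2 - t = 2 := by omega
      rw [h6, h7]
      ring
    rw [h5] at h3
    have hpos : 0 < (Fintype.card α).descFactorial t := by
      apply Nat.pos_of_ne_zero
      rw [Ne, Nat.descFactorial_eq_zero_iff_lt]
      omega
    exact Nat.eq_of_mul_eq_mul_left hpos h3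
  · subst h0
    have h4 : Fintype.card α = 5 := by omega
    rw [h2, h4] at hG
    right; left
    exact ⟨h4, rfl, by rw [hG]; decide⟩
  · subst h0
    have h4 : Fintype.card α = 6 := by omega
    rw [h2, h4] at hG
    right; right; left
    exact ⟨h4, rfl, by rw [hG]; decide⟩
  · subst h0
    have h4 : Fintype.card α = 9 := by omega
    rw [h4] at hG
    right; right; right
    refine ⟨h4, rfl, ?_⟩
    rcases h3 with h3 | h3
    · left; rw [hG, h3]; decide
    · right; rw [hG, h3]; decide

end Cfsg.Agent.H06.LW
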