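import Cfsg.Agent.Lib.H06.LW11

/-! Livingstone–Wagner: homogeneity descends below the middle. -/

set_option autoImplicit false

namespace Cfsg.Agent.H06.LW

open Equiv Finset

universe u
variable {α : Type u} [Fintype α] [DecidableEq α]

theorem card_supersets (u : Finset α) (r : ℕ) (hr : r ≤ Fintype.card α) :
    ((powersetCard r (univ : Finset α)).filter (fun K => u ⊆ K)).card =
      (Fintype.card α - u.card).choose (Fintype.card α - r) := by
  have h1 : ((powersetCard r (univ : Finset α)).filter (fun K => u ⊆ K)).card =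
      (powersetCard (Fintype.card α - r) uᶜ).card := by
    refine Finset.card_nbij' (fun K => Kᶜ) (fun K => Kᶜ) ?_ ?_ ?_ ?_
    · intro K hK
      have hK' := Finset.mem_coe.1 hK
      simp only [Finset.mem_filter, Finset.mem_powersetCard, Finset.subset_univ, true_and] at hK'
      refine Finset.mem_coe.2 (Finset.mem_powersetCard.2 ⟨Finset.compl_subset_compl.2 hK'.2, ?_⟩)
      rw [Finset.card_compl, hK'.1]
    · intro K hK
      have hK' := Finset.mem_powersetCard.1 (Finset.mem_coe.1 hK)
      refine Finset.mem_coe.2 (Finset.mem_filter.2 ⟨Finset.mem_powersetCard.2 ⟨Finset.subset_univ _, ?_⟩,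
        ?_⟩)
      · rw [Finset.card_compl, hK'.2]
        omega
      · rw [Finset.subset_compl_comm]
        exact hK'.1
    · intro K _
      exact compl_compl K
    · intro K _
      exact compl_compl K
  rw [h1, Finset.card_powersetCard, Finset.card_compl]

theorem card_subsets (i : Finset α) (r : ℕ) :
    ((powersetCard r (univ : Finset α)).filter (fun I => I ⊆ i)).card = i.card.choose r := by
  have h1 : (powersetCard r (univ : Finset α)).filter (fun I => I ⊆ i) = powersetCard r i := by
    ext I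
    simp only [Finset.mem_filter, Finset.mem_powersetCard, Finset.subset_univ, true_and]
    tauto
  rw [h1, Finset.card_powersetCard]

theorem expand_sq {S T : Type*} (A : Finset S) (B : Finset T) (R : S → T → Prop)
    [∀ s t, Decidable (R s t)] (φ : T → ℤ) :
    ∑ s ∈ A, (∑ t ∈ B, if R s t then φ t else 0) ^ 2 =
      ∑ t ∈ B, ∑ t' ∈ B, φ t * φ t' * ((A.filter (fun s => R s t ∧ R s t')).card : ℤ) := by
  simp_rw [pow_two, Finset.sum_mul_sum]
  rw [Finset.sum_comm]
  refine Finset.sum_congr rfl fun t _ => ?_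
  rw [Finset.sum_comm]
  refine Finset.sum_congr rfl fun t' _ => ?_
  rw [Finset.card_filter]
  push_cast
  rw [Finset.mul_sum]
  refine Finset.sum_congr rfl fun s _ => ?_
  by_cases h1 : R s t <;> by_cases h2 : R s t' <;> simp [h1, h2]

theorem pair_count (i : ℕ) (hn : i + 2 ≤ Fintype.card α) {J J' : Finset α} (hJ : J.card = i + 1)
    (hJ' : J'.card = i + 1) :
    (((powersetCard (i + 2) (univ : Finset α)).filter (fun K => J ⊆ K ∧ J' ⊆ K)).card : ℤ) =
      ((powersetCard i (univ : Finset α)).filter (fun I => I ⊆ J ∧ I ⊆ J')).card +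
        (if J = J' then (Fintype.card α : ℤ) - 2 * (i + 1) else 0) := by
  have h1 : (powersetCard (i + 2) (univ : Finset α)).filter (fun K => J ⊆ K ∧ J' ⊆ K) =
      (powersetCard (i + 2) (univ : Finset α)).filter (fun K => J ∪ J' ⊆ K) := by
    refine Finset.filter_congr fun K _ => ?_
    rw [Finset.union_subset_iff]
  have h2 : (powersetCard i (univ : Finset α)).filter (fun I => I ⊆ J ∧ I ⊆ J') =
      (powersetCard i (univ : Finset α)).filter (fun I => I ⊆ J ∩ J') := by
    refine Finset.filter_congr fun K _ => ?_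
    rw [Finset.subset_inter_iff]
  rw [h1, h2, card_supersets _ _ hn, card_subsets]
  have h3 := Finset.card_union_add_card_inter J J'
  have h4 : (J ∪ J').card ≤ Fintype.card α := Finset.card_le_univ _
  by_cases hJJ : J = J'
  · subst hJJ
    rw [Finset.union_self, Finset.inter_self, hJ, if_pos rfl]
    obtain ⟨m, hm⟩ : ∃ m, Fintype.card α = i + 2 + m := ⟨Fintype.card α - (i + 2), by omega⟩
    have e1 : Fintype.card α - (i + 1) = m + 1 := by omega
    have e2 : Fintype.card α - (i + 2) = m := by omega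
    rw [e1, e2, Nat.choose_succ_self_right, Nat.choose_succ_self_right, hm]
    push_cast
    ring
  · rw [if_neg hJJ, add_zero]
    have hu : i + 2 ≤ (J ∪ J').card := by
      by_contra hlt
      have h5 : J ⊆ J ∪ J' := Finset.subset_union_left
      have h6 : J' ⊆ J ∪ J' := Finset.subset_union_right
      have h7 : J = J ∪ J' := Finset.eq_of_subset_of_card_le h5 (by omega)
      have h8 : J' = J ∪ J' := Finset.eq_of_subset_of_card_le h6 (by omega)
      exact hJJ (h7.trans h8.symm)
    by_cases hu2 : (J ∪ J').card = i + 2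
    · have h5 : (J ∩ J').card = i := by omega
      rw [hu2, h5, Nat.choose_self, Nat.choose_self]
    · have h5 : (J ∩ J').card < i := by omega
      rw [Nat.choose_eq_zero_of_lt h5, Nat.choose_eq_zero_of_lt (by omega)]

theorem up_down_identity (i : ℕ) (hn : i + 2 ≤ Fintype.card α) (φ : Finset α → ℤ) :
    ∑ K ∈ powersetCard (i + 2) (univ : Finset α),
        (∑ J ∈ powersetCard (i + 1) (univ : Finset α), if J ⊆ K then φ J else 0) ^ 2 =
      ∑ I ∈ powersetCard i (univ : Finset α),
        (∑ J ∈ powersetCard (i + 1) (univ : Finset α), if I ⊆ J then φ J else 0) ^ 2 +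
      ((Fintype.card α : ℤ) - 2 * (i + 1)) *
        ∑ J ∈ powersetCard (i + 1) (univ : Finset α), φ J ^ 2 := by
  rw [expand_sq, expand_sq, Finset.mul_sum, ← Finset.sum_add_distrib]
  refine Finset.sum_congr rfl fun J hJ => ?_
  have hJc := (Finset.mem_powersetCard.1 hJ).2
  have h1 : ∀ J' ∈ powersetCard (i + 1) (univ : Finset α),
      φ J * φ J' * (((powersetCard (i + 2) (univ : Finset α)).filter
        (fun K => J ⊆ K ∧ J' ⊆ K)).card : ℤ) =
      φ J * φ J' * (((powersetCard i (univ : Finset α)).filter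
        (fun I => I ⊆ J ∧ I ⊆ J')).card : ℤ) +
      (if J = J' then ((Fintype.card α : ℤ) - 2 * (i + 1)) * φ J ^ 2 else 0) := by
    intro J' hJ'
    rw [pair_count i hn hJc (Finset.mem_powersetCard.1 hJ').2]
    by_cases h : J = J'
    · subst h
      rw [if_pos rfl, if_pos rfl]
      ring
    · rw [if_neg h, if_neg h]
      ring
  rw [Finset.sum_congr rfl h1, Finset.sum_add_distrib, Finset.sum_ite_eq, if_pos hJ]

theorem up_injective (i : ℕ) (hn : 2 * (i + 1) < Fintype.card α) (φ : Finset α → ℤ)
    (h : ∀ K ∈ powersetCard (i + 2) (univ : Finset α),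
      (∑ J ∈ powersetCard (i + 1) (univ : Finset α), if J ⊆ K then φ J else 0) = 0) :
    ∀ J ∈ powersetCard (i + 1) (univ : Finset α), φ J = 0 := by
  have h1 := up_down_identity i (by omega) φ
  have h2 : ∑ K ∈ powersetCard (i + 2) (univ : Finset α),
      (∑ J ∈ powersetCard (i + 1) (univ : Finset α), if J ⊆ K then φ J else 0) ^ 2 = 0 :=
    Finset.sum_eq_zero fun K hK => by rw [h K hK]; simp
  rw [h2] at h1
  have h3 : 0 ≤ ∑ I ∈ powersetCard i (univ : Finset α),
      (∑ J ∈ powersetCard (i + 1) (univ : Finset α), if I ⊆ J then φ J else 0) ^ 2 :=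
    Finset.sum_nonneg fun _ _ => sq_nonneg _
  have h4 : 0 ≤ ∑ J ∈ powersetCard (i + 1) (univ : Finset α), φ J ^ 2 :=
    Finset.sum_nonneg fun _ _ => sq_nonneg _
  have hc : (0 : ℤ) < (Fintype.card α : ℤ) - 2 * (i + 1) := by
    have : ((2 * (i + 1) : ℕ) : ℤ) < (Fintype.card α : ℤ) := by exact_mod_cast hn
    push_cast at this
    linarith
  have h5 : ∑ J ∈ powersetCard (i + 1) (univ : Finset α), φ J ^ 2 = 0 := by
    by_contra hne
    have h6 : 0 < ∑ J ∈ powersetCard (i + 1) (univ : Finset α), φ J ^ 2 :=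
      lt_of_le_of_ne h4 (Ne.symm hne)
    have := mul_pos hc h6
    linarith
  intro J hJ
  have h6 := (Finset.sum_eq_zero_iff_of_nonneg (fun _ _ => sq_nonneg _)).1 h5 J hJ
  exact pow_eq_zero_iff (by norm_num) |>.1 h6

variable {G : Subgroup (Perm α)}

theorem hmg_down {i : ℕ} (h : Hmg G (i + 2)) (hn : 2 * (i + 2) ≤ Fintype.card α) :
    Hmg G (i + 1) := by
  classical
  intro A B hA hB
  have hPmem : ∀ {J : Finset α}, J ∈ powersetCard (i + 1) (univ : Finset α) ↔ J.card = i + 1 := by
    intro J; simp [Finset.mem_powersetCard]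
  have hP2mem : ∀ {J : Finset α}, J ∈ powersetCard (i + 2) (univ : Finset α) ↔ J.card = i + 2 := by
    intro J; simp [Finset.mem_powersetCard]
  obtain ⟨O, hO⟩ : ∃ O, O = (powersetCard (i + 1) (univ : Finset α)).filter
      (fun J => ∃ g ∈ G, A.image g = J) := ⟨_, rfl⟩
  have hmemO : ∀ J, J ∈ O ↔ J.card = i + 1 ∧ ∃ g ∈ G, A.image g = J := by
    intro J
    rw [hO, Finset.mem_filter, hPmem]
  obtain ⟨N, hN⟩ : ∃ N, N = (powersetCard (i + 1) (univ : Finset α)).card := ⟨_, rfl⟩
  obtain ⟨o, ho⟩ : ∃ o, o = O.card := ⟨_, rfl⟩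
  obtain ⟨φ, hφ⟩ : ∃ φ : Finset α → ℤ, φ = fun J => (if J ∈ O then (N : ℤ) else 0) - o := ⟨_, rfl⟩
  have hinv : ∀ g ∈ G, ∀ J, φ (J.image g) = φ J := by
    intro g hg J
    have h1 : J.image g ∈ O ↔ J ∈ O := by
      rw [hmemO, hmemO, Finset.card_image_of_injective _ g.injective]
      constructor
      · rintro ⟨h2, k, hk, h3⟩
        refine ⟨h2, g⁻¹ * k, G.mul_mem (G.inv_mem hg) hk, ?_⟩
        ext x
        have h4 : (A.image (g⁻¹ * k)) = (A.image k).image (g⁻¹ : Perm α) := by
          rw [Finset.image_image]; rfl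
        rw [h4, h3, Finset.image_image]
        simp
      · rintro ⟨h2, k, hk, h3⟩
        refine ⟨h2, g * k, G.mul_mem hg hk, ?_⟩
        rw [← h3, Finset.image_image]
        rfl
    rw [hφ]
    simp only [h1]
  -- the values on `(i + 2)`-sets are constant
  have hv : ∀ g ∈ G, ∀ K : Finset α,
      (∑ J ∈ powersetCard (i + 1) (univ : Finset α), if J ⊆ K.image g then φ J else 0) =
      ∑ J ∈ powersetCard (i + 1) (univ : Finset α), if J ⊆ K then φ J else 0 := by
    intro g hg K
    symm
    refine Finset.sum_nbij' (fun J => J.image g) (fun J => J.image (g⁻¹ : Perm α)) ?_ ?_ ?_ ?_ ?_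
    · intro J hJ
      rw [hPmem] at hJ ⊢
      rw [Finset.card_image_of_injective _ g.injective, hJ]
    · intro J hJ
      rw [hPmem] at hJ ⊢
      rw [Finset.card_image_of_injective _ (g⁻¹ : Perm α).injective, hJ]
    · intro J _
      rw [Finset.image_image]
      ext x
      simp
    · intro J _
      rw [Finset.image_image]
      ext x
      simp
    · intro J _
      simp only [Finset.image_subset_image_iff g.injective, hinv g hg]
  -- the total sum
  have hsum0 : ∑ J ∈ powersetCard (i + 1) (univ : Finset α), φ J = 0 := by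
    rw [hφ]
    simp only
    rw [Finset.sum_sub_distrib, Finset.sum_ite_mem]
    have h1 : powersetCard (i + 1) (univ : Finset α) ∩ O = O := by
      apply Finset.inter_eq_right.2
      intro J hJ
      exact hPmem.2 ((hmemO J).1 hJ).1
    rw [h1, Finset.sum_const, Finset.sum_const, ← ho, ← hN]
    simp only [nsmul_eq_mul]
    ring
  have htot : ∑ K ∈ powersetCard (i + 2) (univ : Finset α),
      (∑ J ∈ powersetCard (i + 1) (univ : Finset α), if J ⊆ K then φ J else 0) = 0 := by
    rw [Finset.sum_comm]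
    have h1 : ∀ J ∈ powersetCard (i + 1) (univ : Finset α),
        (∑ K ∈ powersetCard (i + 2) (univ : Finset α), if J ⊆ K then φ J else 0) =
          φ J * ((Fintype.card α - (i + 1)).choose (Fintype.card α - (i + 2)) : ℕ) := by
      intro J hJ
      rw [← Finset.sum_filter, Finset.sum_const, card_supersets J _ (by omega), hPmem.1 hJ,
        nsmul_eq_mul, mul_comm]
    rw [Finset.sum_congr rfl h1, ← Finset.sum_mul, hsum0, zero_mul]
  obtain ⟨K₀, -, hK₀⟩ := Finset.exists_subset_card_eq (s := (univ : Finset α)) (n := i + 2)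
    (by rw [Finset.card_univ]; omega)
  have hconst : ∀ K ∈ powersetCard (i + 2) (univ : Finset α),
      (∑ J ∈ powersetCard (i + 1) (univ : Finset α), if J ⊆ K then φ J else 0) =
      ∑ J ∈ powersetCard (i + 1) (univ : Finset α), if J ⊆ K₀ then φ J else 0 := by
    intro K hK
    obtain ⟨g, hg, hg2⟩ := h K₀ K hK₀ (hP2mem.1 hK)
    rw [← hg2, hv g hg]
  rw [Finset.sum_congr rfl hconst, Finset.sum_const, nsmul_eq_mul] at htot
  have hpos : ((powersetCard (i + 2) (univ : Finset α)).card : ℤ) ≠ 0 := by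
    have : 0 < (powersetCard (i + 2) (univ : Finset α)).card :=
      Finset.card_pos.2 ⟨K₀, hP2mem.2 hK₀⟩
    omega
  have hv0 := (mul_eq_zero.1 htot).resolve_left hpos
  have hφ0 := up_injective i (by omega) φ fun K hK => by rw [hconst K hK, hv0]
  have hAO : A ∈ O := (hmemO A).2 ⟨hA, 1, G.one_mem, by simp⟩
  have h1 := hφ0 A (hPmem.2 hA)
  have h2 := hφ0 B (hPmem.2 hB)
  rw [hφ] at h1 h2
  simp only [if_pos hAO] at h1
  by_cases hBO : B ∈ O
  · obtain ⟨-, g, hg, hg2⟩ := (hmemO B).1 hBO
    exact ⟨g, hg, hg2⟩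
  · exfalso
    simp only [if_neg hBO] at h2
    have hNpos : 0 < N := by
      rw [hN]
      exact Finset.card_pos.2 ⟨A, hPmem.2 hA⟩
    omega

theorem hmg_all {k : ℕ} (h : Hmg G k) (hn : 2 * k ≤ Fintype.card α) :
    ∀ d, d ≤ k → Hmg G (k - d) := by
  intro d
  induction d with
  | zero => intro _; simpa using h
  | succ d ih =>
    intro hd
    have h1 := ih (by omega)
    obtain ⟨j, hj⟩ : ∃ j, k - d = j + 1 := ⟨k - d - 1, by omega⟩
    have e : k - (d + 1) = j := by omega
    rw [e]
    rw [hj] at h1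
    cases j with
    | zero =>
      intro A B hA hB
      rw [Finset.card_eq_zero] at hA hB
      subst hA
      subst hB
      exact ⟨1, G.one_mem, by simp⟩
    | succ i => exact hmg_down h1 (by omega)

theorem ext_one (h : Hmg G 1) : Ext G 1 := by
  intro D hD f _
  obtain ⟨x, rfl⟩ := Finset.card_eq_one.1 hD
  obtain ⟨g, hg, hg2⟩ := h {x} {f x} (by simp) (by simp)
  refine ⟨g, hg, fun y hy => ?_⟩
  rw [Finset.mem_singleton.1 hy]
  have : g x ∈ ({f x} : Finset α) := by
    rw [← hg2]
    simp
  simpa using this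

theorem ext_all {k : ℕ} (h : Hmg G k) (hk : 2 ≤ k) (hn : 2 * k ≤ Fintype.card α) :
    ∀ j, j + 2 ≤ k → Ext G (j + 1) := by
  have hall : ∀ j, j ≤ k → Hmg G j := by
    intro j hj
    have := hmg_all h hn (k - j) (by omega)
    rwa [Nat.sub_sub_self hj] at this
  intro j
  induction j with
  | zero => intro _; exact ext_one (hall 1 (by omega))
  | succ j ih =>
    intro hj
    by_contra hnt
    have hC : Core G (j + 1) :=
      ⟨ih (by omega), hall _ (by omega), hall _ (by omega), hnt, by omega⟩
    obtain ⟨D, -, hD⟩ := Finset.exists_subset_card_eq (s := (univ : Finset α)) (n := j + 1)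
      (by rw [Finset.card_univ]; omega)
    rcases main_cases hC (by omega) hD with ⟨h1, -⟩ | ⟨h0, h1, -⟩ | ⟨h0, h1, -⟩ | ⟨h0, h1, -⟩ <;>
      omega

/-- The Livingstone–Wagner theorem, first form. -/
theorem lw_first (G : Subgroup (Perm α)) {k : ℕ} (hk : 2 ≤ k) (hkn : 2 * k ≤ Fintype.card α)
    (hh : MulAction.IsPretransitive G (Set.powersetCard α k)) :
    MulAction.IsMultiplyPretransitive G α (k - 1) := by
  obtain ⟨j, rfl⟩ : ∃ j, k = j + 2 := ⟨k - 2, by omega⟩
  have := ext_all (hmg_of_pretrans hh) hk hkn j le_rfl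
  exact trans_of_ext this

end Cfsg.Agent.H06.LW
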