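import Cfsg.Agent.Lib.H06.LW1

/-! Livingstone–Wagner: semiregularity and the numerical identities. -/

set_option autoImplicit false

namespace Cfsg.Agent.H06.LW

open Equiv Finset

universe u
variable {α : Type u} [Fintype α] [DecidableEq α]

/-- The standing assumptions. -/
structure Core (G : Subgroup (Perm α)) (t : ℕ) : Prop where
  ext : Ext G t
  hom1 : Hmg G (t + 1)
  hom2 : Hmg G (t + 2)
  nt : ¬ Ext G (t + 1)
  big : t + 2 ≤ Fintype.card α

theorem orbF_notMem {G : Subgroup (Perm α)} {D : Finset α} {x y : α} (hx : x ∉ D)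
    (hy : y ∈ orbF (pf G D) x) : y ∉ D := by
  obtain ⟨c, hc, rfl⟩ := mem_orbF.1 hy
  intro h
  have h2 := hc.2 _ h
  have h3 : c x = x := (c.injective h2)
  rw [h3] at h
  exact hx h

theorem not_trans {G : Subgroup (Perm α)} {t : ℕ} (hC : Core G t) {D : Finset α} (hD : D.card = t)
    {a : α} (_ha : a ∉ D) : ∃ b, b ∉ D ∧ b ∉ orbF (pf G D) a := by
  by_contra hcon
  push_neg at hcon
  apply hC.nt
  intro S hS f hf
  obtain ⟨s, hs⟩ : S.Nonempty := by rw [← card_pos]; omega
  have hS0 : (S.erase s).card = t := by rw [card_erase_of_mem hs]; omega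
  have hsub : ((S.erase s : Finset α) : Set α) ⊆ (S : Set α) := by
    intro x hx
    exact Finset.mem_of_mem_erase hx
  obtain ⟨h, hh, h2⟩ := hC.ext (S.erase s) hS0 f (hf.mono hsub)
  have hD' : ((S.erase s).image f).card = t := by
    rw [Finset.card_image_of_injOn (hf.mono hsub), hS0]
  obtain ⟨k, hk, hk2⟩ := hmg_of_ext hC.ext _ _ hD' hD
  have hkD : ∀ y, k y ∈ D ↔ y ∈ (S.erase s).image f := by
    intro y
    rw [← hk2, Finset.mem_image]
    constructor
    · rintro ⟨z, hz, hzy⟩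
      rwa [← k.injective hzy]
    · intro hy
      exact ⟨y, hy, rfl⟩
  have hy1 : k (h s) ∉ D := by
    rw [hkD, Finset.mem_image]
    rintro ⟨x, hx, hxs⟩
    rw [← h2 x hx] at hxs
    exact (Finset.mem_erase.1 hx).1 (h.injective hxs)
  have hy2 : k (f s) ∉ D := by
    rw [hkD, Finset.mem_image]
    rintro ⟨x, hx, hxs⟩
    exact (Finset.mem_erase.1 hx).1 (hf (Finset.mem_coe.2 (Finset.mem_of_mem_erase hx)) hs hxs)
  obtain ⟨c1, hc1, hc1a⟩ := mem_orbF.1 (hcon _ hy1)
  obtain ⟨c2, hc2, hc2a⟩ := mem_orbF.1 (hcon _ hy2)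
  refine ⟨k⁻¹ * (c2 * c1⁻¹) * k * h, G.mul_mem (G.mul_mem (G.mul_mem (G.inv_mem hk)
    (G.mul_mem hc2.1 (G.inv_mem hc1.1))) hk) hh, fun x hx => ?_⟩
  simp only [Perm.mul_apply]
  by_cases hxs : x = s
  · subst hxs
    have : c1⁻¹ (k (h x)) = a := by rw [Perm.inv_eq_iff_eq]; exact hc1a.symm
    rw [this, hc2a]
    simp
  · have hx' : x ∈ S.erase s := Finset.mem_erase.2 ⟨hxs, hx⟩
    rw [h2 x hx']
    have hin : k (f x) ∈ D := (hkD _).2 (Finset.mem_image_of_mem _ hx')
    have e1 : c1⁻¹ (k (f x)) = k (f x) := by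
      rw [Perm.inv_eq_iff_eq]; exact (hc1.2 _ hin).symm
    rw [e1, hc2.2 _ hin]
    simp

/-- Any element of `G` fixing `t + 1` points is the identity. -/
theorem free {G : Subgroup (Perm α)} {t : ℕ} (hC : Core G t) {A : Finset α}
    (hA : A.card = t + 1) : pf G A = ⊥ := by
  obtain ⟨a, ha⟩ : A.Nonempty := by rw [← card_pos]; omega
  obtain ⟨D, hD, rfl⟩ : ∃ D, D = A.erase a ∧ A = insert a D :=
    ⟨_, rfl, (Finset.insert_erase ha).symm⟩
  have haD : a ∉ D := by rw [hD]; simp
  have hDc : D.card = t := by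
    rw [Finset.card_insert_of_notMem haD] at hA; omega
  clear hD
  obtain ⟨b, hbD, hba⟩ := not_trans hC hDc haD
  obtain ⟨K, hK⟩ : ∃ K, K = pf G D := ⟨_, rfl⟩
  obtain ⟨H, hH⟩ : ∃ H, H = pf G (insert a D) := ⟨_, rfl⟩
  have hHK : H ≤ K := by
    rw [hH, hK]
    exact pf_anti G (Finset.subset_insert _ _)
  -- the first orbit lengths
  have he1 : ∀ x, x ∉ D → (orbF K x).card * Nat.card H = Nat.card K := by
    intro x hx
    have := card_orbF_mul G D x
    rw [← hK] at this
    rw [hH, ← this, card_pf_of_hmg hC.hom1 hA (by rw [Finset.card_insert_of_notMem hx, hDc])]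
  have hHpos : 0 < Nat.card H := Nat.card_pos
  have hsame : (orbF K b).card = (orbF K a).card :=
    Nat.eq_of_mul_eq_mul_right hHpos ((he1 b hbD).trans (he1 a haD).symm)
  -- the second orbit lengths
  have hbA : b ∉ insert a D := by
    rw [Finset.mem_insert]
    rintro (rfl | h)
    · exact hba (self_mem_orbF _ _)
    · exact hbD h
  obtain ⟨e, he⟩ : ∃ e, e = (orbF H b).card := ⟨_, rfl⟩
  have he2' : ∀ x, x ∉ insert a D → (orbF H x).card * Nat.card (pf G (insert x (insert a D)))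
      = Nat.card H := by
    intro x hx
    have := card_orbF_mul G (insert a D) x
    rwa [← hH] at this
  have hB : ∀ x, x ∉ insert a D → (insert x (insert a D)).card = t + 2 := by
    intro x hx
    rw [Finset.card_insert_of_notMem hx, hA]
  have he2 : ∀ x, x ∉ insert a D → (orbF H x).card = e := by
    intro x hx
    rw [he]
    have h1 := he2' x hx
    have h2 := he2' b hbA
    rw [card_pf_of_hmg hC.hom2 (hB x hx) (hB b hbA)] at h1
    exact Nat.eq_of_mul_eq_mul_right Nat.card_pos (h1.trans h2.symm)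
  have hnotD : ∀ x, x ∉ D → ∀ y ∈ orbF K x, y ∉ D := by
    intro x hx y hy
    rw [hK] at hy
    exact orbF_notMem hx hy
  -- divisibility
  have hinv1 : ∀ h ∈ H, ∀ z ∈ (orbF K a).erase a, h z ∈ (orbF K a).erase a := by
    intro h hh z hz
    obtain ⟨hz1, hz2⟩ := Finset.mem_erase.1 hz
    refine Finset.mem_erase.2 ⟨?_, ?_⟩
    · intro hhz
      have h3 : h a = a := by
        rw [hH] at hh
        exact hh.2 a (Finset.mem_insert_self _ _)
      exact hz1 (h.injective (hhz.trans h3.symm))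
    · obtain ⟨c, hc, rfl⟩ := mem_orbF.1 hz2
      exact mem_orbF.2 ⟨h * c, K.mul_mem (hHK hh) hc, rfl⟩
  have hd1 : e ∣ ((orbF K a).erase a).card := by
    refine dvd_card_of_orbits H _ hinv1 e fun z hz => he2 z ?_
    obtain ⟨hz1, hz2⟩ := Finset.mem_erase.1 hz
    rw [Finset.mem_insert]
    rintro (h | h)
    · exact hz1 h
    · exact hnotD a haD z hz2 h
  have hinv2 : ∀ h ∈ H, ∀ z ∈ orbF K b, h z ∈ orbF K b := by
    intro h hh z hz
    obtain ⟨c, hc, rfl⟩ := mem_orbF.1 hz
    exact mem_orbF.2 ⟨h * c, K.mul_mem (hHK hh) hc, rfl⟩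
  have hd2 : e ∣ (orbF K b).card := by
    refine dvd_card_of_orbits H _ hinv2 e fun z hz => he2 z ?_
    rw [Finset.mem_insert]
    rintro (h | h)
    · subst h
      apply hba
      rw [hK] at hz
      rw [orbF_eq hz]
      exact self_mem_orbF _ _
    · exact hnotD b hbD z hz h
  have hcard : ((orbF K a).erase a).card + 1 = (orbF K b).card := by
    rw [hsame, Finset.card_erase_of_mem (self_mem_orbF _ _)]
    have : 0 < (orbF K a).card := Finset.card_pos.2 ⟨a, self_mem_orbF _ _⟩
    omega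
  have he1' : e = 1 := by
    rw [← hcard] at hd2
    exact Nat.dvd_one.1 ((Nat.dvd_add_right hd1).1 hd2)
  -- conclusion
  rw [Subgroup.eq_bot_iff_forall]
  intro g hg
  ext x
  by_cases hx : x ∈ insert a D
  · simpa using hg.2 x hx
  · have h1 := he2' x hx
    rw [he2 x hx, he1', one_mul] at h1
    have h2 : pf G (insert x (insert a D)) = pf G (insert a D) :=
      Subgroup.eq_of_le_of_card_ge (pf_anti G (Finset.subset_insert _ _)) (by rw [h1, hH])
    rw [← h2] at hg
    simpa using hg.2 x (Finset.mem_insert_self _ _)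

end Cfsg.Agent.H06.LW
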