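import Cfsg.Agent.Lib.H06.LW2

/-! Livingstone–Wagner: fixed points and counting. -/

set_option autoImplicit false

namespace Cfsg.Agent.H06.LW

open Equiv Finset

universe u
variable {α : Type u} [Fintype α] [DecidableEq α]

/-- fixed points -/
def fx (g : Perm α) : Finset α := univ.filter (fun x => g x = x)

theorem mem_fx {g : Perm α} {x : α} : x ∈ fx g ↔ g x = x := by simp [fx]

variable {G : Subgroup (Perm α)} {t : ℕ}

theorem eq_one_of_fix (hC : Core G t) {g : Perm α} (hg : g ∈ G) {S : Finset α}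
    (hS : S.card = t + 1) (h : ∀ x ∈ S, g x = x) : g = 1 := by
  have h2 : g ∈ pf G S := ⟨hg, h⟩
  rw [free hC hS] at h2
  simpa using h2

theorem fx_card_le (hC : Core G t) {g : Perm α} (hg : g ∈ G) (hne : g ≠ 1) :
    (fx g).card ≤ t := by
  by_contra hlt
  push_neg at hlt
  obtain ⟨S, hS, hS2⟩ := Finset.exists_subset_card_eq (hlt : t + 1 ≤ _)
  exact hne (eq_one_of_fix hC hg hS2 (fun x hx => mem_fx.1 (hS hx)))

theorem orbit_card (hC : Core G t) {D : Finset α} (hD : D.card = t) {a : α} (ha : a ∉ D) :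
    (orbF (pf G D) a).card = Nat.card (pf G D) := by
  have h := card_orbF_mul G D a
  rw [free hC (A := insert a D) (by rw [card_insert_of_notMem ha, hD]), Subgroup.card_bot,
    mul_one] at h
  exact h

theorem compl_card {D : Finset α} (hD : D.card = t) : Dᶜ.card = Fintype.card α - t := by
  rw [Finset.card_compl, hD]

theorem kappa_dvd (hC : Core G t) {D : Finset α} (hD : D.card = t) :
    Nat.card (pf G D) ∣ Fintype.card α - t := by
  rw [← compl_card hD]
  refine dvd_card_of_orbits (pf G D) Dᶜ ?_ _ fun z hz => orbit_card hC hD (Finset.mem_compl.1 hz)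
  intro c hc z hz
  rw [Finset.mem_compl] at hz ⊢
  intro h
  have h2 := hc.2 _ h
  have h3 : c z = z := c.injective h2
  rw [h3] at h
  exact hz h

theorem exists_notMem (hC : Core G t) {D : Finset α} (hD : D.card = t) : ∃ a, a ∉ D := by
  by_contra h
  push_neg at h
  have : D = univ := Finset.eq_univ_of_forall h
  have h2 := hC.big
  rw [this, Finset.card_univ] at hD
  omega

theorem kappa_ne (hC : Core G t) {D : Finset α} (hD : D.card = t) :
    Nat.card (pf G D) ≠ Fintype.card α - t := by
  intro h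
  obtain ⟨a, ha⟩ := exists_notMem hC hD
  obtain ⟨b, hb, hb2⟩ := not_trans hC hD ha
  have h1 : orbF (pf G D) a = Dᶜ := by
    apply Finset.eq_of_subset_of_card_le
    · intro y hy
      exact Finset.mem_compl.2 (orbF_notMem ha hy)
    · rw [orbit_card hC hD ha, h, compl_card hD]
  rw [h1] at hb2
  exact hb2 (Finset.mem_compl.2 hb)

theorem card_G (hC : Core G t) {D : Finset α} (hD : D.card = t) :
    Nat.card G = (Fintype.card α).descFactorial t * Nat.card (pf G D) := by
  have hT : MulAction.IsPretransitive G (Fin t ↪ α) := trans_of_ext hC.ext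
  have hle : Fintype.card (Fin t) ≤ Fintype.card α := by
    have := hC.big
    simp only [Fintype.card_fin]
    omega
  obtain ⟨u⟩ := Function.Embedding.nonempty_of_card_le hle
  have h1 := Subgroup.card_mul_index (MulAction.stabilizer G u)
  have h5 : (MulAction.stabilizer G u).index = Nat.card (Fin t ↪ α) := by
    rw [MulAction.index_stabilizer]
    exact (congrArg Set.ncard (Set.eq_univ_of_forall fun v => hT.exists_smul_eq u v)).trans
      (Set.ncard_univ _)
  rw [h5, Nat.card_eq_fintype_card (α := Fin t ↪ α), Fintype.card_embedding_eq,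
    Fintype.card_fin] at h1
  have h2 : Nat.card (MulAction.stabilizer G u) = Nat.card (pf G (univ.map u)) := by
    refine Nat.card_congr ⟨fun g => ⟨g.1.1, g.1.2, ?_⟩, fun g => ⟨⟨g.1, g.2.1⟩, ?_⟩, ?_, ?_⟩
    · intro x hx
      obtain ⟨i, -, rfl⟩ := Finset.mem_map.1 hx
      exact DFunLike.congr_fun g.2 i
    · ext i
      exact g.2.2 (u i) (Finset.mem_map_of_mem _ (Finset.mem_univ i))
    · intro g; rfl
    · intro g; rfl
  rw [h2, card_pf_of_hmg (hmg_of_ext hC.ext) (by simp) hD] at h1
  rw [← h1, mul_comm]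

open scoped Pointwise in
theorem card_G_choose {j : ℕ} (h : Hmg G j) {A : Finset α} (hA : A.card = j) :
    Nat.card G = (Fintype.card α).choose j * Nat.card (stS G A) := by
  have h1 := card_orbit_mul (H := G) A
  have h2 : MulAction.orbit G A = ((Finset.powersetCard j (univ : Finset α) : Finset (Finset α)) :
      Set (Finset α)) := by
    ext B
    simp only [MulAction.mem_orbit_iff, Finset.mem_coe, Finset.mem_powersetCard, Finset.subset_univ,
      true_and]
    constructor
    · rintro ⟨g, rfl⟩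
      rw [Finset.card_smul_finset, hA]
    · intro hB
      obtain ⟨g, hg, h3⟩ := h A B hA hB
      refine ⟨⟨g, hg⟩, ?_⟩
      rw [← h3]
      ext x
      simp [Finset.mem_smul_finset, Subgroup.smul_def, Perm.smul_def]
  have h3 : Nat.card (MulAction.stabilizer G A) = Nat.card (stS G A) := by
    refine Nat.card_congr ⟨fun g => ⟨g.1.1, g.1.2, ?_⟩, fun g => ⟨⟨g.1, g.2.1⟩, ?_⟩, ?_, ?_⟩
    · have e : Finset.image ((g.1 : G) : Perm α) A = g.1 • A := by
        ext x
        simp [Finset.mem_smul_finset, Subgroup.smul_def, Perm.smul_def]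
      rw [e]
      exact g.2
    · show (⟨g.1, g.2.1⟩ : G) • A = A
      have e : (⟨g.1, g.2.1⟩ : G) • A = Finset.image g.1 A := by
        ext x
        simp [Finset.mem_smul_finset, Subgroup.smul_def, Perm.smul_def]
      rw [e]
      exact g.2.2
    · intro g; rfl
    · intro g; rfl
  rw [h2, Set.ncard_coe_finset, Finset.card_powersetCard, Finset.card_univ, h3] at h1
  exact h1.symm

/-- the permutations of `A` induced by `G` -/
def Bg (G : Subgroup (Perm α)) (A : Finset α) : Subgroup (Perm A) where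
  carrier := {σ | ∃ g ∈ G, ∀ x : A, g x = σ x}
  mul_mem' := by
    rintro σ τ ⟨g, hg, h1⟩ ⟨k, hk, h2⟩
    exact ⟨g * k, G.mul_mem hg hk, fun x => by simp [Perm.mul_apply, h2, h1]⟩
  one_mem' := ⟨1, G.one_mem, by simp⟩
  inv_mem' := by
    rintro σ ⟨g, hg, h⟩
    refine ⟨g⁻¹, G.inv_mem hg, fun x => ?_⟩
    rw [Perm.inv_eq_iff_eq, h]
    simp

theorem mem_Bg {A : Finset α} {σ : Perm A} : σ ∈ Bg G A ↔ ∃ g ∈ G, ∀ x : A, g x = σ x := Iff.rfl

theorem card_Bg (hC : Core G t) {A : Finset α} (hA : A.card = t + 1) :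
    Nat.card (stS G A) = Nat.card (Bg G A) := by
  have hst : ∀ g : stS G A, ∀ x, g.1 x ∈ A ↔ x ∈ A := by
    intro g x
    constructor
    · intro h
      have h2 := g.2.2
      have h3 : g.1 x ∈ Finset.image g.1 A := by rw [h2]; exact h
      rw [Finset.mem_image] at h3
      obtain ⟨y, hy, hyx⟩ := h3
      rwa [← g.1.injective hyx]
    · intro h
      have h2 := g.2.2
      have h3 := Finset.mem_image_of_mem (g.1 : α → α) h
      rwa [h2] at h3
  refine Nat.card_eq_of_bijective
    (fun g : stS G A => (⟨g.1.subtypePerm (hst g), g.1, g.2.1, fun x => rfl⟩ : Bg G A)) ⟨?_, ?_⟩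
  · intro g k hgk
    have hk : (k.1)⁻¹ * g.1 = 1 := by
      refine eq_one_of_fix hC (G.mul_mem (G.inv_mem k.2.1) g.2.1) hA fun x hx => ?_
      have := congrArg (fun s : Bg G A => (s : Perm A) ⟨x, hx⟩) hgk
      have h3 : g.1 x = k.1 x := congrArg Subtype.val this
      simp [Perm.mul_apply, h3]
    exact Subtype.ext (inv_mul_eq_one.1 hk).symm
  · rintro ⟨σ, g, hg, h⟩
    have hg2 : g ∈ stS G A := by
      refine ⟨hg, ?_⟩
      apply Finset.eq_of_subset_of_card_le
      · intro y hy
        obtain ⟨x, hx, rfl⟩ := Finset.mem_image.1 hy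
        rw [h ⟨x, hx⟩]
        exact (σ ⟨x, hx⟩).2
      · rw [Finset.card_image_of_injective _ g.injective]
    refine ⟨⟨g, hg2⟩, Subtype.ext ?_⟩
    ext x
    exact h x

theorem Bg_ne_top (hC : Core G t) {A : Finset α} (hA : A.card = t + 1) : Bg G A ≠ ⊤ := by
  intro htop
  apply hC.nt
  intro D hD f hf
  obtain ⟨g₁, hg₁, h1⟩ := hC.hom1 D A hD hA
  have hfD : (D.image f).card = t + 1 := by rw [Finset.card_image_of_injOn hf, hD]
  obtain ⟨g₂, hg₂, h2⟩ := hC.hom1 _ A hfD hA
  have hmem : ∀ y : A, g₁⁻¹ (y : α) ∈ D := by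
    intro y
    have h3 : (y : α) ∈ D.image g₁ := by rw [h1]; exact y.2
    rw [Finset.mem_image] at h3
    obtain ⟨x, hx, hxy⟩ := h3
    rw [← hxy]
    simpa using hx
  have hφ : ∀ y : A, g₂ (f (g₁⁻¹ (y : α))) ∈ A := by
    intro y
    have h3 := Finset.mem_image_of_mem (g₂ : α → α) (Finset.mem_image_of_mem f (hmem y))
    rwa [h2] at h3
  let φ : A → A := fun y => ⟨g₂ (f (g₁⁻¹ (y : α))), hφ y⟩
  have hinj : Function.Injective φ := by
    intro x y hxy
    have h3 : g₂ (f (g₁⁻¹ (x : α))) = g₂ (f (g₁⁻¹ (y : α))) := congrArg Subtype.val hxy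
    have h4 := hf (Finset.mem_coe.2 (hmem x)) (Finset.mem_coe.2 (hmem y)) (g₂.injective h3)
    exact Subtype.ext (g₁⁻¹.injective h4)
  let σ : Perm A := Equiv.ofBijective φ (Finite.injective_iff_bijective.1 hinj)
  have hσ : σ ∈ Bg G A := by rw [htop]; trivial
  obtain ⟨k, hk, hk2⟩ := hσ
  refine ⟨g₂⁻¹ * k * g₁, G.mul_mem (G.mul_mem (G.inv_mem hg₂) hk) hg₁, fun x hx => ?_⟩
  have hx' : g₁ x ∈ A := by rw [← h1]; exact Finset.mem_image_of_mem _ hx
  have h5 := hk2 ⟨g₁ x, hx'⟩
  have h6 : ((σ ⟨g₁ x, hx'⟩ : A) : α) = g₂ (f x) := by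
    show g₂ (f (g₁⁻¹ (g₁ x))) = g₂ (f x)
    simp
  simp only [Perm.mul_apply]
  rw [h5, h6]
  simp

/-- A normal subgroup of a symmetric group containing a transposition is everything. -/
theorem top_of_normal_swap {ι : Type*} [Fintype ι] [DecidableEq ι] {N : Subgroup (Perm ι)}
    (hN : N.Normal) {i j : ι} (hij : i ≠ j) (h : Equiv.swap i j ∈ N) : N = ⊤ := by
  rw [eq_top_iff, ← Equiv.Perm.closure_isSwap, Subgroup.closure_le]
  rintro σ ⟨x, y, hxy, rfl⟩
  obtain ⟨c, hc⟩ := isConj_iff.1 (Equiv.Perm.isConj_swap hij hxy)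
  rw [← hc]
  exact hN.conj_mem _ h _

theorem numeric1 (hC : Core G t) {D A : Finset α} (hD : D.card = t) (hA : A.card = t + 1) :
    Nat.card (pf G D) * (t + 1).factorial = (Fintype.card α - t) * Nat.card (Bg G A) := by
  have h1 := card_G hC hD
  have h2 := card_G_choose hC.hom1 hA
  rw [card_Bg hC hA] at h2
  have hpos : 0 < (Fintype.card α).descFactorial t := by
    apply Nat.pos_of_ne_zero
    rw [Ne, Nat.descFactorial_eq_zero_iff_lt]
    have := hC.big
    omega
  apply Nat.eq_of_mul_eq_mul_left hpos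
  have h3 := Nat.descFactorial_eq_factorial_mul_choose (Fintype.card α) (t + 1)
  rw [Nat.descFactorial_succ] at h3
  calc (Fintype.card α).descFactorial t * (Nat.card (pf G D) * (t + 1).factorial)
      = Nat.card G * (t + 1).factorial := by rw [h1]; ring
    _ = ((t + 1).factorial * (Fintype.card α).choose (t + 1)) * Nat.card (Bg G A) := by
        rw [h2]; ring
    _ = _ := by rw [← h3]; ring

theorem numeric2 (hC : Core G t) {D B : Finset α} (hD : D.card = t) (hB : B.card = t + 2) :
    Nat.card (pf G D) * (t + 2).factorial =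
      (Fintype.card α - t) * (Fintype.card α - t - 1) * Nat.card (stS G B) := by
  have h1 := card_G hC hD
  have h2 := card_G_choose hC.hom2 hB
  have hpos : 0 < (Fintype.card α).descFactorial t := by
    apply Nat.pos_of_ne_zero
    rw [Ne, Nat.descFactorial_eq_zero_iff_lt]
    have := hC.big
    omega
  apply Nat.eq_of_mul_eq_mul_left hpos
  have h3 := Nat.descFactorial_eq_factorial_mul_choose (Fintype.card α) (t + 2)
  rw [Nat.descFactorial_succ, Nat.descFactorial_succ] at h3
  have h4 : Fintype.card α - (t + 1) = Fintype.card α - t - 1 := by omega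
  rw [h4] at h3
  calc (Fintype.card α).descFactorial t * (Nat.card (pf G D) * (t + 2).factorial)
      = Nat.card G * (t + 2).factorial := by rw [h1]; ring
    _ = ((t + 2).factorial * (Fintype.card α).choose (t + 2)) * Nat.card (stS G B) := by
        rw [h2]; ring
    _ = _ := by rw [← h3]; ring

end Cfsg.Agent.H06.LW
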