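import Cfsg.Agent.Lib.H06.LW3

/-! Livingstone–Wagner: for `t ≥ 2` the pointwise stabilizers of `t`-sets have odd order. -/

set_option autoImplicit false

namespace Cfsg.Agent.H06.LW

open Equiv Finset

universe u
variable {α : Type u} [Fintype α] [DecidableEq α]

theorem even_centralizer {H : Subgroup (Perm α)} {x : Perm α} (hx2 : x * x = 1)
    (hnorm : ∀ y ∈ H, x * y * x⁻¹ ∈ H) (h2 : 2 ∣ Nat.card H) :
    ∃ y ∈ H, y ≠ 1 ∧ y * y = 1 ∧ x * y = y * x := by
  have hxi : x⁻¹ = x := inv_eq_of_mul_eq_one_left hx2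
  let σ : Perm H :=
    { toFun := fun y => ⟨x * y * x⁻¹, hnorm y y.2⟩
      invFun := fun y => ⟨x * y * x⁻¹, hnorm y y.2⟩
      left_inv := by
        intro y
        apply Subtype.ext
        show x * (x * (y : Perm α) * x⁻¹) * x⁻¹ = y
        rw [hxi]
        calc x * (x * (y : Perm α) * x) * x = (x * x) * y * (x * x) := by group
          _ = y := by rw [hx2]; group
      right_inv := by
        intro y
        apply Subtype.ext
        show x * (x * (y : Perm α) * x⁻¹) * x⁻¹ = y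
        rw [hxi]
        calc x * (x * (y : Perm α) * x) * x = (x * x) * y * (x * x) := by group
          _ = y := by rw [hx2]; group }
  have hσ : σ ^ 2 ^ 1 = 1 := by
    refine Equiv.ext fun y => Subtype.ext ?_
    rw [pow_one, pow_two, Perm.mul_apply]
    show x * (x * (y : Perm α) * x⁻¹) * x⁻¹ = y
    rw [hxi]
    calc x * (x * (y : Perm α) * x) * x = (x * x) * y * (x * x) := by group
      _ = y := by rw [hx2]; group
  have hP : IsPGroup 2 (Subgroup.zpowers σ) := by
    rintro ⟨g, hg⟩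
    obtain ⟨i, rfl⟩ := Subgroup.mem_zpowers_iff.1 hg
    refine ⟨1, Subtype.ext ?_⟩
    show (σ ^ i) ^ (2 ^ 1) = 1
    rw [← zpow_natCast, ← zpow_mul, mul_comm, zpow_mul, zpow_natCast, hσ, one_zpow]
  have h3 := hP.card_modEq_card_fixedPoints H
  obtain ⟨C, hC⟩ : ∃ C : Subgroup (Perm α), C = H ⊓ Subgroup.centralizer {x} := ⟨_, rfl⟩
  have hmem : ∀ y : Perm α, y ∈ C ↔ y ∈ H ∧ x * y = y * x := by
    intro y
    rw [hC, Subgroup.mem_inf, Subgroup.mem_centralizer_singleton_iff]
    constructor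
    · rintro ⟨h, h'⟩; exact ⟨h, h'.symm⟩
    · rintro ⟨h, h'⟩; exact ⟨h, h'.symm⟩
  have h4 : Nat.card (MulAction.fixedPoints (Subgroup.zpowers σ) H) = Nat.card C := by
    refine Nat.card_congr ⟨fun y => ⟨y.1.1, (hmem _).2 ⟨y.1.2, ?_⟩⟩,
      fun y => ⟨⟨y.1, ((hmem _).1 y.2).1⟩, ?_⟩, ?_, ?_⟩
    · have h5 := y.2 ⟨σ, Subgroup.mem_zpowers σ⟩
      have h6 : x * (y.1 : Perm α) * x⁻¹ = y.1 := congrArg Subtype.val h5
      rw [mul_inv_eq_iff_eq_mul] at h6
      exact h6
    · rintro ⟨g, hg⟩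
      obtain ⟨i, rfl⟩ := Subgroup.mem_zpowers_iff.1 hg
      have h5 : σ ⟨y.1, ((hmem _).1 y.2).1⟩ = ⟨y.1, ((hmem _).1 y.2).1⟩ := by
        apply Subtype.ext
        show x * y.1 * x⁻¹ = y.1
        rw [((hmem _).1 y.2).2]
        group
      exact Equiv.Perm.zpow_apply_eq_self_of_apply_eq_self h5 i
    · intro y; rfl
    · intro y; rfl
  rw [h4] at h3
  have h7 : Nat.card C ≤ Nat.card H := by
    apply Nat.card_le_card_of_injective (fun y : C => (⟨y.1, ((hmem _).1 y.2).1⟩ : H))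
    intro a b hab
    have hab' : (a : Perm α) = b := congrArg (fun z : H => (z : Perm α)) hab
    exact Subtype.ext hab'
  have h5 : 2 ∣ Nat.card C := by
    have h6 := (Nat.modEq_iff_dvd' h7).1 h3.symm
    exact (Nat.dvd_sub_iff_right h7 h2).1 h6
  obtain ⟨y, hy⟩ := exists_prime_orderOf_dvd_card' (G := C) 2 h5
  refine ⟨y.1, ((hmem _).1 y.2).1, ?_, ?_, ((hmem _).1 y.2).2⟩
  · intro h
    have : y = 1 := Subtype.ext h
    rw [this, orderOf_one] at hy
    omega
  · have h6 : y ^ 2 = 1 := by rw [← hy]; exact pow_orderOf_eq_one y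
    have h7 := congrArg Subtype.val h6
    simpa [pow_two] using h7

variable {G : Subgroup (Perm α)} {t : ℕ}

theorem swap_mem_Bg {A : Finset α} {g : Perm α} (hg : g ∈ G) {b b' : α} (hb : b ∈ A)
    (hb' : b' ∈ A) (h : ∀ z ∈ A, g z = Equiv.swap b b' z) :
    Equiv.swap (⟨b, hb⟩ : A) ⟨b', hb'⟩ ∈ Bg G A := by
  refine ⟨g, hg, fun x => ?_⟩
  rw [h x x.2]
  by_cases h1 : x = ⟨b, hb⟩
  · subst h1; simp
  · by_cases h2 : x = ⟨b', hb'⟩
    · subst h2; simp
    · rw [Equiv.swap_apply_of_ne_of_ne h1 h2, Equiv.swap_apply_of_ne_of_ne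
        (fun e => h1 (Subtype.ext e)) (fun e => h2 (Subtype.ext e))]

/-- For `t ≥ 2`, pointwise stabilizers of `t`-sets contain no involutions. -/
theorem oddK (hC : Core G t) (ht : 2 ≤ t) {D : Finset α} (hD : D.card = t) {x : Perm α}
    (hx : x ∈ pf G D) (hx2 : x * x = 1) : x = 1 := by
  by_contra hne
  have hxx : ∀ z, x (x z) = z := fun z => by
    have := congrArg (fun p : Perm α => p z) hx2
    simpa [Perm.mul_apply] using this
  obtain ⟨b, hb, b', hb', hbb'⟩ := Finset.one_lt_card.1 (by omega : 1 < D.card)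
  obtain ⟨D₀, hD₀⟩ : ∃ D₀, D₀ = (D.erase b).erase b' := ⟨_, rfl⟩
  have hD₀c : D₀.card = t - 2 := by
    rw [hD₀, Finset.card_erase_of_mem (Finset.mem_erase.2 ⟨hbb'.symm, hb'⟩),
      Finset.card_erase_of_mem hb, hD]
    omega
  have hD₀D : ∀ z, z ∈ D₀ → z ∈ D := fun z hz => by
    rw [hD₀] at hz
    exact Finset.mem_of_mem_erase (Finset.mem_of_mem_erase hz)
  have hbD₀ : b ∉ D₀ := by rw [hD₀]; simp
  have hb'D₀ : b' ∉ D₀ := by rw [hD₀]; simp
  have hDcases : ∀ z, z ∈ D → z = b ∨ z = b' ∨ z ∈ D₀ := by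
    intro z hz
    by_cases h1 : z = b
    · exact Or.inl h1
    · by_cases h2 : z = b'
      · exact Or.inr (Or.inl h2)
      · refine Or.inr (Or.inr ?_)
        rw [hD₀]
        exact Finset.mem_erase.2 ⟨h2, Finset.mem_erase.2 ⟨h1, hz⟩⟩
  have hfx : ∀ z, x z = z → z ∈ D := by
    intro z hz
    by_contra hzD
    apply hne
    refine eq_one_of_fix hC hx.1 (S := insert z D)
      (by rw [Finset.card_insert_of_notMem hzD, hD]) fun y hy => ?_
    rcases Finset.mem_insert.1 hy with rfl | hy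
    · exact hz
    · exact hx.2 y hy
  have h2κ : 2 ∣ Nat.card (pf G D) := by
    have h1 := orderOf_dvd_natCard (⟨x, hx⟩ : pf G D)
    have h3 : orderOf (⟨x, hx⟩ : pf G D) = 2 := by
      apply orderOf_eq_prime
      · apply Subtype.ext
        show x ^ 2 = 1
        rw [pow_two, hx2]
      · intro h
        exact hne (congrArg Subtype.val h)
    rwa [h3] at h1
  have hnot : ∀ a, a ∉ D → x a ∉ D ∧ x a ≠ a := by
    intro a ha
    constructor
    · intro h
      have h1 := hx.2 _ h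
      rw [hxx] at h1
      rw [← h1] at h
      exact ha h
    · intro h
      exact ha (hfx a h)
  have hcardDa : ∀ a, a ∉ D → (insert a (insert (x a) D₀)).card = t := by
    intro a ha
    obtain ⟨h1, h2⟩ := hnot a ha
    rw [Finset.card_insert_of_notMem, Finset.card_insert_of_notMem, hD₀c]
    · omega
    · exact fun h => h1 (hD₀D _ h)
    · rw [Finset.mem_insert]
      rintro (h | h)
      · exact h2 h.symm
      · exact ha (hD₀D _ h)
  have hDa : ∀ a, a ∉ D → ∃ y ∈ pf G (insert a (insert (x a) D₀)),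
      y ≠ 1 ∧ y * y = 1 ∧ x * y = y * x := by
    intro a ha
    have h1 := card_pf_of_hmg (hmg_of_ext hC.ext) (hcardDa a ha) hD
    refine even_centralizer hx2 ?_ (by rw [h1]; exact h2κ)
    intro y hy
    refine ⟨G.mul_mem (G.mul_mem hx.1 hy.1) (G.inv_mem hx.1), fun z hz => ?_⟩
    have hxi : x⁻¹ = x := inv_eq_of_mul_eq_one_left hx2
    rw [hxi]
    simp only [Perm.mul_apply]
    have h2 : x z ∈ insert a (insert (x a) D₀) := by
      simp only [Finset.mem_insert] at hz ⊢
      rcases hz with rfl | rfl | hz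
      · exact Or.inr (Or.inl rfl)
      · exact Or.inl (hxx _)
      · refine Or.inr (Or.inr ?_)
        rwa [hx.2 z (hD₀D z hz)]
    rw [hy.2 _ h2, hxx]
  choose! y hy1 hy2 hy3 hy4 using hDa
  -- the fixed points of `y a`
  have hyfix : ∀ a, a ∉ D → ∀ z, y a z = z → z ∈ insert a (insert (x a) D₀) := by
    intro a ha z hz
    by_contra hzn
    apply hy2 a ha
    refine eq_one_of_fix hC (hy1 a ha).1 (S := insert z (insert a (insert (x a) D₀)))
      (by rw [Finset.card_insert_of_notMem hzn, hcardDa a ha]) fun w hw => ?_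
    rcases Finset.mem_insert.1 hw with rfl | hw
    · exact hz
    · exact (hy1 a ha).2 w hw
  have hynotb : ∀ a, a ∉ D → ∀ w, w ∉ D₀ → w ∈ D → y a w ∈ D ∧ y a w ≠ w ∧ y a w ∉ D₀ := by
    intro a ha w hw hwD
    refine ⟨?_, ?_, ?_⟩
    · apply hfx
      have h1 := congrArg (fun p : Perm α => p w) (hy4 a ha)
      simp only [Perm.mul_apply] at h1
      rw [h1, hx.2 w hwD]
    · intro h
      have h1 := hyfix a ha w h
      simp only [Finset.mem_insert] at h1
      rcases h1 with rfl | rfl | h1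
      · exact ha hwD
      · exact (hnot a ha).1 hwD
      · exact hw h1
    · intro h
      have h1 := (hy1 a ha).2 _ (Finset.mem_insert_of_mem (Finset.mem_insert_of_mem h))
      exact hw (((y a).injective h1) ▸ h)
  have hyb : ∀ a, a ∉ D → y a b = b' := by
    intro a ha
    obtain ⟨h1, h2, h3⟩ := hynotb a ha b hbD₀ hb
    rcases hDcases _ h1 with h | h | h
    · exact absurd h h2
    · exact h
    · exact absurd h h3
  have hyb' : ∀ a, a ∉ D → y a b' = b := by
    intro a ha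
    obtain ⟨h1, h2, h3⟩ := hynotb a ha b' hb'D₀ hb'
    rcases hDcases _ h1 with h | h | h
    · exact h
    · exact absurd h h2
    · exact absurd h h3
  have hyD₀ : ∀ a, a ∉ D → ∀ z ∈ D₀, y a z = z := fun a ha z hz =>
    (hy1 a ha).2 z (Finset.mem_insert_of_mem (Finset.mem_insert_of_mem hz))
  obtain ⟨a₀, ha₀⟩ := exists_notMem hC hD
  -- the count
  have hcount : Fintype.card α - t ≤ 2 * Nat.card (pf G D) := by
    rw [← compl_card hD]
    have h1 := Finset.card_le_mul_card_image (f := fun a => (y a₀)⁻¹ * y a) Dᶜ 2 (by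
      intro p hp
      obtain ⟨a₁, ha₁, rfl⟩ := Finset.mem_image.1 hp
      have ha₁' := Finset.mem_compl.1 ha₁
      have h2 : (Dᶜ.filter fun a => (y a₀)⁻¹ * y a = (y a₀)⁻¹ * y a₁) ⊆ {a₁, x a₁} := by
        intro a ha
        obtain ⟨ha1, ha2⟩ := Finset.mem_filter.1 ha
        have ha' := Finset.mem_compl.1 ha1
        have h3 : y a = y a₁ := mul_left_cancel ha2
        have h4 : y a₁ a = a := by
          rw [← h3]
          exact (hy1 a ha').2 a (Finset.mem_insert_self _ _)
        have h5 := hyfix a₁ ha₁' a h4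
        simp only [Finset.mem_insert, Finset.mem_singleton] at h5 ⊢
        rcases h5 with h5 | h5 | h5
        · exact Or.inl h5
        · exact Or.inr h5
        · exact absurd (hD₀D _ h5) ha'
      exact (Finset.card_le_card h2).trans Finset.card_le_two)
    refine h1.trans (Nat.mul_le_mul_left 2 ?_)
    have h2 : ((Dᶜ.image fun a => (y a₀)⁻¹ * y a : Finset (Perm α)) : Set (Perm α)) ⊆
        (pf G D : Set (Perm α)) := by
      intro p hp
      obtain ⟨a₁, ha₁, rfl⟩ := Finset.mem_image.1 (Finset.mem_coe.1 hp)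
      have ha₁' := Finset.mem_compl.1 ha₁
      refine ⟨G.mul_mem (G.inv_mem (hy1 a₀ ha₀).1) (hy1 a₁ ha₁').1, fun z hz => ?_⟩
      simp only [Perm.mul_apply]
      rw [Perm.inv_eq_iff_eq]
      rcases hDcases z hz with rfl | rfl | h
      · rw [hyb a₁ ha₁', hyb a₀ ha₀]
      · rw [hyb' a₁ ha₁', hyb' a₀ ha₀]
      · rw [hyD₀ a₁ ha₁' z h, hyD₀ a₀ ha₀ z h]
    have h3 := Set.ncard_le_ncard h2 (Set.toFinite _)
    rw [Set.ncard_coe_finset] at h3
    exact h3.trans_eq (Nat.card_coe_set_eq ((pf G D : Subgroup (Perm α)) : Set (Perm α))).symm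
  -- hence `m = 2 κ`
  have hmpos : 0 < Fintype.card α - t := by have := hC.big; omega
  have hκpos : 0 < Nat.card (pf G D) := Nat.card_pos
  obtain ⟨l, hl⟩ := kappa_dvd hC hD
  have hl2 : l = 2 := by
    have h1 := kappa_ne hC hD
    have h3 : l ≠ 0 := by
      rintro rfl
      omega
    have h4 : l ≠ 1 := by
      rintro rfl
      omega
    have h5 : l ≤ 2 := by
      rw [hl, mul_comm] at hcount
      exact Nat.le_of_mul_le_mul_right hcount hκpos
    omega
  have hA : (insert a₀ D).card = t + 1 := by rw [Finset.card_insert_of_notMem ha₀, hD]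
  have hn1 := numeric1 hC hD hA
  rw [hl, hl2, mul_assoc, mul_comm 2] at hn1
  have hn2 : (t + 1).factorial = Nat.card (Bg G (insert a₀ D)) * 2 :=
    Nat.eq_of_mul_eq_mul_left hκpos hn1
  have hidx : (Bg G (insert a₀ D)).index = 2 := by
    have h1 := Subgroup.card_mul_index (Bg G (insert a₀ D))
    rw [Nat.card_eq_fintype_card (α := Perm (insert a₀ D : Finset α)), Fintype.card_perm,
      Fintype.card_coe, hA, hn2] at h1
    exact Nat.eq_of_mul_eq_mul_left Nat.card_pos h1
  have hnormal := Subgroup.normal_of_index_eq_two hidx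
  have hbA : b ∈ insert a₀ D := Finset.mem_insert_of_mem hb
  have hb'A : b' ∈ insert a₀ D := Finset.mem_insert_of_mem hb'
  have hswap : Equiv.swap (⟨b, hbA⟩ : (insert a₀ D : Finset α)) ⟨b', hb'A⟩ ∈ Bg G (insert a₀ D) := by
    refine swap_mem_Bg (hy1 a₀ ha₀).1 hbA hb'A fun z hz => ?_
    rcases Finset.mem_insert.1 hz with rfl | hz
    · rw [(hy1 z ha₀).2 z (Finset.mem_insert_self _ _)]
      have h1 : z ≠ b := fun e => ha₀ (e ▸ hb)
      have h2 : z ≠ b' := fun e => ha₀ (e ▸ hb')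
      rw [Equiv.swap_apply_of_ne_of_ne h1 h2]
    · rcases hDcases z hz with rfl | rfl | h
      · rw [hyb a₀ ha₀, Equiv.swap_apply_left]
      · rw [hyb' a₀ ha₀, Equiv.swap_apply_right]
      · rw [hyD₀ a₀ ha₀ z h, Equiv.swap_apply_of_ne_of_ne
          (fun e : z = b => hbD₀ (e ▸ h)) (fun e : z = b' => hb'D₀ (e ▸ h))]
  have hne' : (⟨b, hbA⟩ : (insert a₀ D : Finset α)) ≠ ⟨b', hb'A⟩ :=
    fun e => hbb' (congrArg Subtype.val e)
  exact Bg_ne_top hC hA (top_of_normal_swap hnormal hne' hswap)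

end Cfsg.Agent.H06.LW
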