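import Cfsg.Agent.Lib.H06.LW4

/-! Livingstone–Wagner: involutions when the stabilizers have odd order. -/

set_option autoImplicit false

namespace Cfsg.Agent.H06.LW

open Equiv Finset

universe u
variable {α : Type u} [Fintype α] [DecidableEq α]
variable {G : Subgroup (Perm α)} {t : ℕ}

theorem sq_apply {v : Perm α} (h : v * v = 1) (x : α) : v (v x) = x := by
  have := congrArg (fun p : Perm α => p x) h
  simpa [Perm.mul_apply] using this

theorem pf_two_pow (hC : Core G t) (ht : 2 ≤ t) {D : Finset α} (hD : D.card = t) (k : ℕ) :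
    ∀ w : Perm α, w ∈ pf G D → w ^ (2 ^ k) = 1 → w = 1 := by
  induction k with
  | zero => intro w _ h; simpa using h
  | succ k ih =>
    intro w hw h
    apply ih w hw
    refine oddK hC ht hD ((pf G D).pow_mem hw _) ?_
    rw [← pow_two, ← pow_mul, ← pow_succ]
    exact h

theorem odd_order_pf (hC : Core G t) (ht : 2 ≤ t) {D : Finset α} (hD : D.card = t) {w : Perm α}
    (hw : w ∈ pf G D) : Odd (orderOf w) := by
  rw [← Nat.not_even_iff_odd]
  rintro ⟨c, hc⟩
  have h1 : w ^ c * w ^ c = 1 := by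
    rw [← pow_add, ← hc, pow_orderOf_eq_one]
  have h2 := oddK hC ht hD ((pf G D).pow_mem hw c) h1
  have h3 := orderOf_dvd_of_pow_eq_one h2
  have h4 : 0 < orderOf w := orderOf_pos w
  have h5 := Nat.le_of_dvd (by omega) h3
  omega

theorem conj_of_agree (hC : Core G t) (ht : 2 ≤ t) {D : Finset α} (hD : D.card = t) {v v' : Perm α}
    (hv : v ∈ G) (hv' : v' ∈ G) (h1 : v * v = 1) (h2 : v' * v' = 1) (h3 : ∀ x ∈ D, v x = v' x) :
    ∃ c ∈ pf G D, v' = c * v * c⁻¹ := by
  have hw : v' * v ∈ pf G D := by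
    refine ⟨G.mul_mem hv' hv, fun x hx => ?_⟩
    rw [Perm.mul_apply, h3 x hx, sq_apply h2]
  obtain ⟨w, hwd⟩ : ∃ w, w = v' * v := ⟨_, rfl⟩
  rw [← hwd] at hw
  obtain ⟨u, hu⟩ := odd_order_pf hC ht hD hw
  have hvi : v⁻¹ = v := inv_eq_of_mul_eq_one_left h1
  have hvi' : v'⁻¹ = v' := inv_eq_of_mul_eq_one_left h2
  have hinv : v * w * v⁻¹ = w⁻¹ := by
    rw [hwd, mul_inv_rev, hvi, hvi']
    calc v * (v' * v) * v = v * v' * (v * v) := by group
      _ = v * v' := by rw [h1, mul_one]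
  obtain ⟨c, hc⟩ : ∃ c, c = w ^ (u + 1) := ⟨_, rfl⟩
  have hcc : c * c = w := by
    rw [hc, ← pow_add]
    have : u + 1 + (u + 1) = orderOf w + 1 := by omega
    rw [this, pow_succ, pow_orderOf_eq_one, one_mul]
  have hconj : v * c * v⁻¹ = c⁻¹ := by
    rw [hc, ← conj_pow, hinv, inv_pow]
  refine ⟨c, hc ▸ (pf G D).pow_mem hw _, ?_⟩
  have h4 : v' = w * v := by
    rw [hwd, mul_assoc, h1, mul_one]
  have h5 : v * c⁻¹ = c * v := by
    have h7 : v * c⁻¹ * v⁻¹ = c := by
      calc v * c⁻¹ * v⁻¹ = (v * c * v⁻¹)⁻¹ := by group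
        _ = c := by rw [hconj, inv_inv]
    rw [mul_inv_eq_iff_eq_mul] at h7
    exact h7
  rw [h4, ← hcc, mul_assoc, mul_assoc, h5]

/-- Lifting an involutive action on a `t`-set to an involution, by an odd power. -/
theorem lift_inv (hC : Core G t) (ht : 2 ≤ t) {D : Finset α} (hD : D.card = t) {g : Perm α}
    (hg : g ∈ G) (h : ∀ x ∈ D, g (g x) = x) :
    ∃ r : ℕ, (g ^ r) * (g ^ r) = 1 ∧ ∀ x ∈ D, (g ^ r) x = g x ∧ (g ^ r) (g x) = x := by
  obtain ⟨k, m, hm, hk⟩ := Nat.exists_eq_two_pow_mul_odd (n := orderOf g) (orderOf_pos g).ne'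
  obtain ⟨u, hu⟩ := hm
  have hpow : ∀ x, g (g x) = x → ∀ n : ℕ, ((g * g) ^ n) x = x := by
    intro x hx n
    induction n with
    | zero => rfl
    | succ n ih =>
      rw [pow_succ, Perm.mul_apply, Perm.mul_apply, hx, ih]
  have hm2 : g ^ m = (g * g) ^ u * g := by
    rw [hu, ← pow_two, ← pow_mul, pow_succ]
  have hact : ∀ x ∈ D, (g ^ m) x = g x ∧ (g ^ m) (g x) = x := by
    intro x hx
    have h1 := h x hx
    constructor
    · rw [hm2, Perm.mul_apply]
      exact hpow _ (by rw [h1]) u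
    · rw [hm2, Perm.mul_apply, h1]
      exact hpow _ h1 u
  refine ⟨m, ?_, hact⟩
  apply pf_two_pow hC ht hD k _ _ ?_
  · refine ⟨G.mul_mem (G.pow_mem hg m) (G.pow_mem hg m), fun x hx => ?_⟩
    rw [Perm.mul_apply, (hact x hx).1, (hact x hx).2]
  · have h5 : (g ^ m * g ^ m) ^ (2 ^ k) = (g ^ orderOf g) ^ 2 := by
      have e : (g ^ m * g ^ m) = g ^ (m * 2) := by rw [pow_mul, pow_two]
      have e2 : m * 2 * 2 ^ k = 2 ^ k * m * 2 := by ring
      rw [e, ← pow_mul, ← pow_mul, hk, e2]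
    rw [h5, pow_orderOf_eq_one, one_pow]

theorem inv_fx_lt (hC : Core G t) (ht : 2 ≤ t) {v : Perm α} (hv : v ∈ G) (h1 : v * v = 1)
    (hne : v ≠ 1) : (fx v).card < t := by
  by_contra hlt
  push_neg at hlt
  obtain ⟨S, hS, hS2⟩ := Finset.exists_subset_card_eq hlt
  exact hne (oddK hC ht hS2 ⟨hv, fun x hx => mem_fx.1 (hS hx)⟩ h1)

theorem parity_fx {v : Perm α} (h1 : v * v = 1) :
    2 ∣ Fintype.card α - (fx v).card := by
  have h2 : v ^ 2 = 1 := by rw [pow_two, h1]
  have h3 := Equiv.Perm.two_dvd_card_support h2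
  have h4 : v.support = (fx v)ᶜ := by
    ext x
    simp [mem_fx]
  rw [h4, Finset.card_compl] at h3
  exact h3

/-- For even `m`, involutions have at most `t - 2` fixed points. -/
theorem inv_fx_even (hC : Core G t) (ht : 2 ≤ t) (hm : 2 ∣ Fintype.card α - t) {v : Perm α}
    (hv : v ∈ G) (h1 : v * v = 1) (hne : v ≠ 1) : (fx v).card + 2 ≤ t := by
  have h2 := inv_fx_lt hC ht hv h1 hne
  have h3 := parity_fx h1
  have h4 := hC.big
  omega

theorem exists_notMem_of_card_lt {ι : Type*} [Fintype ι] (S : Finset ι)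
    (h : S.card < Fintype.card ι) : ∃ x, x ∉ S := by
  by_contra hcon
  push_neg at hcon
  have : S = univ := Finset.eq_univ_of_forall hcon
  rw [this, Finset.card_univ] at h
  omega

/-- Two tuples on which the same transposition of positions is realised lie in one orbit. -/
theorem P_same (hC : Core G t) (ht : 2 ≤ t) {ι : Type*} [Fintype ι] [DecidableEq ι]
    (hι : Fintype.card ι = t + 1) {o o' : ι → α} (ho : Function.Injective o)
    (ho' : Function.Injective o') {i j : ι} (hij : i ≠ j) {g g' : Perm α} (hg : g ∈ G)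
    (hg' : g' ∈ G) (h1 : ∀ p, g (o p) = o (Equiv.swap i j p))
    (h2 : ∀ p, g' (o' p) = o' (Equiv.swap i j p)) : ∃ h ∈ G, ∀ p, h (o p) = o' p := by
  classical
  obtain ⟨r, hr⟩ := exists_notMem_of_card_lt ({i, j} : Finset ι) (by
    rw [Finset.card_pair hij]; omega)
  have hri : r ≠ i := fun e => hr (by simp [e])
  have hrj : r ≠ j := fun e => hr (by simp [e])
  have hσr : Equiv.swap i j r = r := Equiv.swap_apply_of_ne_of_ne hri hrj
  have hσne : ∀ p, p ≠ r → Equiv.swap i j p ≠ r := by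
    intro p hp e
    apply hp
    apply (Equiv.swap i j).injective
    rw [e, hσr]
  obtain ⟨R, hR⟩ : ∃ R, R = (univ : Finset ι).erase r := ⟨_, rfl⟩
  have hmemR : ∀ p, p ∈ R ↔ p ≠ r := by intro p; rw [hR]; simp
  have hRc : R.card = t := by
    rw [hR, Finset.card_erase_of_mem (Finset.mem_univ _), Finset.card_univ, hι]; rfl
  have hDc : (R.image o).card = t := by
    rw [Finset.card_image_of_injective _ ho, hRc]
  have hD'c : (R.image o').card = t := by
    rw [Finset.card_image_of_injective _ ho', hRc]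
  have hinj : Set.InjOn (Function.extend o o' id) ((R.image o : Finset α) : Set α) := by
    intro x hx y hy hxy
    obtain ⟨p, -, rfl⟩ := Finset.mem_image.1 (Finset.mem_coe.1 hx)
    obtain ⟨q, -, rfl⟩ := Finset.mem_image.1 (Finset.mem_coe.1 hy)
    rw [ho.extend_apply, ho.extend_apply] at hxy
    rw [ho' hxy]
  obtain ⟨h₀, hh₀, h3⟩ := hC.ext _ hDc _ hinj
  have h₀o : ∀ p, p ≠ r → h₀ (o p) = o' p := by
    intro p hp
    rw [h3 _ (Finset.mem_image_of_mem _ ((hmemR p).2 hp)), ho.extend_apply]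
  obtain ⟨g₁, hg₁⟩ : ∃ g₁, g₁ = h₀ * g * h₀⁻¹ := ⟨_, rfl⟩
  have hg₁G : g₁ ∈ G := by
    rw [hg₁]; exact G.mul_mem (G.mul_mem hh₀ hg) (G.inv_mem hh₀)
  have hg₁a : ∀ p, g₁ (h₀ (o p)) = h₀ (o (Equiv.swap i j p)) := by
    intro p
    rw [hg₁]
    simp [Perm.mul_apply, h1]
  have hall : ∀ {k : Perm α} (_ : k ∈ G) {q : ι → α} (_ : Function.Injective q),
      (∀ p, k (q p) = q (Equiv.swap i j p)) → k * k = 1 := by
    intro k hk q hq hkq
    refine eq_one_of_fix hC (G.mul_mem hk hk) (S := univ.image q)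
      (by rw [Finset.card_image_of_injective _ hq, Finset.card_univ, hι]) fun x hx => ?_
    obtain ⟨p, -, rfl⟩ := Finset.mem_image.1 hx
    rw [Perm.mul_apply, hkq, hkq, Equiv.swap_apply_self]
  have hg₁2 : g₁ * g₁ = 1 :=
    hall hg₁G (q := fun p => h₀ (o p)) (fun a b hab => ho (h₀.injective hab)) hg₁a
  have hg'2 : g' * g' = 1 := hall hg' ho' h2
  have hagree : ∀ x ∈ R.image o', g₁ x = g' x := by
    intro x hx
    obtain ⟨p, hp, rfl⟩ := Finset.mem_image.1 hx
    have hp' := (hmemR p).1 hp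
    have e : g₁ (o' p) = o' (Equiv.swap i j p) := by
      rw [← h₀o p hp', hg₁a, h₀o _ (hσne p hp')]
    rw [e, h2]
  obtain ⟨c, hc, hcc⟩ := conj_of_agree hC ht hD'c hg₁G hg' hg₁2 hg'2 hagree
  have hcR : ∀ p, p ≠ r → c (o' p) = o' p := fun p hp =>
    hc.2 _ (Finset.mem_image_of_mem _ ((hmemR p).2 hp))
  have hz : g' (c (h₀ (o r))) = c (h₀ (o r)) := by
    rw [hcc]
    simp only [Perm.mul_apply]
    have e : c⁻¹ (c (h₀ (o r))) = h₀ (o r) := by simp
    rw [e, hg₁a, hσr]
  have hg'ne : g' ≠ 1 := by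
    intro e
    have := h2 i
    rw [e, Equiv.swap_apply_left] at this
    exact hij (ho' this)
  have hzr : c (h₀ (o r)) = o' r := by
    by_contra hne
    have hfix := inv_fx_lt hC ht hg' hg'2 hg'ne
    -- the fixed points
    obtain ⟨T, hT⟩ : ∃ T, T = ((R.erase i).erase j).image o' := ⟨_, rfl⟩
    have hjR : j ∈ R := (hmemR j).2 hrj.symm
    have hiR : i ∈ R := (hmemR i).2 hri.symm
    have hTc : T.card + 2 = t := by
      rw [hT, Finset.card_image_of_injective _ ho',
        Finset.card_erase_of_mem (Finset.mem_erase.2 ⟨hij.symm, hjR⟩),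
        Finset.card_erase_of_mem hiR, hRc]
      omega
    have hTfx : ∀ x ∈ T, g' x = x := by
      intro x hx
      rw [hT] at hx
      obtain ⟨p, hp, rfl⟩ := Finset.mem_image.1 hx
      have hpj := (Finset.mem_erase.1 hp).1
      have hpi := (Finset.mem_erase.1 (Finset.mem_erase.1 hp).2).1
      rw [h2, Equiv.swap_apply_of_ne_of_ne hpi hpj]
    have h1T : o' r ∉ T := by
      rw [hT]
      intro h
      obtain ⟨p, hp, hpr⟩ := Finset.mem_image.1 h
      have := (hmemR p).1 (Finset.mem_erase.1 (Finset.mem_erase.1 hp).2).2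
      exact this (ho' hpr)
    have h2T : c (h₀ (o r)) ∉ insert (o' r) T := by
      rw [Finset.mem_insert]
      rintro (h | h)
      · exact hne h
      · rw [hT] at h
        obtain ⟨p, hp, hpr⟩ := Finset.mem_image.1 h
        have hpr' := (hmemR p).1 (Finset.mem_erase.1 (Finset.mem_erase.1 hp).2).2
        rw [← hcR p hpr', ← h₀o p hpr'] at hpr
        have h5 := ho (h₀.injective (c.injective hpr))
        exact hpr' h5
    have hsub : insert (c (h₀ (o r))) (insert (o' r) T) ⊆ fx g' := by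
      intro x hx
      rw [mem_fx]
      rcases Finset.mem_insert.1 hx with rfl | hx
      · exact hz
      · rcases Finset.mem_insert.1 hx with rfl | hx
        · rw [h2, hσr]
        · exact hTfx x hx
    have hcardle := Finset.card_le_card hsub
    rw [Finset.card_insert_of_notMem h2T, Finset.card_insert_of_notMem h1T] at hcardle
    omega
  refine ⟨c * h₀, G.mul_mem hc.1 hh₀, fun p => ?_⟩
  rw [Perm.mul_apply]
  by_cases hp : p = r
  · rw [hp]; exact hzr
  · rw [h₀o p hp, hcR p hp]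

end Cfsg.Agent.H06.LW
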