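import Cfsg.Agent.Lib.H06.LW5

/-! Livingstone–Wagner: the case of odd `m`. -/

set_option autoImplicit false

namespace Cfsg.Agent.H06.LW

open Equiv Finset

universe u
variable {α : Type u} [Fintype α] [DecidableEq α]
variable {G : Subgroup (Perm α)} {t : ℕ}

theorem B_of_commute (hC : Core G t) (ht : 2 ≤ t) {A : Finset α} (hA : A.card = t + 1) {i j : A}
    (hij : i ≠ j) (hs : Equiv.swap i j ∈ Bg G A) {σ' : Perm A}
    (hcomm : σ' * Equiv.swap i j = Equiv.swap i j * σ') : σ' ∈ Bg G A := by
  obtain ⟨g, hg, h1⟩ := hs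
  obtain ⟨h, hh, h2⟩ := P_same hC ht (ι := A) (by simp [hA]) (o := fun x : A => (x : α))
    (o' := fun x : A => ((σ' x : A) : α)) Subtype.val_injective
    (fun x y hxy => σ'.injective (Subtype.ext hxy)) hij hg hg h1 (by
      intro p
      have := congrArg (fun q : Perm A => ((q p : A) : α)) hcomm
      simp only [Perm.mul_apply] at this
      rw [h1, this])
  exact ⟨h, hh, h2⟩

theorem no_swap_large (hC : Core G t) (ht4 : 4 ≤ t) {A : Finset α} (hA : A.card = t + 1) {i j : A}
    (hij : i ≠ j) (hs : Equiv.swap i j ∈ Bg G A) : False := by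
  have ht : 2 ≤ t := by omega
  have hcardA : 5 ≤ Fintype.card A := by rw [Fintype.card_coe]; omega
  apply Bg_ne_top hC hA
  rw [eq_top_iff, ← Equiv.Perm.closure_isSwap, Subgroup.closure_le]
  rintro σ ⟨x, y, hxy, rfl⟩
  have step : ∀ a b c d : A, a ≠ b → c ≠ d → a ≠ c → a ≠ d → b ≠ c → b ≠ d →
      Equiv.swap a b ∈ Bg G A → Equiv.swap c d ∈ Bg G A := by
    intro a b c d hab hcd hac had hbc hbd h
    refine B_of_commute hC ht hA hab h ?_
    exact (Equiv.Perm.Disjoint.commute (Equiv.Perm.disjoint_swap_swap (by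
      simp [hab, hac, had, hbc, hbd, hcd]))).symm.eq
  by_cases hdisj : i ≠ x ∧ i ≠ y ∧ j ≠ x ∧ j ≠ y
  · exact step i j x y hij hxy hdisj.1 hdisj.2.1 hdisj.2.2.1 hdisj.2.2.2 hs
  · have hT : ({i, j, x, y} : Finset A).card ≤ 3 := by
      by_cases h1 : i = x
      · subst h1
        exact (Finset.card_le_card (by
          intro w hw; simp only [Finset.mem_insert, Finset.mem_singleton] at hw ⊢; tauto :
          _ ⊆ ({i, j, y} : Finset A))).trans Finset.card_le_three
      · by_cases h2 : i = y
        · subst h2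
          exact (Finset.card_le_card (by
            intro w hw; simp only [Finset.mem_insert, Finset.mem_singleton] at hw ⊢; tauto :
            _ ⊆ ({i, j, x} : Finset A))).trans Finset.card_le_three
        · by_cases h3 : j = x
          · subst h3
            exact (Finset.card_le_card (by
              intro w hw; simp only [Finset.mem_insert, Finset.mem_singleton] at hw ⊢; tauto :
              _ ⊆ ({i, j, y} : Finset A))).trans Finset.card_le_three
          · have h4 : j = y := by
              by_contra h4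
              exact hdisj ⟨h1, h2, h3, h4⟩
            subst h4
            exact (Finset.card_le_card (by
              intro w hw; simp only [Finset.mem_insert, Finset.mem_singleton] at hw ⊢; tauto :
              _ ⊆ ({i, j, x} : Finset A))).trans Finset.card_le_three
    obtain ⟨p, hp⟩ := exists_notMem_of_card_lt ({i, j, x, y} : Finset A) (by omega)
    obtain ⟨p', hp'⟩ := exists_notMem_of_card_lt (insert p ({i, j, x, y} : Finset A)) (by
      rw [Finset.card_insert_of_notMem hp]; omega)
    simp only [Finset.mem_insert, Finset.mem_singleton, not_or] at hp hp'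
    obtain ⟨h1, h2, h3, h4⟩ := hp
    obtain ⟨h5, h6, h7, h8, h9⟩ := hp'
    have h10 := step i j p p' hij (Ne.symm h5) (Ne.symm h1) (Ne.symm h6) (Ne.symm h2) (Ne.symm h7) hs
    exact step p p' x y (Ne.symm h5) hxy h3 h4 h8 h9 h10

theorem exists_swap_of_odd (hC : Core G t) (ht : 2 ≤ t) (hm : ¬ 2 ∣ Fintype.card α - t) :
    ∃ (A : Finset α) (i j : A), A.card = t + 1 ∧ i ≠ j ∧ Equiv.swap i j ∈ Bg G A := by
  have hbig := hC.big
  obtain ⟨D, -, hD⟩ := Finset.exists_subset_card_eq (s := (univ : Finset α)) (n := t)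
    (by rw [Finset.card_univ]; omega)
  obtain ⟨b, hb, b', hb', hbb'⟩ := Finset.one_lt_card.1 (by omega : 1 < D.card)
  obtain ⟨g, hg, hg2⟩ := hC.ext D hD (Equiv.swap b b') (Equiv.swap b b').injective.injOn
  have hsw : ∀ x ∈ D, Equiv.swap b b' x ∈ D := by
    intro x hx
    rw [Equiv.swap_apply_def]
    split_ifs
    · exact hb'
    · exact hb
    · exact hx
  obtain ⟨r, hr1, hr2⟩ := lift_inv hC ht hD hg (by
    intro x hx
    rw [hg2 x hx, hg2 _ (hsw x hx), Equiv.swap_apply_self])
  obtain ⟨v, hv⟩ : ∃ v, v = g ^ r := ⟨_, rfl⟩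
  rw [← hv] at hr1 hr2
  have hvG : v ∈ G := hv ▸ G.pow_mem hg r
  have hvD : ∀ x ∈ D, v x = Equiv.swap b b' x := fun x hx => by
    rw [(hr2 x hx).1, hg2 x hx]
  have hfp : ∃ a, a ∉ D ∧ v a = a := by
    by_contra hcon
    push_neg at hcon
    have hfx : fx v = (D.erase b).erase b' := by
      ext z
      rw [mem_fx, Finset.mem_erase, Finset.mem_erase]
      constructor
      · intro hz
        have hzD : z ∈ D := by
          by_contra h
          exact hcon z h hz
        refine ⟨?_, ?_, hzD⟩
        · rintro rfl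
          rw [hvD _ hb', Equiv.swap_apply_right] at hz
          exact hbb' hz
        · rintro rfl
          rw [hvD _ hb, Equiv.swap_apply_left] at hz
          exact hbb' hz.symm
      · rintro ⟨h1, h2, h3⟩
        rw [hvD z h3, Equiv.swap_apply_of_ne_of_ne h2 h1]
    have hc : (fx v).card + 2 = t := by
      rw [hfx, Finset.card_erase_of_mem (Finset.mem_erase.2 ⟨hbb'.symm, hb'⟩),
        Finset.card_erase_of_mem hb, hD]
      omega
    have h3 := parity_fx hr1
    omega
  obtain ⟨a, ha, hva⟩ := hfp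
  have hA : (insert a D).card = t + 1 := by rw [Finset.card_insert_of_notMem ha, hD]
  have hbA : b ∈ insert a D := Finset.mem_insert_of_mem hb
  have hb'A : b' ∈ insert a D := Finset.mem_insert_of_mem hb'
  refine ⟨insert a D, ⟨b, hbA⟩, ⟨b', hb'A⟩, hA, fun e => hbb' (congrArg Subtype.val e), ?_⟩
  refine swap_mem_Bg hvG hbA hb'A fun z hz => ?_
  rcases Finset.mem_insert.1 hz with rfl | hz
  · rw [hva, Equiv.swap_apply_of_ne_of_ne (fun e : z = b => ha (e ▸ hb))
      (fun e : z = b' => ha (e ▸ hb'))]
  · exact hvD z hz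

/-- For odd `m`, we have `t ≤ 3`. -/
theorem odd_small (hC : Core G t) (ht : 2 ≤ t) (hm : ¬ 2 ∣ Fintype.card α - t) : t ≤ 3 := by
  by_contra h
  obtain ⟨A, i, j, hA, hij, hs⟩ := exists_swap_of_odd hC ht hm
  exact no_swap_large hC (by omega) hA hij hs

end Cfsg.Agent.H06.LW
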