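import Cfsg.Agent.Lib.H06.LW6

/-! Livingstone–Wagner: lifts of double transpositions; even `m`, `t ≥ 4`. -/

set_option autoImplicit false

namespace Cfsg.Agent.H06.LW

open Equiv Finset

universe u
variable {α : Type u} [Fintype α] [DecidableEq α]
variable {G : Subgroup (Perm α)} {t : ℕ}

/-- the double transposition -/
def dbl (a b c d : α) : Perm α := swap a b * swap c d

/-- four distinct points -/
structure Dist4 (a b c d : α) : Prop where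
  ab : a ≠ b
  ac : a ≠ c
  ad : a ≠ d
  bc : b ≠ c
  bd : b ≠ d
  cd : c ≠ d

section dbl
variable {a b c d : α}

theorem dbl_a (h : Dist4 a b c d) : dbl a b c d a = b := by
  rw [dbl, Perm.mul_apply, swap_apply_of_ne_of_ne h.ac h.ad, swap_apply_left]

theorem dbl_b (h : Dist4 a b c d) : dbl a b c d b = a := by
  rw [dbl, Perm.mul_apply, swap_apply_of_ne_of_ne h.bc h.bd, swap_apply_right]

theorem dbl_c (h : Dist4 a b c d) : dbl a b c d c = d := by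
  rw [dbl, Perm.mul_apply, swap_apply_left, swap_apply_of_ne_of_ne h.ad.symm h.bd.symm]

theorem dbl_d (_h : Dist4 a b c d) (h : Dist4 a b c d) : dbl a b c d d = c := by
  rw [dbl, Perm.mul_apply, swap_apply_right, swap_apply_of_ne_of_ne h.ac.symm h.bc.symm]

theorem dbl_o {x : α} (h1 : x ≠ a) (h2 : x ≠ b) (h3 : x ≠ c) (h4 : x ≠ d) : dbl a b c d x = x := by
  rw [dbl, Perm.mul_apply, swap_apply_of_ne_of_ne h3 h4, swap_apply_of_ne_of_ne h1 h2]

theorem dbl_invol (h : Dist4 a b c d) (x : α) : dbl a b c d (dbl a b c d x) = x := by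
  by_cases h1 : x = a
  · subst h1; rw [dbl_a h, dbl_b h]
  by_cases h2 : x = b
  · subst h2; rw [dbl_b h, dbl_a h]
  by_cases h3 : x = c
  · subst h3; rw [dbl_c h, dbl_d h h]
  by_cases h4 : x = d
  · subst h4; rw [dbl_d h h, dbl_c h]
  rw [dbl_o h1 h2 h3 h4, dbl_o h1 h2 h3 h4]

theorem dbl_mem {D : Finset α} (h : Dist4 a b c d) (ha : a ∈ D) (hb : b ∈ D) (hc : c ∈ D)
    (hd : d ∈ D) {x : α} (hx : x ∈ D) : dbl a b c d x ∈ D := by
  by_cases h1 : x = a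
  · subst h1; rw [dbl_a h]; exact hb
  by_cases h2 : x = b
  · subst h2; rw [dbl_b h]; exact ha
  by_cases h3 : x = c
  · subst h3; rw [dbl_c h]; exact hd
  by_cases h4 : x = d
  · subst h4; rw [dbl_d h h]; exact hc
  rw [dbl_o h1 h2 h3 h4]; exact hx

theorem dbl_mul (h : Dist4 a b c d) (x : α) :
    dbl a b c d (dbl a c b d x) = dbl a d b c x := by
  have h2 : Dist4 a c b d := ⟨h.ac, h.ab, h.ad, h.bc.symm, h.cd, h.bd⟩
  have h3 : Dist4 a d b c := ⟨h.ad, h.ab, h.ac, h.bd.symm, h.cd.symm, h.bc⟩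
  by_cases h1 : x = a
  · subst h1; rw [dbl_a h2, dbl_c h, dbl_a h3]
  by_cases h4 : x = b
  · subst h4; rw [dbl_c h2, dbl_d h h, dbl_c h3]
  by_cases h5 : x = c
  · subst h5; rw [dbl_b h2, dbl_a h, dbl_d h3 h3]
  by_cases h6 : x = d
  · subst h6; rw [dbl_d h2 h2, dbl_b h, dbl_b h3]
  rw [dbl_o h1 h5 h4 h6, dbl_o h1 h4 h5 h6, dbl_o h1 h6 h4 h5]

/-- the remaining points of `D` -/
def psi (D : Finset α) (a b c d : α) : Finset α := D \ {a, b, c, d}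

theorem mem_psi {D : Finset α} {x : α} :
    x ∈ psi D a b c d ↔ x ∈ D ∧ x ≠ a ∧ x ≠ b ∧ x ≠ c ∧ x ≠ d := by
  simp [psi, Finset.mem_sdiff, not_or]

theorem card_psi {D : Finset α} (h : Dist4 a b c d) (ha : a ∈ D) (hb : b ∈ D) (hc : c ∈ D)
    (hd : d ∈ D) : (psi D a b c d).card + 4 = D.card := by
  have h1 : ({a, b, c, d} : Finset α).card = 4 := by
    rw [Finset.card_insert_of_notMem, Finset.card_insert_of_notMem, Finset.card_pair h.cd]
    · simp [h.bc, h.bd]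
    · simp [h.ab, h.ac, h.ad]
  have h2 : ({a, b, c, d} : Finset α) ⊆ D := by
    intro x hx
    simp only [Finset.mem_insert, Finset.mem_singleton] at hx
    rcases hx with rfl | rfl | rfl | rfl <;> assumption
  rw [psi, Finset.card_sdiff_of_subset h2, h1]
  have := Finset.card_le_card h2
  omega

theorem D_cases {D : Finset α} {x : α} (hx : x ∈ D) :
    x = a ∨ x = b ∨ x = c ∨ x = d ∨ x ∈ psi D a b c d := by
  by_cases h1 : x = a
  · exact Or.inl h1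
  by_cases h2 : x = b
  · exact Or.inr (Or.inl h2)
  by_cases h3 : x = c
  · exact Or.inr (Or.inr (Or.inl h3))
  by_cases h4 : x = d
  · exact Or.inr (Or.inr (Or.inr (Or.inl h4)))
  exact Or.inr (Or.inr (Or.inr (Or.inr (mem_psi.2 ⟨hx, h1, h2, h3, h4⟩))))

end dbl

theorem fx_conj (h v : Perm α) : (fx (h * v * h⁻¹)).card = (fx v).card := by
  have : fx (h * v * h⁻¹) = (fx v).image h := by
    ext x
    simp only [mem_fx, Finset.mem_image, Perm.mul_apply]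
    constructor
    · intro hx
      refine ⟨h⁻¹ x, ?_, by simp⟩
      apply h.injective
      rw [hx]
      simp
    · rintro ⟨y, hy, rfl⟩
      simp [hy]
  rw [this, Finset.card_image_of_injective _ h.injective]

theorem four_swaps {a₁ a₂ c₁ c₂ a b c d : α} (h1 : Dist4 a₁ a₂ c₁ c₂) (h2 : Dist4 a b c d)
    (h3 : ∀ x, (x = a₁ ∨ x = a₂ ∨ x = c₁ ∨ x = c₂) → x ≠ a ∧ x ≠ b ∧ x ≠ c ∧ x ≠ d) :
    ∃ π : Perm α, π a₁ = a ∧ π a₂ = b ∧ π c₁ = c ∧ π c₂ = d ∧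
      ∀ x, x ≠ a₁ → x ≠ a₂ → x ≠ c₁ → x ≠ c₂ → x ≠ a → x ≠ b → x ≠ c → x ≠ d → π x = x := by
  obtain ⟨e1, e2, e3, e4⟩ := h3 a₁ (Or.inl rfl)
  obtain ⟨f1, f2, f3, f4⟩ := h3 a₂ (Or.inr (Or.inl rfl))
  obtain ⟨g1, g2, g3, g4⟩ := h3 c₁ (Or.inr (Or.inr (Or.inl rfl)))
  obtain ⟨k1, k2, k3, k4⟩ := h3 c₂ (Or.inr (Or.inr (Or.inr rfl)))
  refine ⟨swap a₁ a * (swap a₂ b * (swap c₁ c * swap c₂ d)), ?_, ?_, ?_, ?_, ?_⟩
  · simp only [Perm.mul_apply]
    rw [swap_apply_of_ne_of_ne h1.ad e4, swap_apply_of_ne_of_ne h1.ac e3,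
      swap_apply_of_ne_of_ne h1.ab e2, swap_apply_left]
  · simp only [Perm.mul_apply]
    rw [swap_apply_of_ne_of_ne h1.bd f4, swap_apply_of_ne_of_ne h1.bc f3, swap_apply_left,
      swap_apply_of_ne_of_ne e2.symm h2.ab.symm]
  · simp only [Perm.mul_apply]
    rw [swap_apply_of_ne_of_ne h1.cd g4, swap_apply_left,
      swap_apply_of_ne_of_ne f3.symm h2.bc.symm, swap_apply_of_ne_of_ne e3.symm h2.ac.symm]
  · simp only [Perm.mul_apply]
    rw [swap_apply_left, swap_apply_of_ne_of_ne g4.symm h2.cd.symm,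
      swap_apply_of_ne_of_ne f4.symm h2.bd.symm, swap_apply_of_ne_of_ne e4.symm h2.ad.symm]
  · intro x x1 x2 x3 x4 x5 x6 x7 x8
    simp only [Perm.mul_apply]
    rw [swap_apply_of_ne_of_ne x4 x8, swap_apply_of_ne_of_ne x3 x7, swap_apply_of_ne_of_ne x2 x6,
      swap_apply_of_ne_of_ne x1 x5]

/-- Involutions lifting a double transposition on a `t`-set fix exactly `t - 2` points. -/
theorem double_fx (hC : Core G t) (ht4 : 4 ≤ t) (hm : 2 ∣ Fintype.card α - t)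
    (hm4 : 4 ≤ Fintype.card α - t) {D : Finset α} (hD : D.card = t) {a b c d : α}
    (ha : a ∈ D) (hb : b ∈ D) (hc : c ∈ D) (hd : d ∈ D) (h4 : Dist4 a b c d) {v : Perm α}
    (hv : v ∈ G) (h1 : v * v = 1) (h2 : ∀ x ∈ D, v x = dbl a b c d x) :
    (fx v).card + 2 = t := by
  have ht : 2 ≤ t := by omega
  have hpc := card_psi h4 ha hb hc hd
  obtain ⟨Ψ, hΨ⟩ : ∃ Ψ, Ψ = psi D a b c d := ⟨_, rfl⟩
  rw [← hΨ] at hpc
  have hmemΨ : ∀ x, x ∈ Ψ ↔ x ∈ D ∧ x ≠ a ∧ x ≠ b ∧ x ≠ c ∧ x ≠ d := by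
    intro x; rw [hΨ]; exact mem_psi
  have hcase : ∀ x ∈ D, x = a ∨ x = b ∨ x = c ∨ x = d ∨ x ∈ Ψ := by
    intro x hx; rw [hΨ]; exact D_cases hx
  -- the special involution
  obtain ⟨g, hg, hg2⟩ := hC.ext D hD (swap c d) (swap c d).injective.injOn
  have hsw : ∀ x ∈ D, swap c d x ∈ D := by
    intro x hx
    rw [swap_apply_def]
    split_ifs
    · exact hd
    · exact hc
    · exact hx
  obtain ⟨r, hr1, hr2⟩ := lift_inv hC ht hD hg (by
    intro x hx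
    rw [hg2 x hx, hg2 _ (hsw x hx), swap_apply_self])
  obtain ⟨s, hs⟩ : ∃ s, s = g ^ r := ⟨_, rfl⟩
  rw [← hs] at hr1 hr2
  have hsG : s ∈ G := hs ▸ G.pow_mem hg r
  have hsD : ∀ x ∈ D, s x = swap c d x := fun x hx => by
    rw [(hr2 x hx).1, hg2 x hx]
  have hsne : s ≠ 1 := by
    intro e
    have := hsD c hc
    rw [e, swap_apply_left] at this
    exact h4.cd this
  have hsle := inv_fx_even hC ht hm hsG hr1 hsne
  have hab : a ∉ insert b Ψ := by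
    rw [Finset.mem_insert, hmemΨ]
    rintro (h | h)
    · exact h4.ab h
    · exact h.2.1 rfl
  have hbΨ : b ∉ Ψ := fun h => ((hmemΨ _).1 h).2.2.1 rfl
  have hfxs : fx s = insert a (insert b Ψ) := by
    symm
    apply Finset.eq_of_subset_of_card_le
    · intro x hx
      rw [mem_fx]
      have hxD : x ∈ D ∧ x ≠ c ∧ x ≠ d := by
        rcases Finset.mem_insert.1 hx with rfl | hx
        · exact ⟨ha, h4.ac, h4.ad⟩
        · rcases Finset.mem_insert.1 hx with rfl | hx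
          · exact ⟨hb, h4.bc, h4.bd⟩
          · obtain ⟨h5, -, -, h6, h7⟩ := (hmemΨ _).1 hx
            exact ⟨h5, h6, h7⟩
      rw [hsD x hxD.1, swap_apply_of_ne_of_ne hxD.2.1 hxD.2.2]
    · rw [Finset.card_insert_of_notMem hab, Finset.card_insert_of_notMem hbΨ]
      omega
  have hscard : (fx s).card + 2 = t := by
    rw [hfxs, Finset.card_insert_of_notMem hab, Finset.card_insert_of_notMem hbΨ]
    omega
  have hno : ∀ z, z ∉ D → s z ≠ z := by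
    intro z hz h
    have h5 : z ∈ fx s := mem_fx.2 h
    rw [hfxs] at h5
    rcases Finset.mem_insert.1 h5 with rfl | h5
    · exact hz ha
    · rcases Finset.mem_insert.1 h5 with rfl | h5
      · exact hz hb
      · exact hz ((hmemΨ _).1 h5).1
  have hout : ∀ z, z ∉ D → s z ∉ D := by
    intro z hz h
    have h5 := hsD _ h
    rw [sq_apply hr1] at h5
    rw [h5] at hz
    exact hz (hsw _ h)
  have hbig := hC.big
  obtain ⟨a₁, ha₁⟩ := exists_notMem hC hD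
  obtain ⟨a₂, ha₂⟩ : ∃ a₂, a₂ = s a₁ := ⟨_, rfl⟩
  have ha₂D : a₂ ∉ D := ha₂ ▸ hout a₁ ha₁
  have ha₁₂ : a₁ ≠ a₂ := by rw [ha₂]; exact (hno a₁ ha₁).symm
  have hcard2 : (insert a₁ (insert a₂ D)).card < Fintype.card α := by
    rw [Finset.card_insert_of_notMem, Finset.card_insert_of_notMem ha₂D, hD]
    · omega
    · rw [Finset.mem_insert]
      rintro (h | h)
      · exact ha₁₂ h
      · exact ha₁ h
  obtain ⟨c₁, hc₁⟩ := exists_notMem_of_card_lt _ hcard2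
  simp only [Finset.mem_insert, not_or] at hc₁
  obtain ⟨hc₁1, hc₁2, hc₁D⟩ := hc₁
  obtain ⟨c₂, hc₂⟩ : ∃ c₂, c₂ = s c₁ := ⟨_, rfl⟩
  have hc₂D : c₂ ∉ D := hc₂ ▸ hout c₁ hc₁D
  have hc₁₂ : c₁ ≠ c₂ := by rw [hc₂]; exact (hno c₁ hc₁D).symm
  have hsa₂ : s a₂ = a₁ := by rw [ha₂, sq_apply hr1]
  have hsc₂ : s c₂ = c₁ := by rw [hc₂, sq_apply hr1]
  have ha₁c₂ : a₁ ≠ c₂ := by
    rintro rfl
    apply hc₁2
    rw [ha₂, hc₂, sq_apply hr1]
  have ha₂c₂ : a₂ ≠ c₂ := by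
    intro e
    apply hc₁1
    rw [ha₂, hc₂] at e
    exact (s.injective e).symm
  have hD4 : Dist4 a₁ a₂ c₁ c₂ := ⟨ha₁₂, Ne.symm hc₁1, ha₁c₂, Ne.symm hc₁2, ha₂c₂, hc₁₂⟩
  have hnotD : ∀ x, (x = a₁ ∨ x = a₂ ∨ x = c₁ ∨ x = c₂) → x ∉ D := by
    rintro x (rfl | rfl | rfl | rfl)
    · exact ha₁
    · exact ha₂D
    · exact hc₁D
    · exact hc₂D
  obtain ⟨π, hπ1, hπ2, hπ3, hπ4, hπ5⟩ := four_swaps hD4 h4 (by
    intro x hx
    have := hnotD x hx
    refine ⟨?_, ?_, ?_, ?_⟩ <;> (rintro rfl; contradiction))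
  -- the transported set
  obtain ⟨Ds, hDs⟩ : ∃ Ds, Ds = insert a₁ (insert a₂ (insert c₁ (insert c₂ Ψ))) := ⟨_, rfl⟩
  have hΨD : ∀ x ∈ Ψ, x ∈ D := fun x hx => ((hmemΨ _).1 hx).1
  have hDsc : Ds.card = t := by
    rw [hDs, Finset.card_insert_of_notMem, Finset.card_insert_of_notMem,
      Finset.card_insert_of_notMem, Finset.card_insert_of_notMem]
    · omega
    · exact fun h => hc₂D (hΨD _ h)
    · rw [Finset.mem_insert]
      rintro (h | h)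
      · exact hc₁₂ h
      · exact hc₁D (hΨD _ h)
    · simp only [Finset.mem_insert]
      rintro (h | h | h)
      · exact hc₁2 h.symm
      · exact ha₂c₂ h
      · exact ha₂D (hΨD _ h)
    · simp only [Finset.mem_insert]
      rintro (h | h | h | h)
      · exact ha₁₂ h
      · exact hc₁1 h.symm
      · exact ha₁c₂ h
      · exact ha₁ (hΨD _ h)
  obtain ⟨k, hk, hk2⟩ := hC.ext Ds hDsc π π.injective.injOn
  have hka₁ : k a₁ = a := by rw [hk2 _ (by rw [hDs]; simp), hπ1]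
  have hka₂ : k a₂ = b := by rw [hk2 _ (by rw [hDs]; simp), hπ2]
  have hkc₁ : k c₁ = c := by rw [hk2 _ (by rw [hDs]; simp), hπ3]
  have hkc₂ : k c₂ = d := by rw [hk2 _ (by rw [hDs]; simp), hπ4]
  have hkΨ : ∀ x ∈ Ψ, k x = x := by
    intro x hx
    obtain ⟨hxD, x5, x6, x7, x8⟩ := (hmemΨ _).1 hx
    have hin : x ∈ Ds := by
      rw [hDs]
      simp [hx]
    rw [hk2 x hin]
    refine hπ5 x ?_ ?_ ?_ ?_ x5 x6 x7 x8
    · rintro rfl; exact ha₁ hxD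
    · rintro rfl; exact ha₂D hxD
    · rintro rfl; exact hc₁D hxD
    · rintro rfl; exact hc₂D hxD
  obtain ⟨u₀, hu₀⟩ : ∃ u₀, u₀ = k * s * k⁻¹ := ⟨_, rfl⟩
  have hu₀G : u₀ ∈ G := by
    rw [hu₀]; exact G.mul_mem (G.mul_mem hk hsG) (G.inv_mem hk)
  have hu₀2 : u₀ * u₀ = 1 := by
    rw [hu₀]
    calc k * s * k⁻¹ * (k * s * k⁻¹) = k * (s * s) * k⁻¹ := by group
      _ = 1 := by rw [hr1]; group
  have hu₀a : ∀ x, u₀ (k x) = k (s x) := by
    intro x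
    rw [hu₀]
    simp [Perm.mul_apply]
  have hagree : ∀ x ∈ D, u₀ x = v x := by
    intro x hx
    rw [h2 x hx]
    rcases hcase x hx with rfl | rfl | rfl | rfl | hΨx
    · rw [dbl_a h4, ← hka₁, hu₀a, ← ha₂, hka₂]
    · rw [dbl_b h4, ← hka₂, hu₀a, hsa₂, hka₁]
    · rw [dbl_c h4, ← hkc₁, hu₀a, ← hc₂, hkc₂]
    · rw [dbl_d h4 h4, ← hkc₂, hu₀a, hsc₂, hkc₁]
    · obtain ⟨hxD, x5, x6, x7, x8⟩ := (hmemΨ _).1 hΨx
      rw [dbl_o x5 x6 x7 x8]
      have e1 : s x = x := by rw [hsD x hxD, swap_apply_of_ne_of_ne x7 x8]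
      conv_lhs => rw [← hkΨ x hΨx]
      rw [hu₀a, e1, hkΨ x hΨx]
  obtain ⟨c₀, -, hc₀⟩ := conj_of_agree hC ht hD hu₀G hv hu₀2 h1 hagree
  rw [hc₀, fx_conj, hu₀, fx_conj]
  exact hscard

theorem exists_four {D : Finset α} (hD : 4 ≤ D.card) :
    ∃ a b c d, a ∈ D ∧ b ∈ D ∧ c ∈ D ∧ d ∈ D ∧ Dist4 a b c d := by
  obtain ⟨a, ha, b, hb, hab⟩ := Finset.one_lt_card.1 (by omega : 1 < D.card)
  have h1 : 1 < ((D.erase a).erase b).card := by
    rw [Finset.card_erase_of_mem (Finset.mem_erase.2 ⟨hab.symm, hb⟩), Finset.card_erase_of_mem ha]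
    omega
  obtain ⟨c, hc, d, hd, hcd⟩ := Finset.one_lt_card.1 h1
  simp only [Finset.mem_erase] at hc hd
  exact ⟨a, b, c, d, ha, hb, hc.2.2, hd.2.2,
    ⟨hab, hc.2.1.symm, hd.2.1.symm, hc.1.symm, hd.1.symm, hcd⟩⟩

theorem lift_dbl (hC : Core G t) (ht : 2 ≤ t) {D : Finset α} (hD : D.card = t) {a b c d : α}
    (ha : a ∈ D) (hb : b ∈ D) (hc : c ∈ D) (hd : d ∈ D) (h4 : Dist4 a b c d) :
    ∃ v ∈ G, v * v = 1 ∧ ∀ x ∈ D, v x = dbl a b c d x := by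
  obtain ⟨g, hg, hg2⟩ := hC.ext D hD (dbl a b c d) (dbl a b c d).injective.injOn
  obtain ⟨r, hr1, hr2⟩ := lift_inv hC ht hD hg (by
    intro x hx
    rw [hg2 x hx, hg2 _ (dbl_mem h4 ha hb hc hd hx), dbl_invol h4])
  exact ⟨g ^ r, G.pow_mem hg r, hr1, fun x hx => by rw [(hr2 x hx).1, hg2 x hx]⟩

end Cfsg.Agent.H06.LW
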