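import Cfsg.Agent.Lib.H06.LW7

/-! Livingstone–Wagner: even `m`, `t ≥ 4`. -/

set_option autoImplicit false

namespace Cfsg.Agent.H06.LW

open Equiv Finset

universe u
variable {α : Type u} [Fintype α] [DecidableEq α]
variable {G : Subgroup (Perm α)} {t : ℕ}

theorem cent_trivial (hC : Core G t) (ht4 : 4 ≤ t) (hm : 2 ∣ Fintype.card α - t)
    (hm4 : 4 ≤ Fintype.card α - t) {D : Finset α} (hD : D.card = t) {a b c d : α}
    (ha : a ∈ D) (hb : b ∈ D) (hc : c ∈ D) (hd : d ∈ D) (h4 : Dist4 a b c d) {v : Perm α}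
    (hv : v ∈ G) (h1 : v * v = 1) (h2 : ∀ x ∈ D, v x = dbl a b c d x) {y : Perm α}
    (hy : y ∈ pf G D) (hcomm : y * v = v * y) : y = 1 := by
  have ht : 2 ≤ t := by omega
  have hcard := double_fx hC ht4 hm hm4 hD ha hb hc hd h4 hv h1 h2
  have hpc := card_psi h4 ha hb hc hd
  obtain ⟨Ψ, hΨ⟩ : ∃ Ψ, Ψ = psi D a b c d := ⟨_, rfl⟩
  rw [← hΨ] at hpc
  have hmemΨ : ∀ x, x ∈ Ψ ↔ x ∈ D ∧ x ≠ a ∧ x ≠ b ∧ x ≠ c ∧ x ≠ d := by
    intro x; rw [hΨ]; exact mem_psi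
  have hcase : ∀ x ∈ D, x = a ∨ x = b ∨ x = c ∨ x = d ∨ x ∈ Ψ := by
    intro x hx; rw [hΨ]; exact D_cases hx
  have hΨfx : Ψ ⊆ fx v := by
    intro x hx
    obtain ⟨hxD, x5, x6, x7, x8⟩ := (hmemΨ _).1 hx
    rw [mem_fx, h2 x hxD, dbl_o x5 x6 x7 x8]
  have hZc : (fx v \ Ψ).card = 2 := by
    rw [Finset.card_sdiff_of_subset hΨfx]
    omega
  obtain ⟨e, f, hef, hZ⟩ := Finset.card_eq_two.1 hZc
  have hmemZ : ∀ x, x ∈ fx v \ Ψ ↔ x = e ∨ x = f := by
    intro x; rw [hZ]; simp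
  have hZD : ∀ x, x ∈ fx v \ Ψ → x ∉ D := by
    intro x hx hxD
    obtain ⟨h5, h6⟩ := Finset.mem_sdiff.1 hx
    rw [mem_fx, h2 x hxD] at h5
    rcases hcase x hxD with rfl | rfl | rfl | rfl | hΨx
    · rw [dbl_a h4] at h5; exact h4.ab h5.symm
    · rw [dbl_b h4] at h5; exact h4.ab h5
    · rw [dbl_c h4] at h5; exact h4.cd h5.symm
    · rw [dbl_d h4 h4] at h5; exact h4.cd h5
    · exact h6 hΨx
  have hmap : ∀ x, x ∈ fx v \ Ψ → y x ∈ fx v \ Ψ := by
    intro x hx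
    obtain ⟨h5, h6⟩ := Finset.mem_sdiff.1 hx
    refine Finset.mem_sdiff.2 ⟨?_, ?_⟩
    · rw [mem_fx] at h5 ⊢
      have := congrArg (fun p : Perm α => p x) hcomm
      simp only [Perm.mul_apply] at this
      rw [← this, h5]
    · intro h
      have h7 := hy.2 _ ((hmemΨ _).1 h).1
      have h8 := y.injective h7
      rw [h8] at h
      exact h6 h
  have heZ : e ∈ fx v \ Ψ := (hmemZ e).2 (Or.inl rfl)
  have hfZ : f ∈ fx v \ Ψ := (hmemZ f).2 (Or.inr rfl)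
  have hye : y e = e := by
    by_contra hne
    have h5 : y e = f := by
      rcases (hmemZ _).1 (hmap e heZ) with h | h
      · exact absurd h hne
      · exact h
    have h6 : y f = e := by
      rcases (hmemZ _).1 (hmap f hfZ) with h | h
      · exact h
      · exact absurd (y.injective (h.trans h5.symm)) hef.symm
    have h7 : (y * y) e = e := by rw [Perm.mul_apply, h5, h6]
    obtain ⟨u, hu⟩ := odd_order_pf hC ht hD hy
    have h8 : (y * y) ^ (u + 1) = y := by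
      rw [← pow_two, ← pow_mul]
      have : 2 * (u + 1) = orderOf y + 1 := by omega
      rw [this, pow_succ, pow_orderOf_eq_one, one_mul]
    have h9 := Equiv.Perm.pow_apply_eq_self_of_apply_eq_self h7 (u + 1)
    rw [h8] at h9
    exact hne h9
  refine eq_one_of_fix hC hy.1 (S := insert e D)
    (by rw [Finset.card_insert_of_notMem (hZD e heZ), hD]) fun x hx => ?_
  rcases Finset.mem_insert.1 hx with rfl | hx
  · exact hye
  · exact hy.2 x hx

theorem inverts {K : Subgroup (Perm α)} {v : Perm α} (hv2 : v * v = 1)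
    (hnorm : ∀ y ∈ K, v * y * v⁻¹ ∈ K) (hcent : ∀ y ∈ K, y * v = v * y → y = 1) :
    ∀ y ∈ K, v * y * v⁻¹ = y⁻¹ := by
  have hvi : v⁻¹ = v := inv_eq_of_mul_eq_one_left hv2
  let φ : K → K := fun c => ⟨c⁻¹ * (v * c * v⁻¹), K.mul_mem (K.inv_mem c.2) (hnorm c c.2)⟩
  have hinj : Function.Injective φ := by
    intro c d hcd
    have h1 : (c : Perm α)⁻¹ * (v * c * v⁻¹) = (d : Perm α)⁻¹ * (v * d * v⁻¹) :=
      congrArg Subtype.val hcd
    have h2 : (d : Perm α) * (c : Perm α)⁻¹ = v * (d * (c : Perm α)⁻¹) * v⁻¹ := by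
      have h3 : (d : Perm α) * ((c : Perm α)⁻¹ * (v * c * v⁻¹)) * (v * c * v⁻¹)⁻¹ =
          d * ((d : Perm α)⁻¹ * (v * d * v⁻¹)) * (v * c * v⁻¹)⁻¹ := by rw [h1]
      calc (d : Perm α) * (c : Perm α)⁻¹
          = (d : Perm α) * ((c : Perm α)⁻¹ * (v * c * v⁻¹)) * (v * c * v⁻¹)⁻¹ := by group
        _ = d * ((d : Perm α)⁻¹ * (v * d * v⁻¹)) * (v * c * v⁻¹)⁻¹ := h3
        _ = _ := by group
    have h4 : (d : Perm α) * (c : Perm α)⁻¹ * v = v * (d * (c : Perm α)⁻¹) := by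
      exact (mul_inv_eq_iff_eq_mul.1 h2.symm).symm
    have h5 := hcent _ (K.mul_mem d.2 (K.inv_mem c.2)) h4
    have h6 : (d : Perm α) = c := mul_inv_eq_one.1 h5
    exact (Subtype.ext h6).symm
  have hsurj := Finite.injective_iff_surjective.1 hinj
  intro y hy
  obtain ⟨c, hc⟩ := hsurj ⟨y, hy⟩
  have hc' : (c : Perm α)⁻¹ * (v * c * v⁻¹) = y := congrArg Subtype.val hc
  rw [← hc', hvi]
  calc v * ((c : Perm α)⁻¹ * (v * c * v)) * v = v * (c : Perm α)⁻¹ * v * c * (v * v) := by group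
    _ = v * (c : Perm α)⁻¹ * v * c := by rw [hv2, mul_one]
    _ = v⁻¹ * (c : Perm α)⁻¹ * v⁻¹ * c := by rw [hvi]
    _ = _ := by group

/-- For even `m ≥ 4` and `t ≥ 4`, the group is sharply `t`-transitive. -/
theorem K_trivial (hC : Core G t) (ht4 : 4 ≤ t) (hm : 2 ∣ Fintype.card α - t)
    (hm4 : 4 ≤ Fintype.card α - t) {D : Finset α} (hD : D.card = t) {y : Perm α}
    (hy : y ∈ pf G D) : y = 1 := by
  have ht : 2 ≤ t := by omega
  obtain ⟨a, b, c, d, ha, hb, hc, hd, h4⟩ := exists_four (D := D) (by omega)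
  have h4' : Dist4 a c b d := ⟨h4.ac, h4.ab, h4.ad, h4.bc.symm, h4.cd, h4.bd⟩
  have h4'' : Dist4 a d b c := ⟨h4.ad, h4.ab, h4.ac, h4.bd.symm, h4.cd.symm, h4.bc⟩
  have hinvert : ∀ {a b c d : α}, a ∈ D → b ∈ D → c ∈ D → d ∈ D → Dist4 a b c d → ∀ {u : Perm α},
      u ∈ G → u * u = 1 → (∀ x ∈ D, u x = dbl a b c d x) → ∀ z ∈ pf G D, u * z * u⁻¹ = z⁻¹ := by
    intro a b c d ha hb hc hd h4 u hu hu2 hu3
    refine inverts hu2 ?_ fun z hz hzc =>
      cent_trivial hC ht4 hm hm4 hD ha hb hc hd h4 hu hu2 hu3 hz hzc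
    intro z hz
    refine ⟨G.mul_mem (G.mul_mem hu hz.1) (G.inv_mem hu), fun x hx => ?_⟩
    have hui : u⁻¹ = u := inv_eq_of_mul_eq_one_left hu2
    rw [hui]
    simp only [Perm.mul_apply]
    have h5 : u x ∈ D := by
      rw [hu3 x hx]
      exact dbl_mem h4 ha hb hc hd hx
    rw [hz.2 _ h5, sq_apply hu2]
  obtain ⟨u₁, hu₁, hu₁2, hu₁3⟩ := lift_dbl hC ht hD ha hb hc hd h4
  obtain ⟨u₂, hu₂, hu₂2, hu₂3⟩ := lift_dbl hC ht hD ha hc hb hd h4'
  have hw : ∀ x ∈ D, (u₁ * u₂) x = dbl a d b c x := by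
    intro x hx
    rw [Perm.mul_apply, hu₂3 x hx, hu₁3 _ (dbl_mem h4' ha hc hb hd hx), dbl_mul h4]
  have hw2 : ∀ x ∈ D, (u₁ * u₂) ((u₁ * u₂) x) = x := by
    intro x hx
    rw [hw x hx, hw _ (dbl_mem h4'' ha hd hb hc hx), dbl_invol h4'']
  obtain ⟨r, hr1, hr2⟩ := lift_inv hC ht hD (G.mul_mem hu₁ hu₂) hw2
  have hwy : (u₁ * u₂) * y = y * (u₁ * u₂) := by
    have h5 := hinvert ha hb hc hd h4 hu₁ hu₁2 hu₁3 y⁻¹ ((pf G D).inv_mem hy)
    have h6 := hinvert ha hc hb hd h4' hu₂ hu₂2 hu₂3 y hy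
    have h7 : (u₁ * u₂) * y * (u₁ * u₂)⁻¹ = y := by
      calc (u₁ * u₂) * y * (u₁ * u₂)⁻¹ = u₁ * (u₂ * y * u₂⁻¹) * u₁⁻¹ := by group
        _ = u₁ * y⁻¹ * u₁⁻¹ := by rw [h6]
        _ = y := by rw [h5, inv_inv]
    exact mul_inv_eq_iff_eq_mul.1 h7
  have hcommr : y * (u₁ * u₂) ^ r = (u₁ * u₂) ^ r * y :=
    (Commute.pow_left (show Commute (u₁ * u₂) y from hwy) r).symm.eq
  exact cent_trivial hC ht4 hm hm4 hD ha hd hb hc h4'' (G.pow_mem (G.mul_mem hu₁ hu₂) r) hr1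
    (fun x hx => by rw [(hr2 x hx).1, hw x hx]) hy hcommr

/-- For even `m` and `t ≥ 4` we have `m < 4`. -/
theorem even_large (hC : Core G t) (ht4 : 4 ≤ t) (hm : 2 ∣ Fintype.card α - t)
    (hm4 : 4 ≤ Fintype.card α - t) : False := by
  have ht : 2 ≤ t := by omega
  have hsharp : ∀ {D : Finset α} {y : Perm α}, D.card = t → y ∈ G → (∀ x ∈ D, y x = x) → y = 1 :=
    fun hD hy h => K_trivial hC ht4 hm hm4 hD ⟨hy, h⟩
  have hagree : ∀ {D : Finset α} {y y' : Perm α}, D.card = t → y ∈ G → y' ∈ G →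
      (∀ x ∈ D, y x = y' x) → y = y' := by
    intro D y y' hD hy hy' h
    have h1 : y'⁻¹ * y = 1 := hsharp hD (G.mul_mem (G.inv_mem hy') hy) fun x hx => by
      rw [Perm.mul_apply, h x hx]; simp
    exact (inv_mul_eq_one.1 h1).symm
  have hbig := hC.big
  obtain ⟨D, -, hD⟩ := Finset.exists_subset_card_eq (s := (univ : Finset α)) (n := t)
    (by rw [Finset.card_univ]; omega)
  obtain ⟨a, b, c, d, ha, hb, hc, hd, h4⟩ := exists_four (D := D) (by omega)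
  obtain ⟨v, hv, hv2, hv3⟩ := lift_dbl hC ht hD ha hb hc hd h4
  have hcard := double_fx hC ht4 hm hm4 hD ha hb hc hd h4 hv hv2 hv3
  have hpc := card_psi h4 ha hb hc hd
  obtain ⟨Ψ, hΨ⟩ : ∃ Ψ, Ψ = psi D a b c d := ⟨_, rfl⟩
  rw [← hΨ] at hpc
  have hmemΨ : ∀ x, x ∈ Ψ ↔ x ∈ D ∧ x ≠ a ∧ x ≠ b ∧ x ≠ c ∧ x ≠ d := by
    intro x; rw [hΨ]; exact mem_psi
  have hcase : ∀ x ∈ D, x = a ∨ x = b ∨ x = c ∨ x = d ∨ x ∈ Ψ := by
    intro x hx; rw [hΨ]; exact D_cases hx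
  have hva : v a = b := by rw [hv3 a ha, dbl_a h4]
  have hvb : v b = a := by rw [hv3 b hb, dbl_b h4]
  have hvc : v c = d := by rw [hv3 c hc, dbl_c h4]
  have hvd : v d = c := by rw [hv3 d hd, dbl_d h4 h4]
  have hvΨ : ∀ x ∈ Ψ, v x = x := by
    intro x hx
    obtain ⟨hxD, x5, x6, x7, x8⟩ := (hmemΨ _).1 hx
    rw [hv3 x hxD, dbl_o x5 x6 x7 x8]
  have hΨfx : Ψ ⊆ fx v := fun x hx => mem_fx.2 (hvΨ x hx)
  have hZc : (fx v \ Ψ).card = 2 := by
    rw [Finset.card_sdiff_of_subset hΨfx]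
    omega
  obtain ⟨e, f, hef, hZ⟩ := Finset.card_eq_two.1 hZc
  have hmemZ : ∀ x, x ∈ fx v \ Ψ ↔ x = e ∨ x = f := by
    intro x; rw [hZ]; simp
  have hZD : ∀ x, x ∈ fx v \ Ψ → x ∉ D := by
    intro x hx hxD
    obtain ⟨h5, h6⟩ := Finset.mem_sdiff.1 hx
    rw [mem_fx] at h5
    rcases hcase x hxD with rfl | rfl | rfl | rfl | hΨx
    · rw [hva] at h5; exact h4.ab h5.symm
    · rw [hvb] at h5; exact h4.ab h5
    · rw [hvc] at h5; exact h4.cd h5.symm
    · rw [hvd] at h5; exact h4.cd h5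
    · exact h6 hΨx
  have heZ : e ∈ fx v \ Ψ := (hmemZ e).2 (Or.inl rfl)
  have hfZ : f ∈ fx v \ Ψ := (hmemZ f).2 (Or.inr rfl)
  -- `Φ`
  obtain ⟨Φ, hΦ⟩ : ∃ Φ, Φ = insert c (insert d Ψ) := ⟨_, rfl⟩
  have hdΨ : d ∉ Ψ := fun h => ((hmemΨ _).1 h).2.2.2.2 rfl
  have hcdΨ : c ∉ insert d Ψ := by
    rw [Finset.mem_insert]
    rintro (h | h)
    · exact h4.cd h
    · exact ((hmemΨ _).1 h).2.2.2.1 rfl
  have hΦc : Φ.card + 2 = t := by
    rw [hΦ, Finset.card_insert_of_notMem hcdΨ, Finset.card_insert_of_notMem hdΨ]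
    omega
  have hmemΦ : ∀ x, x ∈ Φ ↔ x = c ∨ x = d ∨ x ∈ Ψ := by
    intro x; rw [hΦ]; simp
  have hvΦ : ∀ x ∈ Φ, v x ∈ Φ := by
    intro x hx
    rw [hmemΦ] at hx ⊢
    rcases hx with rfl | rfl | hx
    · rw [hvc]; exact Or.inr (Or.inl rfl)
    · rw [hvd]; exact Or.inl rfl
    · rw [hvΨ x hx]; exact Or.inr (Or.inr hx)
  have hvout : ∀ x, x ∉ Φ → v x ∉ Φ := by
    intro x hx h
    have := hvΦ _ h
    rw [sq_apply hv2] at this
    exact hx this
  have hTc : ∀ {x y : α}, x ∉ Φ → y ∉ Φ → x ≠ y → (insert x (insert y Φ)).card = t := by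
    intro x y hx hy hxy
    rw [Finset.card_insert_of_notMem, Finset.card_insert_of_notMem hy]
    · omega
    · rw [Finset.mem_insert]
      rintro (h | h)
      · exact hxy h
      · exact hx h
  -- existence of the swapping involutions
  have hex : ∀ x y, x ∉ Φ → y ∉ Φ → x ≠ y → ∃ i ∈ pf G Φ, i x = y ∧ i y = x ∧ i * i = 1 := by
    intro x y hx hy hxy
    obtain ⟨g, hg, hg2⟩ := hC.ext _ (hTc hx hy hxy) (swap x y) (swap x y).injective.injOn
    have hgx : g x = y := by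
      rw [hg2 x (by simp), swap_apply_left]
    have hgy : g y = x := by
      rw [hg2 y (by simp), swap_apply_right]
    have hgΦ : ∀ z ∈ Φ, g z = z := by
      intro z hz
      have h1 : z ≠ x := fun e => hx (e ▸ hz)
      have h2 : z ≠ y := fun e => hy (e ▸ hz)
      rw [hg2 z (by simp [hz]), swap_apply_of_ne_of_ne h1 h2]
    refine ⟨g, ⟨hg, hgΦ⟩, hgx, hgy, ?_⟩
    refine hsharp (hTc hx hy hxy) (G.mul_mem hg hg) fun z hz => ?_
    rw [Perm.mul_apply]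
    rcases Finset.mem_insert.1 hz with rfl | hz
    · rw [hgx, hgy]
    · rcases Finset.mem_insert.1 hz with rfl | hz
      · rw [hgy, hgx]
      · rw [hgΦ z hz, hgΦ z hz]
  -- uniqueness
  have huniq : ∀ {i i' : Perm α} {x y : α}, x ∉ Φ → y ∉ Φ → x ≠ y → i ∈ pf G Φ → i' ∈ pf G Φ →
      i x = i' x → i y = i' y → i = i' := by
    intro i i' x y hx hy hxy hi hi' h1 h2
    refine hagree (hTc hx hy hxy) hi.1 hi'.1 fun z hz => ?_
    rcases Finset.mem_insert.1 hz with rfl | hz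
    · exact h1
    · rcases Finset.mem_insert.1 hz with rfl | hz
      · exact h2
      · rw [hi.2 z hz, hi'.2 z hz]
  have heD : e ∉ Φ := by
    rw [hmemΦ]
    have := hZD e heZ
    rintro (h | h | h)
    · exact this (h ▸ hc)
    · exact this (h ▸ hd)
    · exact this ((hmemΨ _).1 h).1
  have hfD : f ∉ Φ := by
    rw [hmemΦ]
    have := hZD f hfZ
    rintro (h | h | h)
    · exact this (h ▸ hc)
    · exact this (h ▸ hd)
    · exact this ((hmemΨ _).1 h).1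
  obtain ⟨i₀, hi₀, hi₀e, hi₀f, hi₀2⟩ := hex e f heD hfD hef
  -- the main claim
  have hmain : ∀ x, x ∉ Φ → x ∉ fx v \ Ψ → i₀ x = v x ∧ v * i₀ * v = i₀ := by
    intro x hx hxZ
    have hxfx : v x ≠ x := by
      intro h
      apply hxZ
      refine Finset.mem_sdiff.2 ⟨mem_fx.2 h, fun h2 => hx ?_⟩
      rw [hmemΦ]
      exact Or.inr (Or.inr h2)
    obtain ⟨i, hi, hi1, hi2, hi3⟩ := hex x (v x) hx (hvout x hx) hxfx.symm
    have hviv : v * i * v = i := by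
      have hmem : v * i * v ∈ pf G Φ := by
        refine ⟨G.mul_mem (G.mul_mem hv hi.1) hv, fun z hz => ?_⟩
        simp only [Perm.mul_apply]
        rw [hi.2 _ (hvΦ z hz), sq_apply hv2]
      refine huniq hx (hvout x hx) hxfx.symm hmem hi ?_ ?_
      · simp only [Perm.mul_apply]
        rw [hi2, hi1]
      · simp only [Perm.mul_apply]
        rw [sq_apply hv2, hi1, hi2, sq_apply hv2]
    have hcomm : v * i = i * v := by
      calc v * i = v * i * (v * v) := by rw [hv2, mul_one]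
        _ = (v * i * v) * v := by group
        _ = i * v := by rw [hviv]
    have hine : i ≠ 1 := by
      intro h
      rw [h] at hi1
      exact hxfx hi1.symm
    have hfxi : fx i = Φ := by
      symm
      apply Finset.eq_of_subset_of_card_le
      · intro z hz
        exact mem_fx.2 (hi.2 z hz)
      · have := inv_fx_even hC ht hm hi.1 hi3 hine
        omega
    have hmap : ∀ z, z ∈ fx v \ Ψ → i z ∈ fx v \ Ψ := by
      intro z hz
      obtain ⟨h5, h6⟩ := Finset.mem_sdiff.1 hz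
      refine Finset.mem_sdiff.2 ⟨?_, ?_⟩
      · rw [mem_fx] at h5 ⊢
        have := congrArg (fun p : Perm α => p z) hcomm
        simp only [Perm.mul_apply] at this
        rw [this, h5]
      · intro h
        have h7 : i (i z) = i z := hi.2 _ ((hmemΦ _).2 (Or.inr (Or.inr h)))
        have h8 := i.injective h7
        rw [h8] at h
        exact h6 h
    have hie : i e = f := by
      rcases (hmemZ _).1 (hmap e heZ) with h | h
      · exfalso
        have : e ∈ fx i := mem_fx.2 h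
        rw [hfxi] at this
        exact heD this
      · exact h
    have hif : i f = e := by
      rcases (hmemZ _).1 (hmap f hfZ) with h | h
      · exact h
      · exfalso
        have : f ∈ fx i := mem_fx.2 h
        rw [hfxi] at this
        exact hfD this
    have hii₀ : i = i₀ := huniq heD hfD hef hi hi₀ (by rw [hie, hi₀e]) (by rw [hif, hi₀f])
    rw [← hii₀]
    exact ⟨hi1, hviv⟩
  have haΦ : a ∉ Φ := by
    rw [hmemΦ]
    rintro (h | h | h)
    · exact h4.ac h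
    · exact h4.ad h
    · exact ((hmemΨ _).1 h).2.1 rfl
  have haZ : a ∉ fx v \ Ψ := fun h => hZD a h ha
  have hvi₀ := (hmain a haΦ haZ).2
  obtain ⟨z, hz⟩ : ∃ z, z = v * i₀ := ⟨_, rfl⟩
  have hzG : z ∈ G := hz ▸ G.mul_mem hv hi₀.1
  have hz2 : z * z = 1 := by
    rw [hz]
    calc v * i₀ * (v * i₀) = (v * i₀ * v) * i₀ := by group
      _ = 1 := by rw [hvi₀, hi₀2]
  have hzne : z ≠ 1 := by
    intro h
    have h1 : z c = c := by rw [h]; rfl
    rw [hz, Perm.mul_apply, hi₀.2 c ((hmemΦ c).2 (Or.inl rfl)), hvc] at h1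
    exact h4.cd h1.symm
  have hzle := inv_fx_even hC ht hm hzG hz2 hzne
  have hsub : (Φᶜ \ (fx v \ Ψ)) ∪ Ψ ⊆ fx z := by
    intro x hx
    rw [mem_fx, hz, Perm.mul_apply]
    rcases Finset.mem_union.1 hx with hx | hx
    · obtain ⟨h5, h6⟩ := Finset.mem_sdiff.1 hx
      rw [(hmain x (Finset.mem_compl.1 h5) h6).1, sq_apply hv2]
    · rw [hi₀.2 x ((hmemΦ x).2 (Or.inr (Or.inr hx))), hvΨ x hx]
  have hdisj : Disjoint (Φᶜ \ (fx v \ Ψ)) Ψ := by
    rw [Finset.disjoint_left]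
    intro x hx hxΨ
    have h5 := (Finset.mem_sdiff.1 hx).1
    exact (Finset.mem_compl.1 h5) ((hmemΦ x).2 (Or.inr (Or.inr hxΨ)))
  have hZsub : fx v \ Ψ ⊆ Φᶜ := by
    rw [hZ]
    intro x hx
    rw [Finset.mem_compl]
    simp only [Finset.mem_insert, Finset.mem_singleton] at hx
    rcases hx with rfl | rfl
    · exact heD
    · exact hfD
  have hcle := Finset.card_le_card hsub
  rw [Finset.card_union_of_disjoint hdisj, Finset.card_sdiff_of_subset hZsub, hZc,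
    Finset.card_compl] at hcle
  have hle : Φ.card ≤ Fintype.card α := Finset.card_le_univ _
  omega

end Cfsg.Agent.H06.LW
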