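import Cfsg.Agent.Lib.H06.LW8

/-! Livingstone–Wagner: the small cases. -/

set_option autoImplicit false

namespace Cfsg.Agent.H06.LW

open Equiv Finset

universe u
variable {α : Type u} [Fintype α] [DecidableEq α]
variable {G : Subgroup (Perm α)} {t : ℕ}

theorem kappa_odd (hC : Core G t) (ht : 2 ≤ t) {D : Finset α} (hD : D.card = t) :
    ¬ 2 ∣ Nat.card (pf G D) := by
  intro h
  obtain ⟨y, hy⟩ := exists_prime_orderOf_dvd_card' (G := pf G D) 2 h
  have h1 : y ^ 2 = 1 := by rw [← hy]; exact pow_orderOf_eq_one y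
  have h2 : (y : Perm α) * y = 1 := by
    have := congrArg Subtype.val h1
    simpa [pow_two] using this
  have h3 := oddK hC ht hD y.2 h2
  have h4 : y = 1 := Subtype.ext h3
  rw [h4, orderOf_one] at hy
  omega

theorem inv_stS (hC : Core G t) (ht : 2 ≤ t) (h3 : 3 ≤ Fintype.card α - t) :
    ∃ B : Finset α, B.card = t + 2 ∧ 2 ∣ Nat.card (stS G B) := by
  have hbig := hC.big
  obtain ⟨D, -, hD⟩ := Finset.exists_subset_card_eq (s := (univ : Finset α)) (n := t)
    (by rw [Finset.card_univ]; omega)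
  obtain ⟨b, hb, b', hb', hbb'⟩ := Finset.one_lt_card.1 (by omega : 1 < D.card)
  obtain ⟨g, hg, hg2⟩ := hC.ext D hD (Equiv.swap b b') (Equiv.swap b b').injective.injOn
  have hsw : ∀ x ∈ D, Equiv.swap b b' x ∈ D := by
    intro x hx
    rw [Equiv.swap_apply_def]
    split_ifs
    · exact hb'
    · exact hb
    · exact hx
  obtain ⟨r, hr1, hr2⟩ := lift_inv hC ht hD hg (by
    intro x hx
    rw [hg2 x hx, hg2 _ (hsw x hx), Equiv.swap_apply_self])
  obtain ⟨v, hv⟩ : ∃ v, v = g ^ r := ⟨_, rfl⟩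
  rw [← hv] at hr1 hr2
  have hvG : v ∈ G := hv ▸ G.pow_mem hg r
  have hvD : ∀ x ∈ D, v x = Equiv.swap b b' x := fun x hx => by
    rw [(hr2 x hx).1, hg2 x hx]
  have hvne : v ≠ 1 := by
    intro e
    have := hvD b hb
    rw [e, Equiv.swap_apply_left] at this
    exact hbb' this
  have hex : ∃ a, a ∉ D ∧ v a ≠ a := by
    by_contra hcon
    push_neg at hcon
    have hsub : Dᶜ ∪ ((D.erase b).erase b') ⊆ fx v := by
      intro x hx
      rw [mem_fx]
      rcases Finset.mem_union.1 hx with hx | hx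
      · exact hcon x (Finset.mem_compl.1 hx)
      · obtain ⟨h5, h6⟩ := Finset.mem_erase.1 hx
        obtain ⟨h7, h8⟩ := Finset.mem_erase.1 h6
        rw [hvD x h8, Equiv.swap_apply_of_ne_of_ne h7 h5]
    have hdisj : Disjoint Dᶜ ((D.erase b).erase b') := by
      rw [Finset.disjoint_left]
      intro x hx hx2
      exact (Finset.mem_compl.1 hx) (Finset.mem_of_mem_erase (Finset.mem_of_mem_erase hx2))
    have h5 := Finset.card_le_card hsub
    rw [Finset.card_union_of_disjoint hdisj, compl_card hD,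
      Finset.card_erase_of_mem (Finset.mem_erase.2 ⟨hbb'.symm, hb'⟩),
      Finset.card_erase_of_mem hb, hD] at h5
    have h6 := fx_card_le hC hvG hvne
    omega
  obtain ⟨a, ha, hva⟩ := hex
  have hva2 : v a ∉ D := by
    intro h
    have h5 := hvD _ h
    rw [sq_apply hr1] at h5
    rw [h5] at ha
    exact ha (hsw _ h)
  have hins : a ∉ insert (v a) D := by
    rw [Finset.mem_insert]
    rintro (h | h)
    · exact hva h.symm
    · exact ha h
  have hB : (insert a (insert (v a) D)).card = t + 2 := by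
    rw [Finset.card_insert_of_notMem hins, Finset.card_insert_of_notMem hva2, hD]
  refine ⟨_, hB, ?_⟩
  have hst : v ∈ stS G (insert a (insert (v a) D)) := by
    refine ⟨hvG, ?_⟩
    apply Finset.eq_of_subset_of_card_le
    · intro y hy
      obtain ⟨x, hx, rfl⟩ := Finset.mem_image.1 hy
      simp only [Finset.mem_insert] at hx ⊢
      rcases hx with rfl | rfl | hx
      · exact Or.inr (Or.inl rfl)
      · exact Or.inl (sq_apply hr1 _)
      · refine Or.inr (Or.inr ?_)
        rw [hvD x hx]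
        exact hsw x hx
    · rw [Finset.card_image_of_injective _ v.injective]
  have h1 := orderOf_dvd_natCard (⟨v, hst⟩ : stS G (insert a (insert (v a) D)))
  have h2 : orderOf (⟨v, hst⟩ : stS G (insert a (insert (v a) D))) = 2 := by
    apply orderOf_eq_prime
    · apply Subtype.ext
      show v ^ 2 = 1
      rw [pow_two, hr1]
    · intro h
      exact hvne (congrArg Subtype.val h)
  rwa [h2] at h1

theorem fx_modEq (p : ℕ) [Fact p.Prime] {y : Perm α} (hy : y ^ p = 1) :
    Fintype.card α ≡ (fx y).card [MOD p] := by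
  have hP : IsPGroup p (Subgroup.zpowers y) := by
    rintro ⟨g, hg⟩
    obtain ⟨i, rfl⟩ := Subgroup.mem_zpowers_iff.1 hg
    refine ⟨1, Subtype.ext ?_⟩
    show (y ^ i) ^ (p ^ 1) = 1
    rw [pow_one, ← zpow_natCast, ← zpow_mul, mul_comm, zpow_mul, zpow_natCast, hy, one_zpow]
  have h3 := hP.card_modEq_card_fixedPoints α
  rw [Nat.card_eq_fintype_card] at h3
  have h4 : Nat.card (MulAction.fixedPoints (Subgroup.zpowers y) α) = (fx y).card := by
    rw [← Fintype.card_coe, ← Nat.card_eq_fintype_card]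
    refine Nat.card_congr ⟨fun x => ⟨x.1, mem_fx.2 (x.2 ⟨y, Subgroup.mem_zpowers y⟩)⟩,
      fun x => ⟨x.1, ?_⟩, fun x => rfl, fun x => rfl⟩
    rintro ⟨g, hg⟩
    obtain ⟨i, rfl⟩ := Subgroup.mem_zpowers_iff.1 hg
    exact Equiv.Perm.zpow_apply_eq_self_of_apply_eq_self (mem_fx.1 x.2) i
  rwa [h4] at h3

theorem exists_fixed_ne {X : Type*} [Finite X] (p : ℕ) [Fact p.Prime] (τ : Perm X) (hτ : τ ^ p = 1)
    (x₀ : X) (hx₀ : τ x₀ = x₀) (hc : ¬ (Nat.card X ≡ 1 [MOD p])) : ∃ x, x ≠ x₀ ∧ τ x = x := by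
  have hP : IsPGroup p (Subgroup.zpowers τ) := by
    rintro ⟨g, hg⟩
    obtain ⟨i, rfl⟩ := Subgroup.mem_zpowers_iff.1 hg
    refine ⟨1, Subtype.ext ?_⟩
    show (τ ^ i) ^ (p ^ 1) = 1
    rw [pow_one, ← zpow_natCast, ← zpow_mul, mul_comm, zpow_mul, zpow_natCast, hτ, one_zpow]
  have h3 := hP.card_modEq_card_fixedPoints X
  by_contra hcon
  push_neg at hcon
  apply hc
  have h4 : Nat.card (MulAction.fixedPoints (Subgroup.zpowers τ) X) = 1 := by
    rw [Nat.card_eq_one_iff_unique]
    refine ⟨⟨?_⟩, ⟨⟨x₀, ?_⟩⟩⟩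
    · rintro ⟨a, ha⟩ ⟨b, hb⟩
      have h5 : ∀ z ∈ MulAction.fixedPoints (Subgroup.zpowers τ) X, z = x₀ := by
        intro z hz
        by_contra hne
        exact hcon z hne (hz ⟨τ, Subgroup.mem_zpowers τ⟩)
      exact Subtype.ext ((h5 a ha).trans (h5 b hb).symm)
    · rintro ⟨g, hg⟩
      obtain ⟨i, rfl⟩ := Subgroup.mem_zpowers_iff.1 hg
      exact Equiv.Perm.zpow_apply_eq_self_of_apply_eq_self hx₀ i
  rwa [h4] at h3

/-- There is no sharply `3`-transitive group of degree `7`. -/
theorem t3_m4 (hC : Core G 3) (hn : Fintype.card α - 3 = 4)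
    (hκ : ∀ D : Finset α, D.card = 3 → Nat.card (pf G D) = 1) : False := by
  have hbig := hC.big
  have hsharp : ∀ {D : Finset α} {y : Perm α}, D.card = 3 → y ∈ G → (∀ x ∈ D, y x = x) → y = 1 := by
    intro D y hD hy h
    have h1 : pf G D = ⊥ := Subgroup.eq_bot_of_card_eq _ (hκ D hD)
    have h2 : y ∈ pf G D := ⟨hy, h⟩
    rw [h1] at h2
    simpa using h2
  obtain ⟨D, -, hD⟩ := Finset.exists_subset_card_eq (s := (univ : Finset α)) (n := 3)
    (by rw [Finset.card_univ]; omega)
  obtain ⟨p, q, r, hpq, hpr, hqr, rfl⟩ := Finset.card_eq_three.1 hD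
  have hmemD : ∀ {x : α}, x ∈ ({p, q, r} : Finset α) ↔ x = p ∨ x = q ∨ x = r := by
    intro x; simp
  obtain ⟨y, hy, hy2⟩ := hC.ext _ hD (swap p q * swap q r) (swap p q * swap q r).injective.injOn
  obtain ⟨j, hj, hj2⟩ := hC.ext _ hD (swap q r) (swap q r).injective.injOn
  have hyp : y p = q := by
    rw [hy2 p (hmemD.2 (Or.inl rfl)), Perm.mul_apply, swap_apply_of_ne_of_ne hpq hpr,
      swap_apply_left]
  have hyq : y q = r := by
    rw [hy2 q (hmemD.2 (Or.inr (Or.inl rfl))), Perm.mul_apply, swap_apply_left,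
      swap_apply_of_ne_of_ne hpr.symm hqr.symm]
  have hyr : y r = p := by
    rw [hy2 r (hmemD.2 (Or.inr (Or.inr rfl))), Perm.mul_apply, swap_apply_right, swap_apply_right]
  have hjp : j p = p := by
    rw [hj2 p (hmemD.2 (Or.inl rfl)), swap_apply_of_ne_of_ne hpq hpr]
  have hjq : j q = r := by
    rw [hj2 q (hmemD.2 (Or.inr (Or.inl rfl))), swap_apply_left]
  have hjr : j r = q := by
    rw [hj2 r (hmemD.2 (Or.inr (Or.inr rfl))), swap_apply_right]
  have hy3 : y ^ 3 = 1 := by
    refine hsharp hD (G.pow_mem hy 3) fun x hx => ?_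
    rw [pow_succ, pow_two, Perm.mul_apply, Perm.mul_apply]
    rcases hmemD.1 hx with rfl | rfl | rfl
    · rw [hyp, hyq, hyr]
    · rw [hyq, hyr, hyp]
    · rw [hyr, hyp, hyq]
  have hj2' : j * j = 1 := by
    refine hsharp hD (G.mul_mem hj hj) fun x hx => ?_
    rw [Perm.mul_apply]
    rcases hmemD.1 hx with rfl | rfl | rfl
    · rw [hjp, hjp]
    · rw [hjq, hjr]
    · rw [hjr, hjq]
  have hjy : j * y * j * y = 1 := by
    refine hsharp hD (G.mul_mem (G.mul_mem (G.mul_mem hj hy) hj) hy) fun x hx => ?_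
    simp only [Perm.mul_apply]
    rcases hmemD.1 hx with rfl | rfl | rfl
    · rw [hyp, hjq, hyr, hjp]
    · rw [hyq, hjr, hyq, hjr]
    · rw [hyr, hjp, hyp, hjq]
  have hyne : y ≠ 1 := by
    intro e
    rw [e] at hyp
    exact hpq hyp
  have hjne : j ≠ 1 := by
    intro e
    rw [e] at hjq
    exact hqr hjq
  haveI : Fact (Nat.Prime 3) := ⟨by norm_num⟩
  have hmod := fx_modEq 3 hy3
  have hle := fx_card_le hC hy hyne
  have hn7 : Fintype.card α = 7 := by omega
  have hone : (fx y).card = 1 := by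
    rw [hn7] at hmod
    have := hmod.symm
    unfold Nat.ModEq at this
    omega
  obtain ⟨a, ha⟩ := Finset.card_eq_one.1 hone
  have hya : y a = a := by
    have : a ∈ fx y := by rw [ha]; simp
    exact mem_fx.1 this
  have hjfix : y (j a) = j a := by
    have h1 := congrArg (fun g : Perm α => g a) hjy
    simp only [Perm.mul_apply, hya] at h1
    have h2 := congrArg j h1
    rw [sq_apply hj2'] at h2
    exact h2
  have hja : j a = a := by
    have : j a ∈ fx y := mem_fx.2 hjfix
    rw [ha] at this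
    simpa using this
  have hap : a ≠ p := by
    rintro rfl
    rw [hyp] at hya
    exact hpq hya.symm
  have h5 : ({a, p} : Finset α) ⊆ fx j := by
    intro x hx
    simp only [Finset.mem_insert, Finset.mem_singleton] at hx
    rw [mem_fx]
    rcases hx with rfl | rfl
    · exact hja
    · exact hjp
  have h6 := Finset.card_le_card h5
  rw [Finset.card_pair hap] at h6
  have h7 := inv_fx_even hC (by omega) (by omega) hj hj2' hjne
  omega

/-- The case `t = 3`, `m = 21`. -/
theorem t3_m21 (hC : Core G 3) (hn : Fintype.card α - 3 = 21) {D : Finset α} (hD : D.card = 3)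
    (hκ : Nat.card (pf G D) = 7) : False := by
  obtain ⟨b, hb⟩ : D.Nonempty := by rw [← Finset.card_pos]; omega
  obtain ⟨P, hP⟩ : ∃ P, P = D.erase b := ⟨_, rfl⟩
  have hbP : b ∉ P := by rw [hP]; simp
  have hPc : P.card = 2 := by rw [hP, Finset.card_erase_of_mem hb, hD]
  have hDins : insert b P = D := by rw [hP]; exact Finset.insert_erase hb
  have hPD : ∀ x ∈ P, x ∈ D := fun x hx => by
    rw [hP] at hx; exact Finset.mem_of_mem_erase hx
  -- order of `pf G P`
  have horb : orbF (pf G P) b = Pᶜ := by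
    ext y
    rw [Finset.mem_compl, mem_orbF]
    constructor
    · rintro ⟨g, hg, rfl⟩
      exact orbF_notMem hbP (mem_orbF.2 ⟨g, hg, rfl⟩)
    · intro hy
      obtain ⟨g, hg, hg2⟩ := hC.ext D hD (swap b y) (swap b y).injective.injOn
      refine ⟨g, ⟨hg, fun x hx => ?_⟩, ?_⟩
      · have h1 : x ≠ b := fun e => hbP (e ▸ hx)
        have h2 : x ≠ y := fun e => hy (e ▸ hx)
        rw [hg2 x (hPD x hx), swap_apply_of_ne_of_ne h1 h2]
      · rw [hg2 b hb, swap_apply_left]
  have h154 : Nat.card (pf G P) = 154 := by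
    have h1 := card_orbF_mul G P b
    rw [horb, hDins, hκ, Finset.card_compl, hPc] at h1
    have h2 : Fintype.card α - 2 = 22 := by omega
    rw [h2] at h1
    omega
  -- the Sylow `11`-subgroup
  haveI : Fact (Nat.Prime 11) := ⟨by norm_num⟩
  haveI : Fact (Nat.Prime 7) := ⟨by norm_num⟩
  obtain ⟨S⟩ : Nonempty (Sylow 11 (pf G P)) := inferInstance
  have hScard : Nat.card S = 11 := by
    rw [Sylow.card_eq_multiplicity, h154]
    have : (154 : ℕ) = 11 ^ 1 * 14 := by norm_num
    rw [this, Nat.factorization_mul (by norm_num) (by norm_num),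
      Nat.Prime.factorization_pow (by norm_num)]
    simp [Nat.factorization_eq_zero_of_not_dvd (show ¬ 11 ∣ 14 by norm_num)]
  have hidx : (S : Subgroup (pf G P)).index = 14 := by
    have h1 := Subgroup.card_mul_index (S : Subgroup (pf G P))
    rw [hScard, h154] at h1
    omega
  have hnum : Nat.card (Sylow 11 (pf G P)) = 1 := by
    have h1 := card_sylow_modEq_one 11 (pf G P)
    have h2 := Sylow.card_dvd_index S
    rw [hidx] at h2
    have h3 := Nat.le_of_dvd (by norm_num) h2
    unfold Nat.ModEq at h1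
    have h4 : Nat.card (Sylow 11 (pf G P)) ≠ 0 := by
      intro e
      rw [e] at h2
      omega
    interval_cases Nat.card (Sylow 11 (pf G P)) <;> first | rfl | omega
  haveI : Subsingleton (Sylow 11 (pf G P)) := (Nat.card_eq_one_iff_unique.1 hnum).1
  have hnormal := Sylow.normal_of_subsingleton S
  -- the element of order `7`
  obtain ⟨c, hc⟩ := exists_prime_orderOf_dvd_card' (G := pf G D) 7 (by rw [hκ])
  have hc7 : (c : Perm α) ^ 7 = 1 := by
    have h1 : c ^ 7 = 1 := by rw [← hc]; exact pow_orderOf_eq_one c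
    have := congrArg Subtype.val h1
    simpa using this
  have hcne : (c : Perm α) ≠ 1 := by
    intro e
    have h1 : c = 1 := Subtype.ext e
    rw [h1, orderOf_one] at hc
    omega
  have hcP : (c : Perm α) ∈ pf G P := pf_anti G (fun x hx => hPD x hx) c.2
  obtain ⟨c', hc'⟩ : ∃ c' : pf G P, c' = ⟨c, hcP⟩ := ⟨_, rfl⟩
  have hc'7 : c' ^ 7 = 1 := by
    apply Subtype.ext
    rw [hc']
    show (c : Perm α) ^ 7 = 1
    exact hc7
  -- conjugation by `c'` on the Sylow subgroup
  let τ : Perm S :=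
    { toFun := fun y => ⟨c' * y * c'⁻¹, hnormal.conj_mem _ y.2 _⟩
      invFun := fun y => ⟨c'⁻¹ * y * c', by
        have := hnormal.conj_mem _ y.2 c'⁻¹
        simpa using this⟩
      left_inv := by intro y; apply Subtype.ext; show c'⁻¹ * (c' * y * c'⁻¹) * c' = y; group
      right_inv := by intro y; apply Subtype.ext; show c' * (c'⁻¹ * y * c') * c'⁻¹ = y; group }
  have hτapp : ∀ (y : S) (n : ℕ), (((τ ^ n) y : S) : pf G P) = c' ^ n * y * (c' ^ n)⁻¹ := by
    intro y n
    induction n with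
    | zero => simp
    | succ n ih =>
      rw [pow_succ', Perm.mul_apply]
      show c' * (((τ ^ n) y : S) : pf G P) * c'⁻¹ = _
      rw [ih]
      group
  have hτ7 : τ ^ 7 = 1 := by
    refine Equiv.ext fun y => Subtype.ext ?_
    rw [hτapp, hc'7]
    simp
  have hτ1 : τ (1 : S) = 1 := by
    apply Subtype.ext
    show c' * ((1 : S) : pf G P) * c'⁻¹ = 1
    simp
  obtain ⟨r, hr1, hr2⟩ := exists_fixed_ne 7 τ hτ7 (1 : S) hτ1 (by
    rw [hScard]
    decide)
  have hr2' : c' * (r : pf G P) * c'⁻¹ = r := congrArg Subtype.val hr2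
  obtain ⟨ρ, hρ⟩ : ∃ ρ : Perm α, ρ = ((r : pf G P) : Perm α) := ⟨_, rfl⟩
  have hρP : ρ ∈ pf G P := hρ ▸ (r : pf G P).2
  have hcomm : (c : Perm α) * ρ = ρ * c := by
    have h1 := mul_inv_eq_iff_eq_mul.1 hr2'
    have h2 := congrArg Subtype.val h1
    rw [hc'] at h2
    rw [hρ]
    exact h2
  -- the order of `r`
  have hρne : ρ ≠ 1 := by
    intro e
    apply hr1
    apply Subtype.ext
    apply Subtype.ext
    rw [← hρ, e]
    rfl
  have hρ11 : ρ ^ 11 = 1 := by
    have h1 : r ^ 11 = 1 := by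
      have := pow_card_eq_one' (x := r)
      rwa [hScard] at this
    have h2 := congrArg (fun z : S => ((z : pf G P) : Perm α)) h1
    simpa [hρ] using h2
  have hρorder : orderOf ρ = 11 := orderOf_eq_prime hρ11 hρne
  have hρb : ρ b ≠ b := by
    intro h
    have h1 : ρ ∈ pf G D := by
      refine ⟨hρP.1, fun x hx => ?_⟩
      rw [← hDins] at hx
      rcases Finset.mem_insert.1 hx with rfl | hx
      · exact h
      · exact hρP.2 x hx
    have h2 := orderOf_dvd_natCard (⟨ρ, h1⟩ : pf G D)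
    rw [hκ, Subgroup.orderOf_mk, hρorder] at h2
    omega
  have hρb2 : ρ b ∉ D := by
    rw [← hDins, Finset.mem_insert]
    rintro (h | h)
    · exact hρb h
    · have h1 := hρP.2 _ h
      have h2 := ρ.injective h1
      rw [h2] at h
      exact hbP h
  apply hcne
  refine eq_one_of_fix hC c.2.1 (S := insert (ρ b) D)
    (by rw [Finset.card_insert_of_notMem hρb2, hD]) fun x hx => ?_
  rcases Finset.mem_insert.1 hx with rfl | hx
  · have h1 := congrArg (fun g : Perm α => g b) hcomm
    simp only [Perm.mul_apply] at h1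
    rw [h1, c.2.2 b hb]
  · exact c.2.2 x hx

end Cfsg.Agent.H06.LW
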