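import Cfsg.Agent.Lib.H06.Rank2c

/-!
# Narrow `p`-groups: irreducible modules
-/

set_option autoImplicit false

namespace Cfsg.Agent.H06.Narrow

open Cfsg
open scoped commutatorElement

universe u v

section Eig

/-- Endomorphisms with `f ^ (p - 1) = 1` over the prime field have eigenvectors. -/
theorem exists_eig_add (p : ℕ) [Fact p.Prime] (A : Type u) [AddCommGroup A] [Module (ZMod p) A] [Finite A]
    [Nontrivial A] (f : Module.End (ZMod p) A) (hf : f ^ (p - 1) = 1) :
    ∃ (c : ZMod p) (v : A), v ≠ 0 ∧ f v = c • v := by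
  classical
  have hpp : p.Prime := Fact.out
  haveI : Module.Finite (ZMod p) A := Module.Finite.of_finite
  let P : Polynomial (ZMod p) := Polynomial.X ^ p - Polynomial.X
  have hP0 : P ≠ 0 := FiniteField.X_pow_card_sub_X_ne_zero (ZMod p) hpp.one_lt
  have hroots : P.Splits := by
    rw [Polynomial.splits_iff_card_roots]
    have h1 : P.roots = Finset.univ.val := by
      have := FiniteField.roots_X_pow_card_sub_X (ZMod p)
      rwa [ZMod.card] at this
    have h2 : P.natDegree = p := by
      have := FiniteField.X_pow_card_sub_X_natDegree_eq (ZMod p) (p := p) hpp.one_lt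
      exact this
    rw [h1, h2]
    simp [ZMod.card]
  have hdvd : minpoly (ZMod p) f ∣ P := by
    apply minpoly.dvd
    have : (Polynomial.aeval f) P = f ^ p - f := by simp [P]
    rw [this]
    have h3 : f ^ p = f := by
      have h4 : f ^ ((p - 1) + 1) = f := by rw [pow_succ, hf, one_mul]
      have h5 : (p - 1) + 1 = p := Nat.sub_add_cancel hpp.one_le
      rwa [h5] at h4
    rw [h3, sub_self]
  have hsp : (minpoly (ZMod p) f).Splits := hroots.of_dvd hP0 hdvd
  have hint : IsIntegral (ZMod p) f := Algebra.IsIntegral.isIntegral f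
  have hdeg : (minpoly (ZMod p) f).degree ≠ 0 := (minpoly.degree_pos hint).ne'
  obtain ⟨c, hc⟩ := hsp.exists_eval_eq_zero hdeg
  have hev : f.HasEigenvalue c := Module.End.hasEigenvalue_of_isRoot hc
  obtain ⟨v, hv⟩ := hev.exists_hasEigenvector
  exact ⟨c, v, hv.2, hv.apply_eq_smul⟩

theorem exists_eig_end (p : ℕ) [Fact p.Prime] (A : Type u) [AddCommGroup A] [Finite A] [Nontrivial A]
    (hexp : ∀ x : A, p • x = 0) (f : AddMonoid.End A) (hf : f ^ (p - 1) = 1) :
    ∃ (c : ℕ) (v : A), v ≠ 0 ∧ f v = c • v := by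
  classical
  letI : Module (ZMod p) A := AddCommGroup.zmodModule (n := p) hexp
  let e : AddMonoid.End A →* Module.End (ZMod p) A :=
    { toFun := fun φ => AddMonoidHom.toZModLinearMap p φ
      map_one' := by
        apply LinearMap.ext
        intro x
        rfl
      map_mul' := by
        intro a c
        apply LinearMap.ext
        intro x
        rfl }
  obtain ⟨c, v, hv, hfv⟩ := exists_eig_add p A (e f) (by rw [← map_pow, hf, map_one])
  refine ⟨c.val, v, hv, ?_⟩
  have h1 : f v = c • v := hfv
  rw [h1]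
  conv_lhs => rw [← ZMod.natCast_zmod_val c]
  exact Nat.cast_smul_eq_nsmul (ZMod p) c.val v

/-- Automorphisms of elementary abelian groups with `y ^ (p - 1) = 1` have eigenvectors. -/
theorem exists_eig (p : ℕ) [Fact p.Prime] (M : Type u) [CommGroup M] [Finite M] [Nontrivial M]
    (hexp : ∀ v : M, v ^ p = 1) (y : MulAut M) (hy : y ^ (p - 1) = 1) :
    ∃ (c : ℕ) (v : M), v ≠ 1 ∧ y v = v ^ c := by
  classical
  haveI : Finite (Additive M) := inferInstanceAs (Finite M)
  haveI : Nontrivial (Additive M) := inferInstanceAs (Nontrivial M)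
  let f : MulAut M →* AddMonoid.End (Additive M) :=
    { toFun := fun φ => MonoidHom.toAdditive φ.toMonoidHom
      map_one' := rfl
      map_mul' := fun _ _ => rfl }
  obtain ⟨c, v, hv, hc⟩ := exists_eig_end p (Additive M) (by
    intro x
    change Additive.ofMul ((Additive.toMul x) ^ p) = 0
    rw [hexp]
    rfl) (f y) (by rw [← map_pow, hy, map_one])
  exact ⟨c, Additive.toMul v, hv, hc⟩

/-- The irreducibility lemma. -/
theorem irr_card (M : Type u) [Group M] [Finite M] (hcomm : ∀ a b : M, a * b = b * a) (p : ℕ) [Fact p.Prime]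
    (hexp : ∀ v : M, v ^ p = 1) [Nontrivial M] {Γ : Type v} [Group Γ] [Finite Γ] (θ : Γ →* MulAut M)
    (hirr : ∀ B : Subgroup M, (∀ g, ∀ v ∈ B, θ g v ∈ B) → B = ⊥ ∨ B = ⊤)
    (K : Subgroup Γ) [hKn : K.Normal] (hcK : commutator Γ ≤ K) (hpK : ∀ g, g ^ (p - 1) ∈ K) :
    Nat.card M = p ∨ ∃ h ∈ K, (orderOf h).Coprime p ∧ θ h ≠ 1 := by
  classical
  have hpp : p.Prime := Fact.out
  by_contra hcon
  push Not at hcon
  obtain ⟨hne, hall⟩ := hcon
  have hMp : IsPGroup p M := fun v => ⟨1, by simpa using hexp v⟩
  -- `θ(K)` is a `p`-group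
  have hpg : IsPGroup p (K.map θ) := by
    rintro ⟨_, g, hg, rfl⟩
    obtain ⟨a, b, hab, -, ⟨j, hj⟩, hb, ha', hb'⟩ := H19.exists_primary_decomp p g
    have hbK : b ∈ K := (Subgroup.zpowers_le.mpr hg) hb'
    have h1 : θ b = 1 := hall b hbK hb
    have h2 : θ g = θ a := by rw [hab, map_mul, h1, mul_one]
    refine ⟨j, Subtype.ext ?_⟩
    change (θ g) ^ (p ^ j) = 1
    rw [h2, ← map_pow, ← hj, pow_orderOf_eq_one, map_one]
  -- fixed points of `K`
  let B : Subgroup M :=
    { carrier := {v | ∀ g ∈ K, θ g v = v}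
      mul_mem' := by
        intro a b ha hb g hg
        rw [map_mul, ha g hg, hb g hg]
      one_mem' := by
        intro g _
        rw [map_one]
      inv_mem' := by
        intro a ha g hg
        rw [map_inv, ha g hg] }
  have hBinv : ∀ g, ∀ v ∈ B, θ g v ∈ B := by
    intro g v hv k hk
    have h1 : g⁻¹ * k * g ∈ K := by
      have := hKn.conj_mem k hk g⁻¹
      simpa using this
    have h2 := hv _ h1
    have h3 : θ k (θ g v) = θ g (θ (g⁻¹ * k * g) v) := by
      have : θ k * θ g = θ g * θ (g⁻¹ * k * g) := by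
        rw [← map_mul, ← map_mul]
        congr 1
        group
      exact DFunLike.congr_fun this v
    rw [h3, h2]
  have hBne : B ≠ ⊥ := by
    letI : MulAction (K.map θ) M :=
      { smul := fun a v => (a : MulAut M) v
        one_smul := fun _ => rfl
        mul_smul := fun _ _ _ => rfl }
    have hdvd : p ∣ Nat.card M := by
      obtain ⟨k, hk⟩ := hMp.exists_card_eq
      have hk0 : k ≠ 0 := by
        rintro rfl
        rw [pow_zero] at hk
        exact not_subsingleton M (Nat.card_eq_one_iff_unique.mp hk).1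
      rw [hk]
      exact dvd_pow_self p hk0
    obtain ⟨v, hv, hv1⟩ := hpg.exists_fixed_point_of_prime_dvd_card_of_fixed_point M hdvd (a := (1 : M)) (by
      intro a
      exact map_one (a : MulAut M))
    intro hbot
    apply hv1
    have hvB : v ∈ B := by
      intro g hg
      exact hv ⟨θ g, g, hg, rfl⟩
    rw [hbot] at hvB
    exact (Subgroup.mem_bot.mp hvB).symm
  have hBtop : B = ⊤ := (hirr B hBinv).resolve_left hBne
  have hker : ∀ g ∈ K, θ g = 1 := by
    intro g hg
    apply MulEquiv.ext
    intro v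
    have : v ∈ B := by rw [hBtop]; trivial
    exact this g hg
  -- the action is abelian
  have hab : ∀ g g', θ g * θ g' = θ g' * θ g := by
    intro g g'
    have h1 : ⁅g, g'⁆ ∈ K := by
      apply hcK
      rw [commutator_def]
      exact Subgroup.commutator_mem_commutator (Subgroup.mem_top _) (Subgroup.mem_top _)
    have h2 := hker _ h1
    rw [map_commutatorElement] at h2
    exact commutatorElement_eq_one_iff_mul_comm.mp h2
  have hpow : ∀ g, (θ g) ^ (p - 1) = 1 := by
    intro g
    rw [← map_pow]
    exact hker _ (hpK g)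
  letI instC : CommGroup M := { (inferInstance : Group M) with mul_comm := hcomm }
  -- every element acts as a scalar
  have hscal : ∀ g, ∃ c : ℕ, ∀ w, θ g w = w ^ c := by
    intro g
    obtain ⟨c, v, hv, hc⟩ := exists_eig p M hexp (θ g) (hpow g)
    let E : Subgroup M :=
      { carrier := {w | θ g w = w ^ c}
        mul_mem' := by
          intro a b ha hb
          change θ g (a * b) = (a * b) ^ c
          rw [map_mul, ha, hb, mul_pow]
        one_mem' := by
          change θ g 1 = 1 ^ c
          rw [map_one, one_pow]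
        inv_mem' := by
          intro a ha
          change θ g a⁻¹ = a⁻¹ ^ c
          rw [map_inv, ha, inv_pow] }
    have hEinv : ∀ g', ∀ w ∈ E, θ g' w ∈ E := by
      intro g' w hw
      change θ g (θ g' w) = (θ g' w) ^ c
      have h1 : θ g (θ g' w) = θ g' (θ g w) := DFunLike.congr_fun (hab g g') w
      rw [h1, show θ g w = w ^ c from hw, map_pow]
    have hEne : E ≠ ⊥ := by
      intro hbot
      have hvE : v ∈ E := hc
      rw [hbot] at hvE
      exact hv (Subgroup.mem_bot.mp hvE)
    have hEtop : E = ⊤ := (hirr E hEinv).resolve_left hEne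
    refine ⟨c, fun w => ?_⟩
    have : w ∈ E := by rw [hEtop]; trivial
    exact this
  -- a line is invariant
  obtain ⟨v, hv⟩ := exists_ne (1 : M)
  have hZinv : ∀ g, ∀ w ∈ Subgroup.zpowers v, θ g w ∈ Subgroup.zpowers v := by
    intro g w hw
    obtain ⟨c, hc⟩ := hscal g
    rw [hc]
    exact Subgroup.pow_mem _ hw c
  have hZtop : Subgroup.zpowers v = ⊤ := by
    refine (hirr _ hZinv).resolve_left ?_
    intro hbot
    apply hv
    exact Subgroup.zpowers_eq_bot.mp hbot
  apply hne
  have hord : orderOf v = p := orderOf_eq_prime (hexp v) hv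
  rw [← hord, ← Nat.card_zpowers, hZtop, Subgroup.card_top]

end Eig

end Cfsg.Agent.H06.Narrow
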