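import Cfsg.Agent.Lib.H06.Narrow1

/-!
# Narrow `p`-groups: chains of invariant subgroups
-/

set_option autoImplicit false

namespace Cfsg.Agent.H06.Narrow

open Cfsg
open scoped commutatorElement

universe u v

section Chain

variable {R : Type u} [Group R] {Γ : Type v} [Group Γ] (ρ : Γ →* MulAut R)

/-- `L` is normal and invariant under the action. -/
def IsInv (L : Subgroup R) : Prop := L.Normal ∧ ∀ (g : Γ), ∀ u ∈ L, ρ g u ∈ L

/-- The action on `L` is triangular. -/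
def Good (p : ℕ) (L : Subgroup R) : Prop :=
  ∃ K : Subgroup Γ, K.Normal ∧ commutator Γ ≤ K ∧ (∀ g, g ^ (p - 1) ∈ K) ∧
    ∀ g ∈ K, ∃ k : ℕ, ∀ u ∈ L, ρ (g ^ (p ^ k)) u = u

theorem good_bot (p : ℕ) : Good ρ p ⊥ := by
  refine ⟨⊤, inferInstance, le_top, fun _ => Subgroup.mem_top _, fun g _ => ⟨0, fun u hu => ?_⟩⟩
  rw [Subgroup.mem_bot.mp hu, map_one]

/-- The action on a section. -/
theorem exists_sec {L N : Subgroup R} [hLn : L.Normal] (hL : ∀ (g : Γ), ∀ u ∈ L, ρ g u ∈ L)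
    (hN : ∀ (g : Γ), ∀ u ∈ N, ρ g u ∈ N) :
    ∃ θ : Γ →* MulAut (↥N ⧸ L.subgroupOf N), ∀ (g : Γ) (u : N),
      θ g (u : ↥N ⧸ L.subgroupOf N) = ((⟨ρ g u, hN g u u.2⟩ : N) : ↥N ⧸ L.subgroupOf N) := by
  classical
  let rN : Γ → (↥N ≃* ↥N) := fun g =>
    { toFun := fun u => ⟨ρ g u, hN g u u.2⟩
      invFun := fun u => ⟨ρ g⁻¹ u, hN g⁻¹ u u.2⟩
      left_inv := fun u => Subtype.ext (by
        change ρ g⁻¹ (ρ g u) = u
        rw [map_inv]
        simp)
      right_inv := fun u => Subtype.ext (by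
        change ρ g (ρ g⁻¹ u) = u
        rw [map_inv]
        simp)
      map_mul' := fun a b => Subtype.ext (by
        change ρ g ((a : R) * b) = ρ g a * ρ g b
        rw [map_mul]) }
  have hmap : ∀ g, (L.subgroupOf N).map (rN g).toMonoidHom = L.subgroupOf N := by
    intro g
    have hle : ∀ g, (L.subgroupOf N).map (rN g).toMonoidHom ≤ L.subgroupOf N := by
      rintro g _ ⟨u, hu, rfl⟩
      exact hL g _ hu
    apply le_antisymm (hle g)
    intro u hu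
    refine ⟨(rN g⁻¹) u, hle g⁻¹ ⟨u, hu, rfl⟩, ?_⟩
    apply Subtype.ext
    change ρ g (ρ g⁻¹ u) = u
    rw [map_inv]
    simp
  let φ : Γ → MulAut (↥N ⧸ L.subgroupOf N) := fun g =>
    QuotientGroup.congr (L.subgroupOf N) (L.subgroupOf N) (rN g) (hmap g)
  have hφ : ∀ (g : Γ) (u : N), φ g (u : ↥N ⧸ L.subgroupOf N)
      = ((⟨ρ g u, hN g u u.2⟩ : N) : ↥N ⧸ L.subgroupOf N) := fun _ _ => rfl
  refine ⟨{ toFun := φ, map_one' := ?_, map_mul' := ?_ }, hφ⟩
  · apply MulEquiv.ext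
    intro w
    obtain ⟨u, rfl⟩ := QuotientGroup.mk_surjective w
    rw [hφ]
    congr 1
    apply Subtype.ext
    simp
  · intro a b
    apply MulEquiv.ext
    intro w
    obtain ⟨u, rfl⟩ := QuotientGroup.mk_surjective w
    rw [MulAut.mul_apply, hφ, hφ, hφ]
    congr 1
    apply Subtype.ext
    simp

/-- One step up the chain. -/
theorem good_step {p : ℕ} [Fact p.Prime] [Finite R] {L N : Subgroup R} [hLn : L.Normal] (hR : IsPGroup p R)
    (hL : ∀ (g : Γ), ∀ u ∈ L, ρ g u ∈ L) (hN : ∀ (g : Γ), ∀ u ∈ N, ρ g u ∈ N)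
    (hLN : L ≤ N) (hG : Good ρ p L) (hcard : Nat.card (↥N ⧸ L.subgroupOf N) = p) : Good ρ p N := by
  classical
  have hpp : p.Prime := Fact.out
  obtain ⟨K, hKn, hcK, hpK, hK⟩ := hG
  obtain ⟨θ, hθ⟩ := exists_sec ρ hL hN
  haveI hcyc : IsCyclic (↥N ⧸ L.subgroupOf N) := by
    haveI : Fact (Nat.card (↥N ⧸ L.subgroupOf N)).Prime := ⟨by rw [hcard]; exact hpp⟩
    exact isCyclic_of_prime_card rfl
  have hcm : ∀ a b : MulAut (↥N ⧸ L.subgroupOf N), a * b = b * a := by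
    intro a b
    apply (IsCyclic.mulAutMulEquiv (↥N ⧸ L.subgroupOf N)).injective
    rw [map_mul, map_mul, mul_comm]
  have hcardAut : Nat.card (MulAut (↥N ⧸ L.subgroupOf N)) = p - 1 := by
    rw [IsCyclic.card_mulAut, hcard, Nat.totient_prime hpp]
  refine ⟨K ⊓ θ.ker, inferInstance, ?_, ?_, ?_⟩
  · apply le_inf hcK
    rw [commutator_def, Subgroup.commutator_le]
    intro a _ b _
    rw [MonoidHom.mem_ker, map_commutatorElement]
    exact commutatorElement_eq_one_iff_mul_comm.mpr (hcm _ _)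
  · intro g
    refine Subgroup.mem_inf.mpr ⟨hpK g, ?_⟩
    rw [MonoidHom.mem_ker, map_pow, ← hcardAut]
    exact pow_card_eq_one'
  · intro g hg
    obtain ⟨hg1, hg2⟩ := Subgroup.mem_inf.mp hg
    obtain ⟨k, hk⟩ := hK g hg1
    obtain ⟨h, hh⟩ : ∃ h, h = g ^ (p ^ k) := ⟨_, rfl⟩
    rw [← hh] at hk
    have hhker : θ h = 1 := by
      rw [hh, map_pow, MonoidHom.mem_ker.mp hg2, one_pow]
    -- `h` acts trivially modulo `L`
    have hmod : ∀ u ∈ N, u⁻¹ * ρ h u ∈ L := by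
      intro u hu
      have h1 := hθ h ⟨u, hu⟩
      rw [hhker] at h1
      have h2 : ((⟨u, hu⟩ : N) : ↥N ⧸ L.subgroupOf N) = ((⟨ρ h u, hN h u hu⟩ : N) : ↥N ⧸ L.subgroupOf N) := h1
      have h3 := QuotientGroup.eq.mp h2
      exact h3
    have hpw : ∀ (m : ℕ) (u : R), u ∈ N → ρ (h ^ m) u = u * (u⁻¹ * ρ h u) ^ m := by
      intro m u hu
      induction m with
      | zero => simp
      | succ m ih =>
        rw [pow_succ', map_mul, MulAut.mul_apply, ih, map_mul, map_pow]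
        have hl : ρ h (u⁻¹ * ρ h u) = u⁻¹ * ρ h u := hk _ (hmod u hu)
        rw [hl, pow_succ', ← mul_assoc, mul_inv_cancel_left]
    obtain ⟨e, he⟩ := (hR.to_subgroup L).exists_card_eq
    refine ⟨k + e, ?_⟩
    intro u hu
    have h4 : g ^ (p ^ (k + e)) = h ^ (p ^ e) := by
      rw [hh, pow_add, pow_mul]
    rw [h4, hpw _ u hu]
    have h5 : (u⁻¹ * ρ h u) ^ (p ^ e) = 1 := by
      have h6 := pow_card_eq_one' (x := (⟨u⁻¹ * ρ h u, hmod u hu⟩ : L))
      rw [he] at h6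
      exact congrArg Subtype.val h6
    rw [h5, mul_one]

/-- Adding a small invariant subgroup. -/
theorem good_sup {p : ℕ} [Fact p.Prime] [Finite R] {L A : Subgroup R} (hR : IsPGroup p R)
    (hL : IsInv ρ L) (hA : IsInv ρ A) (hG : Good ρ p L) (hidx : L.relIndex A = p) :
    IsInv ρ (L ⊔ A) ∧ Good ρ p (L ⊔ A) := by
  classical
  haveI := hL.1
  haveI := hA.1
  have hsupinv : ∀ (g : Γ), ∀ u ∈ L ⊔ A, ρ g u ∈ L ⊔ A := by
    intro g u hu
    have hu' : u ∈ ((L ⊔ A : Subgroup R) : Set R) := hu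
    rw [Subgroup.normal_mul, Set.mem_mul] at hu'
    obtain ⟨a, ha, b, hb, rfl⟩ := hu'
    rw [map_mul]
    exact Subgroup.mul_mem _ (Subgroup.mem_sup_left (hL.2 g a ha)) (Subgroup.mem_sup_right (hA.2 g b hb))
  refine ⟨⟨inferInstance, hsupinv⟩, ?_⟩
  apply good_step ρ hR hL.2 hsupinv le_sup_left hG
  have h1 : L.relIndex (L ⊔ A) = L.relIndex A := Subgroup.relIndex_sup_left A L
  rw [← hidx, ← h1]
  rfl

end Chain

end Cfsg.Agent.H06.Narrow
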