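import Cfsg.Agent.Lib.H06.Narrow2
import Cfsg.Agent.Lib.H06.Meta

/-!
# Narrow `p`-groups: the key counting lemma
-/

set_option autoImplicit false

namespace Cfsg.Agent.H06.Narrow

open Cfsg
open scoped commutatorElement

universe u v

section Cover

/-- Class two: the `p`-power map is a homomorphism. -/
theorem pow_hom_aux {Q : Type*} [Group Q] {p : ℕ} (hpp : p.Prime) (hp : p ≠ 2) {x y s : Q} (hs : ∀ g, s * g = g * s)
    (h : y * x = x * y * s) (hy : y ^ p * x = x * y ^ p) : (x * y) ^ p = x ^ p * y ^ p := by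
  have h1 := Meta.mul_pow_central hs h p
  have hk : ∀ k : ℕ, y ^ k * x = x * y ^ k * s ^ k := by
    intro k
    induction k with
    | zero => simp
    | succ k ih =>
      calc y ^ (k + 1) * x = y ^ k * (y * x) := by rw [pow_succ]; group
        _ = y ^ k * (x * y * s) := by rw [h]
        _ = (y ^ k * x) * y * s := by group
        _ = (x * y ^ k * s ^ k) * y * s := by rw [ih]
        _ = x * y ^ k * (s ^ k * y) * s := by group
        _ = x * y ^ k * (y * s ^ k) * s := by rw [(Commute.pow_left (show Commute s y from hs y) k).eq]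
        _ = x * y ^ (k + 1) * s ^ (k + 1) := by rw [pow_succ, pow_succ]; group
  have h2 : s ^ p = 1 := by
    have h3 := hk p
    rw [hy] at h3
    exact (mul_eq_left.mp h3.symm)
  have h3 : 2 < p := by
    have := hpp.two_le
    omega
  have h4 : p ∣ p.choose 2 := hpp.dvd_choose_self (by norm_num) h3
  obtain ⟨c, hc⟩ := h4
  rw [h1, hc, pow_mul, h2, one_pow, mul_one]

variable {R : Type u} [Group R] [Finite R] {Γ : Type v} [Group Γ] (ρ : Γ →* MulAut R)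

/-- The exponent `p` cover of the section. -/
theorem exists_cover {p : ℕ} [Fact p.Prime] (hp : p ≠ 2) {L₀ N : Subgroup R} (hL₀ : IsInv ρ L₀) (hN : IsInv ρ N)
    (hLN : L₀ ≤ N) (hcent : ∀ r : R, ∀ u ∈ N, r * u * r⁻¹ * u⁻¹ ∈ L₀) (hpow : ∀ u ∈ N, u ^ p ∈ L₀)
    (hmin : ∀ M, IsInv ρ M → L₀ ≤ M → M ≤ N → M = L₀ ∨ M = N)
    (S : Set Γ) (hSc : ∀ g, ∀ h ∈ S, g * h * g⁻¹ ∈ S) (hfix : ∀ h ∈ S, ∀ l ∈ L₀, ρ h l = l)
    (hne : ∃ h ∈ S, ∃ u ∈ N, u⁻¹ * ρ h u ∉ L₀) :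
    ∃ P : Subgroup R, P ≤ N ∧ L₀ ⊔ P = N ∧ (∀ w ∈ P, ∀ l ∈ L₀, w * l = l * w) ∧ ∀ w ∈ P, w ^ p = 1 := by
  classical
  have hpp : p.Prime := Fact.out
  haveI hL₀n := hL₀.1
  let gens : Set R := {w | ∃ h ∈ S, ∃ u ∈ N, w = u⁻¹ * ρ h u}
  let P : Subgroup R := Subgroup.closure gens
  have hgenN : gens ⊆ N := by
    rintro _ ⟨h, -, u, hu, rfl⟩
    exact N.mul_mem (N.inv_mem hu) (hN.2 h u hu)
  have hPN : P ≤ N := (Subgroup.closure_le _).mpr hgenN
  have hPL : ∀ w ∈ P, ∀ l ∈ L₀, w * l = l * w := by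
    intro w hw l hl
    have hle : P ≤ Subgroup.centralizer (L₀ : Set R) := by
      rw [Subgroup.closure_le]
      rintro _ ⟨h, hh, u, hu, rfl⟩
      rw [SetLike.mem_coe, Subgroup.mem_centralizer_iff]
      intro l hl
      have h1 : u * l * u⁻¹ ∈ L₀ := hL₀n.conj_mem l hl u
      have h2 := hfix h hh _ h1
      rw [map_mul, map_mul, map_inv, hfix h hh l hl] at h2
      calc l * (u⁻¹ * ρ h u) = u⁻¹ * (u * l * u⁻¹) * ρ h u := by group
        _ = u⁻¹ * (ρ h u * l * (ρ h u)⁻¹) * ρ h u := by rw [h2]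
        _ = u⁻¹ * ρ h u * l := by group
    exact (Subgroup.mem_centralizer_iff.mp (hle hw) l hl).symm
  have hPinv : ∀ (g : Γ), ∀ w ∈ P, ρ g w ∈ P := by
    intro g w hw
    have hle : P ≤ P.comap (ρ g).toMonoidHom := by
      rw [Subgroup.closure_le]
      rintro _ ⟨h, hh, u, hu, rfl⟩
      apply Subgroup.subset_closure
      refine ⟨g * h * g⁻¹, hSc g h hh, ρ g u, hN.2 g u hu, ?_⟩
      have e : ρ (g * h * g⁻¹) (ρ g u) = ρ g (ρ h u) := by
        rw [map_mul, map_mul, MulAut.mul_apply, MulAut.mul_apply, map_inv]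
        simp
      rw [e]
      change ρ g (u⁻¹ * ρ h u) = _
      rw [map_mul, map_inv]
    exact hle hw
  -- `L₀ P = N`
  let M : Subgroup R := L₀ ⊔ P
  have hMmem : ∀ y, y ∈ M ↔ ∃ l ∈ L₀, ∃ w ∈ P, y = l * w := by
    intro y
    rw [← SetLike.mem_coe, Subgroup.normal_mul, Set.mem_mul]
    constructor
    · rintro ⟨l, hl, w, hw, rfl⟩
      exact ⟨l, hl, w, hw, rfl⟩
    · rintro ⟨l, hl, w, hw, rfl⟩
      exact ⟨l, hl, w, hw, rfl⟩
  have hMinv : IsInv ρ M := by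
    constructor
    · refine ⟨fun y hy r => ?_⟩
      obtain ⟨l, hl, w, hw, rfl⟩ := (hMmem y).mp hy
      rw [hMmem]
      refine ⟨(r * l * r⁻¹) * (r * w * r⁻¹ * w⁻¹), L₀.mul_mem (hL₀n.conj_mem l hl r) (hcent r w (hPN hw)), w, hw, ?_⟩
      group
    · intro g y hy
      obtain ⟨l, hl, w, hw, rfl⟩ := (hMmem y).mp hy
      rw [map_mul]
      exact M.mul_mem (Subgroup.mem_sup_left (hL₀.2 g l hl)) (Subgroup.mem_sup_right (hPinv g w hw))
  have hMN : M = N := by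
    rcases hmin M hMinv le_sup_left (sup_le hLN hPN) with h | h
    · exfalso
      obtain ⟨g, hg, u, hu, hnot⟩ := hne
      apply hnot
      have h1 : u⁻¹ * ρ g u ∈ P := Subgroup.subset_closure ⟨g, hg, u, hu, rfl⟩
      have h2 : u⁻¹ * ρ g u ∈ M := Subgroup.mem_sup_right h1
      rwa [h] at h2
    · exact h
  -- class two: `p`-power map
  have hmulpow : ∀ v ∈ P, ∀ w ∈ P, (v * w) ^ p = v ^ p * w ^ p := by
    intro v hv w hw
    let s : P := ⟨w⁻¹ * v⁻¹ * w * v, P.mul_mem (P.mul_mem (P.mul_mem (P.inv_mem hw) (P.inv_mem hv)) hw) hv⟩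
    have hsL : (s : R) ∈ L₀ := by
      have h1 := hcent w⁻¹ v (hPN hv)
      have h2 : (s : R) = w⁻¹ * v⁻¹ * w * v := rfl
      have h3 : w⁻¹ * v⁻¹ * w * v = v⁻¹ * (v * w⁻¹ * v⁻¹ * w) * v := by group
      rw [h2, h3]
      have h4 := hcent v w⁻¹ (hPN (P.inv_mem hw))
      have h5 : v * w⁻¹ * v⁻¹ * (w⁻¹)⁻¹ = v * w⁻¹ * v⁻¹ * w := by group
      rw [h5] at h4
      have h6 := hL₀n.conj_mem _ h4 v⁻¹
      simpa using h6
    have hres := pow_hom_aux (Q := P) (x := (⟨v, hv⟩ : P)) (y := (⟨w, hw⟩ : P)) (s := s) hpp hp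
      (fun g => Subtype.ext (hPL (g : R) g.2 (s : R) hsL).symm)
      (Subtype.ext (by
        change w * v = v * w * (w⁻¹ * v⁻¹ * w * v)
        group))
      (Subtype.ext (by
        change w ^ p * v = v * w ^ p
        exact (hPL v hv (w ^ p) (hpow w (hPN hw))).symm))
    exact congrArg Subtype.val hres
  refine ⟨P, hPN, hMN, hPL, ?_⟩
  -- generators have order dividing `p`
  have hgen : ∀ w ∈ gens, w ^ p = 1 := by
    rintro _ ⟨h, hh, u, hu, rfl⟩
    have hu' : u ∈ M := by rw [hMN]; exact hu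
    obtain ⟨l, hl, v, hv, rfl⟩ := (hMmem u).mp hu'
    have e : (l * v)⁻¹ * ρ h (l * v) = v⁻¹ * ρ h v := by
      rw [map_mul, hfix h hh l hl]
      group
    rw [e, hmulpow _ (P.inv_mem hv) _ (hPinv h v hv), inv_pow, ← map_pow, hfix h hh _ (hpow v (hPN hv)), inv_mul_cancel]
  intro w hw
  induction hw using Subgroup.closure_induction with
  | mem w hw => exact hgen w hw
  | one => exact one_pow p
  | mul a b ha hb iha ihb => rw [hmulpow a ha b hb, iha, ihb, one_mul]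
  | inv a _ iha => rw [inv_pow, iha, inv_one]

/-- The section has order at most `p`. -/
theorem sec_card_le {p : ℕ} [Fact p.Prime] {L₀ N P W Z₀ : Subgroup R} [hL₀n : L₀.Normal] (hLN : L₀ ≤ N)
    (hcent : ∀ r : R, ∀ u ∈ N, r * u * r⁻¹ * u⁻¹ ∈ L₀)
    (hPN : P ≤ N) (hsup : L₀ ⊔ P = N) (hPL : ∀ w ∈ P, ∀ l ∈ L₀, w * l = l * w) (hPp : ∀ w ∈ P, w ^ p = 1)
    (x : R) (hWL : W ≤ L₀) (hZL : Z₀ ≤ L₀) (hZcard : Nat.card Z₀ = p)
    (hT : ∀ y, (∀ w ∈ W, y * w = w * y) → y ^ p = 1 → y * x = x * y → y ∈ Z₀) :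
    Nat.card (↥N ⧸ L₀.subgroupOf N) ≤ p := by
  classical
  have hpp : p.Prime := Fact.out
  -- the group `D`
  let D : Subgroup R :=
    { carrier := {d | d ∈ L₀ ∧ (∀ l ∈ L₀, d * l = l * d) ∧ d ^ p = 1}
      mul_mem' := by
        rintro a b ⟨ha, ha2, ha3⟩ ⟨hb, hb2, hb3⟩
        refine ⟨L₀.mul_mem ha hb, ?_, ?_⟩
        · intro l hl
          rw [mul_assoc, hb2 l hl, ← mul_assoc, ha2 l hl, mul_assoc]
        · have : Commute a b := ha2 b hb
          rw [this.mul_pow, ha3, hb3, one_mul]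
      one_mem' := ⟨L₀.one_mem, fun l _ => by simp, one_pow p⟩
      inv_mem' := by
        rintro a ⟨ha, ha2, ha3⟩
        refine ⟨L₀.inv_mem ha, ?_, ?_⟩
        · intro l hl
          have h1 : a * l = l * a := ha2 l hl
          calc a⁻¹ * l = a⁻¹ * (l * a) * a⁻¹ := by group
            _ = a⁻¹ * (a * l) * a⁻¹ := by rw [h1]
            _ = l * a⁻¹ := by group
        · rw [inv_pow, ha3, inv_one] }
  have hDmem : ∀ d, d ∈ D ↔ d ∈ L₀ ∧ (∀ l ∈ L₀, d * l = l * d) ∧ d ^ p = 1 := fun _ => Iff.rfl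
  have hDcomm : ∀ a ∈ D, ∀ b ∈ D, a * b = b * a := fun a ha b hb => ha.2.1 b hb.1
  -- conjugation by `x`
  have hxD : ∀ d ∈ D, x * d * x⁻¹ ∈ D := by
    rintro d ⟨hd, hd2, hd3⟩
    refine ⟨hL₀n.conj_mem d hd x, ?_, ?_⟩
    · intro l hl
      have h1 : x⁻¹ * l * x ∈ L₀ := by
        have := hL₀n.conj_mem l hl x⁻¹
        simpa using this
      have h2 := hd2 _ h1
      calc x * d * x⁻¹ * l = x * (d * (x⁻¹ * l * x)) * x⁻¹ := by group
        _ = x * ((x⁻¹ * l * x) * d) * x⁻¹ := by rw [h2]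
        _ = l * (x * d * x⁻¹) := by group
    · rw [conj_pow, hd3]
      group
  let c : D →* D := MonoidHom.mk' (fun d => (⟨(d : R)⁻¹ * (x * d * x⁻¹), D.mul_mem (D.inv_mem d.2) (hxD d d.2)⟩ : D)) (by
    intro a b
    apply Subtype.ext
    change ((a : R) * b)⁻¹ * (x * (a * b) * x⁻¹) = ((a : R)⁻¹ * (x * a * x⁻¹)) * ((b : R)⁻¹ * (x * b * x⁻¹))
    have h1 := hDcomm _ (hxD a a.2) _ (D.inv_mem b.2)
    calc ((a : R) * b)⁻¹ * (x * (a * b) * x⁻¹) = (b : R)⁻¹ * (a : R)⁻¹ * ((x * a * x⁻¹) * (x * b * x⁻¹)) := by group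
      _ = (a : R)⁻¹ * (b : R)⁻¹ * ((x * a * x⁻¹) * (x * b * x⁻¹)) := by
          rw [hDcomm _ (D.inv_mem b.2) _ (D.inv_mem a.2)]
      _ = (a : R)⁻¹ * ((b : R)⁻¹ * (x * a * x⁻¹)) * (x * b * x⁻¹) := by group
      _ = (a : R)⁻¹ * ((x * a * x⁻¹) * (b : R)⁻¹) * (x * b * x⁻¹) := by rw [← h1]
      _ = ((a : R)⁻¹ * (x * a * x⁻¹)) * ((b : R)⁻¹ * (x * b * x⁻¹)) := by group)
  have hcval : ∀ d : D, ((c d : D) : R) = (d : R)⁻¹ * (x * d * x⁻¹) := fun _ => rfl
  -- kernel of `c`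
  have hkerZ : ∀ d ∈ c.ker, (d : R) ∈ Z₀ := by
    intro d hd
    have h1 : c d = 1 := hd
    have h2 : (d : R)⁻¹ * (x * d * x⁻¹) = 1 := congrArg Subtype.val h1
    have h3 : x * d * x⁻¹ = d := by
      rw [inv_mul_eq_one] at h2
      exact h2.symm
    apply hT
    · intro w hw
      exact d.2.2.1 w (hWL hw)
    · exact d.2.2.2
    · rw [mul_inv_eq_iff_eq_mul] at h3
      exact h3.symm
  have hkercard : Nat.card c.ker ≤ p := by
    rw [← hZcard]
    let e : c.ker → Z₀ := fun d => ⟨((d : D) : R), hkerZ d d.2⟩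
    apply Nat.card_le_card_of_injective e
    intro a b hab
    apply Subtype.ext
    apply Subtype.ext
    have h := congrArg Subtype.val hab
    exact h
  -- the range
  let B : Subgroup D := c.range
  haveI hBn : B.Normal := by
    refine ⟨fun n hn g => ?_⟩
    have : g * n * g⁻¹ = n := by
      apply Subtype.ext
      have h1 := hDcomm _ g.2 _ n.2
      change (g : R) * n * (g : R)⁻¹ = n
      rw [h1]
      group
    rw [this]
    exact hn
  have hBidx : B.index = Nat.card c.ker := by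
    have h1 := Subgroup.card_mul_index B
    have h2 := Subgroup.card_mul_index c.ker
    rw [Subgroup.index_ker] at h2
    have h3 : Nat.card B * B.index = Nat.card B * Nat.card c.ker := by
      rw [h1, ← h2, mul_comm]
    exact Nat.eq_of_mul_eq_mul_left Nat.card_pos h3
  -- the commutator map on `P`
  have hPcomm : ∀ w ∈ P, x * w * x⁻¹ * w⁻¹ ∈ L₀ := fun w hw => hcent x w (hPN hw)
  have hxPL : ∀ w ∈ P, ∀ l ∈ L₀, (x * w * x⁻¹) * l = l * (x * w * x⁻¹) := by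
    intro w hw l hl
    have h1 : x⁻¹ * l * x ∈ L₀ := by
      have := hL₀n.conj_mem l hl x⁻¹
      simpa using this
    have h2 := hPL w hw _ h1
    calc x * w * x⁻¹ * l = x * (w * (x⁻¹ * l * x)) * x⁻¹ := by group
      _ = x * ((x⁻¹ * l * x) * w) * x⁻¹ := by rw [h2]
      _ = l * (x * w * x⁻¹) := by group
  have hlD : ∀ w ∈ P, w⁻¹ * (x * w * x⁻¹) ∈ D := by
    intro w hw
    have hL : w⁻¹ * (x * w * x⁻¹) ∈ L₀ := by
      have h1 := hL₀n.conj_mem _ (hPcomm w hw) w⁻¹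
      have h2 : w⁻¹ * (x * w * x⁻¹ * w⁻¹) * w⁻¹⁻¹ = w⁻¹ * (x * w * x⁻¹) := by group
      rwa [h2] at h1
    refine ⟨hL, ?_, ?_⟩
    · intro l hl
      have h1 := hxPL w hw l hl
      have h2 := hPL w hw l hl
      calc w⁻¹ * (x * w * x⁻¹) * l = w⁻¹ * ((x * w * x⁻¹) * l) := by group
        _ = w⁻¹ * (l * (x * w * x⁻¹)) := by rw [h1]
        _ = w⁻¹ * l * w * (w⁻¹ * (x * w * x⁻¹)) := by group
        _ = w⁻¹ * (w * l) * (w⁻¹ * (x * w * x⁻¹)) := by
            rw [mul_assoc w⁻¹ l w, ← h2]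
        _ = l * (w⁻¹ * (x * w * x⁻¹)) := by group
    · have h3 : Commute w (w⁻¹ * (x * w * x⁻¹)) := hPL w hw _ hL
      have h4 : w * (w⁻¹ * (x * w * x⁻¹)) = x * w * x⁻¹ := by group
      have h5 := h3.mul_pow p
      rw [h4, conj_pow, hPp w hw, one_mul] at h5
      have h6 : x * 1 * x⁻¹ = 1 := by group
      rw [h6] at h5
      exact h5.symm
  let l : P →* D := MonoidHom.mk' (fun w => (⟨(w : R)⁻¹ * (x * w * x⁻¹), hlD w w.2⟩ : D)) (by
    intro a b
    apply Subtype.ext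
    change ((a : R) * b)⁻¹ * (x * (a * b) * x⁻¹) = ((a : R)⁻¹ * (x * a * x⁻¹)) * ((b : R)⁻¹ * (x * b * x⁻¹))
    have h1 := hPL b b.2 _ (hlD a a.2).1
    calc ((a : R) * b)⁻¹ * (x * (a * b) * x⁻¹) = (b : R)⁻¹ * ((a : R)⁻¹ * (x * a * x⁻¹)) * (x * b * x⁻¹) := by group
      _ = (b : R)⁻¹ * (((a : R)⁻¹ * (x * a * x⁻¹)) * b) * (b : R)⁻¹ * (x * b * x⁻¹) := by group
      _ = (b : R)⁻¹ * ((b : R) * ((a : R)⁻¹ * (x * a * x⁻¹))) * (b : R)⁻¹ * (x * b * x⁻¹) := by rw [h1]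
      _ = ((a : R)⁻¹ * (x * a * x⁻¹)) * ((b : R)⁻¹ * (x * b * x⁻¹)) := by group)
  have hlval : ∀ w : P, ((l w : D) : R) = (w : R)⁻¹ * (x * w * x⁻¹) := fun _ => rfl
  let f : P →* D ⧸ B := (QuotientGroup.mk' B).comp l
  -- the projection of `P` onto the section
  let g : P →* ↥N ⧸ L₀.subgroupOf N := (QuotientGroup.mk' (L₀.subgroupOf N)).comp (Subgroup.inclusion hPN)
  have hgs : Function.Surjective g := by
    intro w
    obtain ⟨u, rfl⟩ := QuotientGroup.mk_surjective w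
    have hu : (u : R) ∈ L₀ ⊔ P := by rw [hsup]; exact u.2
    rw [← SetLike.mem_coe, Subgroup.normal_mul, Set.mem_mul] at hu
    obtain ⟨a, ha, b, hb, hab⟩ := hu
    refine ⟨⟨b, hb⟩, ?_⟩
    change ((⟨b, hPN hb⟩ : N) : ↥N ⧸ L₀.subgroupOf N) = (u : ↥N ⧸ L₀.subgroupOf N)
    rw [QuotientGroup.eq]
    change b⁻¹ * (u : R) ∈ L₀
    rw [← hab]
    have h1 := hL₀n.conj_mem a ha b⁻¹
    have h2 : b⁻¹ * a * b⁻¹⁻¹ = b⁻¹ * (a * b) := by group
    rwa [h2] at h1
  have hker : f.ker ≤ g.ker := by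
    intro w hw
    have h1 : (l w : D ⧸ B) = 1 := hw
    have h2 : l w ∈ B := (QuotientGroup.eq_one_iff _).mp h1
    obtain ⟨d, hd⟩ := h2
    have h3 : (d : R)⁻¹ * (x * d * x⁻¹) = (w : R)⁻¹ * (x * w * x⁻¹) := congrArg Subtype.val hd
    -- `w d⁻¹` centralizes `x`
    have hxd : x * (d : R) * x⁻¹ = d * ((w : R)⁻¹ * (x * w * x⁻¹)) := by
      rw [← h3]
      group
    have hxw : x * (w : R) * x⁻¹ = w * ((w : R)⁻¹ * (x * w * x⁻¹)) := by group
    set t := (w : R)⁻¹ * (x * w * x⁻¹) with ht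
    have htD : t ∈ D := hlD w w.2
    have hdD := d.2
    have hcomm_wd : (w : R) * d = d * w := hPL w w.2 d hdD.1
    have hZ : (w : R) * (d : R)⁻¹ ∈ Z₀ := by
      apply hT
      · intro v hv
        have h5 := hPL w w.2 v (hWL hv)
        have h6 := (D.inv_mem hdD).2.1 v (hWL hv)
        calc (w : R) * (d : R)⁻¹ * v = w * ((d : R)⁻¹ * v) := by group
          _ = w * (v * (d : R)⁻¹) := by rw [h6]
          _ = (w * v) * (d : R)⁻¹ := by group
          _ = (v * w) * (d : R)⁻¹ := by rw [h5]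
          _ = v * (w * (d : R)⁻¹) := by group
      · have h7 : Commute (w : R) (d : R)⁻¹ := by
          have : Commute (w : R) (d : R) := hcomm_wd
          exact this.inv_right
        rw [h7.mul_pow, hPp w w.2, inv_pow, hdD.2.2, inv_one, one_mul]
      · -- commute with `x`
        have e1 : x * ((w : R) * (d : R)⁻¹) * x⁻¹ = (x * w * x⁻¹) * (x * d * x⁻¹)⁻¹ := by group
        have e2 : x * ((w : R) * (d : R)⁻¹) * x⁻¹ = (w : R) * (d : R)⁻¹ := by
          rw [e1, hxd, hxw]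
          group
        rw [mul_inv_eq_iff_eq_mul] at e2
        exact e2.symm
    have hwL : (w : R) ∈ L₀ := by
      have h8 := L₀.mul_mem (hZL hZ) hdD.1
      have h9 : (w : R) * (d : R)⁻¹ * d = w := by group
      rwa [h9] at h8
    change ((⟨w, hPN w.2⟩ : N) : ↥N ⧸ L₀.subgroupOf N) = 1
    exact (QuotientGroup.eq_one_iff _).mpr hwL
  have h1 : Nat.card (↥N ⧸ L₀.subgroupOf N) = g.ker.index := by
    rw [Subgroup.index_ker, MonoidHom.range_eq_top.mpr hgs, Subgroup.card_top]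
  have h2 : g.ker.index ∣ f.ker.index := Subgroup.index_dvd_of_le hker
  have h3 : f.ker.index = Nat.card f.range := Subgroup.index_ker f
  have h4 : Nat.card f.range ≤ Nat.card (D ⧸ B) := Subgroup.card_le_card_group _
  have h5 : Nat.card (D ⧸ B) = B.index := rfl
  have hpos : 0 < f.ker.index := by
    rw [h3]
    exact Nat.card_pos
  calc Nat.card (↥N ⧸ L₀.subgroupOf N) = g.ker.index := h1
    _ ≤ f.ker.index := Nat.le_of_dvd hpos h2
    _ ≤ B.index := by rw [h3]; exact h4.trans h5.le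
    _ ≤ p := by rw [hBidx]; exact hkercard

end Cover

end Cfsg.Agent.H06.Narrow
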