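import Cfsg.Agent.Lib.H06.Narrow3

/-!
# Narrow `p`-groups: the action theorem
-/

set_option autoImplicit false

namespace Cfsg.Agent.H06.Narrow

open Cfsg
open scoped commutatorElement

universe u v

section Main

variable {R : Type u} [Group R] [Finite R] {Γ : Type v} [Group Γ] [Finite Γ] (ρ : Γ →* MulAut R)

theorem isInv_of_char {A : Subgroup R} (hA : A.Characteristic) : IsInv ρ A := by
  refine ⟨by haveI := hA; infer_instance, fun g u hu => ?_⟩
  have := Subgroup.ext_iff.mp (hA.fixed (ρ g)) u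
  exact this.mpr hu

/-- A numerical lemma on relative indices. -/
theorem relIndex_eq_prime {p k : ℕ} [Fact p.Prime] (hR : IsPGroup p R) {L A : Subgroup R}
    (hA : Nat.card A = p ^ (k + 1)) (hle : p ^ k ≤ Nat.card (L.subgroupOf A)) (hnot : ¬ A ≤ L) :
    L.relIndex A = p := by
  have hpp : p.Prime := Fact.out
  have h1 := Subgroup.card_mul_index (L.subgroupOf A)
  rw [hA] at h1
  obtain ⟨j, hj⟩ := ((hR.to_subgroup A).to_subgroup (L.subgroupOf A)).exists_card_eq
  rw [hj] at h1 hle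
  have hjk : k ≤ j := (Nat.pow_le_pow_iff_right hpp.one_lt).mp hle
  have hj2 : j ≠ k + 1 := by
    rintro rfl
    apply hnot
    have h2 : (L.subgroupOf A) = ⊤ := by
      apply Subgroup.eq_top_of_card_eq
      rw [hj, hA]
    exact Subgroup.subgroupOf_eq_top.mp h2
  have hj3 : j ≤ k + 1 := by
    have h3 : p ^ j ∣ p ^ (k + 1) := ⟨_, h1.symm⟩
    exact (Nat.pow_dvd_pow_iff_le_right hpp.one_lt).mp h3
  have hj4 : j = k := by omega
  subst hj4
  change (L.subgroupOf A).index = p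
  rw [pow_succ] at h1
  exact Nat.eq_of_mul_eq_mul_left (pow_pos hpp.pos j) h1

/-- **The action theorem for narrow groups**, abstract form. -/
theorem good_top {p : ℕ} [Fact p.Prime] (hp : p ≠ 2) (hR : IsPGroup p R)
    (x : R) (W Z₀ : Subgroup R) (hWc : W.Characteristic) (hZc : Z₀.Characteristic) (hZW : Z₀ ≤ W)
    (hZcard : Nat.card Z₀ = p) (hWcard : Nat.card W = p ^ 2)
    (hT : ∀ y, (∀ w ∈ W, y * w = w * y) → y ^ p = 1 → y * x = x * y → y ∈ Z₀) : Good ρ p ⊤ := by
  classical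
  have hpp : p.Prime := Fact.out
  let 𝓢 : Set (Subgroup R) := {L | IsInv ρ L ∧ Good ρ p L}
  have hbot : (⊥ : Subgroup R) ∈ 𝓢 :=
    ⟨⟨inferInstance, fun g u hu => by rw [Subgroup.mem_bot.mp hu, map_one]; exact Subgroup.one_mem _⟩,
      good_bot ρ p⟩
  obtain ⟨L₀, hL₀⟩ := (Set.toFinite 𝓢).exists_maximal ⟨⊥, hbot⟩
  obtain ⟨⟨hL₀i, hL₀g⟩, hL₀m⟩ := hL₀
  haveI hL₀n : L₀.Normal := hL₀i.1
  by_cases htop : L₀ = ⊤
  · rw [← htop]
    exact hL₀g
  exfalso
  -- `Z₀` and `W` lie in `L₀`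
  have hZL : Z₀ ≤ L₀ := by
    by_contra hnot
    have hidx : L₀.relIndex Z₀ = p := by
      apply relIndex_eq_prime (k := 0) hR (by rw [hZcard, pow_one]) _ hnot
      rw [pow_zero]
      exact Nat.card_pos
    obtain ⟨h1, h2⟩ := good_sup ρ hR hL₀i (isInv_of_char ρ hZc) hL₀g hidx
    have h3 := hL₀m ⟨h1, h2⟩ le_sup_left
    exact hnot (le_sup_right.trans h3)
  have hWL : W ≤ L₀ := by
    by_contra hnot
    have hidx : L₀.relIndex W = p := by
      apply relIndex_eq_prime (k := 1) hR hWcard _ hnot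
      rw [pow_one, ← hZcard]
      have h1 : Nat.card (Z₀.subgroupOf W) = Nat.card Z₀ := Nat.card_congr (Subgroup.subgroupOfEquivOfLe hZW).toEquiv
      rw [← h1]
      apply Subgroup.card_le_of_le
      exact Subgroup.subgroupOf_mono W hZL
    obtain ⟨h1, h2⟩ := good_sup ρ hR hL₀i (isInv_of_char ρ hWc) hL₀g hidx
    have h3 := hL₀m ⟨h1, h2⟩ le_sup_left
    exact hnot (le_sup_right.trans h3)
  -- a minimal invariant subgroup above `L₀`
  let 𝓜 : Set (Subgroup R) := {M | IsInv ρ M ∧ L₀ < M}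
  have htopM : (⊤ : Subgroup R) ∈ 𝓜 :=
    ⟨⟨inferInstance, fun _ _ _ => Subgroup.mem_top _⟩, lt_of_le_of_ne le_top htop⟩
  obtain ⟨N, hNM⟩ := (Set.toFinite 𝓜).exists_minimal ⟨⊤, htopM⟩
  obtain ⟨⟨hNi, hLNlt⟩, hNm⟩ := hNM
  haveI hNn : N.Normal := hNi.1
  have hLN : L₀ ≤ N := hLNlt.le
  have hmin : ∀ M, IsInv ρ M → L₀ ≤ M → M ≤ N → M = L₀ ∨ M = N := by
    intro M hM hLM hMN
    by_cases hEq : M = L₀
    · exact Or.inl hEq
    · right
      have hlt : L₀ < M := lt_of_le_of_ne hLM (Ne.symm hEq)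
      exact le_antisymm hMN (hNm ⟨hM, hlt⟩ hMN)
  -- centrality modulo `L₀`
  have hcenmem : ∀ u : R, u ∈ (Subgroup.center (R ⧸ L₀)).comap (QuotientGroup.mk' L₀) ↔
      ∀ r : R, r * u * r⁻¹ * u⁻¹ ∈ L₀ := by
    intro u
    rw [Subgroup.mem_comap, Subgroup.mem_center_iff]
    constructor
    · intro h r
      have h1 := h (r : R ⧸ L₀)
      rw [← QuotientGroup.eq_one_iff]
      have h2 : ((r * u * r⁻¹ * u⁻¹ : R) : R ⧸ L₀) = (r : R ⧸ L₀) * (u : R ⧸ L₀) * (r : R ⧸ L₀)⁻¹ * (u : R ⧸ L₀)⁻¹ := rfl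
      rw [h2]
      have h3 : (r : R ⧸ L₀) * (u : R ⧸ L₀) = (u : R ⧸ L₀) * (r : R ⧸ L₀) := h1
      rw [h3]
      group
    · intro h q
      obtain ⟨r, rfl⟩ := QuotientGroup.mk_surjective q
      have h1 := (QuotientGroup.eq_one_iff _).mpr (h r)
      have h2 : ((r * u * r⁻¹ * u⁻¹ : R) : R ⧸ L₀) = (r : R ⧸ L₀) * (u : R ⧸ L₀) * (r : R ⧸ L₀)⁻¹ * (u : R ⧸ L₀)⁻¹ := rfl
      rw [h2] at h1
      have h3 : (r : R ⧸ L₀) * (u : R ⧸ L₀) = (u : R ⧸ L₀) * (r : R ⧸ L₀) := by
        have h4 := mul_inv_eq_one.mp h1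
        rw [mul_inv_eq_iff_eq_mul] at h4
        exact h4
      exact h3
  have hcent : ∀ r : R, ∀ u ∈ N, r * u * r⁻¹ * u⁻¹ ∈ L₀ := by
    let Nt : Subgroup R := N ⊓ (Subgroup.center (R ⧸ L₀)).comap (QuotientGroup.mk' L₀)
    have hNti : IsInv ρ Nt := by
      constructor
      · infer_instance
      · intro g u hu
        obtain ⟨hu1, hu2⟩ := Subgroup.mem_inf.mp hu
        refine Subgroup.mem_inf.mpr ⟨hNi.2 g u hu1, ?_⟩
        rw [hcenmem] at hu2 ⊢
        intro r
        have h1 := hL₀i.2 g _ (hu2 ((ρ g)⁻¹ r))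
        rw [map_mul, map_mul, map_mul, map_inv, map_inv] at h1
        have h2 : ρ g ((ρ g)⁻¹ r) = r := by
          simp
        rwa [h2] at h1
    have hLNt : L₀ ≤ Nt := by
      intro l hl
      refine Subgroup.mem_inf.mpr ⟨hLN hl, ?_⟩
      rw [Subgroup.mem_comap]
      have h1 : QuotientGroup.mk' L₀ l = 1 := (QuotientGroup.eq_one_iff l).mpr hl
      rw [h1]
      exact Subgroup.one_mem _
    have hNtN : Nt ≤ N := inf_le_left
    have hNeq : Nt = N := by
      rcases hmin Nt hNti hLNt hNtN with h | h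
      · exfalso
        -- `N / L₀` meets the centre
        have hQ : IsPGroup p (R ⧸ L₀) := hR.to_quotient L₀
        haveI : Group.IsNilpotent (R ⧸ L₀) := hQ.isNilpotent
        have hne : N.map (QuotientGroup.mk' L₀) ≠ ⊥ := by
          intro hb
          apply hLNlt.not_ge
          intro u hu
          have h1 : QuotientGroup.mk' L₀ u ∈ N.map (QuotientGroup.mk' L₀) := ⟨u, hu, rfl⟩
          rw [hb, Subgroup.mem_bot] at h1
          exact (QuotientGroup.eq_one_iff u).mp h1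
        have hnorm : (N.map (QuotientGroup.mk' L₀)).Normal :=
          Subgroup.Normal.map hNn _ (QuotientGroup.mk'_surjective L₀)
        obtain ⟨y, ⟨u, hu, rfl⟩, hy1, hy2⟩ := exists_central_of_normal hnorm hne
        have hu' : u ∈ Nt := Subgroup.mem_inf.mpr ⟨hu, hy2⟩
        rw [h] at hu'
        exact hy1 ((QuotientGroup.eq_one_iff u).mpr hu')
      · exact h
    intro r u hu
    have h1 : u ∈ Nt := by rw [hNeq]; exact hu
    exact (hcenmem u).mp (Subgroup.mem_inf.mp h1).2 r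
  -- the section
  obtain ⟨θ, hθ⟩ := exists_sec ρ hL₀i.2 hNi.2
  let π : N →* ↥N ⧸ L₀.subgroupOf N := QuotientGroup.mk' _
  have hπ : Function.Surjective π := QuotientGroup.mk'_surjective _
  have hπker : ∀ u : N, π u = 1 ↔ (u : R) ∈ L₀ := fun u => QuotientGroup.eq_one_iff u
  have hcomm : ∀ a b : ↥N ⧸ L₀.subgroupOf N, a * b = b * a := by
    intro a b
    obtain ⟨u, rfl⟩ := hπ a
    obtain ⟨v, rfl⟩ := hπ b
    rw [← map_mul, ← map_mul]
    have h1 : π (u * v * (v * u)⁻¹) = 1 := by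
      rw [hπker]
      have h2 : ((u * v * (v * u)⁻¹ : N) : R) = (u : R) * v * (u : R)⁻¹ * (v : R)⁻¹ := by
        simp only [Subgroup.coe_mul, Subgroup.coe_inv]
        group
      rw [h2]
      exact hcent u v v.2
    rw [map_mul, map_inv] at h1
    exact mul_inv_eq_one.mp h1
  -- irreducibility
  have hirr : ∀ B : Subgroup (↥N ⧸ L₀.subgroupOf N), (∀ g, ∀ v ∈ B, θ g v ∈ B) → B = ⊥ ∨ B = ⊤ := by
    intro B hB
    let MB : Subgroup R := (B.comap π).map N.subtype
    have hMBmem : ∀ u, u ∈ MB ↔ ∃ hu : u ∈ N, π ⟨u, hu⟩ ∈ B := by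
      intro u
      constructor
      · rintro ⟨v, hv, rfl⟩
        exact ⟨v.2, hv⟩
      · rintro ⟨hu, h⟩
        exact ⟨⟨u, hu⟩, h, rfl⟩
    have hLMB : L₀ ≤ MB := by
      intro l hl
      rw [hMBmem]
      refine ⟨hLN hl, ?_⟩
      have h1 : π ⟨l, hLN hl⟩ = 1 := (hπker _).mpr hl
      rw [h1]
      exact B.one_mem
    have hMBN : MB ≤ N := by
      rintro _ ⟨v, -, rfl⟩
      exact v.2
    have hMBi : IsInv ρ MB := by
      constructor
      · refine ⟨fun u hu r => ?_⟩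
        have h1 : r * u * r⁻¹ * u⁻¹ ∈ MB := hLMB (hcent r u (hMBN hu))
        have h2 := MB.mul_mem h1 hu
        have h3 : r * u * r⁻¹ * u⁻¹ * u = r * u * r⁻¹ := by group
        rwa [h3] at h2
      · intro g u hu
        obtain ⟨hu1, hu2⟩ := (hMBmem u).mp hu
        rw [hMBmem]
        refine ⟨hNi.2 g u hu1, ?_⟩
        have h1 := hB g _ hu2
        have h2 : θ g (π ⟨u, hu1⟩) = π ⟨ρ g u, hNi.2 g u hu1⟩ := hθ g ⟨u, hu1⟩
        rwa [h2] at h1
    rcases hmin MB hMBi hLMB hMBN with h | h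
    · left
      rw [eq_bot_iff]
      intro w hw
      obtain ⟨u, rfl⟩ := hπ w
      have h1 : (u : R) ∈ MB := (hMBmem _).mpr ⟨u.2, hw⟩
      rw [h] at h1
      exact Subgroup.mem_bot.mpr ((hπker u).mpr h1)
    · right
      rw [eq_top_iff]
      intro w _
      obtain ⟨u, rfl⟩ := hπ w
      have h1 : (u : R) ∈ MB := by rw [h]; exact u.2
      obtain ⟨_, h2⟩ := (hMBmem _).mp h1
      exact h2
  -- the section is a nontrivial `p`-group
  haveI hMnt : Nontrivial (↥N ⧸ L₀.subgroupOf N) := by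
    obtain ⟨u, hu, hnot⟩ := SetLike.exists_of_lt hLNlt
    refine ⟨⟨π ⟨u, hu⟩, 1, fun h => hnot ?_⟩⟩
    exact (hπker _).mp h
  have hMp : IsPGroup p (↥N ⧸ L₀.subgroupOf N) := (hR.to_subgroup N).to_quotient _
  have hpdvd : p ∣ Nat.card (↥N ⧸ L₀.subgroupOf N) := by
    obtain ⟨k, hk⟩ := hMp.exists_card_eq
    have hk0 : k ≠ 0 := by
      rintro rfl
      rw [pow_zero] at hk
      exact not_subsingleton _ (Nat.card_eq_one_iff_unique.mp hk).1
    rw [hk]
    exact dvd_pow_self p hk0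
  have hexp : ∀ v : ↥N ⧸ L₀.subgroupOf N, v ^ p = 1 := by
    let E : Subgroup (↥N ⧸ L₀.subgroupOf N) :=
      { carrier := {v | v ^ p = 1}
        mul_mem' := by
          intro a b ha hb
          have : Commute a b := hcomm a b
          change (a * b) ^ p = 1
          rw [this.mul_pow, show a ^ p = 1 from ha, show b ^ p = 1 from hb, one_mul]
        one_mem' := one_pow p
        inv_mem' := by
          intro a ha
          change a⁻¹ ^ p = 1
          rw [inv_pow, show a ^ p = 1 from ha, inv_one] }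
    have hEinv : ∀ g, ∀ v ∈ E, θ g v ∈ E := by
      intro g v hv
      change (θ g v) ^ p = 1
      rw [← map_pow, show v ^ p = 1 from hv, map_one]
    have hEne : E ≠ ⊥ := by
      obtain ⟨v, hv⟩ := exists_prime_orderOf_dvd_card' p hpdvd
      intro hb
      have h1 : v ∈ E := by
        change v ^ p = 1
        rw [← hv]
        exact pow_orderOf_eq_one v
      rw [hb, Subgroup.mem_bot] at h1
      rw [h1, orderOf_one] at hv
      exact hpp.one_lt.ne hv
    have hEt := (hirr E hEinv).resolve_left hEne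
    intro v
    have : v ∈ E := by rw [hEt]; trivial
    exact this
  -- the step
  have hfinish : Nat.card (↥N ⧸ L₀.subgroupOf N) = p → False := by
    intro hc
    have hgood := good_step ρ hR hL₀i.2 hNi.2 hLN hL₀g hc
    have hle := hL₀m ⟨hNi, hgood⟩ hLN
    exact hLNlt.not_ge hle
  obtain ⟨K, hKn, hcK, hpK, hK⟩ := hL₀g
  haveI := hKn
  rcases irr_card (↥N ⧸ L₀.subgroupOf N) hcomm p hexp θ hirr K hcK hpK with hc | ⟨h, hhK, hhc, hhne⟩
  · exact hfinish hc
  · -- the cover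
    let S : Set Γ := {h | h ∈ K ∧ (orderOf h).Coprime p}
    have hSc : ∀ g, ∀ h ∈ S, g * h * g⁻¹ ∈ S := by
      rintro g h ⟨h1, h2⟩
      refine ⟨hKn.conj_mem h h1 g, ?_⟩
      have e : orderOf (g * h * g⁻¹) = orderOf h := by
        have := MulEquiv.orderOf_eq (MulAut.conj g) h
        simpa using this
      rw [e]
      exact h2
    have hfix : ∀ h ∈ S, ∀ l ∈ L₀, ρ h l = l := by
      rintro h ⟨h1, h2⟩ l hl
      obtain ⟨k, hk⟩ := hK h h1
      obtain ⟨m, hm⟩ := exists_pow_eq_self_of_coprime (x := h) (n := p ^ k) (Nat.Coprime.pow_left k h2.symm)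
      have e : ρ h = (ρ (h ^ (p ^ k))) ^ m := by
        rw [← map_pow, hm]
      have key : ∀ (m : ℕ) (y : MulAut R), (∀ u ∈ L₀, y u = u) → (y ^ m) l = l := by
        intro m y hy
        induction m with
        | zero => simp
        | succ m ih =>
          rw [pow_succ, MulAut.mul_apply, hy l hl, ih]
      rw [e]
      exact key m _ hk
    have hne : ∃ h ∈ S, ∃ u ∈ N, u⁻¹ * ρ h u ∉ L₀ := by
      refine ⟨h, ⟨hhK, hhc⟩, ?_⟩
      by_contra hcon
      push Not at hcon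
      apply hhne
      apply MulEquiv.ext
      intro w
      obtain ⟨u, rfl⟩ := hπ w
      rw [MulAut.one_apply]
      have h1 : θ h (π u) = π ⟨ρ h u, hNi.2 h u u.2⟩ := hθ h u
      rw [h1]
      symm
      apply QuotientGroup.eq.mpr
      exact hcon u u.2
    -- powers modulo `L₀`
    have hpow : ∀ u ∈ N, u ^ p ∈ L₀ := by
      intro u hu
      have h1 := hexp (π ⟨u, hu⟩)
      rw [← map_pow] at h1
      exact (hπker _).mp h1
    obtain ⟨P, hPN, hsup, hPL, hPp⟩ := exists_cover ρ hp hL₀i hNi hLN hcent hpow hmin S hSc hfix hne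
    have hle := sec_card_le hLN hcent hPN hsup hPL hPp x hWL hZL hZcard hT
    exact hfinish (le_antisymm hle (Nat.le_of_dvd Nat.card_pos hpdvd))

end Main

end Cfsg.Agent.H06.Narrow
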