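import Cfsg.Agent.Lib.H06.Narrow4
import Cfsg.Agent.S1453
import Cfsg.Agent.Lib.H19.ZCoprime
import Cfsg.Agent.Lib.H06.SCN
import Cfsg.Agent.Lib.H01.Fitting

/-!
# Narrow `p`-groups: providing the data of the action theorem
-/

set_option autoImplicit false

namespace Cfsg.Agent.H06.Narrow

open Cfsg

universe u v

/-- The data needed by the action theorem. -/
def Pack (p : ℕ) (R : Type u) [Group R] : Prop :=
  ∃ (x : R) (W Z₀ : Subgroup R), W.Characteristic ∧ Z₀.Characteristic ∧ Z₀ ≤ W ∧ Nat.card Z₀ = p ∧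
    Nat.card W = p ^ 2 ∧ ∀ y, (∀ w ∈ W, y * w = w * y) → y ^ p = 1 → y * x = x * y → y ∈ Z₀

section Packing

variable {R : Type u} [Group R] [Finite R] {p : ℕ} [Fact p.Prime]

theorem char_omega_center (n : ℕ) : (Subgroup.closure {x : R | x ∈ Subgroup.upperCentralSeries R n ∧ x ^ p = 1}).Characteristic := by
  rw [Subgroup.characteristic_iff_map_le]
  intro φ
  rw [MonoidHom.map_closure]
  apply Subgroup.closure_mono
  rintro _ ⟨x, ⟨hx1, hx2⟩, rfl⟩
  refine ⟨?_, ?_⟩
  · have := Subgroup.characteristic_iff_map_le.mp (inferInstance : (Subgroup.upperCentralSeries R n).Characteristic) φ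
    exact this (Subgroup.mem_map_of_mem _ hx1)
  · show (φ x) ^ p = 1
    rw [← map_pow, hx2, map_one]

theorem pack_of_max (hp : p ≠ 2) (hR : IsPGroup p R) (hr : ¬ Cfsg.PRankLE p 2 R)
    (E : Subgroup R) (hE : Cfsg.IsElementaryAbelian p E) (hE2 : Nat.card E = p ^ 2)
    (hEmax : ∀ B : Subgroup R, Cfsg.IsElementaryAbelian p B → E ≤ B → B = E) : Pack p R := by
  classical
  have hpp : p.Prime := Fact.out
  obtain ⟨h1, h2, ⟨h3, h3'⟩, h4, h5⟩ := Cfsg.Agent.S1453.result p hp hR hr E hE hE2 hEmax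
  set W := Subgroup.closure {x : R | x ∈ Subgroup.upperCentralSeries R 2 ∧ x ^ p = 1} with hW
  set Z₀ := Subgroup.closure {x : R | x ∈ Subgroup.center R ∧ x ^ p = 1} with hZ₀
  have hZcent : Z₀ ≤ Subgroup.center R := fun z hz => (Cfsg.Agent.S1453.mem_Omega hz).1
  have hZchar : Z₀.Characteristic := by
    have := char_omega_center (R := R) (p := p) 1
    rw [Subgroup.upperCentralSeries_one] at this
    exact this
  have hWchar : W.Characteristic := char_omega_center 2
  have hZW : Z₀ ≤ W := by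
    apply Subgroup.closure_mono
    rintro x ⟨hx1, hx2⟩
    refine ⟨?_, hx2⟩
    have : Subgroup.upperCentralSeries R 1 ≤ Subgroup.upperCentralSeries R 2 :=
      Subgroup.upperCentralSeries_mono R (by norm_num)
    apply this
    rw [Subgroup.upperCentralSeries_one]
    exact hx1
  -- `Z₀ ≤ E`
  have hZE : Z₀ ≤ E := by
    rw [hZ₀, Subgroup.closure_le]
    rintro z ⟨hz1, hz2⟩
    have h6 := Cfsg.Agent.H06.isElementaryAbelian_sup_zpowers hE hz2
      (fun e _ => ((Subgroup.mem_center_iff.mp hz1) e))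
    have h7 := hEmax _ h6 le_sup_left
    rw [← h7]
    exact (le_sup_right : Subgroup.zpowers z ≤ _) (Subgroup.mem_zpowers z)
  -- the element `x`
  obtain ⟨x, hxE, hxW⟩ := Set.not_subset.mp h1
  have hxZ : x ∉ Z₀ := by
    intro hx
    apply hxW
    rw [SetLike.mem_coe, Subgroup.mem_centralizer_iff]
    intro w _
    exact (Subgroup.mem_center_iff.mp (hZcent hx)) w
  refine ⟨x, W, Z₀, hWchar, hZchar, hZW, h2, h3', ?_⟩
  intro y hyW hyp hyx
  -- `E = ⟨x⟩ Z₀`
  have hEeq : Subgroup.zpowers x ⊔ Z₀ = E := by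
    have hle : Subgroup.zpowers x ⊔ Z₀ ≤ E := sup_le (Subgroup.zpowers_le.mpr hxE) hZE
    have hdvd : Nat.card ↥(Subgroup.zpowers x ⊔ Z₀) ∣ p ^ 2 := hE2 ▸ Subgroup.card_dvd_of_le hle
    obtain ⟨j, hj, hj2⟩ := (Nat.dvd_prime_pow hpp).mp hdvd
    have hdvd2 : p ∣ Nat.card ↥(Subgroup.zpowers x ⊔ Z₀) := by
      rw [← h2]
      exact Subgroup.card_dvd_of_le le_sup_right
    have hne : Nat.card ↥(Subgroup.zpowers x ⊔ Z₀) ≠ p := by
      intro h
      have h8 : Z₀ = Subgroup.zpowers x ⊔ Z₀ :=
        Subgroup.eq_of_le_of_card_ge le_sup_right (by rw [h, h2])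
      apply hxZ
      rw [h8]
      exact (le_sup_left : Subgroup.zpowers x ≤ _) (Subgroup.mem_zpowers x)
    have hj3 : j = 2 := by
      interval_cases j
      · rw [hj2, pow_zero] at hdvd2
        exact absurd (Nat.dvd_one.mp hdvd2) hpp.ne_one
      · rw [pow_one] at hj2
        exact absurd hj2 hne
      · rfl
    exact Subgroup.eq_of_le_of_card_ge hle (by rw [hE2, hj2, hj3])
  -- `y` centralizes `E`
  have hyE : ∀ e ∈ E, e * y = y * e := by
    have hle : E ≤ Subgroup.centralizer ({y} : Set R) := by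
      rw [← hEeq]
      refine sup_le (Subgroup.zpowers_le.mpr ?_) ?_
      · rw [Subgroup.mem_centralizer_singleton_iff]
        exact hyx.symm
      · intro z hz
        rw [Subgroup.mem_centralizer_singleton_iff]
        exact ((Subgroup.mem_center_iff.mp (hZcent hz)) y).symm
    intro e he
    exact (Subgroup.mem_centralizer_singleton_iff.mp (hle he))
  have hyinE : y ∈ E := by
    have h6 := Cfsg.Agent.H06.isElementaryAbelian_sup_zpowers hE hyp hyE
    have h7 := hEmax _ h6 le_sup_left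
    rw [← h7]
    exact (le_sup_right : Subgroup.zpowers y ≤ _) (Subgroup.mem_zpowers y)
  -- `E ∩ C(W) = Z₀`
  have hcap : Z₀ = E ⊓ Subgroup.centralizer (W : Set R) := by
    have hle : Z₀ ≤ E ⊓ Subgroup.centralizer (W : Set R) := by
      refine le_inf hZE ?_
      intro z hz
      rw [Subgroup.mem_centralizer_iff]
      intro w _
      exact (Subgroup.mem_center_iff.mp (hZcent hz)) w
    apply Subgroup.eq_of_le_of_card_ge hle
    rw [h2]
    have hdvd : Nat.card ↥(E ⊓ Subgroup.centralizer (W : Set R)) ∣ p ^ 2 :=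
      hE2 ▸ Subgroup.card_dvd_of_le inf_le_left
    obtain ⟨j, hj, hj2⟩ := (Nat.dvd_prime_pow hpp).mp hdvd
    have hj3 : j ≠ 2 := by
      rintro rfl
      apply hxW
      have h8 : E ⊓ Subgroup.centralizer (W : Set R) = E :=
        Subgroup.eq_of_le_of_card_ge inf_le_left (by rw [hE2, hj2])
      have := (Subgroup.mem_inf.mp (h8.symm ▸ hxE : x ∈ E ⊓ Subgroup.centralizer (W : Set R))).2
      exact this
    rw [hj2]
    have hj4 : j ≤ 1 := by omega
    calc p ^ j ≤ p ^ 1 := Nat.pow_le_pow_right hpp.pos hj4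
      _ = p := pow_one p
  rw [hcap]
  refine Subgroup.mem_inf.mpr ⟨hyinE, ?_⟩
  rw [Subgroup.mem_centralizer_iff]
  intro w hw
  exact (hyW w hw).symm

/-- Groups of prime order are elementary abelian. -/
theorem isElementaryAbelian_of_card {R₀ : Subgroup R} (h : Nat.card R₀ = p) :
    Cfsg.IsElementaryAbelian p R₀ := by
  have hpp : p.Prime := Fact.out
  haveI : Fact (Nat.card R₀).Prime := ⟨h ▸ hpp⟩
  haveI : IsCyclic R₀ := isCyclic_of_prime_card rfl
  refine ⟨IsCyclic.commutative, fun a ha => ?_⟩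
  have := pow_card_eq_one' (x := (⟨a, ha⟩ : R₀))
  rw [h] at this
  simpa using congrArg Subtype.val this

theorem pack_of_narrow (hp : p ≠ 2) (hR : IsPGroup p R) (hr : ¬ Cfsg.PRankLE p 2 R)
    (hn : Cfsg.IsNarrow p R) : Pack p R := by
  classical
  have hpp : p.Prime := Fact.out
  obtain ⟨R₀, R₁, hR₀, hR₁c, hcap, hcomm, hsup⟩ := hn.resolve_left hr
  have hE₀ : Cfsg.IsElementaryAbelian p R₀ := isElementaryAbelian_of_card hR₀
  -- `R₁ ≠ 1`
  have hR₁ : R₁ ≠ ⊥ := by
    intro h
    rw [h, sup_bot_eq] at hsup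
    haveI : Nontrivial R := by
      by_contra hnt
      rw [not_nontrivial_iff_subsingleton] at hnt
      have : Nat.card R₀ = 1 := Nat.card_unique
      rw [hR₀] at this
      exact hpp.ne_one this
    have hcent : Subgroup.center R ≤ R₀ := by
      rw [hsup]
      intro z hz
      rw [Subgroup.mem_centralizer_iff]
      intro w _
      exact (Subgroup.mem_center_iff.mp hz) w
    haveI hnt : Nontrivial (Subgroup.center R) := hR.center_nontrivial
    have hcarddvd : Nat.card (Subgroup.center R) ∣ p := hR₀ ▸ Subgroup.card_dvd_of_le hcent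
    have hcen : Nat.card (Subgroup.center R) = p := by
      rcases (Nat.dvd_prime hpp).mp hcarddvd with h1 | h1
      · exact absurd (Nat.card_eq_one_iff_unique.mp h1).1 (not_subsingleton _)
      · exact h1
    have hRc : R₀ = Subgroup.center R := (Subgroup.eq_of_le_of_card_ge hcent (by rw [hcen, hR₀])).symm
    have htop : R₀ = ⊤ := by
      rw [hsup, eq_top_iff]
      intro g _
      rw [Subgroup.mem_centralizer_iff]
      intro w hw
      have : w ∈ R₀ := hw
      rw [hRc] at this
      exact ((Subgroup.mem_center_iff.mp this) g).symm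
    apply hr
    intro A _ _
    have h1 : Nat.card A ≤ Nat.card R := Nat.card_le_card_of_injective _ Subtype.val_injective
    have h2 : Nat.card R = p := by
      rw [← hR₀, htop]
      exact (Nat.card_congr Subgroup.topEquiv.toEquiv).symm
    rw [h2] at h1
    calc Nat.card A ≤ p := h1
      _ ≤ p ^ 2 := Nat.le_self_pow (by norm_num) p
  -- an element of order `p` in `R₁`
  obtain ⟨z₀, hz₀⟩ : ∃ z₀ : R₁, orderOf z₀ = p := by
    haveI : Nontrivial R₁ := (Subgroup.nontrivial_iff_ne_bot R₁).mpr hR₁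
    obtain ⟨j, hj⟩ := (hR.to_subgroup R₁).exists_card_eq
    have hd : p ∣ Nat.card R₁ := by
      rw [hj]
      have hj0 : j ≠ 0 := by
        rintro rfl
        rw [pow_zero] at hj
        exact absurd (Nat.card_eq_one_iff_unique.mp hj).1 (not_subsingleton _)
      exact dvd_pow_self p hj0
    exact exists_prime_orderOf_dvd_card' p hd
  let z : R := z₀
  have hzo : orderOf z = p := by
    rw [← hz₀]
    exact Subgroup.orderOf_coe z₀
  have hz1 : z ^ p = 1 := by rw [← hzo]; exact pow_orderOf_eq_one z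
  have hzR₁ : z ∈ R₁ := z₀.2
  -- the group `E`
  let Ω := Subgroup.zpowers z
  have hΩ : Nat.card Ω = p := by rw [Nat.card_zpowers, hzo]
  have hΩR₁ : Ω ≤ R₁ := Subgroup.zpowers_le.mpr hzR₁
  let E : Subgroup R := R₀ ⊔ Ω
  have hEe : Cfsg.IsElementaryAbelian p E :=
    Cfsg.Agent.H06.isElementaryAbelian_sup_zpowers hE₀ hz1 (fun e he => hcomm e he z hzR₁)
  have hEcard : Nat.card E = p ^ 2 := by
    have hcm : ∀ (a : R₀) (b : Ω), Commute (R₀.subtype a) (Ω.subtype b) :=
      fun a b => hcomm a a.2 b (hΩR₁ b.2)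
    let f : R₀ × Ω →* R := R₀.subtype.noncommCoprod Ω.subtype hcm
    have hfr : f.range = E := by
      show (R₀.subtype.noncommCoprod Ω.subtype hcm).range = E
      rw [MonoidHom.noncommCoprod_range, Subgroup.range_subtype, Subgroup.range_subtype]
    have hfi : Function.Injective f := by
      rw [injective_iff_map_eq_one]
      rintro ⟨a, b⟩ hab
      have h1 : (a : R) * (b : R) = 1 := hab
      have h2 : (a : R) = (b : R)⁻¹ := eq_inv_of_mul_eq_one_left h1
      have h3 : (a : R) ∈ R₀ ⊓ R₁ := Subgroup.mem_inf.mpr ⟨a.2, by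
        rw [h2]
        exact R₁.inv_mem (hΩR₁ b.2)⟩
      rw [hcap, Subgroup.mem_bot] at h3
      have h4 : a = 1 := Subtype.ext h3
      have h5 : (b : R) = 1 := by
        rw [h3, one_mul] at h1
        exact h1
      have h6 : b = 1 := Subtype.ext h5
      rw [h4, h6]
      rfl
    rw [← hfr]
    rw [Nat.card_congr (MonoidHom.ofInjective hfi).toEquiv.symm, Nat.card_prod, hR₀, hΩ, sq]
  apply pack_of_max hp hR hr E hEe hEcard
  intro B hB hEB
  apply le_antisymm _ hEB
  intro y hy
  have hycomm : ∀ a ∈ R₀, a * y = y * a := by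
    intro a ha
    have h1 := hB.1.is_comm.comm ⟨a, hEB ((le_sup_left : R₀ ≤ E) ha)⟩ ⟨y, hy⟩
    exact congrArg Subtype.val h1
  have hyC : y ∈ Subgroup.centralizer (R₀ : Set R) := by
    rw [Subgroup.mem_centralizer_iff]
    exact hycomm
  rw [← hsup] at hyC
  have hnorm : R₀ ≤ Subgroup.normalizer (R₁ : Set R) := by
    have hle : R₀ ≤ Subgroup.centralizer (R₁ : Set R) := by
      intro a ha
      rw [Subgroup.mem_centralizer_iff]
      intro b hb
      exact (hcomm a ha b hb).symm
    exact hle.trans (Subgroup.centralizer_le_normalizer _)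
  rw [sup_comm] at hyC
  obtain ⟨b, hb, a, ha, rfl⟩ := Cfsg.Agent.H01.exists_mul_of_mem_sup hnorm hyC
  have haB : a ∈ B := hEB ((le_sup_left : R₀ ≤ E) ha)
  have hbB : b ∈ B := by
    have := B.mul_mem hy (B.inv_mem haB)
    simpa using this
  have hbp := hB.2 b hbB
  have hbΩ : b ∈ Ω := by
    by_cases hb1 : b = 1
    · rw [hb1]
      exact Subgroup.one_mem _
    · have ho : orderOf b = p := orderOf_eq_prime hbp hb1
      let c : R₁ := ⟨b, hb⟩
      have hco : orderOf c = p := by
        rw [← ho]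
        exact Subgroup.orderOf_mk b hb
      obtain ⟨k, hk⟩ := Cfsg.Agent.H19.mem_zpowers_of_orderOf_eq_prime hz₀ hco
      refine ⟨k, ?_⟩
      have := congrArg Subtype.val hk
      exact this
  exact E.mul_mem ((le_sup_right : Ω ≤ E) hbΩ) ((le_sup_left : R₀ ≤ E) ha)

/-- The third way of getting the data: from an elementary abelian subgroup with a centralizer of small
rank. -/
theorem pack_of_elem (hp : p ≠ 2) (hR : IsPGroup p R) (hr : ¬ Cfsg.PRankLE p 2 R)
    (E' : Subgroup R) (hE' : Cfsg.IsElementaryAbelian p E')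
    (hr' : Cfsg.PRankLE p 2 ↥(Subgroup.centralizer (E' : Set R))) : Pack p R := by
  classical
  have hpp : p.Prime := Fact.out
  -- transfer of the rank
  have htr : ∀ B : Subgroup R, Cfsg.IsElementaryAbelian p B → B ≤ Subgroup.centralizer (E' : Set R) →
      Nat.card B ≤ p ^ 2 := by
    intro B hB hle
    have h1 := hr' (B.subgroupOf _) ?_ ?_
    · rwa [Nat.card_congr (Subgroup.subgroupOfEquivOfLe hle).toEquiv] at h1
    · refine ⟨⟨?_⟩⟩
      rintro ⟨a, ha⟩ ⟨b, hb⟩
      apply Subtype.ext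
      apply Subtype.ext
      have h2 := hB.1.is_comm.comm ⟨a.1, ha⟩ ⟨b.1, hb⟩
      have h3 := congrArg Subtype.val h2
      exact h3
    · rintro a ha
      apply Subtype.ext
      exact hB.2 a.1 ha
  -- central element
  haveI : Nontrivial R := by
    by_contra hnt
    rw [not_nontrivial_iff_subsingleton] at hnt
    apply hr
    intro A _ _
    have : Nat.card A = 1 := Nat.card_unique
    rw [this]
    exact Nat.one_le_pow _ _ hpp.pos
  haveI hnt : Nontrivial (Subgroup.center R) := hR.center_nontrivial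
  obtain ⟨z₀, hz₀⟩ : ∃ z₀ : Subgroup.center R, orderOf z₀ = p := by
    obtain ⟨j, hj⟩ := (hR.to_subgroup (Subgroup.center R)).exists_card_eq
    have hd : p ∣ Nat.card (Subgroup.center R) := by
      rw [hj]
      have hj0 : j ≠ 0 := by
        rintro rfl
        rw [pow_zero] at hj
        exact absurd (Nat.card_eq_one_iff_unique.mp hj).1 (not_subsingleton _)
      exact dvd_pow_self p hj0
    exact exists_prime_orderOf_dvd_card' p hd
  let z : R := z₀
  have hzo : orderOf z = p := by
    rw [← hz₀]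
    exact Subgroup.orderOf_coe z₀
  have hz1 : z ^ p = 1 := by rw [← hzo]; exact pow_orderOf_eq_one z
  have hzc : ∀ g, g * z = z * g := Subgroup.mem_center_iff.mp z₀.2
  let E : Subgroup R := E' ⊔ Subgroup.zpowers z
  have hEe : Cfsg.IsElementaryAbelian p E :=
    Cfsg.Agent.H06.isElementaryAbelian_sup_zpowers hE' hz1 (fun e _ => hzc e)
  have hEc : E ≤ Subgroup.centralizer (E' : Set R) := by
    refine sup_le ?_ (Subgroup.zpowers_le.mpr ?_)
    · intro a ha
      rw [Subgroup.mem_centralizer_iff]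
      intro b hb
      have := hE'.1.is_comm.comm ⟨b, hb⟩ ⟨a, ha⟩
      exact congrArg Subtype.val this
    · rw [Subgroup.mem_centralizer_iff]
      intro b _
      exact hzc b
  have hEle := htr E hEe hEc
  obtain ⟨j, hj⟩ := (hR.to_subgroup E).exists_card_eq
  rw [hj] at hEle
  have hj2 : j ≤ 2 := (Nat.pow_le_pow_iff_right hpp.one_lt).mp hEle
  have hpd : p ∣ Nat.card E := by
    have h1 : Nat.card (Subgroup.zpowers z) ∣ Nat.card E := Subgroup.card_dvd_of_le le_sup_right
    rwa [Nat.card_zpowers, hzo] at h1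
  have hj3 : j = 2 := by
    interval_cases j
    · rw [hj, pow_zero] at hpd
      exact absurd (Nat.dvd_one.mp hpd) hpp.ne_one
    · exfalso
      rw [pow_one] at hj
      have h1 : Subgroup.zpowers z = E := Subgroup.eq_of_le_of_card_ge le_sup_right (by
        rw [hj, Nat.card_zpowers, hzo])
      have hcent : E' ≤ Subgroup.center R := by
        intro e he
        have h2 : e ∈ Subgroup.zpowers z := by
          rw [h1]
          exact (le_sup_left : E' ≤ E) he
        obtain ⟨k, rfl⟩ := h2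
        exact Subgroup.zpow_mem _ z₀.2 k
      apply hr
      intro A hA hA2
      apply htr A ⟨hA, hA2⟩
      intro a _
      rw [Subgroup.mem_centralizer_iff]
      intro b hb
      exact (Subgroup.mem_center_iff.mp (hcent hb) a).symm
    · rfl
  subst hj3
  apply pack_of_max hp hR hr E hEe hj
  intro B hB hEB
  refine (Subgroup.eq_of_le_of_card_ge hEB ?_).symm
  rw [hj]
  -- `B` centralizes `E'`.
  apply htr B hB
  intro b hb
  rw [Subgroup.mem_centralizer_iff]
  intro e he
  have := hB.1.is_comm.comm ⟨e, hEB ((le_sup_left : E' ≤ E) he)⟩ ⟨b, hb⟩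
  exact congrArg Subtype.val this

/-- The action theorem for narrow groups. -/
theorem narrow_action (hp : p ≠ 2) (hR : IsPGroup p R) (hP : Pack p R) {Γ : Type v} [Group Γ] [Finite Γ]
    (ρ : Γ →* MulAut R) :
    ∃ K : Subgroup Γ, K.Normal ∧ commutator Γ ≤ K ∧ (∀ g, g ^ (p - 1) ∈ K) ∧
      ∀ g ∈ K, ∃ k : ℕ, ρ (g ^ (p ^ k)) = 1 := by
  obtain ⟨x, W, Z₀, hWc, hZc, hZW, hZcard, hWcard, hT⟩ := hP
  obtain ⟨K, h1, h2, h3, h4⟩ := good_top ρ hp hR x W Z₀ hWc hZc hZW hZcard hWcard hT
  refine ⟨K, h1, h2, h3, fun g hg => ?_⟩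
  obtain ⟨k, hk⟩ := h4 g hg
  refine ⟨k, ?_⟩
  ext u
  exact hk u (Subgroup.mem_top _)

end Packing

end Cfsg.Agent.H06.Narrow
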