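import Cfsg.Agent.Lib.H06.Narrow5
import Cfsg.Agent.Lib.H06.Rank2c
import Cfsg.Agent.Lib.H06.PLen1
import Cfsg.Agent.Lib.H08.PCoreL

/-!
# Narrow `p`-groups: consequences for groups of odd order
-/

set_option autoImplicit false

namespace Cfsg.Agent.H06.Narrow

open Cfsg
open scoped commutatorElement

universe u

section Assembly

variable {G : Type u} [Group G] [Finite G]

/-- The common final step of the theorems on small `p`-rank and narrow Sylow subgroups. -/
theorem core_assembly [Group.IsSolvable G] (hodd : Odd (Nat.card G)) (p : ℕ) [Fact p.Prime]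
    (hD : IsPGroup p (commutator (G ⧸ Cfsg.pPrimeCore p G)))
    (hQ : ∀ q : ℕ, q.Prime → q ∣ Nat.card (G ⧸ Cfsg.pPrimeCore p G) → q ≤ p) :
    (∀ q : ℕ, q.Prime → q ∣ (Cfsg.pPrimeCore p G).index → q ≤ p) ∧
      ((p = 3 ∨ ∀ q : ℕ, q.Prime → q ∣ Nat.card G → p ≤ q) → Cfsg.HasNormalPComplement p G) ∧
      Cfsg.HasNormalPComplement p ↥(commutator G) ∧
      (∀ L : Subgroup ↥(commutator G), (Nat.card L).Coprime p → L ≤ Cfsg.pPrimeCore p ↥(commutator G)) ∧
      commutator G ≤ Cfsg.pPrimePCore p G ∧ ((Cfsg.pPrimePCore p G).index).Coprime p := by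
  classical
  have hpp : p.Prime := Fact.out
  set N₀ := Cfsg.pPrimeCore p G with hN₀
  haveI hNn : N₀.Normal := Subgroup.sSup_normal _ (fun _ h => h.1)
  have hNc : (Nat.card N₀).Coprime p := Cfsg.Agent.H06.coprime_card_pPrimeCore p
  let Gb := G ⧸ N₀
  let π : G →* Gb := QuotientGroup.mk' N₀
  have hπ : Function.Surjective π := QuotientGroup.mk'_surjective N₀
  haveI : Group.IsSolvable Gb := solvable_of_surjective hπ
  have hoddb : Odd (Nat.card Gb) := Odd.of_dvd_nat hodd (Subgroup.card_dvd_of_surjective π hπ)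
  have hidx : N₀.index = Nat.card Gb := rfl
  have hDP : commutator Gb ≤ Cfsg.pCore p Gb := Cfsg.Agent.H01.le_pCore inferInstance hD
  have hmap : ∀ x ∈ commutator G, π x ∈ commutator Gb := by
    intro x hx
    have hle : commutator G ≤ (commutator Gb).comap π := by
      rw [commutator_def, Subgroup.commutator_le]
      intro a _ b _
      rw [Subgroup.mem_comap, map_commutatorElement, commutator_def]
      exact Subgroup.commutator_mem_commutator (Subgroup.mem_top _) (Subgroup.mem_top _)
    exact hle hx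
  -- the restriction of the projection to `G'`
  let f : ↥(commutator G) →* Gb := π.comp (commutator G).subtype
  have hfmem : ∀ x, f x ∈ commutator Gb := fun x => hmap x x.2
  have hN'c : (Nat.card f.ker).Coprime p := by
    have hker : ∀ n : f.ker, ((n : ↥(commutator G)) : G) ∈ N₀ := by
      intro n
      have h1 : f n = 1 := n.2
      exact (QuotientGroup.eq_one_iff _).mp h1
    let g : f.ker →* N₀ :=
      { toFun := fun n => ⟨_, hker n⟩, map_one' := rfl, map_mul' := fun _ _ => rfl }
    have hinj : Function.Injective g := by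
      intro a b hab
      apply Subtype.ext
      apply Subtype.ext
      have h := congrArg Subtype.val hab
      exact h
    exact Nat.Coprime.coprime_dvd_left (Subgroup.card_dvd_of_injective g hinj) hNc
  have hcore : f.ker ≤ Cfsg.pPrimeCore p ↥(commutator G) :=
    Cfsg.Agent.H08.le_pPrimeCore inferInstance hN'c
  refine ⟨?_, ?_, ?_, ?_, ?_, ?_⟩
  · intro q hq hd
    exact hQ q hq hd
  · intro h
    have hn : N₀.index ≠ 0 := by
      rw [hidx]
      exact Nat.card_pos.ne'
    have hp' := Nat.eq_prime_pow_of_unique_prime_dvd (p := p) hn (by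
      intro d hd hdd
      have hle := hQ d hd hdd
      have hdG : d ∣ Nat.card G := hdd.trans (Subgroup.index_dvd_card N₀)
      rcases h with rfl | h
      · have hd2 : d ≠ 2 := by
          rintro rfl
          have h1 := Odd.of_dvd_nat hodd hdG
          exact absurd h1 (by decide)
        have := hd.two_le
        omega
      · exact le_antisymm hle (h d hd hdG))
    exact Cfsg.Agent.H06.hasNormalPComplement_of p N₀ hNn hNc hp'
  · obtain ⟨a, ha⟩ := (hD.to_le (show f.range ≤ commutator Gb from by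
      rintro _ ⟨x, rfl⟩
      exact hfmem x)).exists_card_eq
    exact Cfsg.Agent.H06.hasNormalPComplement_of p f.ker inferInstance hN'c (a := a)
      (by rw [Subgroup.index_ker, ha])
  · intro L hL x hx
    apply hcore
    rw [MonoidHom.mem_ker]
    obtain ⟨k, hk⟩ := hD ⟨f x, hfmem x⟩
    have h1 : (f x) ^ (p ^ k) = 1 := congrArg Subtype.val hk
    have h2 : orderOf (f x) ∣ p ^ k := orderOf_dvd_of_pow_eq_one h1
    have h3 : orderOf (f x) ∣ Nat.card L := (orderOf_map_dvd f x).trans (Subgroup.orderOf_dvd_natCard L hx)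
    have h4 : (Nat.card L).Coprime (p ^ k) := Nat.Coprime.pow_right _ hL
    have h5 : orderOf (f x) = 1 := Nat.Coprime.eq_one_of_dvd (Nat.Coprime.coprime_dvd_left h3 h4) h2
    exact orderOf_eq_one_iff.mp h5
  · intro x hx
    exact hDP (hmap x hx)
  · -- the index
    have hi : (Cfsg.pPrimePCore p G).index = (Cfsg.pCore p Gb).index :=
      Subgroup.index_comap_of_surjective _ hπ
    rw [hi]
    let S : Sylow p Gb := default
    have hSle : Cfsg.pCore p Gb ≤ (S : Subgroup Gb) := Cfsg.Agent.H01.pCore_le_sylow p S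
    have hSn : (S : Subgroup Gb).Normal := by
      refine ⟨fun s hs g => ?_⟩
      have h1 : g * s * g⁻¹ = ⁅g, s⁆ * s := by
        rw [commutatorElement_def]
        group
      rw [h1]
      refine (S : Subgroup Gb).mul_mem (hSle (hDP ?_)) hs
      rw [commutator_def]
      exact Subgroup.commutator_mem_commutator (Subgroup.mem_top _) (Subgroup.mem_top _)
    have hEq : Cfsg.pCore p Gb = (S : Subgroup Gb) :=
      le_antisymm hSle (Cfsg.Agent.H01.le_pCore hSn S.isPGroup')
    rw [hEq]
    exact ((Nat.Prime.coprime_iff_not_dvd hpp).mpr S.not_dvd_index).symm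

/-- The reduced case of the theorem on narrow Sylow subgroups. -/
theorem narrow_reduced [Group.IsSolvable G] {p : ℕ} [Fact p.Prime] (hp2 : p ≠ 2) (S : Sylow p G) (hS : Cfsg.IsNarrow p ↥(S : Subgroup G))
    (hnr : ¬ Cfsg.PRankLE p 2 ↥(S : Subgroup G)) (hpl : Cfsg.PLengthLE p 1 G) :
    IsPGroup p (commutator (G ⧸ Cfsg.pPrimeCore p G)) ∧
      ∀ q : ℕ, q.Prime → q ∣ Nat.card (G ⧸ Cfsg.pPrimeCore p G) → q ≤ p := by
  classical
  have hpp : p.Prime := Fact.out
  set N₀ := Cfsg.pPrimeCore p G with hN₀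
  haveI hNn : N₀.Normal := Subgroup.sSup_normal _ (fun _ h => h.1)
  have hNc : (Nat.card N₀).Coprime p := Cfsg.Agent.H06.coprime_card_pPrimeCore p
  let Gb := G ⧸ N₀
  let π : G →* Gb := QuotientGroup.mk' N₀
  have hπ : Function.Surjective π := QuotientGroup.mk'_surjective N₀
  haveI : Group.IsSolvable Gb := solvable_of_surjective hπ
  have hOb : Cfsg.pPrimeCore p Gb = ⊥ := Cfsg.Agent.H08.pPrimeCore_quotient_eq_bot p
  let f : ↥(S : Subgroup G) →* Gb := π.comp (S : Subgroup G).subtype
  have hfi : Function.Injective f := by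
    rw [injective_iff_map_eq_one]
    intro a ha
    have h1 : (a : G) ∈ N₀ := (QuotientGroup.eq_one_iff _).mp ha
    obtain ⟨k, hk⟩ := S.isPGroup' a
    have h2 : orderOf (a : G) ∣ p ^ k := orderOf_dvd_of_pow_eq_one (by
      have := congrArg Subtype.val hk
      simpa using this)
    have h3 : orderOf (a : G) ∣ Nat.card N₀ := by
      have := Subgroup.orderOf_dvd_natCard N₀ h1
      exact this
    have h4 : (Nat.card N₀).Coprime (p ^ k) := Nat.Coprime.pow_right _ hNc
    have h5 := Nat.Coprime.eq_one_of_dvd (Nat.Coprime.coprime_dvd_left h3 h4) h2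
    apply Subtype.ext
    exact orderOf_eq_one_iff.mp h5
  let T : Subgroup Gb := f.range
  let S' : Sylow p Gb := S.mapSurjective hπ
  have hTS' : T = (S' : Subgroup Gb) := by
    show f.range = (S : Subgroup G).map π
    rw [MonoidHom.range_comp, Subgroup.range_subtype]
  have hTn : T.Normal := by
    have htop := Cfsg.Agent.H06.plen1_frattini hpl S
    refine ⟨?_⟩
    rintro _ ⟨s, rfl⟩ g
    obtain ⟨g₀, rfl⟩ := hπ g
    have hg₀ : g₀ ∈ N₀ ⊔ Subgroup.normalizer ((S : Subgroup G) : Set G) := by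
      rw [htop]
      exact Subgroup.mem_top _
    have hnormN : Subgroup.normalizer ((S : Subgroup G) : Set G) ≤ Subgroup.normalizer (N₀ : Set G) := by
      rw [Subgroup.normalizer_eq_top_iff.mpr hNn]
      exact le_top
    obtain ⟨n, hn, m, hm, rfl⟩ := Cfsg.Agent.H01.exists_mul_of_mem_sup hnormN hg₀
    have hπn : π n = 1 := (QuotientGroup.eq_one_iff _).mpr hn
    have hmem : m * (s : G) * m⁻¹ ∈ (S : Subgroup G) := (Subgroup.mem_normalizer_iff.mp hm s).mp s.2
    refine ⟨⟨_, hmem⟩, ?_⟩
    show π (m * (s : G) * m⁻¹) = π (n * m) * π (s : G) * (π (n * m))⁻¹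
    simp [map_mul, hπn]
  have hTp : IsPGroup p T := by
    rw [hTS']
    exact S'.isPGroup'
  have hTcore : T = Cfsg.pCore p Gb := by
    apply le_antisymm
    · exact Cfsg.Agent.H01.le_pCore hTn hTp
    · rw [hTS']
      exact Cfsg.Agent.H01.pCore_le_sylow p S'
  have hcent : Subgroup.centralizer (T : Set Gb) ≤ T := by
    rw [hTcore]
    exact H03.centralizer_pCore_le_of_isPSolvable (Cfsg.Agent.H06.isPSolvable_of_isSolvable p Gb) hOb
  let e : ↥(S : Subgroup G) ≃* T := MonoidHom.ofInjective hfi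
  let ρ : Gb →* MulAut ↥(S : Subgroup G) :=
    (MulAut.congr e.symm).toMonoidHom.comp (MulAut.conjNormal (G := Gb) (H := T))
  have hmem : ∀ x : Gb, ρ x = 1 → x ∈ T := by
    intro x hx
    have h0 : MulAut.conjNormal (G := Gb) (H := T) x = 1 := by
      apply (MulAut.congr e.symm).injective
      rw [map_one]
      exact hx
    apply hcent
    rw [Subgroup.mem_centralizer_iff]
    intro z hz
    have h1 := DFunLike.congr_fun h0 ⟨z, hz⟩
    have h2 : x * z * x⁻¹ = z := congrArg Subtype.val h1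
    rw [mul_inv_eq_iff_eq_mul] at h2
    exact h2.symm
  obtain ⟨K, _, hcK, hpow, hK⟩ := narrow_action hp2 S.isPGroup' (pack_of_narrow hp2 S.isPGroup' hnr hS) ρ
  have hKp : ∀ g ∈ K, ∃ n : ℕ, g ^ (p ^ n) = 1 := by
    intro g hg
    obtain ⟨k, hk⟩ := hK g hg
    obtain ⟨j, hj⟩ := hTp ⟨_, hmem _ hk⟩
    refine ⟨k + j, ?_⟩
    have h3 : (g ^ (p ^ k)) ^ (p ^ j) = 1 := congrArg Subtype.val hj
    rw [pow_add, pow_mul]
    exact h3
  constructor
  · intro x
    obtain ⟨n, hn⟩ := hKp x (hcK x.2)
    exact ⟨n, Subtype.ext hn⟩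
  · intro q hq hd
    by_cases hqp : q = p
    · exact hqp.le
    haveI : Fact q.Prime := ⟨hq⟩
    obtain ⟨g, hg⟩ := exists_prime_orderOf_dvd_card' q hd
    obtain ⟨n, hn⟩ := hKp _ (hpow g)
    have h1 : q ∣ (p - 1) * p ^ n := by
      rw [← hg]
      apply orderOf_dvd_of_pow_eq_one
      rw [pow_mul]
      exact hn
    have h2 : ¬ q ∣ p ^ n := fun h => hqp ((Nat.prime_dvd_prime_iff_eq hq hpp).mp (hq.dvd_of_dvd_pow h))
    have h3 : q ∣ p - 1 := (hq.dvd_mul.mp h1).resolve_right h2
    have h4 := Nat.le_of_dvd (by have := hpp.two_le; omega) h3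
    omega

/-- `p`-rank of a finite group equals that of a Sylow subgroup. -/
theorem prankLE_of_sylow (p : ℕ) [Fact p.Prime] (S : Sylow p G) (h : Cfsg.PRankLE p 2 ↥(S : Subgroup G)) :
    Cfsg.PRankLE p 2 G := by
  classical
  intro A hA hA2
  have hAp : IsPGroup p A := by
    intro a
    refine ⟨1, ?_⟩
    apply Subtype.ext
    simpa using hA2 a a.2
  obtain ⟨Q, hQ⟩ := hAp.exists_le_sylow
  obtain ⟨g, hg⟩ := MulAction.exists_smul_eq G Q S
  let φ : G →* G := (MulAut.conj g).toMonoidHom
  have hφ : Function.Injective φ := (MulAut.conj g).injective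
  have hmem : ∀ a ∈ A, φ a ∈ (S : Subgroup G) := by
    intro a ha
    rw [← hg]
    exact ⟨a, hQ ha, rfl⟩
  let f : A →* (S : Subgroup G) := (φ.comp A.subtype).codRestrict _ (fun a => hmem a a.2)
  have hf : Function.Injective f := by
    intro a b hab
    have h1 : φ a = φ b := congrArg Subtype.val hab
    exact Subtype.ext (hφ h1)
  have h2 := Cfsg.Agent.H06.prankLE_of_injective f hf h ⊤ ⟨⟨?_⟩⟩ ?_
  · rwa [Nat.card_congr Subgroup.topEquiv.toEquiv] at h2
  · rintro ⟨a, _⟩ ⟨b, _⟩
    apply Subtype.ext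
    exact hA.is_comm.comm a b
  · intro a _
    apply Subtype.ext
    exact hA2 a.1 a.2

end Assembly

end Cfsg.Agent.H06.Narrow
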