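import Mathlib

set_option autoImplicit false

namespace Cfsg.Agent.H06

open MulChar

section normpair

variable {p : ℕ} [Fact p.Prime] {F : Type*} [Field F] [Fintype F] [Algebra (ZMod p) F]

/-- Composition of a character of the prime field with the norm. -/
noncomputable def normChar (χ : MulChar (ZMod p) ℂ) : MulChar F ℂ where
  toFun x := χ (Algebra.norm (ZMod p) x)
  map_one' := by simp
  map_mul' x y := by simp
  map_nonunit' x hx := by
    have h0 : x = 0 := by simpa [isUnit_iff_ne_zero] using hx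
    subst h0
    have : Algebra.norm (ZMod p) (0:F) = 0 := by simp
    rw [this]; exact χ.map_nonunit not_isUnit_zero

@[simp] lemma normChar_apply (χ : MulChar (ZMod p) ℂ) (x : F) :
    normChar χ x = χ (Algebra.norm (ZMod p) x) := rfl

lemma normChar_one : normChar (1 : MulChar (ZMod p) ℂ) = (1 : MulChar F ℂ) := by
  classical
  rw [MulChar.eq_one_iff]
  intro a
  have h : IsUnit (Algebra.norm (ZMod p) (a : F)) := by
    rw [isUnit_iff_ne_zero, Algebra.norm_ne_zero_iff]
    exact a.ne_zero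
  rw [normChar_apply, MulChar.one_apply h]

lemma normChar_ne_one {χ : MulChar (ZMod p) ℂ} (hχ : χ ≠ 1) : normChar χ ≠ (1 : MulChar F ℂ) := by
  intro h
  apply hχ
  rw [MulChar.eq_one_iff]
  intro a
  obtain ⟨x, hx⟩ := FiniteField.norm_surjective (ZMod p) F (a : ZMod p)
  have hx0 : x ≠ 0 := by
    rintro rfl
    have : Algebra.norm (ZMod p) (0:F) = 0 := by simp
    rw [this] at hx
    exact a.ne_zero hx.symm
  have := congrArg (fun ψ : MulChar F ℂ => ψ x) h
  simp only [normChar_apply] at this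
  rw [hx, MulChar.one_apply (isUnit_iff_ne_zero.mpr hx0)] at this
  exact this

omit [Fact p.Prime] [Algebra (ZMod p) F] in
lemma mulChar_norm_eq_one (χ : MulChar F ℂ) {x : F} (hx : x ≠ 0) : ‖χ x‖ = 1 := by
  have hcard : Fintype.card F - 1 ≠ 0 := by
    have := Fintype.one_lt_card (α := F)
    omega
  apply Complex.norm_eq_one_of_pow_eq_one (n := Fintype.card F - 1) _ hcard
  rw [← map_pow, FiniteField.pow_card_sub_one_eq_one x hx, map_one]

omit [Fact p.Prime] [Algebra (ZMod p) F] in
lemma jacobi_sq_le [DecidableEq F] (χ φ : MulChar F ℂ) (h : χ ≠ 1 ∨ φ ≠ 1) :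
    ‖jacobiSum χ φ‖ ^ 2 ≤ Fintype.card F := by
  have h1 : (1:ℝ) ≤ Fintype.card F := by
    have := Fintype.one_lt_card (α := F)
    exact_mod_cast this.le
  by_cases hχ : χ = 1
  · subst hχ
    have hφ : φ ≠ 1 := by simpa using h
    rw [jacobiSum_one_nontrivial hφ]
    simpa using h1
  by_cases hφ : φ = 1
  · subst hφ
    rw [jacobiSum_comm, jacobiSum_one_nontrivial hχ]
    simpa using h1
  by_cases hχφ : χ * φ = 1
  · have : φ = χ⁻¹ := (eq_inv_of_mul_eq_one_right hχφ)
    subst this
    rw [jacobiSum_nontrivial_inv hχ, norm_neg, mulChar_norm_eq_one χ (by simp)]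
    simpa using h1
  have hchar : ringChar ℂ ≠ ringChar F := by
    rw [ringChar.eq_zero]
    exact (CharP.ringChar_ne_zero_of_finite F).symm
  have key := jacobiSum_mul_jacobiSum_inv hchar hχ hφ hχφ
  have hconj : jacobiSum χ⁻¹ φ⁻¹ = (starRingEnd ℂ) (jacobiSum χ φ) := by
    unfold jacobiSum
    rw [map_sum]
    refine Finset.sum_congr rfl fun x _ => ?_
    rw [map_mul]
    have a1 := MulChar.star_apply' χ x
    have a2 := MulChar.star_apply' φ (1 - x)
    simp only [RCLike.star_def] at a1 a2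
    rw [a1, a2]
  rw [hconj, Complex.mul_conj'] at key
  have key' : ‖jacobiSum χ φ‖ ^ 2 = (Fintype.card F : ℝ) := by exact_mod_cast key
  exact key'.le

/-- The character sum identity. -/
lemma char_sum_identity [DecidableEq F] (hp : p ≠ 2) (hF : Module.finrank (ZMod p) F ≠ 0) :
    ((Finset.univ.filter (fun a : F => Algebra.norm (ZMod p) a = 1 ∧
        Algebra.norm (ZMod p) (2 - a) = 1)).card : ℂ) * ((p - 1 : ℕ) : ℂ) ^ 2 =
      ∑ χ : DirichletCharacter ℂ p, ∑ φ : DirichletCharacter ℂ p,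
        χ (Algebra.norm (ZMod p) (2 : F)) * φ (Algebra.norm (ZMod p) (2 : F)) *
          jacobiSum (normChar χ : MulChar F ℂ) (normChar φ) := by
  have h20 : (2 : F) ≠ 0 := by
    have hc : CharP F p := by rw [← Algebra.charP_iff (ZMod p) F p]; exact ZMod.charP p
    intro h
    have : ((2 : ℕ) : F) = 0 := by exact_mod_cast h
    rw [CharP.cast_eq_zero_iff F p] at this
    exact hp ((Nat.prime_dvd_prime_iff_eq Fact.out Nat.prime_two).mp this)
  have orth (t : ZMod p) : ∑ χ : DirichletCharacter ℂ p, χ t = if t = 1 then ((p-1 : ℕ):ℂ) else 0 := by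
    have := DirichletCharacter.sum_characters_eq ℂ t
    rwa [Nat.totient_prime (Fact.out)] at this
  have step1 : ∀ χ φ : DirichletCharacter ℂ p, ∑ a : F, χ (Algebra.norm (ZMod p) a) * φ (Algebra.norm (ZMod p) (2 - a)) =
      χ (Algebra.norm (ZMod p) (2 : F)) * φ (Algebra.norm (ZMod p) (2 : F)) *
          jacobiSum (normChar χ : MulChar F ℂ) (normChar φ) := by
    intro χ φ
    unfold jacobiSum
    rw [Finset.mul_sum]
    refine (Fintype.sum_equiv (Equiv.mulLeft₀ (2:F) h20) _ _ fun x => ?_).symm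
    have : (2:F) - 2 * x = 2 * (1 - x) := by ring
    have e : (Equiv.mulLeft₀ (2:F) h20) x = 2 * x := rfl
    simp only [e, normChar_apply, this, map_mul]
    ring
  simp_rw [← step1]
  have : ∀ χ φ : DirichletCharacter ℂ p,  ∑ a : F, χ (Algebra.norm (ZMod p) a) * φ (Algebra.norm (ZMod p) (2 - a)) = ∑ a : F, χ (Algebra.norm (ZMod p) a) * φ (Algebra.norm (ZMod p) (2 - a)) := fun _ _ => rfl
  calc _ = ∑ a : F, (∑ χ : DirichletCharacter ℂ p, χ (Algebra.norm (ZMod p) a)) * (∑ φ : DirichletCharacter ℂ p, φ (Algebra.norm (ZMod p) (2 - a))) := by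
        simp_rw [orth]
        rw [Finset.card_filter]
        push_cast
        rw [Finset.sum_mul]
        refine Finset.sum_congr rfl fun a _ => ?_
        by_cases h1 : Algebra.norm (ZMod p) a = 1 <;> by_cases h2 : Algebra.norm (ZMod p) (2 - a) = 1 <;> simp [h1, h2, sq]
    _ = _ := by
        simp_rw [Finset.sum_mul, Finset.mul_sum]
        rw [Finset.sum_comm]
        refine Finset.sum_congr rfl fun χ _ => ?_
        rw [Finset.sum_comm]

lemma card_two_le_of_large [DecidableEq F] (hp : p ≠ 2) {q : ℕ}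
    (hcard : Fintype.card F = p ^ q) (hq : 4 ≤ q) :
    2 ≤ (Finset.univ.filter (fun a : F => Algebra.norm (ZMod p) a = 1 ∧
        Algebra.norm (ZMod p) (2 - a) = 1)).card := by
  have hp3 : 3 ≤ p := by
    have := (Fact.out : p.Prime).two_le
    omega
  have hF : Module.finrank (ZMod p) F ≠ 0 := Module.finrank_pos.ne'
  by_contra hlt
  set c := (Finset.univ.filter (fun a : F => Algebra.norm (ZMod p) a = 1 ∧
        Algebra.norm (ZMod p) (2 - a) = 1)).card with hc
  have hc1 : c ≤ 1 := by omega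
  have key := char_sum_identity (F := F) hp hF
  rw [← hc] at key
  set N2 := Algebra.norm (ZMod p) (2 : F) with hN2
  have hN20 : N2 ≠ 0 := by
    rw [hN2, Algebra.norm_ne_zero_iff]
    have hc : CharP F p := by rw [← Algebra.charP_iff (ZMod p) F p]; exact ZMod.charP p
    intro h
    have : ((2 : ℕ) : F) = 0 := by exact_mod_cast h
    rw [CharP.cast_eq_zero_iff F p] at this
    exact hp ((Nat.prime_dvd_prime_iff_eq Fact.out Nat.prime_two).mp this)
  let T : DirichletCharacter ℂ p × DirichletCharacter ℂ p → ℂ := fun x =>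
    x.1 N2 * x.2 N2 * jacobiSum (normChar x.1 : MulChar F ℂ) (normChar x.2)
  have hS : (∑ χ : DirichletCharacter ℂ p, ∑ φ : DirichletCharacter ℂ p,
        χ N2 * φ N2 * jacobiSum (normChar χ : MulChar F ℂ) (normChar φ)) = ∑ x, T x := by
    rw [Fintype.sum_prod_type]
  rw [hS] at key
  have hmain : T (1, 1) = ((p : ℂ) ^ q - 2) := by
    simp only [T]
    rw [normChar_one, jacobiSum_one_one, MulChar.one_apply (isUnit_iff_ne_zero.mpr hN20), hcard]
    push_cast
    ring
  set w := Real.sqrt ((p : ℝ) ^ q) with hw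
  have hw2 : w ^ 2 = (p : ℝ) ^ q := Real.sq_sqrt (by positivity)
  have hw0 : 0 ≤ w := Real.sqrt_nonneg _
  have hbound : ∀ x ∈ (Finset.univ.erase ((1, 1) : DirichletCharacter ℂ p × DirichletCharacter ℂ p)),
      ‖T x‖ ≤ w := by
    intro x hx
    have hx' : x ≠ (1, 1) := (Finset.mem_erase.mp hx).1
    have hor : x.1 ≠ 1 ∨ x.2 ≠ 1 := by
      by_contra hcon
      push Not at hcon
      exact hx' (Prod.ext hcon.1 hcon.2)
    have hJ : ‖jacobiSum (normChar x.1 : MulChar F ℂ) (normChar x.2)‖ ^ 2 ≤ (p : ℝ) ^ q := by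
      have := jacobi_sq_le (normChar x.1 : MulChar F ℂ) (normChar x.2)
        (hor.imp normChar_ne_one normChar_ne_one)
      rw [hcard] at this
      exact_mod_cast this
    simp only [T]
    rw [norm_mul, norm_mul, mulChar_norm_eq_one x.1 hN20, mulChar_norm_eq_one x.2 hN20, one_mul, one_mul]
    exact Real.le_sqrt_of_sq_le hJ
  have hcardX : Fintype.card (DirichletCharacter ℂ p) = p - 1 := by
    rw [← Nat.card_eq_fintype_card, DirichletCharacter.card_eq_totient_of_hasEnoughRootsOfUnity,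
      Nat.totient_prime Fact.out]
  have hcardE : ((Finset.univ.erase ((1, 1) : DirichletCharacter ℂ p × DirichletCharacter ℂ p)).card : ℝ)
      = ((p : ℝ) - 1) ^ 2 - 1 := by
    rw [Finset.card_erase_of_mem (Finset.mem_univ _), Finset.card_univ, Fintype.card_prod, hcardX]
    have h1 : 1 ≤ (p - 1) * (p - 1) := Nat.mul_pos (by omega) (by omega)
    rw [Nat.cast_sub h1]
    push_cast [Nat.cast_sub (by omega : 1 ≤ p)]
    ring
  have hsum : ((c : ℂ) * ((p - 1 : ℕ) : ℂ) ^ 2 - ((p : ℂ) ^ q - 2)) =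
      ∑ x ∈ (Finset.univ.erase ((1, 1) : DirichletCharacter ℂ p × DirichletCharacter ℂ p)), T x := by
    rw [key, ← Finset.add_sum_erase _ _ (Finset.mem_univ ((1, 1) : DirichletCharacter ℂ p × DirichletCharacter ℂ p)), hmain]
    ring
  have hnorm : ‖((c : ℂ) * ((p - 1 : ℕ) : ℂ) ^ 2 - ((p : ℂ) ^ q - 2))‖ ≤ (((p : ℝ) - 1) ^ 2 - 1) * w := by
    rw [hsum, ← hcardE]
    have := norm_sum_le_of_le _ hbound
    rw [Finset.sum_const, nsmul_eq_mul] at this
    exact this
  have hreal : ((c : ℂ) * ((p - 1 : ℕ) : ℂ) ^ 2 - ((p : ℂ) ^ q - 2)) =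
      (((c : ℝ) * ((p : ℝ) - 1) ^ 2 - ((p : ℝ) ^ q - 2) : ℝ) : ℂ) := by
    push_cast [Nat.cast_sub (by omega : 1 ≤ p)]
    ring
  rw [hreal, Complex.norm_real, Real.norm_eq_abs] at hnorm
  have hle := (neg_le_abs _).trans hnorm
  have hP : (3 : ℝ) ≤ p := by exact_mod_cast hp3
  have hc1' : (c : ℝ) ≤ 1 := by exact_mod_cast hc1
  have hwp : (p : ℝ) ^ 2 ≤ w := by
    apply Real.le_sqrt_of_sq_le
    calc ((p : ℝ) ^ 2) ^ 2 = (p : ℝ) ^ 4 := by ring
      _ ≤ (p : ℝ) ^ q := pow_le_pow_right₀ (by linarith) hq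
  have h3 : (c : ℝ) * ((p : ℝ) - 1) ^ 2 ≤ ((p : ℝ) - 1) ^ 2 := by
    have : 0 ≤ ((p : ℝ) - 1) ^ 2 := by positivity
    nlinarith
  have h4 : w ^ 2 - ((p : ℝ) ^ 2 - 2 * p) * w ≥ 2 * p * w := by nlinarith
  have h5 : 2 * (p : ℝ) * w ≥ 2 * p * (p : ℝ) ^ 2 := by
    apply mul_le_mul_of_nonneg_left hwp (by positivity)
  have h6 : 2 * (p : ℝ) * (p : ℝ) ^ 2 > ((p : ℝ) - 1) ^ 2 + 2 := by nlinarith [sq_nonneg (p : ℝ)]
  rw [← hw2] at hle
  nlinarith

open Polynomial in
lemma exists_cubic (p : ℕ) [Fact p.Prime] : ∃ g : (ZMod p)[X], g.Monic ∧ g.natDegree = 3 ∧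
    (∀ r, g.eval r ≠ 0) ∧ g.eval 0 = -1 ∧ g.eval 2 = 1 := by
  classical
  let h : ZMod p → ZMod p := fun x => (x ^ 3 - 3 * x - 1) / (x * (x - 2))
  have hlt : ((Finset.univ.erase (0 : ZMod p)).image h).card < Fintype.card (ZMod p) := by
    refine lt_of_le_of_lt Finset.card_image_le ?_
    rw [Finset.card_erase_of_mem (Finset.mem_univ _), Finset.card_univ]
    have : 0 < Fintype.card (ZMod p) := Fintype.card_pos
    omega
  obtain ⟨t, ht⟩ : ∃ t, t ∉ (Finset.univ.erase (0 : ZMod p)).image h := by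
    by_contra hcon
    push Not at hcon
    have : (Finset.univ.erase (0 : ZMod p)).image h = Finset.univ := Finset.eq_univ_iff_forall.mpr hcon
    rw [this, Finset.card_univ] at hlt
    exact lt_irrefl _ hlt
  let g : (ZMod p)[X] := X ^ 3 + C (-t) * X ^ 2 + C (2 * t - 3) * X + C (-1)
  have hdeg : g.natDegree = 3 := by
    simp only [g]
    compute_degree!
  have hmon : g.Monic := by
    simp only [g]
    monicity!
  have heval : ∀ r, g.eval r = r ^ 3 + (-t) * r ^ 2 + (2 * t - 3) * r + (-1) := by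
    intro r
    simp [g]
  refine ⟨g, hmon, hdeg, ?_, ?_, ?_⟩
  · intro r hr
    rw [heval] at hr
    have hr0 : r ≠ 0 := by
      rintro rfl
      simp at hr
    have hr2 : r - 2 ≠ 0 := by
      intro h2
      have : r = 2 := sub_eq_zero.mp h2
      subst this
      have : (1 : ZMod p) = 0 := by
        linear_combination hr
      exact one_ne_zero this
    apply ht
    rw [Finset.mem_image]
    refine ⟨r, Finset.mem_erase.mpr ⟨hr0, Finset.mem_univ _⟩, ?_⟩
    simp only [h]
    rw [div_eq_iff (mul_ne_zero hr0 hr2)]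
    linear_combination hr
  · rw [heval]; simp
  · rw [heval]; ring

open Polynomial in
lemma norm_sub_gen {R S : Type*} [Field R] [Field S] [Algebra R S] [Module.Finite R S]
    (pb : PowerBasis R S) (r : R) :
    Algebra.norm R (algebraMap R S r - pb.gen) = (minpoly R pb.gen).eval r := by
  rw [Algebra.norm_eq_matrix_det pb.basis, ← charpoly_leftMulMatrix, Matrix.eval_charpoly, map_sub,
    AlgHom.commutes]
  rfl

open Polynomial in
lemma exists_second_of_cubic (hcard : Fintype.card F = p ^ 3) :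
    ∃ a : F, a ≠ 1 ∧ Algebra.norm (ZMod p) a = 1 ∧ Algebra.norm (ZMod p) (2 - a) = 1 := by
  obtain ⟨g, hmon, hdeg, hroot, h0, h2⟩ := exists_cubic p
  have hirr : Irreducible g := by
    rw [hmon.irreducible_iff_roots_eq_zero_of_degree_le_three (by omega) (by omega)]
    apply Multiset.eq_zero_of_forall_notMem
    intro a ha
    exact hroot a (Polynomial.isRoot_of_mem_roots ha)
  haveI : Fact (Irreducible g) := ⟨hirr⟩
  let pb := AdjoinRoot.powerBasis' hmon
  haveI : Module.Finite (ZMod p) (AdjoinRoot g) := pb.finite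
  haveI : Finite (AdjoinRoot g) := Module.finite_of_finite (ZMod p)
  letI : Fintype (AdjoinRoot g) := Fintype.ofFinite _
  have hfr : Module.finrank (ZMod p) (AdjoinRoot g) = 3 := by
    rw [pb.finrank]
    exact hdeg
  have hcK : Fintype.card (AdjoinRoot g) = Fintype.card F := by
    rw [hcard, Module.card_eq_pow_finrank (K := ZMod p) (V := AdjoinRoot g), ZMod.card, hfr]
  let φ : AdjoinRoot g ≃ₐ[ZMod p] F := FiniteField.algEquivOfCardEq p hcK
  have hmin : minpoly (ZMod p) pb.gen = g := by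
    have : pb.gen = AdjoinRoot.root g := rfl
    rw [this, AdjoinRoot.minpoly_root hmon.ne_zero, hmon.leadingCoeff]
    simp
  have hN : ∀ r : ZMod p, Algebra.norm (ZMod p) (algebraMap (ZMod p) (AdjoinRoot g) r - pb.gen) = g.eval r := by
    intro r
    rw [norm_sub_gen, hmin]
  refine ⟨φ pb.gen, ?_, ?_, ?_⟩
  · intro h1
    have h1' : pb.gen = algebraMap (ZMod p) (AdjoinRoot g) 1 := by
      apply φ.injective
      rw [h1, map_one, map_one]
    have hz := minpoly.aeval (ZMod p) pb.gen
    rw [hmin, h1', Polynomial.aeval_algebraMap_apply] at hz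
    have hz' : Polynomial.aeval (1 : ZMod p) g = 0 := by
      simpa using hz
    apply hroot 1
    simpa [Polynomial.aeval_def] using hz'
  · rw [Algebra.norm_eq_of_algEquiv]
    have e : pb.gen = algebraMap (ZMod p) (AdjoinRoot g) (-1) * (algebraMap (ZMod p) (AdjoinRoot g) 0 - pb.gen) := by
      simp
    rw [e, map_mul, hN, h0, Algebra.norm_algebraMap, hfr]
    have : (-1 : ZMod p) ^ 3 = -1 := by ring
    rw [this]
    ring
  · have e : (2 : F) - φ pb.gen = φ (algebraMap (ZMod p) (AdjoinRoot g) 2 - pb.gen) := by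
      rw [map_sub, AlgEquiv.commutes, map_ofNat]
    rw [e, Algebra.norm_eq_of_algEquiv, hN, h2]

end normpair

theorem norm_pair_main (p q : ℕ) [Fact p.Prime] [Fact q.Prime] (hp : p ≠ 2) (hq : q ≠ 2) :
    2 ≤ Set.ncard {a : GaloisField p q | Algebra.norm (ZMod p) a = 1 ∧ Algebra.norm (ZMod p) (2 - a) = 1} := by
  classical
  have hq0 : q ≠ 0 := (Fact.out : q.Prime).ne_zero
  haveI : Finite (GaloisField p q) := Nat.finite_of_card_ne_zero (by
    rw [GaloisField.card p q hq0]
    have := (Fact.out : p.Prime).pos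
    positivity)
  letI : Fintype (GaloisField p q) := Fintype.ofFinite _
  have hcard : Fintype.card (GaloisField p q) = p ^ q := by
    rw [← Nat.card_eq_fintype_card, GaloisField.card p q hq0]
  by_cases h3 : q = 3
  · subst h3
    obtain ⟨a, ha1, ha2, ha3⟩ := exists_second_of_cubic (p := p) (F := GaloisField p 3) hcard
    have hsub : ({1, a} : Set (GaloisField p 3)) ⊆
        {a : GaloisField p 3 | Algebra.norm (ZMod p) a = 1 ∧ Algebra.norm (ZMod p) (2 - a) = 1} := by
      intro x hx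
      rcases hx with rfl | rfl
      · have : (2 : GaloisField p 3) - 1 = 1 := by ring
        simp [this]
      · exact ⟨ha2, ha3⟩
    have := Set.ncard_le_ncard hsub (Set.toFinite _)
    rwa [Set.ncard_pair ha1.symm] at this
  · have hq4 : 4 ≤ q := by
      have h2 := (Fact.out : q.Prime).two_le
      have : q ≠ 3 := h3
      by_contra hlt
      have : q ≤ 3 := by omega
      interval_cases q <;> simp_all
    have := card_two_le_of_large (p := p) (F := GaloisField p q) hp hcard hq4
    rw [← Set.ncard_coe_finset] at this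
    convert this using 2
    ext a
    simp

end Cfsg.Agent.H06
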