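import Cfsg.Prelude.Def_OddOrderLocal
import Mathlib

/-! Puig series API (helper6). -/

set_option autoImplicit false

namespace Cfsg.Agent.H06

open Cfsg

variable {G : Type*} [Group G]

theorem puigSeq_zero' : puigSeq G 0 = ⊥ := rfl

theorem puigSeq_succ' (n : ℕ) : puigSeq G (n + 1) = puigStep (puigSeq G n) := rfl

theorem puigStep_anti {X Y : Subgroup G} (h : X ≤ Y) : puigStep Y ≤ puigStep X := by
  show sSup _ ≤ sSup _
  apply sSup_le_sSup
  rintro A ⟨hA, hN⟩
  exact ⟨hA, h.trans hN⟩

theorem le_puigStep {X A : Subgroup G} (hA : IsMulCommutative A)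
    (hN : X ≤ Subgroup.normalizer (A : Set G)) : A ≤ puigStep X :=
  le_sSup ⟨hA, hN⟩

theorem puigStep_bot : puigStep (⊥ : Subgroup G) = ⊤ := by
  rw [eq_top_iff]
  intro g _
  have hcomm : IsMulCommutative (Subgroup.zpowers g) := inferInstance
  exact le_puigStep hcomm bot_le (Subgroup.mem_zpowers g)

theorem puigSeq_one : puigSeq G 1 = ⊤ := puigStep_bot

/-- The two interleaved chains. -/
theorem puig_chain (n : ℕ) :
    puigSeq G (2 * n) ≤ puigSeq G (2 * n + 2) ∧ puigSeq G (2 * n + 3) ≤ puigSeq G (2 * n + 1) := by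
  induction n with
  | zero =>
    refine ⟨?_, ?_⟩
    · show (⊥ : Subgroup G) ≤ _
      exact bot_le
    · show puigSeq G 3 ≤ puigSeq G 1
      rw [puigSeq_one]; exact le_top
  | succ n ih =>
    have h1 : puigSeq G (2 * n + 3) ≤ puigSeq G (2 * n + 1) := ih.2
    have h2 : puigSeq G (2 * n + 2) ≤ puigSeq G (2 * n + 4) := puigStep_anti h1
    have h3 : puigSeq G (2 * n + 5) ≤ puigSeq G (2 * n + 3) := puigStep_anti h2
    exact ⟨h2, h3⟩

theorem puig_even_mono : Monotone (fun n => puigSeq G (2 * n)) :=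
  monotone_nat_of_le_succ fun n => (puig_chain n).1

theorem puig_odd_anti : Antitone (fun n => puigSeq G (2 * n + 1)) :=
  antitone_nat_of_succ_le fun n => (puig_chain n).2

theorem puig_even_le_odd_self (n : ℕ) :
    puigSeq G (2 * n) ≤ puigSeq G (2 * n + 1) ∧ puigSeq G (2 * n + 2) ≤ puigSeq G (2 * n + 1) := by
  induction n with
  | zero =>
    refine ⟨?_, ?_⟩
    · show (⊥ : Subgroup G) ≤ _
      exact bot_le
    · show puigSeq G 2 ≤ puigSeq G 1
      rw [puigSeq_one]; exact le_top
  | succ n ih =>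
    have h1 : puigSeq G (2 * n + 2) ≤ puigSeq G (2 * n + 1) := ih.2
    have h2 : puigSeq G (2 * n + 2) ≤ puigSeq G (2 * n + 3) := puigStep_anti h1
    have h3 : puigSeq G (2 * n + 4) ≤ puigSeq G (2 * n + 3) := puigStep_anti h2
    exact ⟨h2, h3⟩

theorem puig_even_le_odd (n m : ℕ) : puigSeq G (2 * n) ≤ puigSeq G (2 * m + 1) := by
  have h1 : puigSeq G (2 * n) ≤ puigSeq G (2 * max n m) := puig_even_mono (le_max_left n m)
  have h2 : puigSeq G (2 * max n m + 1) ≤ puigSeq G (2 * m + 1) := puig_odd_anti (le_max_right n m)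
  exact h1.trans ((puig_even_le_odd_self _).1.trans h2)

/-- In a finite group the Puig series stabilizes. -/
theorem puig_stable [Finite G] : ∃ k : ℕ, ∀ n : ℕ, k ≤ n →
    puigSeq G (2 * n) = puigLower G ∧ puigSeq G (2 * n + 1) = puigSubgroup G := by
  have hwf : WellFoundedGT (Subgroup G) := inferInstance
  obtain ⟨k, hk⟩ := (wellFoundedGT_iff_monotone_chain_condition.mp hwf)
    ⟨fun n => puigSeq G (2 * n), puig_even_mono⟩
  have hk' : ∀ n, k ≤ n → puigSeq G (2 * n) = puigSeq G (2 * k) := fun n hn => (hk n hn).symm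
  have hlow : puigSeq G (2 * k) = puigLower G := by
    apply le_antisymm
    · exact le_iSup (fun n => puigSeq G (2 * n)) k
    · apply iSup_le
      intro n
      by_cases h : n ≤ k
      · exact puig_even_mono h
      · exact (hk' n (le_of_not_ge h)).le
  have hodd : ∀ n, k ≤ n → puigSeq G (2 * n + 1) = puigSeq G (2 * k + 1) := by
    intro n hn
    show puigStep (puigSeq G (2 * n)) = puigStep (puigSeq G (2 * k))
    rw [hk' n hn]
  have hup : puigSeq G (2 * k + 1) = puigSubgroup G := by
    apply le_antisymm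
    · apply le_iInf
      intro n
      by_cases h : n ≤ k
      · exact puig_odd_anti h
      · exact (hodd n (le_of_not_ge h)).ge
    · exact iInf_le (fun n => puigSeq G (2 * n + 1)) k
  refine ⟨k, fun n hn => ⟨(hk' n hn).trans hlow, (hodd n hn).trans hup⟩⟩

theorem puigLower_le_puigSubgroup : puigLower G ≤ puigSubgroup G :=
  iSup_le fun n => le_iInf fun m => puig_even_le_odd n m

theorem puigStep_puigLower [Finite G] : puigStep (puigLower G) = puigSubgroup G := by
  obtain ⟨k, hk⟩ := puig_stable (G := G)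
  obtain ⟨h1, h2⟩ := hk k le_rfl
  rw [← h1, ← h2]
  rfl

theorem puigStep_puigSubgroup [Finite G] : puigStep (puigSubgroup G) = puigLower G := by
  obtain ⟨k, hk⟩ := puig_stable (G := G)
  obtain ⟨h1, h2⟩ := hk k le_rfl
  obtain ⟨h3, _⟩ := hk (k + 1) (Nat.le_succ k)
  rw [← h2, ← h3]
  rfl

/-- The Puig step of a normal subgroup is normal. -/
theorem puigStep_normal {X : Subgroup G} (hX : X.Normal) : (puigStep X).Normal := by
  refine ⟨fun x hx g => ?_⟩
  have hle : puigStep X ≤ (puigStep X).comap (MulAut.conj g).toMonoidHom := by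
    show sSup _ ≤ _
    apply sSup_le
    rintro A ⟨hA, hN⟩
    rw [← Subgroup.map_le_iff_le_comap]
    apply le_puigStep
    · -- the conjugate of A is commutative
      refine ⟨⟨?_⟩⟩
      rintro ⟨_, a, ha, rfl⟩ ⟨_, b, hb, rfl⟩
      apply Subtype.ext
      have := hA.is_comm.comm ⟨a, ha⟩ ⟨b, hb⟩
      have h2 : a * b = b * a := congrArg Subtype.val this
      simp only [Subgroup.coe_mul, ← map_mul, h2]
    · rw [Subgroup.le_normalizer_iff]
      rintro h hh _ ⟨a, ha, rfl⟩
      have hh' : g⁻¹ * h * g ∈ X := by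
        have := hX.conj_mem h hh g⁻¹
        simpa using this
      have h1 := (Subgroup.le_normalizer_iff.mp hN) _ hh' a ha
      refine ⟨_, h1, ?_⟩
      simp only [MulEquiv.coe_toMonoidHom, MulAut.conj_apply]
      group
  exact hle hx

end Cfsg.Agent.H06
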