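import Cfsg.Agent.Lib.H06.Puig
import Cfsg.Agent.Lib.H13.KeyChar2

/-!
# The Puig series of a subgroup, viewed in the ambient group
-/

set_option autoImplicit false

namespace Cfsg.Agent.H06

open Cfsg

universe u

section Iso

variable {X X' : Type u} [Group X] [Group X']

theorem comm_map_equiv (φ : X ≃* X') {A : Subgroup X} (hA : IsMulCommutative A) :
    IsMulCommutative (A.map φ.toMonoidHom) := by
  refine ⟨⟨?_⟩⟩
  rintro ⟨_, a, ha, rfl⟩ ⟨_, b, hb, rfl⟩
  apply Subtype.ext
  have h := hA.is_comm.comm ⟨a, ha⟩ ⟨b, hb⟩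
  have h1 : a * b = b * a := congrArg Subtype.val h
  show φ a * φ b = φ b * φ a
  rw [← map_mul, ← map_mul, h1]

theorem normalizer_map_equiv (φ : X ≃* X') {Y A : Subgroup X} (h : Y ≤ Subgroup.normalizer (A : Set X)) :
    Y.map φ.toMonoidHom ≤ Subgroup.normalizer ((A.map φ.toMonoidHom : Subgroup X') : Set X') := by
  rintro _ ⟨y, hy, rfl⟩
  rw [Subgroup.mem_normalizer_iff]
  intro z
  obtain ⟨z, rfl⟩ := φ.surjective z
  have h1 := Subgroup.mem_normalizer_iff.mp (h hy) z
  constructor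
  · rintro ⟨a, ha, ha'⟩
    have : a = z := φ.injective ha'
    subst this
    refine ⟨y * a * y⁻¹, h1.mp ha, ?_⟩
    simp
  · rintro ⟨a, ha, ha'⟩
    have : a = y * z * y⁻¹ := by
      apply φ.injective
      rw [show φ a = (φ.toMonoidHom a) from rfl, ha']
      simp
    subst this
    exact ⟨z, h1.mpr ha, rfl⟩

theorem map_puigStep_le (φ : X ≃* X') (Y : Subgroup X) :
    (puigStep Y).map φ.toMonoidHom ≤ puigStep (Y.map φ.toMonoidHom) := by
  rw [Subgroup.map_le_iff_le_comap]
  refine sSup_le ?_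
  rintro A ⟨hA, hN⟩ a ha
  exact le_puigStep (comm_map_equiv φ hA) (normalizer_map_equiv φ hN) ⟨a, ha, rfl⟩

theorem map_puigStep (φ : X ≃* X') (Y : Subgroup X) :
    (puigStep Y).map φ.toMonoidHom = puigStep (Y.map φ.toMonoidHom) := by
  apply le_antisymm (map_puigStep_le φ Y)
  have h := map_puigStep_le φ.symm (Y.map φ.toMonoidHom)
  have e : (Y.map φ.toMonoidHom).map φ.symm.toMonoidHom = Y := by
    rw [Subgroup.map_map]
    convert Subgroup.map_id Y
    ext x
    simp
  rw [e] at h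
  intro z hz
  exact ⟨φ.symm z, h ⟨z, hz, rfl⟩, by simp⟩

theorem map_puigSeq (φ : X ≃* X') (n : ℕ) : (puigSeq X n).map φ.toMonoidHom = puigSeq X' n := by
  induction n with
  | zero => exact Subgroup.map_bot _
  | succ n ih => rw [puigSeq_succ', puigSeq_succ', map_puigStep, ih]

theorem map_puigSubgroup (φ : X ≃* X') : (puigSubgroup X).map φ.toMonoidHom = puigSubgroup X' := by
  ext z
  rw [Subgroup.mem_map_equiv]
  simp only [puigSubgroup, Subgroup.mem_iInf]
  refine forall_congr' fun n => ?_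
  rw [← map_puigSeq φ (2 * n + 1), Subgroup.mem_map_equiv]

theorem map_puigLower (φ : X ≃* X') : (puigLower X).map φ.toMonoidHom = puigLower X' := by
  show (⨆ n : ℕ, puigSeq X (2 * n)).map φ.toMonoidHom = ⨆ n : ℕ, puigSeq X' (2 * n)
  rw [Subgroup.map_iSup]
  simp only [map_puigSeq]

theorem puigSeq_char (n : ℕ) : (puigSeq X n).Characteristic := by
  rw [Subgroup.characteristic_iff_map_eq]
  intro φ
  exact map_puigSeq φ n

end Iso

section Rel

variable {G : Type u} [Group G]

/-- The Puig series of the subgroup `R`, viewed in `G`. -/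
def relPuig (R : Subgroup G) (n : ℕ) : Subgroup G := (puigSeq ↥R n).map R.subtype

theorem relPuig_le (R : Subgroup G) (n : ℕ) : relPuig R n ≤ R := Subgroup.map_subtype_le _

theorem relPuig_zero (R : Subgroup G) : relPuig R 0 = ⊥ := Subgroup.map_bot _

theorem relPuig_one (R : Subgroup G) : relPuig R 1 = R := by
  rw [relPuig, puigSeq_one, ← MonoidHom.range_eq_map, Subgroup.range_subtype]

theorem le_relPuig_succ {R A : Subgroup G} {n : ℕ} (hAR : A ≤ R) (hc : IsMulCommutative A)
    (hN : relPuig R n ≤ Subgroup.normalizer (A : Set G)) : A ≤ relPuig R (n + 1) := by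
  have e : (A.subgroupOf R).map R.subtype = A := by
    rw [Subgroup.subgroupOf_map_subtype]
    exact inf_eq_left.mpr hAR
  rw [← e]
  apply Subgroup.map_mono
  apply le_puigStep
  · refine ⟨⟨?_⟩⟩
    rintro ⟨⟨a, ha⟩, ha'⟩ ⟨⟨b, hb⟩, hb'⟩
    have h := hc.is_comm.comm ⟨a, ha'⟩ ⟨b, hb'⟩
    have h1 : a * b = b * a := congrArg Subtype.val h
    apply Subtype.ext
    apply Subtype.ext
    exact h1
  · intro x hx
    rw [Subgroup.mem_normalizer_iff]
    intro y
    have h1 := Subgroup.mem_normalizer_iff.mp (hN ⟨x, hx, rfl⟩) (y : G)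
    rw [Subgroup.mem_subgroupOf, Subgroup.mem_subgroupOf]
    exact h1

theorem relPuig_succ_le {R M : Subgroup G} {n : ℕ}
    (h : ∀ A : Subgroup G, A ≤ R → IsMulCommutative A → relPuig R n ≤ Subgroup.normalizer (A : Set G) → A ≤ M) :
    relPuig R (n + 1) ≤ M := by
  rw [relPuig, Subgroup.map_le_iff_le_comap]
  refine sSup_le ?_
  rintro A₀ ⟨hA, hN⟩ a ha
  refine h (A₀.map R.subtype) (Subgroup.map_subtype_le _) ?_ ?_ ⟨a, ha, rfl⟩
  · refine ⟨⟨?_⟩⟩
    rintro ⟨_, x, hx, rfl⟩ ⟨_, y, hy, rfl⟩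
    have h1 := hA.is_comm.comm ⟨x, hx⟩ ⟨y, hy⟩
    apply Subtype.ext
    have h2 : x * y = y * x := congrArg Subtype.val h1
    show (x : G) * (y : G) = (y : G) * (x : G)
    exact congrArg Subtype.val h2
  · rintro _ ⟨x, hx, rfl⟩
    rw [Subgroup.mem_normalizer_iff]
    intro z
    have hxN := Subgroup.mem_normalizer_iff.mp (hN hx)
    constructor
    · rintro ⟨y, hy, rfl⟩
      exact ⟨x * y * x⁻¹, (hxN y).mp hy, rfl⟩
    · rintro ⟨y, hy, hy'⟩
      have hz : z = ((x⁻¹ * y * x : R) : G) := by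
        have h1 : (y : G) = (x : G) * z * (x : G)⁻¹ := hy'
        push_cast
        rw [h1]
        group
      rw [hz]
      refine ⟨x⁻¹ * y * x, ?_, rfl⟩
      have h3 : x * (x⁻¹ * y * x) * x⁻¹ = y := by group
      exact (hxN (x⁻¹ * y * x)).mpr (by rw [h3]; exact hy)

/-- Comparing two Puig series. -/
theorem relPuig_compare {K S : Subgroup G} (hKS : K ≤ S)
    (hK : ∀ n : ℕ, relPuig K (2 * n + 1) ≤ relPuig S (2 * n + 1) → ∀ A : Subgroup G, A ≤ S → IsMulCommutative A →
      relPuig S (2 * n + 1) ≤ Subgroup.normalizer (A : Set G) → A ≤ K) (n : ℕ) :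
    relPuig S (2 * n) ≤ relPuig K (2 * n) ∧ relPuig K (2 * n + 1) ≤ relPuig S (2 * n + 1) := by
  induction n with
  | zero =>
    refine ⟨?_, ?_⟩
    · rw [Nat.mul_zero, relPuig_zero]
      exact bot_le
    · rw [Nat.mul_zero, Nat.zero_add, relPuig_one, relPuig_one]
      exact hKS
  | succ n ih =>
    have h1 : relPuig S (2 * n + 2) ≤ relPuig K (2 * n + 2) := by
      refine relPuig_succ_le (fun A hAS hc hN => ?_)
      exact le_relPuig_succ (hK n ih.2 A hAS hc hN) hc (ih.2.trans hN)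
    refine ⟨h1, ?_⟩
    refine relPuig_succ_le (fun B hBK hc hN => ?_)
    exact le_relPuig_succ (hBK.trans hKS) hc (h1.trans hN)

/-- The lower Puig subgroup, viewed in `G`. -/
def relLower (R : Subgroup G) : Subgroup G := (puigLower ↥R).map R.subtype

/-- The Puig subgroup, viewed in `G`. -/
def relUpper (R : Subgroup G) : Subgroup G := (puigSubgroup ↥R).map R.subtype

theorem relPuig_stable [Finite G] (R : Subgroup G) :
    ∃ k : ℕ, ∀ n : ℕ, k ≤ n → relPuig R (2 * n) = relLower R ∧ relPuig R (2 * n + 1) = relUpper R := by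
  obtain ⟨k, hk⟩ := puig_stable (G := R)
  refine ⟨k, fun n hn => ?_⟩
  obtain ⟨h1, h2⟩ := hk n hn
  exact ⟨by rw [relPuig, h1, relLower], by rw [relPuig, h2, relUpper]⟩

theorem relPuig_mem_normal [Finite G] (R : Subgroup G) (hR : R.Normal) (n : ℕ) : (relPuig R n).Normal := by
  haveI := puigSeq_char (X := R) n
  refine ⟨fun x hx g => ?_⟩
  have hN : g ∈ Subgroup.normalizer (R : Set G) := by
    rw [Subgroup.normalizer_eq_top_iff.mpr hR]
    trivial
  have h2 := Cfsg.Agent.H13.normalizer_le_normalizer_map_of_characteristic R (puigSeq R n) hN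
  exact (Subgroup.mem_normalizer_iff.mp h2 x).mp hx

end Rel

end Cfsg.Agent.H06
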