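import Cfsg.Agent.Lib.H06.Quad4
import Cfsg.Agent.Lib.H06.PSolvable
import Cfsg.Agent.Lib.H06.Layer2

/-!
# Consequences of `p`-stability of solvable groups of odd order
-/

set_option autoImplicit false

namespace Cfsg.Agent.H06

universe u

open scoped commutatorElement
open Cfsg

section Cons

variable {G : Type u} [Group G] [Finite G]

theorem mem_pCore_of_quot (p : ℕ) [Fact p.Prime] (L : Subgroup G) [L.Normal] (hL : IsPGroup p L) {g : G}
    (hg : QuotientGroup.mk' L g ∈ pCore p (G ⧸ L)) : g ∈ pCore p G := by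
  let M : Subgroup G := (pCore p (G ⧸ L)).comap (QuotientGroup.mk' L)
  haveI : (pCore p (G ⧸ L)).Normal := Cfsg.Agent.H01.pCore_normal p
  have hMn : M.Normal := Subgroup.Normal.comap inferInstance _
  have hMp : IsPGroup p M := by
    rintro ⟨m, hm⟩
    have hm' : QuotientGroup.mk' L m ∈ pCore p (G ⧸ L) := hm
    obtain ⟨e, he⟩ := (Cfsg.Agent.H01.pCore_isPGroup (G := G ⧸ L) p) ⟨_, hm'⟩
    have h1 : (QuotientGroup.mk' L m) ^ (p ^ e) = 1 := by
      have := congrArg Subtype.val he
      simpa using this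
    have h2 : m ^ (p ^ e) ∈ L := by
      rw [← map_pow] at h1
      exact (QuotientGroup.eq_one_iff _).mp h1
    obtain ⟨f, hf⟩ := hL ⟨_, h2⟩
    refine ⟨e + f, Subtype.ext ?_⟩
    have h3 := congrArg Subtype.val hf
    simp only [Subgroup.coe_pow, Subgroup.coe_one] at h3 ⊢
    rw [pow_add, pow_mul]
    exact h3
  have : M ≤ pCore p G := Cfsg.Agent.H13.le_pCore hMn hMp
  exact this hg

/-- In a solvable group of odd order with trivial `p'`-core, a `p`-element acting quadratically on `O_p(G)` lies in it. -/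
theorem quad_mem_pCore [Group.IsSolvable G] (hodd : Odd (Nat.card G)) (p : ℕ) [Fact p.Prime] (hp : p ≠ 2)
    (hO : pPrimeCore p G = ⊥) (a : G) (ha : ∃ e : ℕ, a ^ (p ^ e) = 1) (hq : ∀ g ∈ pCore p G, ⁅⁅g, a⁆, a⁆ = 1) :
    a ∈ pCore p G := by
  haveI hTn : (pCore p G).Normal := Cfsg.Agent.H01.pCore_normal p
  have hT : IsPGroup p (pCore p G) := Cfsg.Agent.H01.pCore_isPGroup p
  have hle : Subgroup.centralizer (pCore p G : Set G) ≤ pCore p G :=
    Cfsg.Agent.H03.centralizer_pCore_le_of_isPSolvable (isPSolvable_of_isSolvable p G) hO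
  have h := quad_image_pCore hodd p hp (pCore p G) hT (Subgroup.centralizer (pCore p G : Set G)) le_rfl a ha hq
  exact mem_pCore_of_quot p _ (hT.to_le hle) h

/-- The key property of `O_{p',p}`: elements of `G` that act quadratically modulo `O_{p'}(G)` for every element of a Sylow. -/
theorem quad_mem_pPrimePCore [Group.IsSolvable G] (hodd : Odd (Nat.card G)) (p : ℕ) [Fact p.Prime] (hp : p ≠ 2)
    (S : Sylow p G) (a : G) (haS : a ∈ (S : Subgroup G)) (hq : ∀ s ∈ (S : Subgroup G), ⁅⁅s, a⁆, a⁆ = 1) :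
    a ∈ pPrimePCore p G := by
  classical
  set O := pPrimeCore p G with hOdef
  haveI hOn : O.Normal := Subgroup.sSup_normal _ (fun _ h => h.1)
  let π := QuotientGroup.mk' O
  have hπs : Function.Surjective π := QuotientGroup.mk'_surjective O
  show π a ∈ pCore p (G ⧸ O)
  have hcard : Nat.card (G ⧸ O) ∣ Nat.card G := Subgroup.card_quotient_dvd_card O
  have hoddQ : Odd (Nat.card (G ⧸ O)) := Odd.of_dvd_nat hodd hcard
  haveI : Group.IsSolvable (G ⧸ O) := solvable_of_surjective hπs
  refine quad_mem_pCore hoddQ p hp (Cfsg.Agent.H08.pPrimeCore_quotient_eq_bot p) _ ?_ ?_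
  · obtain ⟨e, he⟩ := S.isPGroup' ⟨a, haS⟩
    refine ⟨e, ?_⟩
    have h1 := congrArg Subtype.val he
    simp only [Subgroup.coe_pow, Subgroup.coe_one] at h1
    rw [← map_pow, h1, map_one]
  · intro v hv
    have hS : (S.mapSurjective hπs : Subgroup (G ⧸ O)) = (S : Subgroup G).map π := Sylow.coe_mapSurjective _ _
    have hv' : v ∈ (S.mapSurjective hπs : Subgroup (G ⧸ O)) := Cfsg.Agent.H13.pCore_le_sylow _ hv
    rw [hS] at hv'
    obtain ⟨s, hs, rfl⟩ := hv'
    rw [← map_commutatorElement, ← map_commutatorElement, hq s hs, map_one]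

end Cons

end Cfsg.Agent.H06
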