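import Cfsg.Agent.Lib.H06.Puig2
import Cfsg.Agent.Lib.H06.Quad5
import Cfsg.Agent.S1465

/-!
# The Puig subgroups of `S` and of `O_p(G)`
-/

set_option autoImplicit false

namespace Cfsg.Agent.H06

open Cfsg

universe u

section PC

variable {G : Type u} [Group G] [Finite G]

theorem relPuig_even_le_odd (R : Subgroup G) (n : ℕ) : relPuig R (2 * n) ≤ relPuig R (2 * n + 1) :=
  Subgroup.map_mono (puig_even_le_odd_self (G := R) n).1

theorem relLower_le_relUpper (R : Subgroup G) : relLower R ≤ relUpper R :=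
  Subgroup.map_mono puigLower_le_puigSubgroup

/-- Abelian subgroups of `S` normalized by a characteristic term of `O_p(G)` lie in `O_p(G)`. -/
theorem le_pCore_of_normalized [Group.IsSolvable G] (hodd : Odd (Nat.card G)) (p : ℕ) [Fact p.Prime] (hp : p ≠ 2)
    (hO : pPrimeCore p G = ⊥) (n : ℕ) (A : Subgroup G) (hc : IsMulCommutative A) (hAp : IsPGroup p A)
    (hN : relPuig (pCore p G) (2 * n + 1) ≤ Subgroup.normalizer (A : Set G)) : A ≤ pCore p G := by
  set T := pCore p G with hT
  haveI hTn : T.Normal := Cfsg.Agent.H01.pCore_normal p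
  have hTp : IsPGroup p T := Cfsg.Agent.H01.pCore_isPGroup p
  set D := relPuig T (2 * n + 1) with hD
  haveI hDn : D.Normal := relPuig_mem_normal T hTn _
  have hDp : IsPGroup p D := hTp.to_le (relPuig_le _ _)
  have hle : pCore p G ⊓ Subgroup.centralizer (D : Set G) ≤ D := by
    rintro x ⟨hxT, hxC⟩
    have hz : Subgroup.zpowers x ≤ D := by
      apply le_relPuig_succ
      · rw [Subgroup.zpowers_le]
        exact hxT
      · infer_instance
      · intro y hy
        have hyD : y ∈ D := relPuig_even_le_odd T n hy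
        have hyx : y * x = x * y := (Subgroup.mem_centralizer_iff.mp hxC) y hyD
        rw [Subgroup.mem_normalizer_iff]
        intro z
        have hyz : ∀ z ∈ Subgroup.zpowers x, y * z * y⁻¹ = z := by
          rintro _ ⟨i, rfl⟩
          have : Commute y ((x : G) ^ i) := Commute.zpow_right hyx i
          simp only
          rw [this.eq, mul_inv_cancel_right]
        constructor
        · intro hz
          rwa [hyz z hz]
        · intro hz
          have := hyz _ hz
          have e : z = y * z * y⁻¹ := by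
            have h1 : y * (y * z * y⁻¹) * y⁻¹ = y * z * y⁻¹ := this
            exact (mul_left_cancel (mul_right_cancel h1)).symm
          rwa [e]
    exact hz (Subgroup.mem_zpowers x)
  have h := (Cfsg.Agent.S1465.result hodd p hp D hDp {A} (by
    intro B hB
    rw [Set.mem_singleton_iff.mp hB]
    exact ⟨hc, hAp, hN⟩)).2 hO hle
  simpa using h

/-- Comparison of the Puig series of `S` and of `O_p(G)`. -/
theorem puig_compare_pCore [Group.IsSolvable G] (hodd : Odd (Nat.card G)) (p : ℕ) [Fact p.Prime] (hp : p ≠ 2)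
    (hO : pPrimeCore p G = ⊥) (S : Sylow p G) (n : ℕ) :
    relPuig (S : Subgroup G) (2 * n) ≤ relPuig (pCore p G) (2 * n) ∧
      relPuig (pCore p G) (2 * n + 1) ≤ relPuig (S : Subgroup G) (2 * n + 1) := by
  refine relPuig_compare (Cfsg.Agent.H13.pCore_le_sylow S) ?_ n
  intro m hm A hAS hc hN
  exact le_pCore_of_normalized hodd p hp hO m A hc (S.isPGroup'.to_le hAS) (hm.trans hN)

theorem relLower_le_of_compare {K S : Subgroup G}
    (h : ∀ n : ℕ, relPuig S (2 * n) ≤ relPuig K (2 * n) ∧ relPuig K (2 * n + 1) ≤ relPuig S (2 * n + 1)) :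
    relLower S ≤ relLower K ∧ relUpper K ≤ relUpper S := by
  obtain ⟨k₁, h₁⟩ := relPuig_stable K
  obtain ⟨k₂, h₂⟩ := relPuig_stable S
  obtain ⟨a1, a2⟩ := h₁ (max k₁ k₂) (le_max_left _ _)
  obtain ⟨b1, b2⟩ := h₂ (max k₁ k₂) (le_max_right _ _)
  obtain ⟨c1, c2⟩ := h (max k₁ k₂)
  rw [a1, b1] at c1
  rw [a2, b2] at c2
  exact ⟨c1, c2⟩

end PC

end Cfsg.Agent.H06
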