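import Cfsg.Agent.Lib.H06.Puig3
import Cfsg.Agent.Lib.H13.Residual

/-!
# Puig's theorem for solvable groups of odd order
-/

set_option autoImplicit false

namespace Cfsg.Agent.H06

open Cfsg
open scoped commutatorElement

universe u

section PT

variable {G : Type u} [Group G] [Finite G]

/-- The centre of the Puig subgroup, viewed in `G`. -/
def relZ (R : Subgroup G) : Subgroup G := relUpper R ⊓ Subgroup.centralizer (relUpper R : Set G)

theorem map_center_puig_eq (R : Subgroup G) :
    ((Subgroup.center ↥(puigSubgroup ↥R)).map (puigSubgroup ↥R).subtype).map R.subtype = relZ R := by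
  apply le_antisymm
  · rintro _ ⟨_, ⟨z, hz, rfl⟩, rfl⟩
    refine Subgroup.mem_inf.mpr ⟨⟨z.1, z.2, rfl⟩, ?_⟩
    refine Subgroup.mem_centralizer_iff.mpr ?_
    rintro _ ⟨y, hy, rfl⟩
    have h1 := Subgroup.mem_center_iff.mp hz ⟨y, hy⟩
    exact congrArg (fun a => ((a : puigSubgroup ↥R) : G)) h1
  · rintro x hx
    obtain ⟨⟨y, hy, rfl⟩, hx⟩ := Subgroup.mem_inf.mp hx
    refine ⟨y, ⟨⟨y, hy⟩, Subgroup.mem_center_iff.mpr ?_, rfl⟩, rfl⟩
    rintro ⟨w, hw⟩
    apply Subtype.ext
    apply Subtype.ext
    exact (Subgroup.mem_centralizer_iff.mp hx) (w : G) ⟨w, hw, rfl⟩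

theorem relUpper_eq_step (R : Subgroup G) : ∃ k : ℕ, relLower R = relPuig R (2 * k) ∧ relUpper R = relPuig R (2 * k + 1)
    ∧ relLower R = relPuig R (2 * k + 2) := by
  obtain ⟨k, h⟩ := relPuig_stable R
  exact ⟨k, (h k le_rfl).1.symm, (h k le_rfl).2.symm, (h (k + 1) (Nat.le_succ k)).1.symm⟩

theorem le_relLower {R A : Subgroup G} (hAR : A ≤ R) (hc : IsMulCommutative A)
    (hN : relUpper R ≤ Subgroup.normalizer (A : Set G)) : A ≤ relLower R := by
  obtain ⟨k, h1, h2, h3⟩ := relUpper_eq_step R
  rw [h3]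
  rw [h2] at hN
  exact le_relPuig_succ hAR hc hN

theorem le_relUpper {R A : Subgroup G} (hAR : A ≤ R) (hc : IsMulCommutative A)
    (hN : relLower R ≤ Subgroup.normalizer (A : Set G)) : A ≤ relUpper R := by
  obtain ⟨k, h1, h2, h3⟩ := relUpper_eq_step R
  rw [h2]
  rw [h1] at hN
  exact le_relPuig_succ hAR hc hN

theorem relUpper_le {R M : Subgroup G}
    (h : ∀ A : Subgroup G, A ≤ R → IsMulCommutative A → relLower R ≤ Subgroup.normalizer (A : Set G) → A ≤ M) :
    relUpper R ≤ M := by
  obtain ⟨k, h1, h2, h3⟩ := relUpper_eq_step R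
  rw [h2]
  refine relPuig_succ_le (fun A hA hc hN => h A hA hc ?_)
  rw [h1]
  exact hN

theorem relZ_comm (R : Subgroup G) : IsMulCommutative (relZ R) := by
  refine ⟨⟨?_⟩⟩
  rintro ⟨x, hx⟩ ⟨y, hy⟩
  apply Subtype.ext
  obtain ⟨hx1, -⟩ := Subgroup.mem_inf.mp hx
  obtain ⟨-, hy2⟩ := Subgroup.mem_inf.mp hy
  exact (Subgroup.mem_centralizer_iff.mp hy2) x hx1

theorem mem_normalizer_of_comm {A : Subgroup G} {y : G} (h : ∀ a ∈ A, a * y = y * a) :
    y ∈ Subgroup.normalizer (A : Set G) :=
  Subgroup.centralizer_le_normalizer _ (Subgroup.mem_centralizer_iff.mpr h)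

theorem relZ_le_relLower (R : Subgroup G) : relZ R ≤ relLower R := by
  refine le_relLower ?_ (relZ_comm R) ?_
  · exact inf_le_left.trans (Subgroup.map_subtype_le _)
  · intro y hy
    refine mem_normalizer_of_comm (fun a ha => ?_)
    exact ((Subgroup.mem_centralizer_iff.mp (Subgroup.mem_inf.mp ha).2) y hy).symm

theorem normalizer_le_normalizer_center (U : Subgroup G) :
    Subgroup.normalizer (U : Set G) ≤ Subgroup.normalizer ((U ⊓ Subgroup.centralizer (U : Set G) : Subgroup G) : Set G) := by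
  intro g hg
  have key : ∀ g ∈ Subgroup.normalizer (U : Set G), ∀ z ∈ U ⊓ Subgroup.centralizer (U : Set G), g * z * g⁻¹ ∈ U ⊓ Subgroup.centralizer (U : Set G) := by
    intro g hg z hz
    obtain ⟨h1, h2⟩ := Subgroup.mem_inf.mp hz
    refine Subgroup.mem_inf.mpr ⟨(Subgroup.mem_normalizer_iff.mp hg z).mp h1, Subgroup.mem_centralizer_iff.mpr ?_⟩
    intro u hu
    have hu' : g⁻¹ * u * g ∈ U := by
      have := (Subgroup.mem_normalizer_iff.mp hg (g⁻¹ * u * g)).mpr (by
        have e : g * (g⁻¹ * u * g) * g⁻¹ = u := by group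
        rw [e]
        exact hu)
      exact this
    have h3 := (Subgroup.mem_centralizer_iff.mp h2) _ hu'
    calc u * (g * z * g⁻¹) = g * ((g⁻¹ * u * g) * z) * g⁻¹ := by group
      _ = g * (z * (g⁻¹ * u * g)) * g⁻¹ := by rw [h3]
      _ = g * z * g⁻¹ * u := by group
  rw [Subgroup.mem_normalizer_iff]
  intro z
  refine ⟨key g hg z, fun h => ?_⟩
  have h4 := key g⁻¹ (inv_mem hg) _ h
  have e : g⁻¹ * (g * z * g⁻¹) * g⁻¹⁻¹ = z := by group
  rwa [e] at h4

theorem relUpper_char (R : Subgroup G) : (puigSubgroup ↥R).Characteristic := by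
  rw [Subgroup.characteristic_iff_map_eq]
  intro φ
  exact map_puigSubgroup φ

theorem normalizer_le_normalizer_relUpper (R : Subgroup G) :
    Subgroup.normalizer (R : Set G) ≤ Subgroup.normalizer (relUpper R : Set G) := by
  haveI := relUpper_char R
  exact Cfsg.Agent.H13.normalizer_le_normalizer_map_of_characteristic R _

theorem normalizer_le_normalizer_relZ (R : Subgroup G) :
    Subgroup.normalizer (R : Set G) ≤ Subgroup.normalizer (relZ R : Set G) :=
  (normalizer_le_normalizer_relUpper R).trans (normalizer_le_normalizer_center _)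

theorem relPuig_even_le_relLower (R : Subgroup G) (n : ℕ) : relPuig R (2 * n) ≤ relLower R :=
  Subgroup.map_mono (le_iSup (fun n => puigSeq ↥R (2 * n)) n)

/-- The Puig subgroup does not change on passing to a subgroup containing it. -/
theorem relUpper_eq_of_between {K S : Subgroup G} (hKS : K ≤ S) (hUK : relUpper S ≤ K) :
    relUpper K = relUpper S := by
  have hchain : relLower S ≤ relUpper S := relLower_le_relUpper S
  obtain ⟨-, h2⟩ := relLower_le_of_compare (relPuig_compare hKS (by
    intro n _ A hAS hc hN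
    have h1 : A ≤ relPuig S (2 * n + 2) := le_relPuig_succ hAS hc hN
    exact h1.trans ((relPuig_even_le_relLower S (n + 1)).trans (hchain.trans hUK))))
  apply le_antisymm h2
  have hind : ∀ n : ℕ, relPuig K (2 * n) ≤ relLower S ∧ relUpper S ≤ relPuig K (2 * n + 1) := by
    intro n
    induction n with
    | zero =>
      refine ⟨?_, ?_⟩
      · rw [Nat.mul_zero, relPuig_zero]
        exact bot_le
      · rw [Nat.mul_zero, Nat.zero_add, relPuig_one]
        exact hUK
    | succ n ih =>
      have h3 : relPuig K (2 * n + 2) ≤ relLower S := by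
        refine relPuig_succ_le (fun A hA hc hN => ?_)
        exact le_relLower (hA.trans hKS) hc (ih.2.trans hN)
      refine ⟨h3, ?_⟩
      refine relUpper_le (fun A hA hc hN => ?_)
      exact le_relPuig_succ ((le_relUpper hA hc hN).trans hUK) hc (h3.trans hN)
  obtain ⟨k, hk⟩ := relPuig_stable K
  rw [← (hk k le_rfl).2]
  exact (hind k).2

/-- **Puig's theorem**, trivial `p'`-core case. -/
theorem relZ_normal [Group.IsSolvable G] (hodd : Odd (Nat.card G)) (p : ℕ) [Fact p.Prime] (hp : p ≠ 2)
    (hO : pPrimeCore p G = ⊥) (S : Sylow p G) : (relZ (S : Subgroup G)).Normal := by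
  classical
  set T := pCore p G with hT
  haveI hTn : T.Normal := Cfsg.Agent.H01.pCore_normal p
  have hTp : IsPGroup p T := Cfsg.Agent.H01.pCore_isPGroup p
  have hTS : T ≤ (S : Subgroup G) := Cfsg.Agent.H13.pCore_le_sylow S
  obtain ⟨h1, h2⟩ := relLower_le_of_compare (puig_compare_pCore hodd p hp hO S)
  have hUn : (relUpper T).Normal := by
    obtain ⟨k, -, h3, -⟩ := relUpper_eq_step T
    rw [h3]
    exact relPuig_mem_normal T hTn _
  set Y := relZ T with hY
  haveI hYn : Y.Normal := by
    haveI := hUn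
    show (relUpper T ⊓ Subgroup.centralizer (relUpper T : Set G)).Normal
    infer_instance
  have hYT : Y ≤ T := inf_le_left.trans (Subgroup.map_subtype_le _)
  have hYp : IsPGroup p Y := hTp.to_le hYT
  have hZY : relZ (S : Subgroup G) ≤ Y := by
    intro z hz
    obtain ⟨h3, h4⟩ := Subgroup.mem_inf.mp hz
    refine Subgroup.mem_inf.mpr ⟨relLower_le_relUpper T (h1 (relZ_le_relLower _ hz)), ?_⟩
    exact Subgroup.centralizer_le h2 h4
  have hYS : Y ≤ relLower (S : Subgroup G) := by
    refine le_relLower (hYT.trans hTS) (relZ_comm T) ?_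
    rw [Subgroup.normalizer_eq_top_iff.mpr hYn]
    exact le_top
  set C := Subgroup.centralizer (Y : Set G) with hC
  haveI hCn : C.Normal := inferInstance
  have hquad : ∀ A : Subgroup G, A ≤ (S : Subgroup G) → IsMulCommutative A →
      relLower (S : Subgroup G) ≤ Subgroup.normalizer (A : Set G) → ∀ a ∈ A,
        QuotientGroup.mk' C a ∈ pCore p (G ⧸ C) := by
    intro A hAS hc hN a ha
    refine quad_image_pCore hodd p hp Y hYp C le_rfl a ?_ ?_
    · obtain ⟨e, he⟩ := S.isPGroup' ⟨a, hAS ha⟩
      refine ⟨e, ?_⟩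
      have := congrArg Subtype.val he
      simpa using this
    · intro y hy
      have h3 : y * a * y⁻¹ ∈ A := (Subgroup.mem_normalizer_iff.mp (hN (hYS hy)) a).mp ha
      have h4 : ⁅y, a⁆ ∈ A := by
        rw [commutatorElement_def]
        exact mul_mem h3 (inv_mem ha)
      rw [commutatorElement_eq_one_iff_mul_comm]
      have h5 := hc.is_comm.comm ⟨_, h4⟩ ⟨a, ha⟩
      exact congrArg Subtype.val h5
  set R := (pCore p (G ⧸ C)).comap (QuotientGroup.mk' C) with hR
  haveI hpc : (pCore p (G ⧸ C)).Normal := Cfsg.Agent.H01.pCore_normal p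
  haveI hRn : R.Normal := Subgroup.Normal.comap inferInstance _
  have hUR : relUpper (S : Subgroup G) ≤ R :=
    relUpper_le (fun A hA hc hN a ha => hquad A hA hc hN a ha)
  set K := (S : Subgroup G) ⊓ R with hK
  have hKS : K ≤ (S : Subgroup G) := inf_le_left
  have hUK : relUpper (S : Subgroup G) ≤ K := le_inf (Subgroup.map_subtype_le _) hUR
  have hKU := relUpper_eq_of_between hKS hUK
  obtain ⟨P, hP⟩ := Cfsg.Agent.H13.exists_sylow_inf_normal S R
  have hFr := Sylow.normalizer_sup_eq_top P
  have hN1 : Subgroup.normalizer (K : Set G) ≤ Subgroup.normalizer (relZ (S : Subgroup G) : Set G) := by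
    refine (normalizer_le_normalizer_relUpper K).trans ?_
    rw [hKU]
    exact normalizer_le_normalizer_center _
  have hN2 : R ≤ Subgroup.normalizer (relZ (S : Subgroup G) : Set G) := by
    intro r hr
    have hπs : Function.Surjective (QuotientGroup.mk' C) := QuotientGroup.mk'_surjective C
    have h3 : QuotientGroup.mk' C r ∈ (S.mapSurjective hπs : Subgroup (G ⧸ C)) :=
      Cfsg.Agent.H13.pCore_le_sylow _ hr
    rw [Sylow.coe_mapSurjective] at h3
    obtain ⟨s, hs, hsr⟩ := h3
    have hc : r * s⁻¹ ∈ C := by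
      rw [← QuotientGroup.eq_one_iff, QuotientGroup.mk_mul, QuotientGroup.mk_inv]
      have : ((s : G) : G ⧸ C) = ((r : G) : G ⧸ C) := hsr
      rw [this, mul_inv_cancel]
    have hr' : r = (r * s⁻¹) * s := by group
    rw [hr']
    refine mul_mem ?_ ?_
    · refine mem_normalizer_of_comm (fun a ha => ?_)
      exact ((Subgroup.mem_centralizer_iff.mp hc) a (hZY ha))
    · exact normalizer_le_normalizer_relZ _ (Subgroup.le_normalizer hs)
  rw [← Subgroup.normalizer_eq_top_iff, eq_top_iff, ← hFr]
  refine sup_le ?_ hN2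
  have e : ((P : Subgroup R).map R.subtype : Subgroup G) = K := hP
  show Subgroup.normalizer (((P : Subgroup R).map R.subtype : Subgroup G) : Set G) ≤ _
  rw [e]
  exact hN1

end PT

end Cfsg.Agent.H06
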