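import Cfsg.Agent.S1463

/-!
# Quadratic pairs on a two-dimensional space
-/

set_option autoImplicit false

open scoped MatrixGroups

namespace Cfsg.Agent.H06

universe u v w

section Mat

variable {E : Type u} [Field E] {V : Type v} [AddCommGroup V] [Module E V]

/-- A quadratic pair on a two-dimensional vector space in odd characteristic cannot generate a group of odd order. -/
theorem mat_case (p : ℕ) [Fact p.Prime] [CharP E p] (hp : p ≠ 2) (a b : Module.End E V) (t : E) (ht : t ≠ 0)
    (ha : a * a = 0) (hb : b * b = 0) (hab : a * b + b * a = t • (1 : Module.End E V)) (w₀ : V) (hw : w₀ ≠ 0)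
    (haw : a w₀ = 0) (hspan : Submodule.span E (Set.range ![w₀, b w₀]) = ⊤)
    {K : Type w} [Group K] [Finite K] (hodd : Odd (Nat.card K)) (ρ : K →* Module.End E V) (x y : K)
    (hx : ρ x = 1 + a) (hy : ρ y = 1 + b) : False := by
  classical
  have hbb : b (b w₀) = 0 := by
    have := congrArg (fun f => f w₀) hb
    simpa using this
  have habw : a (b w₀) = t • w₀ := by
    have := congrArg (fun f => f w₀) hab
    simpa [haw] using this
  have hli : LinearIndependent E ![w₀, b w₀] := by
    rw [LinearIndependent.pair_iff]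
    intro c d h
    have h1 := congrArg a h
    simp only [map_add, map_smul, haw, habw, smul_zero, zero_add, map_zero] at h1
    have hd : d = 0 := by
      rw [smul_smul] at h1
      have := (smul_eq_zero.mp h1).resolve_right hw
      exact (mul_eq_zero.mp this).resolve_right ht
    subst hd
    simp only [zero_smul, add_zero] at h
    exact ⟨(smul_eq_zero.mp h).resolve_right hw, rfl⟩
  let B : Module.Basis (Fin 2) E V := Module.Basis.mk hli (by rw [hspan])
  have hB0 : B 0 = w₀ := by simp [B]
  have hB1 : B 1 = b w₀ := by simp [B]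
  let T : Module.End E V ≃ₐ[E] Matrix (Fin 2) (Fin 2) E := LinearMap.toMatrixAlgEquiv B
  have haB0 : a (B 0) = 0 := by rw [hB0, haw]
  have haB1 : a (B 1) = t • B 0 := by rw [hB1, hB0, habw]
  have hbB0 : b (B 0) = B 1 := by rw [hB0, hB1]
  have hbB1 : b (B 1) = 0 := by rw [hB1, hbb]
  have hTa : T a = !![0, t; 0, 0] := by
    ext i j
    rw [LinearMap.toMatrixAlgEquiv_apply]
    fin_cases i <;> fin_cases j <;> simp [haB0, haB1]
  have hTb : T b = !![0, 0; 1, 0] := by
    ext i j
    rw [LinearMap.toMatrixAlgEquiv_apply]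
    fin_cases i <;> fin_cases j <;> simp [hbB0, hbB1]
  let m : K →* Matrix (Fin 2) (Fin 2) E := (T : Module.End E V →* Matrix (Fin 2) (Fin 2) E).comp ρ
  have hmx : m x = !![1, t; 0, 1] := by
    show T (ρ x) = _
    rw [hx, map_add, map_one, hTa]
    ext i j
    fin_cases i <;> fin_cases j <;> simp
  have hmy : m y = !![1, 0; 1, 1] := by
    show T (ρ y) = _
    rw [hy, map_add, map_one, hTb]
    ext i j
    fin_cases i <;> fin_cases j <;> simp
  let f : K →* GL (Fin 2) E := m.toHomUnits
  have hf : ∀ k, ((f k : GL (Fin 2) E) : Matrix (Fin 2) (Fin 2) E) = m k := fun k => rfl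
  have hcard : Nat.card f.range ∣ Nat.card K := Subgroup.card_range_dvd f
  have hodd' : Odd (Nat.card f.range) := Odd.of_dvd_nat hodd hcard
  have hirr : ∀ v : Fin 2 → E, v ≠ 0 → ∃ g ∈ f.range,
      (g : Matrix (Fin 2) (Fin 2) E).mulVec v ∉ Submodule.span E {v} := by
    intro v hv
    by_cases h1 : v 1 = 0
    · refine ⟨f y, ⟨y, rfl⟩, ?_⟩
      rw [hf, hmy, Submodule.mem_span_singleton]
      rintro ⟨c, hc⟩
      have h0 : v 0 ≠ 0 := by
        intro h0
        apply hv
        funext i
        fin_cases i
        · exact h0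
        · exact h1
      have e0 := congrFun hc 0
      have e1 := congrFun hc 1
      simp [Matrix.mulVec, dotProduct, Fin.sum_univ_two, h1] at e0 e1
      exact h0 e1.symm
    · refine ⟨f x, ⟨x, rfl⟩, ?_⟩
      rw [hf, hmx, Submodule.mem_span_singleton]
      rintro ⟨c, hc⟩
      have e0 := congrFun hc 0
      have e1 := congrFun hc 1
      simp [Matrix.mulVec, dotProduct, Fin.sum_univ_two] at e0 e1
      have hc1 : c = 1 := by
        apply mul_right_cancel₀ h1
        rw [e1, one_mul]
      rw [hc1, one_mul] at e0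
      have h2 : t * v 1 = 0 := by linear_combination -e0
      exact (mul_ne_zero ht h1) h2
  haveI : Finite f.range := Finite.of_surjective f.rangeRestrict f.rangeRestrict_surjective
  have hndvd := Cfsg.Agent.S1463.result p hp f.range hodd' hirr
  apply hndvd
  have hne : f x ≠ 1 := by
    intro h
    have h1 : m x = 1 := by
      rw [← hf, h]
      rfl
    rw [hmx] at h1
    have := congrFun (congrFun h1 0) 1
    simp at this
    exact ht this
  have hpow : f x ^ p = 1 := by
    apply Units.ext
    rw [Units.val_pow_eq_pow_val, hf, hmx, Units.val_one]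
    have h1 : (!![1, t; 0, 1] : Matrix (Fin 2) (Fin 2) E) = 1 + !![0, t; 0, 0] := by
      ext i j
      fin_cases i <;> fin_cases j <;> simp
    have h2 : (!![0, t; 0, 0] : Matrix (Fin 2) (Fin 2) E) * !![0, t; 0, 0] = 0 := by
      ext i j
      fin_cases i <;> fin_cases j <;> simp [Matrix.mul_apply, Fin.sum_univ_two]
    rw [h1, add_pow_char_of_commute p (Commute.one_left _), one_pow]
    have h3 : (!![0, t; 0, 0] : Matrix (Fin 2) (Fin 2) E) ^ p = 0 := by
      have hp2 : 2 ≤ p := (Fact.out : p.Prime).two_le
      exact pow_eq_zero_of_le hp2 (by rw [sq, h2])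
    rw [h3, add_zero]
  have hord : orderOf (f x) = p := orderOf_eq_prime hpow hne
  have hmem : f x ∈ f.range := ⟨x, rfl⟩
  have hord' : orderOf (⟨f x, hmem⟩ : f.range) = p := by
    rw [← hord, ← Subgroup.orderOf_coe]
  rw [← hord']
  exact orderOf_dvd_natCard _

end Mat

end Cfsg.Agent.H06
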