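import Cfsg.Agent.Lib.H06.Quad1

/-!
# Quadratic pairs on irreducible modules in odd characteristic
-/

set_option autoImplicit false

namespace Cfsg.Agent.H06

universe u v w

section Irr

variable {V : Type v} [AddCommGroup V] {K : Type w} [Group K] [Finite K]

theorem irr_field {F : Type u} [Field F] (p : ℕ) [Fact p.Prime] (hp : p ≠ 2) (hpF : (p : F) = 0)
    (ι : F →+* Module.End ℤ V) (a b : Module.End ℤ V) (τ : F) (hτ : ι τ = a * b + b * a)
    (ha : a * a = 0) (hb : b * b = 0) (ha0 : a ≠ 0)
    (hca : ∀ e, ι e * a = a * ι e) (hcb : ∀ e, ι e * b = b * ι e)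
    (hirr : ∀ W : AddSubgroup V, (∀ v ∈ W, a v ∈ W) → (∀ v ∈ W, b v ∈ W) → W = ⊥ ∨ W = ⊤)
    (hodd : Odd (Nat.card K)) (φ : K →* Module.End ℤ V) (x y : K) (hgen : Subgroup.closure {x, y} = ⊤)
    (hx : φ x = 1 + a) (hy : φ y = 1 + b) : False := by
  classical
  letI : Module F V := Module.compHom V ι
  have hsmul : ∀ (e : F) (v : V), e • v = ι e v := fun _ _ => rfl
  haveI : CharP F p := ringChar.of_eq (CharP.ringChar_of_prime_eq_zero (Fact.out : p.Prime) hpF)
  -- commuting
  have hca' : ∀ e v, a (ι e v) = ι e (a v) := fun e v => (congrArg (fun f => f v) (hca e)).symm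
  have hcb' : ∀ e v, b (ι e v) = ι e (b v) := fun e v => (congrArg (fun f => f v) (hcb e)).symm
  let a' : Module.End F V :=
    { toFun := a, map_add' := a.map_add, map_smul' := fun e v => by simp only [hsmul, RingHom.id_apply, hca'] }
  let b' : Module.End F V :=
    { toFun := b, map_add' := b.map_add, map_smul' := fun e v => by simp only [hsmul, RingHom.id_apply, hcb'] }
  have haa' : ∀ v, a' v = a v := fun _ => rfl
  have hbb' : ∀ v, b' v = b v := fun _ => rfl
  have haa : ∀ v, a (a v) = 0 := fun v => congrArg (fun f => f v) ha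
  have hbb : ∀ v, b (b v) = 0 := fun v => congrArg (fun f => f v) hb
  have hτv : ∀ v, ι τ v = a (b v) + b (a v) := fun v => congrArg (fun f => f v) hτ
  obtain ⟨v₀, hv₀⟩ : ∃ v, a v ≠ 0 := by
    by_contra h
    push Not at h
    exact ha0 (LinearMap.ext h)
  set w₀ := a v₀ with hw₀
  have haw : a w₀ = 0 := haa v₀
  have hτ0 : τ ≠ 0 := by
    intro h0
    have hab0 : ∀ v, a (b v) = - b (a v) := by
      intro v
      have := hτv v
      rw [h0, map_zero, LinearMap.zero_apply] at this
      exact eq_neg_of_add_eq_zero_left this.symm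
    let W : AddSubgroup V := (a : V →+ V).ker
    have hW : ∀ v, v ∈ W ↔ a v = 0 := fun v => AddMonoidHom.mem_ker
    rcases hirr W (fun v hv => (hW _).mpr (haa v)) (fun v hv => (hW _).mpr (by
        rw [hab0, (hW v).mp hv, map_zero, neg_zero])) with h | h
    · have : w₀ ∈ W := (hW _).mpr haw
      rw [h] at this
      exact hv₀ this
    · have : v₀ ∈ W := by rw [h]; trivial
      exact hv₀ ((hW _).mp this)
  -- the span
  let W₁ : Submodule F V := Submodule.span F (Set.range ![w₀, b' w₀])
  have hw₁ : w₀ ∈ W₁ := Submodule.subset_span ⟨0, rfl⟩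
  have hw₂ : b w₀ ∈ W₁ := Submodule.subset_span ⟨1, rfl⟩
  have hinva : W₁ ≤ W₁.comap a' := by
    refine Submodule.span_le.mpr ?_
    rintro _ ⟨i, rfl⟩
    fin_cases i
    · show a w₀ ∈ W₁
      rw [haw]
      exact W₁.zero_mem
    · show a (b w₀) ∈ W₁
      have h1 : a (b w₀) = τ • w₀ := by
        rw [hsmul, hτv, haw, map_zero, add_zero]
      rw [h1]
      exact W₁.smul_mem _ hw₁
  have hinvb : W₁ ≤ W₁.comap b' := by
    refine Submodule.span_le.mpr ?_
    rintro _ ⟨i, rfl⟩
    fin_cases i
    · exact hw₂
    · show b (b w₀) ∈ W₁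
      rw [hbb]
      exact W₁.zero_mem
  have hspan : W₁ = ⊤ := by
    rcases hirr W₁.toAddSubgroup (fun v hv => hinva hv) (fun v hv => hinvb hv) with h | h
    · have : w₀ ∈ W₁.toAddSubgroup := hw₁
      rw [h] at this
      exact absurd this hv₀
    · apply Submodule.toAddSubgroup_injective
      rw [h]
      rfl
  -- the representation
  have hcomm : ∀ k e, ι e * φ k = φ k * ι e := by
    intro k
    have hk : k ∈ Subgroup.closure ({x, y} : Set K) := by rw [hgen]; trivial
    induction hk using Subgroup.closure_induction with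
    | mem k hk =>
      intro e
      rcases hk with rfl | hk
      · rw [hx, mul_add, add_mul, mul_one, one_mul, hca]
      · rw [Set.mem_singleton_iff.mp hk, hy, mul_add, add_mul, mul_one, one_mul, hcb]
    | one =>
      intro e
      rw [map_one, mul_one, one_mul]
    | mul k₁ k₂ _ _ h₁ h₂ =>
      intro e
      rw [map_mul, ← mul_assoc, h₁, mul_assoc, h₂, mul_assoc]
    | inv k _ h =>
      intro e
      have h1 : φ k⁻¹ * φ k = 1 := by rw [← map_mul, inv_mul_cancel, map_one]
      have h2 : φ k * φ k⁻¹ = 1 := by rw [← map_mul, mul_inv_cancel, map_one]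
      calc ι e * φ k⁻¹ = (φ k⁻¹ * φ k) * (ι e * φ k⁻¹) := by rw [h1, one_mul]
        _ = φ k⁻¹ * (φ k * ι e) * φ k⁻¹ := by noncomm_ring
        _ = φ k⁻¹ * (ι e * φ k) * φ k⁻¹ := by rw [h]
        _ = φ k⁻¹ * ι e * (φ k * φ k⁻¹) := by noncomm_ring
        _ = φ k⁻¹ * ι e := by rw [h2, mul_one]
  have hcomm' : ∀ k e v, φ k (ι e v) = ι e (φ k v) := fun k e v =>
    (congrArg (fun f => f v) (hcomm k e)).symm
  let ρ : K →* Module.End F V :=
    { toFun := fun k =>
        { toFun := φ k, map_add' := (φ k).map_add,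
          map_smul' := fun e v => by simp only [hsmul, RingHom.id_apply, hcomm'] }
      map_one' := by
        apply LinearMap.ext
        intro v
        show φ 1 v = v
        rw [map_one]
        rfl
      map_mul' := by
        intro k₁ k₂
        apply LinearMap.ext
        intro v
        show φ (k₁ * k₂) v = φ k₁ (φ k₂ v)
        rw [map_mul]
        rfl }
  have hax : ∀ v, φ x v = v + a v := by
    intro v
    rw [hx]
    rfl
  have hay : ∀ v, φ y v = v + b v := by
    intro v
    rw [hy]
    rfl
  refine mat_case p hp a' b' τ hτ0 ?_ ?_ ?_ w₀ hv₀ haw hspan hodd ρ x y ?_ ?_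
  · exact LinearMap.ext haa
  · exact LinearMap.ext hbb
  · apply LinearMap.ext
    intro v
    show a (b v) + b (a v) = ι τ (v)
    rw [hτv]
  · apply LinearMap.ext
    intro v
    show φ x v = v + a v
    exact hax v
  · apply LinearMap.ext
    intro v
    show φ y v = v + b v
    exact hay v

/-- The case of an irreducible module: a quadratic element acts trivially. -/
theorem irr_case [Finite V] (p : ℕ) [Fact p.Prime] (hp : p ≠ 2) (hV : ∀ v : V, p • v = 0)
    (a b : Module.End ℤ V) (ha : a * a = 0) (hb : b * b = 0) (ha0 : a ≠ 0)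
    (hirr : ∀ W : AddSubgroup V, (∀ v ∈ W, a v ∈ W) → (∀ v ∈ W, b v ∈ W) → W = ⊥ ∨ W = ⊤)
    (hodd : Odd (Nat.card K)) (φ : K →* Module.End ℤ V) (x y : K) (hgen : Subgroup.closure {x, y} = ⊤)
    (hx : φ x = 1 + a) (hy : φ y = 1 + b) : False := by
  classical
  set t : Module.End ℤ V := a * b + b * a with ht
  have hta : t * a = a * t := by
    have e1 : t * a = a * b * a + b * (a * a) := by rw [ht]; noncomm_ring
    have e2 : a * t = (a * a) * b + a * b * a := by rw [ht]; noncomm_ring
    rw [e1, e2, ha, mul_zero, zero_mul, add_zero, zero_add]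
  have htb : t * b = b * t := by
    have e1 : t * b = a * (b * b) + b * a * b := by rw [ht]; noncomm_ring
    have e2 : b * t = b * a * b + (b * b) * a := by rw [ht]; noncomm_ring
    rw [e1, e2, hb, mul_zero, zero_mul, add_zero, zero_add]
  let E : Subalgebra ℤ (Module.End ℤ V) := Algebra.adjoin ℤ {t}
  have hcomm : ∀ e ∈ E, e * a = a * e ∧ e * b = b * e := by
    intro e he
    induction he using Algebra.adjoin_induction with
    | mem e he =>
      rw [Set.mem_singleton_iff.mp he]
      exact ⟨hta, htb⟩
    | algebraMap r =>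
      exact ⟨(Algebra.commutes r a), (Algebra.commutes r b)⟩
    | add e f _ _ h₁ h₂ =>
      rw [add_mul, mul_add, add_mul, mul_add, h₁.1, h₁.2, h₂.1, h₂.2]
      exact ⟨rfl, rfl⟩
    | mul e f _ _ h₁ h₂ =>
      constructor
      · rw [mul_assoc, h₂.1, ← mul_assoc, h₁.1, mul_assoc]
      · rw [mul_assoc, h₂.2, ← mul_assoc, h₁.2, mul_assoc]
  have hinj : ∀ e ∈ E, e ≠ 0 → Function.Bijective e := by
    intro e he hne
    have h1 : Function.Injective e := by
      let W : AddSubgroup V := (e : V →+ V).ker
      have hW : ∀ v, v ∈ W ↔ e v = 0 := fun v => AddMonoidHom.mem_ker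
      have hca := hcomm e he
      have hca1 : ∀ v, e (a v) = a (e v) := fun v => congrArg (fun f => f v) hca.1
      have hcb1 : ∀ v, e (b v) = b (e v) := fun v => congrArg (fun f => f v) hca.2
      rcases hirr W (fun v hv => (hW _).mpr (by rw [hca1, (hW v).mp hv, map_zero]))
        (fun v hv => (hW _).mpr (by rw [hcb1, (hW v).mp hv, map_zero])) with h | h
      · rw [injective_iff_map_eq_zero]
        intro v hv
        have : v ∈ W := (hW v).mpr hv
        rw [h] at this
        exact this
      · exfalso
        apply hne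
        apply LinearMap.ext
        intro v
        have : v ∈ W := by rw [h]; trivial
        exact (hW v).mp this
    exact ⟨h1, Finite.injective_iff_surjective.mp h1⟩
  letI : CommRing E := Algebra.adjoinCommRingOfComm ℤ (by
    intro u hu v hv
    rw [Set.mem_singleton_iff.mp hu, Set.mem_singleton_iff.mp hv])
  haveI : Nontrivial E := by
    refine ⟨⟨0, 1, ?_⟩⟩
    intro h
    apply ha0
    have h1 : ((0 : E) : Module.End ℤ V) = ((1 : E) : Module.End ℤ V) := congrArg Subtype.val h
    have h2 : (0 : Module.End ℤ V) = 1 := h1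
    apply LinearMap.ext
    intro v
    have := congrArg (fun f => f (a v)) h2
    simpa using this.symm
  haveI : IsDomain E := by
    haveI : NoZeroDivisors E := by
      refine ⟨?_⟩
      intro u v huv
      by_contra hne
      push Not at hne
      have h0 : (u : Module.End ℤ V) * (v : Module.End ℤ V) = 0 := congrArg Subtype.val huv
      have hv0 : (v : Module.End ℤ V) ≠ 0 := fun h => hne.2 (Subtype.ext h)
      have hu0 : (u : Module.End ℤ V) ≠ 0 := fun h => hne.1 (Subtype.ext h)
      obtain ⟨w, hw⟩ : ∃ w, (u : Module.End ℤ V) w ≠ 0 := by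
        by_contra h
        push Not at h
        exact hu0 (LinearMap.ext h)
      obtain ⟨w', hw'⟩ := (hinj _ v.2 hv0).2 w
      apply hw
      rw [← hw']
      exact congrArg (fun f => f w') h0
    exact NoZeroDivisors.to_isDomain E
  haveI : Finite E := by
    haveI : Finite (Module.End ℤ V) := Finite.of_injective (fun f : Module.End ℤ V => (f : V → V))
      DFunLike.coe_injective
    infer_instance
  letI : Field E := (Finite.isField_of_domain E).toField
  let ι : E →+* Module.End ℤ V :=
    { toFun := Subtype.val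
      map_one' := rfl
      map_mul' := fun _ _ => rfl
      map_zero' := rfl
      map_add' := fun _ _ => rfl }
  have hpE : ((p : ℕ) : E) = 0 := by
    apply Subtype.ext
    show ι ((p : ℕ) : E) = 0
    rw [map_natCast]
    apply LinearMap.ext
    intro v
    simpa using hV v
  let τ : E := ⟨t, Algebra.subset_adjoin rfl⟩
  exact irr_field p hp hpE ι a b τ rfl ha hb ha0 (fun e => (hcomm e.1 e.2).1) (fun e => (hcomm e.1 e.2).2) hirr
    hodd φ x y hgen hx hy

/-- On an irreducible module in odd characteristic, a group of odd order generated by quadratic elements acts trivially. -/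
theorem irr_trivial [Finite V] (p : ℕ) [Fact p.Prime] (hp : p ≠ 2) (hV : ∀ v : V, p • v = 0)
    (a b : Module.End ℤ V) (ha : a * a = 0) (hb : b * b = 0)
    (hirr : ∀ W : AddSubgroup V, (∀ v ∈ W, a v ∈ W) → (∀ v ∈ W, b v ∈ W) → W = ⊥ ∨ W = ⊤)
    (hodd : Odd (Nat.card K)) (φ : K →* Module.End ℤ V) (x y : K) (hgen : Subgroup.closure {x, y} = ⊤)
    (hx : φ x = 1 + a) (hy : φ y = 1 + b) (k : K) : φ k = 1 := by
  have ha0 : a = 0 := by
    by_contra h
    exact irr_case p hp hV a b ha hb h hirr hodd φ x y hgen hx hy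
  have hb0 : b = 0 := by
    by_contra h
    refine irr_case p hp hV b a hb ha h (fun W h1 h2 => hirr W h2 h1) hodd φ y x ?_ hy hx
    rw [Set.pair_comm]
    exact hgen
  have hk : k ∈ Subgroup.closure ({x, y} : Set K) := by rw [hgen]; trivial
  have hker : Subgroup.closure ({x, y} : Set K) ≤ (φ.toHomUnits).ker := by
    rw [Subgroup.closure_le]
    rintro z (rfl | hz)
    · rw [SetLike.mem_coe, MonoidHom.mem_ker]
      apply Units.ext
      show φ z = 1
      rw [hx, ha0, add_zero]
    · rw [SetLike.mem_coe, MonoidHom.mem_ker]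
      apply Units.ext
      rw [Set.mem_singleton_iff.mp hz]
      show φ y = 1
      rw [hy, hb0, add_zero]
  have := MonoidHom.mem_ker.mp (hker hk)
  exact congrArg Units.val this

end Irr

end Cfsg.Agent.H06
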