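import Cfsg.Agent.Lib.H06.Quad2
import Cfsg.Agent.Lib.H06.Nilp

/-!
# Groups of odd order generated by quadratic elements act on `p`-groups as `p`-groups
-/

set_option autoImplicit false

namespace Cfsg.Agent.H06

universe u w

/-- An action of `K` on the group `P` by endomorphisms. -/
structure QAct (K : Type w) (P : Type u) [Group K] [Group P] where
  /-- the action -/
  f : K → P →* P
  one : ∀ v, f 1 v = v
  mul : ∀ a b v, f (a * b) v = f a (f b v)

/-- `k` acts quadratically on `P`. -/
def QAct.IsQuad {K : Type w} {P : Type u} [Group K] [Group P] (ψ : QAct K P) (k : K) : Prop :=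
  ∀ v, ψ.f k (v * (ψ.f k v)⁻¹) = v * (ψ.f k v)⁻¹

section Ab

variable {A : Type u} [CommGroup A] [Finite A] {K : Type w} [Group K] [Finite K]

/-- The linear representation on `Additive A`. -/
def QAct.linear (ψ : QAct K A) : K →* Module.End ℤ (Additive A) where
  toFun k := ((ψ.f k).toAdditive).toIntLinearMap
  map_one' := by
    apply LinearMap.ext
    intro v
    exact congrArg Additive.ofMul (ψ.one (Additive.toMul v))
  map_mul' := by
    intro a b
    apply LinearMap.ext
    intro v
    exact congrArg Additive.ofMul (ψ.mul a b (Additive.toMul v))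

theorem QAct.linear_apply (ψ : QAct K A) (k : K) (v : Additive A) :
    ψ.linear k v = Additive.ofMul (ψ.f k (Additive.toMul v)) := rfl

theorem abelian_irr (p : ℕ) [Fact p.Prime] (hp : p ≠ 2) (hA : ∀ v : A, v ^ p = 1) (ψ : QAct K A) (x y : K)
    (hgen : Subgroup.closure {x, y} = ⊤) (hqx : ψ.IsQuad x) (hqy : ψ.IsQuad y)
    (hirr : ∀ W : Subgroup A, (∀ v ∈ W, ψ.f x v ∈ W) → (∀ v ∈ W, ψ.f y v ∈ W) → W = ⊥ ∨ W = ⊤)
    (hodd : Odd (Nat.card K)) (k : K) (v : A) : ψ.f k v = v := by
  let a : Module.End ℤ (Additive A) := ψ.linear x - 1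
  let b : Module.End ℤ (Additive A) := ψ.linear y - 1
  have hla : ∀ (z : K) (u : Additive A), (ψ.linear z - 1 : Module.End ℤ (Additive A)) u =
      Additive.ofMul (ψ.f z (Additive.toMul u) * (Additive.toMul u)⁻¹) := by
    intro z u
    show ψ.linear z u - u = _
    rw [sub_eq_add_neg]
    rfl
  have hsq : ∀ z : K, ψ.IsQuad z → ((ψ.linear z - 1) * (ψ.linear z - 1) : Module.End ℤ (Additive A)) = 0 := by
    intro z hz
    apply LinearMap.ext
    intro u
    rw [Module.End.mul_apply, hla, hla, toMul_ofMul]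
    set w := Additive.toMul u with hw
    have h1 := hz w
    have key : ψ.f z (ψ.f z w * w⁻¹) = ψ.f z w * w⁻¹ := by
      have h2 : ψ.f z w * w⁻¹ = (w * (ψ.f z w)⁻¹)⁻¹ := by
        rw [mul_inv_rev, inv_inv]
      rw [h2, map_inv, h1]
    rw [key, mul_inv_cancel]
    rfl
  have hV : ∀ v : Additive A, p • v = 0 := by
    intro v
    show Additive.ofMul (Additive.toMul v ^ p) = 0
    rw [hA]
    rfl
  have hirr' : ∀ W : AddSubgroup (Additive A), (∀ v ∈ W, a v ∈ W) → (∀ v ∈ W, b v ∈ W) → W = ⊥ ∨ W = ⊤ := by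
    intro W h1 h2
    let W' : Subgroup A := AddSubgroup.toSubgroup' W
    have hmem : ∀ v : A, v ∈ W' ↔ Additive.ofMul v ∈ W := fun v => Iff.rfl
    have hinv : ∀ (z : K) (c : Module.End ℤ (Additive A)), c = ψ.linear z - 1 → (∀ v ∈ W, c v ∈ W) →
        ∀ v ∈ W', ψ.f z v ∈ W' := by
      intro z c hc hW v hv
      rw [hmem] at hv ⊢
      have h3 := W.add_mem (hW _ hv) hv
      rw [hc] at h3
      have h4 : (ψ.linear z - 1 : Module.End ℤ (Additive A)) (Additive.ofMul v) + Additive.ofMul v
          = Additive.ofMul (ψ.f z v) := by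
        show ψ.linear z (Additive.ofMul v) - Additive.ofMul v + Additive.ofMul v = _
        rw [sub_add_cancel]
        rfl
      rwa [h4] at h3
    rcases hirr W' (hinv x a rfl h1) (hinv y b rfl h2) with h | h
    · left
      apply le_antisymm _ bot_le
      intro u hu
      have h5 : Additive.toMul u ∈ W' := hu
      rw [h] at h5
      exact h5
    · right
      apply le_antisymm le_top
      intro u _
      have h5 : Additive.toMul u ∈ W' := by rw [h]; trivial
      exact h5
  have h := irr_trivial p hp hV a b (hsq x hqx) (hsq y hqy) hirr' hodd ψ.linear x y hgen (by simp [a]) (by simp [b]) k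
  have h2 := congrArg (fun f => f (Additive.ofMul v)) h
  exact h2

end Ab

section Main

variable {K : Type w} [Group K]

/-- Restriction of an action to an invariant subgroup. -/
def QAct.restr {P : Type u} [Group P] (ψ : QAct K P) (W : Subgroup P) (hW : ∀ k, ∀ v ∈ W, ψ.f k v ∈ W) :
    QAct K W where
  f k :=
    { toFun := fun v => ⟨ψ.f k v, hW k v v.2⟩
      map_one' := Subtype.ext (map_one _)
      map_mul' := fun a b => Subtype.ext (map_mul _ _ _) }
  one v := Subtype.ext (ψ.one v)
  mul a b v := Subtype.ext (ψ.mul a b v)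

/-- The induced action on a quotient. -/
def QAct.quot {P : Type u} [Group P] (ψ : QAct K P) (W : Subgroup P) [W.Normal] (hW : ∀ k, ∀ v ∈ W, ψ.f k v ∈ W) :
    QAct K (P ⧸ W) where
  f k := QuotientGroup.map W W (ψ.f k) (fun v hv => hW k v hv)
  one v := by
    induction v using QuotientGroup.induction_on with
    | H v =>
      show ((ψ.f 1 v : P) : P ⧸ W) = v
      rw [ψ.one]
  mul a b v := by
    induction v using QuotientGroup.induction_on with
    | H v =>
      show ((ψ.f (a * b) v : P) : P ⧸ W) = ((ψ.f a (ψ.f b v) : P) : P ⧸ W)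
      rw [ψ.mul]

theorem QAct.quot_f_mk {P : Type u} [Group P] (ψ : QAct K P) (W : Subgroup P) [W.Normal]
    (hW : ∀ k, ∀ v ∈ W, ψ.f k v ∈ W) (k : K) (v : P) :
    (ψ.quot W hW).f k (v : P ⧸ W) = ((ψ.f k v : P) : P ⧸ W) := rfl

theorem QAct.isQuad_restr {P : Type u} [Group P] (ψ : QAct K P) (W : Subgroup P) (hW : ∀ k, ∀ v ∈ W, ψ.f k v ∈ W)
    {k : K} (h : ψ.IsQuad k) : (ψ.restr W hW).IsQuad k := fun v => Subtype.ext (h v)

theorem QAct.isQuad_quot {P : Type u} [Group P] (ψ : QAct K P) (W : Subgroup P) [W.Normal]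
    (hW : ∀ k, ∀ v ∈ W, ψ.f k v ∈ W) {k : K} (h : ψ.IsQuad k) : (ψ.quot W hW).IsQuad k := by
  intro v
  induction v using QuotientGroup.induction_on with
  | H v =>
    rw [QAct.quot_f_mk, ← QuotientGroup.mk_inv, ← QuotientGroup.mk_mul, QAct.quot_f_mk, h v]

/-- Fixing a subgroup and the quotient pointwise implies fixing everything if the order is prime to `p`. -/
theorem fix_of_fix_fix {P : Type u} [Group P] [Finite K] (p : ℕ) [Fact p.Prime] (hP : IsPGroup p P) (ψ : QAct K P)
    (W : Subgroup P) [W.Normal] (g : K) (hg : Nat.Coprime (orderOf g) p) (h1 : ∀ w ∈ W, ψ.f g w = w)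
    (h2 : ∀ v : P, v⁻¹ * ψ.f g v ∈ W) (v : P) : ψ.f g v = v := by
  set w := v⁻¹ * ψ.f g v with hw
  have hwW : w ∈ W := h2 v
  have hv : ψ.f g v = v * w := by rw [hw, mul_inv_cancel_left]
  have hpow : ∀ n : ℕ, ψ.f (g ^ n) v = v * w ^ n := by
    intro n
    induction n with
    | zero => simp [ψ.one]
    | succ n ih =>
      rw [pow_succ', ψ.mul, ih, map_mul, hv, map_pow, h1 w hwW, pow_succ', mul_assoc]
  have h3 := hpow (orderOf g)
  rw [pow_orderOf_eq_one, ψ.one] at h3
  have h4 : w ^ orderOf g = 1 := by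
    have := mul_left_cancel (a := v) (b := 1) (c := w ^ orderOf g) (by rw [mul_one]; exact h3)
    exact this.symm
  obtain ⟨e, he⟩ := hP w
  have h5 : orderOf w ∣ Nat.gcd (orderOf g) (p ^ e) :=
    Nat.dvd_gcd (orderOf_dvd_of_pow_eq_one h4) (orderOf_dvd_of_pow_eq_one he)
  have h6 : Nat.gcd (orderOf g) (p ^ e) = 1 := Nat.Coprime.pow_right e hg
  rw [h6, Nat.dvd_one, orderOf_eq_one_iff] at h5
  rw [hv, h5, mul_one]

theorem invariant_of_generators {P : Type u} [Group P] [Finite K] (ψ : QAct K P) (x y : K)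
    (hgen : Subgroup.closure {x, y} = ⊤) (W : Subgroup P) (hx : ∀ v ∈ W, ψ.f x v ∈ W) (hy : ∀ v ∈ W, ψ.f y v ∈ W)
    (k : K) : ∀ v ∈ W, ψ.f k v ∈ W := by
  have hk : k ∈ Subgroup.closure ({x, y} : Set K) := by rw [hgen]; trivial
  induction hk using Subgroup.closure_induction with
  | mem k hk =>
    rcases hk with rfl | hk
    · exact hx
    · rw [Set.mem_singleton_iff.mp hk]
      exact hy
  | one =>
    intro v hv
    rwa [ψ.one]
  | mul a b _ _ h₁ h₂ =>
    intro v hv
    rw [ψ.mul]
    exact h₁ _ (h₂ _ hv)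
  | inv a _ h =>
    intro v hv
    have hp : ∀ n : ℕ, ψ.f (a ^ n) v ∈ W := by
      intro n
      induction n with
      | zero => rwa [pow_zero, ψ.one]
      | succ n ih =>
        rw [pow_succ', ψ.mul]
        exact h _ ih
    have h1 : a⁻¹ = a ^ (orderOf a - 1) := by
      rw [inv_eq_iff_mul_eq_one, ← pow_succ', Nat.sub_add_cancel (orderOf_pos a), pow_orderOf_eq_one]
    rw [h1]
    exact hp _

/-- **Main theorem on quadratic pairs**: an odd-order group generated by two quadratic elements
acts on a `p`-group (`p` odd) with its `p'`-elements acting trivially. -/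
theorem quad_main [Finite K] (p : ℕ) [Fact p.Prime] (hp : p ≠ 2) (hodd : Odd (Nat.card K)) (x y : K)
    (hgen : Subgroup.closure {x, y} = ⊤) (n : ℕ) :
    ∀ (P : Type u) [Group P] [Finite P], IsPGroup p P → Nat.card P = n → ∀ ψ : QAct K P, ψ.IsQuad x →
      ψ.IsQuad y → ∀ g : K, Nat.Coprime (orderOf g) p → ∀ v : P, ψ.f g v = v := by
  induction n using Nat.strong_induction_on with
  | _ n ih =>
  intro P _ _ hP hn ψ hqx hqy g hg v
  classical
  by_cases hsub : Subsingleton P
  · exact Subsingleton.elim _ _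
  rw [not_subsingleton_iff_nontrivial] at hsub
  -- a minimal invariant normal subgroup
  let S : Set (Subgroup P) := {W | W.Normal ∧ W ≠ ⊥ ∧ ∀ k, ∀ v ∈ W, ψ.f k v ∈ W}
  have htop : (⊤ : Subgroup P) ∈ S := ⟨inferInstance, top_ne_bot, fun _ _ _ => trivial⟩
  obtain ⟨W, hWS, hWmin⟩ := Set.exists_min_image S (fun W : Subgroup P => Nat.card W) (Set.toFinite S) ⟨⊤, htop⟩
  obtain ⟨hWn, hWne, hWinv⟩ := hWS
  have hmin : ∀ W' ∈ S, W' ≤ W → W' = W := by
    intro W' hW' hle
    exact Subgroup.eq_of_le_of_card_ge hle (hWmin W' hW')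
  haveI : Group.IsNilpotent P := hP.isNilpotent
  -- the action is by bijections
  have hbij : ∀ (k : K) (u : P), ψ.f k (ψ.f k⁻¹ u) = u := by
    intro k u
    rw [← ψ.mul, mul_inv_cancel, ψ.one]
  have hbij' : ∀ (k : K) (u : P), ψ.f k⁻¹ (ψ.f k u) = u := by
    intro k u
    rw [← ψ.mul, inv_mul_cancel, ψ.one]
  have hcent : ∀ (k : K), ∀ z ∈ Subgroup.center P, ψ.f k z ∈ Subgroup.center P := by
    intro k z hz
    rw [Subgroup.mem_center_iff] at hz ⊢
    intro u
    have h1 := hz (ψ.f k⁻¹ u)
    have h2 := congrArg (ψ.f k) h1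
    rw [map_mul, map_mul, hbij] at h2
    exact h2
  have hWc : W ≤ Subgroup.center P := by
    have hS : W ⊓ Subgroup.center P ∈ S := by
      refine ⟨inferInstance, ?_, ?_⟩
      · obtain ⟨z, hzW, hz1, hzc⟩ := exists_central_of_normal hWn hWne
        intro h
        apply hz1
        have : z ∈ W ⊓ Subgroup.center P := ⟨hzW, hzc⟩
        rw [h] at this
        exact this
      · intro k u hu
        exact ⟨hWinv k u hu.1, hcent k u hu.2⟩
    have := hmin _ hS inf_le_left
    rw [← this]
    exact inf_le_right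
  by_cases hWt : W = ⊤
  · -- `P` is abelian
    have hcomm : ∀ a b : P, a * b = b * a := by
      intro a b
      have : a ∈ Subgroup.center P := hWc (by rw [hWt]; trivial)
      exact (Subgroup.mem_center_iff.mp this b).symm
    letI : CommGroup P := { (inferInstance : Group P) with mul_comm := hcomm }
    -- elements of order p
    have hA : ∀ u : P, u ^ p = 1 := by
      let W₀ : Subgroup P := (powMonoidHom p : P →* P).ker
      have hmem : ∀ u, u ∈ W₀ ↔ u ^ p = 1 := fun u => MonoidHom.mem_ker
      have hS : W₀ ∈ S := by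
        refine ⟨inferInstance, ?_, ?_⟩
        · obtain ⟨z, hz⟩ : ∃ z : P, orderOf z = p := by
            refine exists_prime_orderOf_dvd_card' p ?_
            rcases hP.card_eq_or_dvd with h | h
            · exact absurd h Finite.one_lt_card.ne'
            · exact h
          intro h
          have h1 : z ∈ W₀ := (hmem z).mpr (by rw [← hz, pow_orderOf_eq_one])
          rw [h] at h1
          have h2 : z = 1 := h1
          rw [h2, orderOf_one] at hz
          exact (Fact.out : p.Prime).one_lt.ne hz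
        · intro k u hu
          rw [hmem] at hu ⊢
          rw [← map_pow, hu, map_one]
      intro u
      have h1 : W₀ = ⊤ := by
        have h2 := hWmin W₀ hS
        have h3 : W = ⊤ := hWt
        simp only [h3, Subgroup.card_top] at h2
        exact Subgroup.eq_top_of_le_card _ h2
      rw [← hmem, h1]
      trivial
    refine abelian_irr p hp hA ψ x y hgen hqx hqy ?_ hodd g v
    intro W₁ h1 h2
    by_cases hW₁ : W₁ = ⊥
    · exact Or.inl hW₁
    · right
      have hS : W₁ ∈ S := ⟨inferInstance, hW₁, invariant_of_generators ψ x y hgen W₁ h1 h2⟩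
      have h3 := hWmin W₁ hS
      have h4 : W = ⊤ := hWt
      simp only [h4, Subgroup.card_top] at h3
      exact Subgroup.eq_top_of_le_card _ h3
  · -- induction
    have hcW : Nat.card W < n := by
      rw [← hn]
      have h1 := Subgroup.card_dvd_of_le (le_top : W ≤ ⊤)
      rw [Subgroup.card_top] at h1
      have h2 := Nat.le_of_dvd Nat.card_pos h1
      refine lt_of_le_of_ne h2 ?_
      intro h3
      exact hWt (Subgroup.eq_top_of_le_card _ h3.ge)
    have hcQ : Nat.card (P ⧸ W) < n := by
      rw [← hn]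
      have h1 := Subgroup.card_eq_card_quotient_mul_card_subgroup W
      have h2 : 1 < Nat.card W := by
        haveI : Nontrivial W := (Subgroup.nontrivial_iff_ne_bot W).mpr hWne
        exact Finite.one_lt_card
      have h3 : 0 < Nat.card (P ⧸ W) := Nat.card_pos
      rw [h1]
      nlinarith
    have hfix1 : ∀ w ∈ W, ψ.f g w = w := by
      intro w hw
      have := ih _ hcW W (hP.to_subgroup W) rfl (ψ.restr W hWinv) (ψ.isQuad_restr W hWinv hqx)
        (ψ.isQuad_restr W hWinv hqy) g hg ⟨w, hw⟩
      exact congrArg Subtype.val this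
    have hQp : IsPGroup p (P ⧸ W) := hP.to_quotient W
    have hfix2 : ∀ u : P, u⁻¹ * ψ.f g u ∈ W := by
      intro u
      have := ih _ hcQ (P ⧸ W) hQp rfl (ψ.quot W hWinv) (ψ.isQuad_quot W hWinv hqx)
        (ψ.isQuad_quot W hWinv hqy) g hg (u : P ⧸ W)
      rw [QAct.quot_f_mk] at this
      exact QuotientGroup.eq.mp this.symm
    exact fix_of_fix_fix p hP ψ W g hg hfix1 hfix2 v

end Main

end Cfsg.Agent.H06
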