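import Cfsg.Agent.Lib.H06.Quad3
import Cfsg.Agent.Lib.H15.BaerSuzuki
import Cfsg.Agent.Lib.H13.Basic

/-!
# Solvable-free `p`-stability for groups of odd order
-/

set_option autoImplicit false

namespace Cfsg.Agent.H06

universe u

open scoped commutatorElement

section Wrap

variable {G : Type u} [Group G] [Finite G]

theorem closure_pair_coe_top {G : Type*} [Group G] (x y : G) (hx : x ∈ Subgroup.closure ({x, y} : Set G))
    (hy : y ∈ Subgroup.closure ({x, y} : Set G)) :
    Subgroup.closure ({(⟨x, hx⟩ : Subgroup.closure ({x, y} : Set G)), ⟨y, hy⟩} : Set (Subgroup.closure ({x, y} : Set G))) = ⊤ := by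
  have h := Subgroup.closure_closure_coe_preimage (k := ({x, y} : Set G))
  convert h using 2
  ext z
  simp only [Set.mem_insert_iff, Set.mem_singleton_iff, Set.mem_preimage, Subtype.ext_iff]

/-- Elements of odd-order groups generated by two quadratic elements: `p'`-elements centralize. -/
theorem quad_centralizes (hodd : Odd (Nat.card G)) (p : ℕ) [Fact p.Prime] (hp : p ≠ 2) (P : Subgroup G)
    (hP : IsPGroup p P) (x y : G) (hxN : x ∈ Subgroup.normalizer (P : Set G)) (hyN : y ∈ Subgroup.normalizer (P : Set G))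
    (hqx : ∀ g ∈ P, ⁅⁅g, x⁆, x⁆ = 1) (hqy : ∀ g ∈ P, ⁅⁅g, y⁆, y⁆ = 1) {k : G} (hk : k ∈ Subgroup.closure ({x, y} : Set G))
    (hk2 : Nat.Coprime (orderOf k) p) : k ∈ Subgroup.centralizer (P : Set G) := by
  classical
  let Γ : Subgroup G := Subgroup.closure ({x, y} : Set G)
  have hΓN : Γ ≤ Subgroup.normalizer (P : Set G) := by
    rw [Subgroup.closure_le]
    rintro z (rfl | hz)
    · exact hxN
    · rw [Set.mem_singleton_iff.mp hz]
      exact hyN
  have hmem : ∀ (k : Γ) (v : P), (k : G) * (v : G) * (k : G)⁻¹ ∈ P := by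
    intro k v
    exact (Subgroup.mem_normalizer_iff.mp (hΓN k.2) v).mp v.2
  let ψ : QAct Γ P :=
    { f := fun k =>
        { toFun := fun v => ⟨(k : G) * (v : G) * (k : G)⁻¹, hmem k v⟩
          map_one' := by
            apply Subtype.ext
            simp
          map_mul' := by
            intro a b
            apply Subtype.ext
            simp only [Subgroup.coe_mul]
            group }
      one := by
        intro v
        apply Subtype.ext
        simp
      mul := by
        intro a b v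
        apply Subtype.ext
        show ((a : G) * (b : G)) * (v : G) * ((a : G) * (b : G))⁻¹ = (a : G) * ((b : G) * (v : G) * (b : G)⁻¹) * (a : G)⁻¹
        group }
  have hψ : ∀ (k : Γ) (v : P), ((ψ.f k v : P) : G) = (k : G) * (v : G) * (k : G)⁻¹ := fun _ _ => rfl
  have hquad : ∀ z : Γ, (∀ g ∈ P, ⁅⁅g, (z : G)⁆, (z : G)⁆ = 1) → ψ.IsQuad z := by
    intro z hz v
    apply Subtype.ext
    rw [hψ]
    simp only [Subgroup.coe_mul, Subgroup.coe_inv, hψ]
    have h1 := hz v v.2
    rw [commutatorElement_eq_one_iff_mul_comm] at h1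
    have h2 : ⁅(v : G), (z : G)⁆ = (v : G) * ((z : G) * (v : G) * (z : G)⁻¹)⁻¹ := by
      rw [commutatorElement_def]
      group
    rw [← h2, ← h1, mul_inv_cancel_right]
  have hx' : x ∈ Γ := Subgroup.subset_closure (by simp)
  have hy' : y ∈ Γ := Subgroup.subset_closure (by simp)
  have hoddΓ : Odd (Nat.card Γ) := Odd.of_dvd_nat hodd (Subgroup.card_subgroup_dvd_card Γ)
  have hgen := closure_pair_coe_top x y hx' hy'
  have hk' : Nat.Coprime (orderOf (⟨k, hk⟩ : Γ)) p := by
    rw [Subgroup.orderOf_mk]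
    exact hk2
  rw [Subgroup.mem_centralizer_iff]
  intro v hv
  have h := quad_main p hp hoddΓ ⟨x, hx'⟩ ⟨y, hy'⟩ hgen _ P hP rfl ψ (hquad _ hqx) (hquad _ hqy) ⟨k, hk⟩ hk' ⟨v, hv⟩
  have h1 := congrArg Subtype.val h
  rw [hψ] at h1
  show v * k = k * v
  calc v * k = (k * v * k⁻¹) * k := by rw [show k * v * k⁻¹ = v from h1]
    _ = k * v := by group

/-- A `p`-element acting quadratically on a normal `p`-subgroup lies in `O_p` modulo the centralizer. -/
theorem quad_image_pCore (hodd : Odd (Nat.card G)) (p : ℕ) [Fact p.Prime] (hp : p ≠ 2) (P : Subgroup G) [hPn : P.Normal]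
    (hP : IsPGroup p P) (L : Subgroup G) [L.Normal] (hL : Subgroup.centralizer (P : Set G) ≤ L) (a : G)
    (ha : ∃ e : ℕ, a ^ (p ^ e) = 1) (hq : ∀ g ∈ P, ⁅⁅g, a⁆, a⁆ = 1) :
    (QuotientGroup.mk' L a) ∈ Cfsg.pCore p (G ⧸ L) := by
  classical
  set π := QuotientGroup.mk' L with hπ
  set ā := π a with hā
  have hX : IsPGroup p (Subgroup.zpowers ā) := by
    obtain ⟨e, he⟩ := ha
    rintro ⟨g, i, rfl⟩
    refine ⟨e, ?_⟩
    apply Subtype.ext
    simp only [Subgroup.coe_pow, Subgroup.coe_one]
    show (ā ^ i) ^ (p ^ e) = 1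
    rw [← zpow_natCast, ← zpow_mul, mul_comm, zpow_mul, zpow_natCast, hā, ← map_pow, he, map_one, one_zpow]
  have hnorm : ∀ z : G, z ∈ Subgroup.normalizer (P : Set G) := fun z => by
    rw [Subgroup.normalizer_eq_top_iff.mpr hPn]
    trivial
  have hconj : ∀ gq : G ⧸ L, IsPGroup p ↥(Subgroup.zpowers ā ⊔ (Subgroup.zpowers ā).map (MulAut.conj gq).toMonoidHom) := by
    intro gq
    obtain ⟨g, rfl⟩ := QuotientGroup.mk'_surjective L gq
    set y := g * a * g⁻¹ with hy
    have hqy : ∀ v ∈ P, ⁅⁅v, y⁆, y⁆ = 1 := by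
      intro v hv
      have hv' : g⁻¹ * v * g ∈ P := by
        have := hPn.conj_mem v hv g⁻¹
        simpa using this
      have h1 := hq _ hv'
      have h2 := congrArg (MulAut.conj g) h1
      rw [map_commutatorElement, map_commutatorElement, map_one] at h2
      have e1 : MulAut.conj g (g⁻¹ * v * g) = v := by
        simp only [MulAut.conj_apply]
        group
      have e2 : MulAut.conj g a = y := by
        simp only [MulAut.conj_apply, hy]
      rwa [e1, e2] at h2
    let T : Subgroup (G ⧸ L) := (Subgroup.closure ({a, y} : Set G)).map π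
    have hT : IsPGroup p T := by
      rintro ⟨_, k, hk, rfl⟩
      obtain ⟨c, m₀, hm₀, hc⟩ := Nat.exists_eq_pow_mul_and_not_dvd (orderOf_pos k).ne' p (Fact.out : p.Prime).ne_one
      refine ⟨c, ?_⟩
      apply Subtype.ext
      simp only [Subgroup.coe_pow, Subgroup.coe_one]
      rw [← map_pow]
      have hkc : k ^ (p ^ c) ∈ Subgroup.closure ({a, y} : Set G) := pow_mem hk _
      have hord : Nat.Coprime (orderOf (k ^ (p ^ c))) p := by
        have h1 : (k ^ (p ^ c)) ^ m₀ = 1 := by
          rw [← pow_mul, ← hc, pow_orderOf_eq_one]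
        have h2 := orderOf_dvd_of_pow_eq_one h1
        have h3 : Nat.Coprime m₀ p := ((Nat.Prime.coprime_iff_not_dvd (Fact.out : p.Prime)).mpr hm₀).symm
        exact Nat.Coprime.coprime_dvd_left h2 h3
      have h := quad_centralizes hodd p hp P hP a y (hnorm a) (hnorm y) hq hqy hkc hord
      exact (QuotientGroup.eq_one_iff _).mpr (hL h)
    refine hT.to_le ?_
    rw [sup_le_iff]
    constructor
    · rw [Subgroup.zpowers_le]
      exact ⟨a, Subgroup.subset_closure (by simp), rfl⟩
    · rw [Subgroup.map_le_iff_le_comap, Subgroup.zpowers_le]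
      refine ⟨y, Subgroup.subset_closure (by simp), ?_⟩
      simp [hy, hā, hπ]
  obtain ⟨N, hNn, hNp, hXN⟩ := H15.baer_suzuki_normal (Subgroup.zpowers ā) hX hconj
  have : N ≤ Cfsg.pCore p (G ⧸ L) := le_sSup ⟨hNn, hNp⟩
  exact this (hXN (Subgroup.mem_zpowers ā))

end Wrap

end Cfsg.Agent.H06
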