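import Mathlib
import Cfsg.Agent.Lib.H09.S4Sect

/-! `S₄` is involved in `G` iff `S₃` is involved in `N(T)/C(T)` for some `2`-subgroup `T`. -/

set_option autoImplicit false

namespace Cfsg.Agent.H06

open Cfsg
open Cfsg.Agent.H09

universe u v

section Quot

open Equiv

/-- the three involutions of the normal four-group of `S₄` -/
def s4e : Fin 3 → Perm (Fin 4) :=
  ![swap 0 1 * swap 2 3, swap 0 2 * swap 1 3, swap 0 3 * swap 1 2]

/-- how `S₄` permutes them -/
def s4idx (g : Perm (Fin 4)) (i : Fin 3) : Fin 3 :=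
  if g * s4e i * g⁻¹ = s4e 0 then 0 else if g * s4e i * g⁻¹ = s4e 1 then 1 else 2

set_option maxRecDepth 100000 in
theorem s4idx_spec : ∀ (g : Perm (Fin 4)) (i : Fin 3), g * s4e i * g⁻¹ = s4e (s4idx g i) := by
  decide

set_option maxRecDepth 100000 in
theorem s4e_inj : Function.Injective s4e := by decide

theorem s4idx_mul (g h : Perm (Fin 4)) (i : Fin 3) : s4idx (g * h) i = s4idx g (s4idx h i) := by
  apply s4e_inj
  rw [← s4idx_spec, ← s4idx_spec, ← s4idx_spec]
  group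

theorem s4idx_one (i : Fin 3) : s4idx 1 i = i := by
  apply s4e_inj
  rw [← s4idx_spec]
  group

/-- the surjection `S₄ → S₃` -/
def s4toS3 : Perm (Fin 4) →* Perm (Fin 3) :=
  MonoidHom.mk' (fun g => ⟨s4idx g, s4idx g⁻¹,
    fun i => by rw [← s4idx_mul, inv_mul_cancel, s4idx_one],
    fun i => by rw [← s4idx_mul, mul_inv_cancel, s4idx_one]⟩)
    (fun g h => by
      ext i
      simp [s4idx_mul])

set_option maxRecDepth 100000 in
theorem s4toS3_surjective : Function.Surjective s4toS3 := by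
  unfold s4toS3
  decide

set_option maxRecDepth 100000 in
theorem s4toS3_ker_sq : ∀ g : Perm (Fin 4), s4toS3 g = 1 → g * g = 1 := by
  unfold s4toS3
  decide

set_option maxRecDepth 100000 in
theorem s4toS3_cent : ∀ g : Perm (Fin 4), (∀ v : Perm (Fin 4), s4toS3 v = 1 → g * v = v * g) →
    s4toS3 g = 1 := by
  unfold s4toS3
  decide

set_option maxRecDepth 100000 in
theorem s3_invert : ∀ c t : Perm (Fin 3), c ≠ 1 → Perm.sign c = 1 → Perm.sign t = -1 →
    t * c * t⁻¹ = c⁻¹ := by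
  decide

end Quot

section Core

variable {G : Type u} [Group G] [Finite G]

/-- A four-group, with a `2`-element and a `3`-element acting as `S₃`. -/
theorem s4_of_four {W : Subgroup G} (hW4 : Nat.card W = 4)
    (hWab : ∀ x ∈ W, ∀ y ∈ W, x * y = y * x) (hW2 : ∀ x ∈ W, x * x = 1) {a z : G}
    (haz : a * z * a⁻¹ = z⁻¹) (hzodd : Odd (orderOf z))
    (haW : ∀ x ∈ W, a * x * a⁻¹ ∈ W) (hzW : ∀ x ∈ W, z * x * z⁻¹ ∈ W)
    (ha2 : ∀ x ∈ W, (a * a) * x * (a * a)⁻¹ = x)
    (hz3 : ∀ x ∈ W, z ^ 3 * x * (z ^ 3)⁻¹ = x)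
    (hfix : ∀ x ∈ W, z * x * z⁻¹ = x → x = 1) :
    Involves (Equiv.Perm (Fin 4)) G := by
  classical
  have hcomm : a * a * z = z * (a * a) := by
    have h1 : a * z = z⁻¹ * a := by
      calc a * z = (a * z * a⁻¹) * a := by group
        _ = z⁻¹ * a := by rw [haz]
    have h2 : a * z⁻¹ = z * a := by
      calc a * z⁻¹ = (a * z * a⁻¹)⁻¹ * a := by group
        _ = z * a := by rw [haz, inv_inv]
    calc a * a * z = a * (a * z) := by group
      _ = a * (z⁻¹ * a) := by rw [h1]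
      _ = (a * z⁻¹) * a := by group
      _ = z * a * a := by rw [h2]
      _ = z * (a * a) := by group
  let L : Subgroup G := Subgroup.centralizer {a * a}
  have hmemL : ∀ g : G, a * a * g = g * (a * a) → g ∈ L := by
    intro g hg
    rw [Subgroup.mem_centralizer_iff]
    intro h hh
    rw [Set.mem_singleton_iff] at hh
    subst hh
    exact hg
  have haL : a ∈ L := hmemL a (by group)
  have hzL : z ∈ L := hmemL z hcomm
  have haaL : a * a ∈ L := L.mul_mem haL haL
  have hWL : W ≤ L := by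
    intro x hx
    apply hmemL
    have := ha2 x hx
    calc a * a * x = (a * a * x * (a * a)⁻¹) * (a * a) := by group
      _ = x * (a * a) := by rw [this]
  let c : L := ⟨a * a, haaL⟩
  have hcen : ∀ g : L, g * c = c * g := by
    intro g
    apply Subtype.ext
    have h := Subgroup.mem_centralizer_iff.1 g.2 (a * a) rfl
    exact h.symm
  let N : Subgroup L := Subgroup.zpowers c
  haveI hN : N.Normal := by
    refine ⟨fun n hn g => ?_⟩
    obtain ⟨i, rfl⟩ := Subgroup.mem_zpowers_iff.1 hn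
    refine Subgroup.mem_zpowers_iff.2 ⟨i, ?_⟩
    have h1 : Commute g (c ^ i) := Commute.zpow_right (hcen g) i
    rw [h1.eq]
    group
  let π : L →* L ⧸ N := QuotientGroup.mk' N
  let f : W →* L ⧸ N := π.comp (Subgroup.inclusion hWL)
  have hf : Function.Injective f := by
    rw [injective_iff_map_eq_one]
    intro w hw
    have h1 : ((Subgroup.inclusion hWL w : L)) ∈ N := (QuotientGroup.eq_one_iff _).1 hw
    obtain ⟨i, hi⟩ := Subgroup.mem_zpowers_iff.1 h1
    have h2 : (w : G) = (a * a) ^ i := by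
      have := congrArg Subtype.val hi
      simpa [c] using this.symm
    have h3 : z * (w : G) * z⁻¹ = w := by
      rw [h2]
      have h4 : Commute z ((a * a) ^ i) := Commute.zpow_right (show Commute z (a * a) from hcomm.symm) i
      rw [h4.eq]
      group
    exact Subtype.ext (hfix _ w.2 h3)
  let W₂ : Subgroup (L ⧸ N) := f.range
  have hW₂ : ∀ y ∈ W₂, ∃ w : W, f w = y := fun y hy => hy
  have hW₂4 : Nat.card W₂ = 4 := by
    rw [← hW4]
    exact (Nat.card_congr (MonoidHom.ofInjective hf).toEquiv).symm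
  let u : L ⧸ N := π ⟨a, haL⟩
  let τ : L ⧸ N := π ⟨z, hzL⟩
  have hconj : ∀ (g : L) (w : W) (hw : (g : G) * w * (g : G)⁻¹ ∈ W),
      π g * f w * (π g)⁻¹ = f ⟨_, hw⟩ := by
    intro g w hw
    show π g * π (Subgroup.inclusion hWL w) * (π g)⁻¹ = π (Subgroup.inclusion hWL ⟨_, hw⟩)
    rw [← map_inv, ← map_mul, ← map_mul]
    congr 1
  have hu2 : u * u = 1 := by
    show π _ * π _ = 1
    rw [← map_mul]
    apply (QuotientGroup.eq_one_iff _).2
    exact Subgroup.mem_zpowers c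
  have huτ : u * τ * u⁻¹ = τ⁻¹ := by
    show π _ * π _ * (π _)⁻¹ = (π _)⁻¹
    rw [← map_inv, ← map_inv, ← map_mul, ← map_mul]
    congr 1
    exact Subtype.ext haz
  have hodd : Odd (orderOf τ) :=
    Odd.of_dvd_nat hzodd (by
      have h1 : orderOf τ ∣ orderOf (⟨z, hzL⟩ : L) := orderOf_map_dvd π _
      rwa [Subgroup.orderOf_mk] at h1)
  have h5 := involves_s4_of_pair (G := L ⧸ N) (W := W₂) hW₂4
    (by
      rintro _ ⟨x, rfl⟩ _ ⟨y, rfl⟩
      rw [← map_mul, ← map_mul]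
      congr 1
      exact Subtype.ext (hWab _ x.2 _ y.2))
    (by
      rintro _ ⟨x, rfl⟩
      rw [← map_mul]
      have : x * x = 1 := Subtype.ext (hW2 _ x.2)
      rw [this, map_one])
    hu2 huτ hodd
    (by
      rintro _ ⟨x, rfl⟩
      exact ⟨_, (hconj ⟨a, haL⟩ x (haW _ x.2)).symm⟩)
    (by
      rintro _ ⟨x, rfl⟩
      exact ⟨_, (hconj ⟨z, hzL⟩ x (hzW _ x.2)).symm⟩)
    (by
      -- `z` is not trivial: otherwise `W` would be trivial
      have hne : ∃ x : W, x ≠ 1 := by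
        by_contra hcon
        push Not at hcon
        have h1 : Nat.card W = 1 := by
          rw [Nat.card_eq_one_iff_unique]
          exact ⟨⟨fun x y => by rw [hcon x, hcon y]⟩, ⟨1⟩⟩
        omega
      obtain ⟨x, hx⟩ := hne
      refine ⟨f x, ⟨x, rfl⟩, ?_⟩
      intro h
      rw [hconj ⟨z, hzL⟩ x (hzW _ x.2)] at h
      have h2 := hf h
      apply hx
      exact Subtype.ext (hfix _ x.2 (congrArg Subtype.val h2)))
    (by
      rintro _ ⟨x, rfl⟩
      have h1 : τ ^ 3 = π ⟨z ^ 3, L.pow_mem hzL 3⟩ := by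
        show (π _) ^ 3 = _
        rw [← map_pow]
        rfl
      rw [h1, hconj ⟨z ^ 3, L.pow_mem hzL 3⟩ x (by
        show z ^ 3 * (x : G) * (z ^ 3)⁻¹ ∈ W
        rw [hz3 _ x.2]
        exact x.2)]
      congr 1
      exact Subtype.ext (hz3 _ x.2))
  exact Involves.trans' h5 (Involves.trans' (involves_quotient N) (involves_subgroup L))

/-- A permutation of `2`-power order generates a `2`-group. -/
theorem perm_zpowers_isPGroup {α : Type*} (σ : Equiv.Perm α) {n : ℕ} (h : σ ^ (2 ^ n) = 1) :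
    IsPGroup 2 (Subgroup.zpowers σ) := by
  rintro ⟨g, hg⟩
  obtain ⟨i, rfl⟩ := Subgroup.mem_zpowers_iff.1 hg
  refine ⟨n, Subtype.ext ?_⟩
  show (σ ^ i) ^ (2 ^ n) = 1
  rw [← zpow_natCast, ← zpow_mul, mul_comm, zpow_mul, zpow_natCast, h, one_zpow]

theorem perm_fix_of_odd {α : Type*} [Finite α] (σ : Equiv.Perm α) {n : ℕ} (h : σ ^ (2 ^ n) = 1)
    (hc : ¬ 2 ∣ Nat.card α) : ∃ x, σ x = x := by
  obtain ⟨x, hx⟩ := (perm_zpowers_isPGroup σ h).nonempty_fixed_point_of_prime_not_dvd_card α hc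
  exact ⟨x, hx ⟨σ, Subgroup.mem_zpowers σ⟩⟩

theorem perm_fix_of_even {α : Type*} [Finite α] (σ : Equiv.Perm α) {n : ℕ} (h : σ ^ (2 ^ n) = 1)
    (hc : 2 ∣ Nat.card α) {x₀ : α} (hx₀ : σ x₀ = x₀) : ∃ x, x ≠ x₀ ∧ σ x = x := by
  have h1 : x₀ ∈ MulAction.fixedPoints (Subgroup.zpowers σ) α := by
    rintro ⟨g, hg⟩
    obtain ⟨i, rfl⟩ := Subgroup.mem_zpowers_iff.1 hg
    show (σ ^ i) x₀ = x₀
    have h2 : Function.IsFixedPt σ x₀ := hx₀
    exact Equiv.Perm.zpow_apply_eq_self_of_apply_eq_self hx₀ i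
  obtain ⟨x, hx, hne⟩ :=
    (perm_zpowers_isPGroup σ h).exists_fixed_point_of_prime_dvd_card_of_fixed_point α hc h1
  exact ⟨x, fun e => hne e.symm, hx ⟨σ, Subgroup.mem_zpowers σ⟩⟩

/-- The elementary abelian case. -/
theorem s4_of_elem {V : Subgroup G} (hV2 : ∀ t ∈ V, t * t = 1) {a z : G}
    (ha : ∃ m : ℕ, a ^ (2 ^ m) = 1) (hzodd : Odd (orderOf z))
    (haV : a ∈ Subgroup.normalizer (V : Set G)) (hzV : z ∈ Subgroup.normalizer (V : Set G))
    (haz : a * z * a⁻¹ = z⁻¹) (hz3 : ∀ t ∈ V, z ^ 3 * t * (z ^ 3)⁻¹ = t)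
    (hne : ∃ t ∈ V, z * t * z⁻¹ ≠ t) : Involves (Equiv.Perm (Fin 4)) G := by
  classical
  have hVab : ∀ x ∈ V, ∀ y ∈ V, x * y = y * x := by
    intro x hx y hy
    have h1 := hV2 _ (V.mul_mem hx hy)
    have h2 := hV2 _ hx
    have h3 := hV2 _ hy
    calc x * y = x * y * (y * x * (y * x)) := by rw [hV2 _ (V.mul_mem hy hx), mul_one]
      _ = x * (y * y) * x * (y * x) := by group
      _ = y * x := by rw [h3, mul_one, h2, one_mul]
  have hVz : ∀ t ∈ V, z * t * z⁻¹ ∈ V := fun t ht => (Subgroup.mem_normalizer_iff.1 hzV t).1 ht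
  have hVa : ∀ t ∈ V, a * t * a⁻¹ ∈ V := fun t ht => (Subgroup.mem_normalizer_iff.1 haV t).1 ht
  have hc3 : ∀ t ∈ V, z * (z * (z * t * z⁻¹) * z⁻¹) * z⁻¹ = t := by
    intro t ht
    have h := hz3 t ht
    calc z * (z * (z * t * z⁻¹) * z⁻¹) * z⁻¹ = z ^ 3 * t * (z ^ 3)⁻¹ := by
          simp only [pow_succ, pow_zero, one_mul, mul_inv_rev, mul_assoc]
      _ = t := h
  -- the kernel of `1 + z + z²`
  let P : G → G := fun v => v * (z * v * z⁻¹) * (z * (z * v * z⁻¹) * z⁻¹)
  have hPmul : ∀ x ∈ V, ∀ y ∈ V, P (x * y) = P x * P y := by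
    intro x hx y hy
    have hx1 := hVz x hx
    have hx2 := hVz _ hx1
    have hy1 := hVz y hy
    have hy2 := hVz _ hy1
    have e1 : z * (x * y) * z⁻¹ = (z * x * z⁻¹) * (z * y * z⁻¹) := by group
    have e2 : z * ((z * x * z⁻¹) * (z * y * z⁻¹)) * z⁻¹
        = (z * (z * x * z⁻¹) * z⁻¹) * (z * (z * y * z⁻¹) * z⁻¹) := by group
    show x * y * (z * (x * y) * z⁻¹) * (z * (z * (x * y) * z⁻¹) * z⁻¹) = _
    rw [e1, e2]
    show _ = (x * (z * x * z⁻¹) * (z * (z * x * z⁻¹) * z⁻¹)) * (y * (z * y * z⁻¹) * (z * (z * y * z⁻¹) * z⁻¹))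
    obtain ⟨x1, hx1e⟩ : ∃ x1, x1 = z * x * z⁻¹ := ⟨_, rfl⟩
    obtain ⟨x2, hx2e⟩ : ∃ x2, x2 = z * x1 * z⁻¹ := ⟨_, rfl⟩
    obtain ⟨y1, hy1e⟩ : ∃ y1, y1 = z * y * z⁻¹ := ⟨_, rfl⟩
    obtain ⟨y2, hy2e⟩ : ∃ y2, y2 = z * y1 * z⁻¹ := ⟨_, rfl⟩
    rw [← hx1e, ← hy1e, ← hx2e, ← hy2e]
    rw [← hx1e] at hx1 hx2
    rw [← hx2e] at hx2
    rw [← hy1e] at hy1 hy2
    rw [← hy2e] at hy2
    have c1 : y * x1 = x1 * y := hVab _ hy _ hx1
    have c2 : y * x2 = x2 * y := hVab _ hy _ hx2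
    have c3 : y1 * x2 = x2 * y1 := hVab _ hy1 _ hx2
    calc x * y * (x1 * y1) * (x2 * y2) = x * (y * x1) * y1 * x2 * y2 := by group
      _ = x * x1 * (y * (y1 * x2)) * y2 := by rw [c1]; group
      _ = x * x1 * ((y * x2) * y1) * y2 := by rw [c3]; group
      _ = x * x1 * x2 * (y * y1 * y2) := by rw [c2]; group
  have hPa : ∀ v ∈ V, P (a * v * a⁻¹) = a * P v * a⁻¹ := by
    intro v hv
    have e0 : z * a = a * z⁻¹ := by
      have : a * z⁻¹ * a⁻¹ = z := by
        have h1 : a * z⁻¹ * a⁻¹ = (a * z * a⁻¹)⁻¹ := by group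
        rw [h1, haz, inv_inv]
      calc z * a = (a * z⁻¹ * a⁻¹) * a := by rw [this]
        _ = a * z⁻¹ := by group
    have e1 : ∀ w : G, z * (a * w * a⁻¹) * z⁻¹ = a * (z⁻¹ * w * z) * a⁻¹ := by
      intro w
      calc z * (a * w * a⁻¹) * z⁻¹ = (z * a) * w * (z * a)⁻¹ := by group
        _ = a * (z⁻¹ * w * z) * a⁻¹ := by rw [e0]; group
    have e2 : ∀ w ∈ V, z⁻¹ * w * z = z * (z * w * z⁻¹) * z⁻¹ := by
      intro w hw
      have h := hc3 w hw
      calc z⁻¹ * w * z = z⁻¹ * (z * (z * (z * w * z⁻¹) * z⁻¹) * z⁻¹) * z := by rw [h]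
        _ = z * (z * w * z⁻¹) * z⁻¹ := by group
    have hv1 := hVz v hv
    have hv2 := hVz _ hv1
    show a * v * a⁻¹ * (z * (a * v * a⁻¹) * z⁻¹) * (z * (z * (a * v * a⁻¹) * z⁻¹) * z⁻¹)
      = a * (v * (z * v * z⁻¹) * (z * (z * v * z⁻¹) * z⁻¹)) * a⁻¹
    have e3 : z * (a * v * a⁻¹) * z⁻¹ = a * (z * (z * v * z⁻¹) * z⁻¹) * a⁻¹ := by
      rw [e1 v, e2 v hv]
    have e4 : z * (z * (a * v * a⁻¹) * z⁻¹) * z⁻¹ = a * (z * v * z⁻¹) * a⁻¹ := by
      rw [e3, e1]
      congr 2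
      group
    rw [e4, e3]
    have c : (z * (z * v * z⁻¹) * z⁻¹) * (z * v * z⁻¹) = (z * v * z⁻¹) * (z * (z * v * z⁻¹) * z⁻¹) :=
      hVab _ hv2 _ hv1
    calc a * v * a⁻¹ * (a * (z * (z * v * z⁻¹) * z⁻¹) * a⁻¹) * (a * (z * v * z⁻¹) * a⁻¹)
        = a * (v * ((z * (z * v * z⁻¹) * z⁻¹) * (z * v * z⁻¹))) * a⁻¹ := by group
      _ = a * (v * (z * v * z⁻¹) * (z * (z * v * z⁻¹) * z⁻¹)) * a⁻¹ := by rw [c]; group
  let U : Subgroup G :=
    { carrier := {v | v ∈ V ∧ P v = 1}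
      mul_mem' := by
        rintro x y ⟨hx, hx'⟩ ⟨hy, hy'⟩
        refine ⟨V.mul_mem hx hy, ?_⟩
        rw [hPmul x hx y hy, hx', hy', one_mul]
      one_mem' := by
        refine ⟨V.one_mem, ?_⟩
        show 1 * (z * 1 * z⁻¹) * (z * (z * 1 * z⁻¹) * z⁻¹) = 1
        group
      inv_mem' := by
        rintro x ⟨hx, hx'⟩
        have hi : x⁻¹ = x := inv_eq_of_mul_eq_one_left (hV2 x hx)
        rw [Set.mem_setOf_eq, hi]
        exact ⟨hx, hx'⟩ }
  have hmemU : ∀ v, v ∈ U ↔ v ∈ V ∧ P v = 1 := fun v => Iff.rfl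
  have haU : ∀ v, v ∈ U → a * v * a⁻¹ ∈ U := by
    rintro v ⟨hv, hv'⟩
    refine ⟨hVa v hv, ?_⟩
    rw [hPa v hv, hv']
    group
  have haU' : ∀ v, v ∈ U → a⁻¹ * v * a ∈ U := by
    rintro v ⟨hv, hv'⟩
    have hv2 : a⁻¹ * v * a ∈ V := by
      have := (Subgroup.mem_normalizer_iff.1 haV (a⁻¹ * v * a)).2
      apply this
      convert hv using 1
      group
    refine ⟨hv2, ?_⟩
    have h3 := hPa _ hv2
    have e : a * (a⁻¹ * v * a) * a⁻¹ = v := by group
    rw [e, hv'] at h3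
    have h4 : P (a⁻¹ * v * a) = a⁻¹ * (a * P (a⁻¹ * v * a) * a⁻¹) * a := by group
    rw [h4, ← h3]
    group
  obtain ⟨m, hm⟩ := ha
  let σ : Equiv.Perm U :=
    { toFun := fun v => ⟨a * v * a⁻¹, haU _ v.2⟩
      invFun := fun v => ⟨a⁻¹ * v * a, haU' _ v.2⟩
      left_inv := fun v => Subtype.ext (by show a⁻¹ * (a * (v : G) * a⁻¹) * a = v; group)
      right_inv := fun v => Subtype.ext (by show a * (a⁻¹ * (v : G) * a) * a⁻¹ = v; group) }
  have hσpow : ∀ (k : ℕ) (v : U), (((σ ^ k) v : U) : G) = a ^ k * v * (a ^ k)⁻¹ := by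
    intro k
    induction k with
    | zero => intro v; simp
    | succ k ih =>
      intro v
      rw [pow_succ, Equiv.Perm.mul_apply, ih]
      show a ^ k * (a * (v : G) * a⁻¹) * (a ^ k)⁻¹ = _
      rw [pow_succ]
      group
  have hσ : σ ^ (2 ^ m) = 1 := by
    ext v
    rw [hσpow, hm]
    simp
  -- a nontrivial element of `U`
  obtain ⟨t, ht, htne⟩ := hne
  have hu₀ : t⁻¹ * (z * t * z⁻¹) ∈ U := by
    have ht1 := hVz t ht
    refine ⟨V.mul_mem (V.inv_mem ht) ht1, ?_⟩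
    show t⁻¹ * (z * t * z⁻¹) * (z * (t⁻¹ * (z * t * z⁻¹)) * z⁻¹) *
      (z * (z * (t⁻¹ * (z * t * z⁻¹)) * z⁻¹) * z⁻¹) = 1
    have h3 := hc3 t ht
    have e1 : z * (t⁻¹ * (z * t * z⁻¹)) * z⁻¹ = (z * t * z⁻¹)⁻¹ * (z * (z * t * z⁻¹) * z⁻¹) := by
      group
    have e2 : ∀ x y : G, z * (x⁻¹ * y) * z⁻¹ = (z * x * z⁻¹)⁻¹ * (z * y * z⁻¹) := by
      intro x y
      group
    rw [e1, e2, h3]
    simp only [mul_assoc, mul_inv_cancel_left, inv_mul_cancel_left, inv_mul_cancel]
  have hu₀ne : (⟨_, hu₀⟩ : U) ≠ 1 := by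
    intro h
    have h1 : t⁻¹ * (z * t * z⁻¹) = 1 := congrArg Subtype.val h
    apply htne
    have := inv_mul_eq_one.1 h1
    exact this.symm
  have hUeven : 2 ∣ Nat.card U := by
    have h1 : orderOf (⟨_, hu₀⟩ : U) = 2 := by
      refine orderOf_eq_prime ?_ hu₀ne
      rw [sq]
      exact Subtype.ext (hV2 _ hu₀.1)
    rw [← h1]
    exact orderOf_dvd_natCard _
  have hσ1 : σ 1 = 1 := Subtype.ext (by show a * 1 * a⁻¹ = 1; group)
  obtain ⟨u', hu'ne, hu'fix⟩ := perm_fix_of_even σ hσ hUeven hσ1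
  have hau : a * (u' : G) * a⁻¹ = u' := congrArg Subtype.val hu'fix
  obtain ⟨u, hue⟩ : ∃ u : G, u = (u' : G) := ⟨_, rfl⟩
  have huV : u ∈ V := hue ▸ u'.2.1
  have hPu : P u = 1 := hue ▸ u'.2.2
  have hune : u ≠ 1 := by
    intro h
    apply hu'ne
    exact Subtype.ext (hue.symm.trans h)
  rw [← hue] at hau
  obtain ⟨u1, hu1⟩ : ∃ u1, u1 = z * u * z⁻¹ := ⟨_, rfl⟩
  obtain ⟨u2, hu2⟩ : ∃ u2, u2 = z * u1 * z⁻¹ := ⟨_, rfl⟩
  have hu1V : u1 ∈ V := hu1 ▸ hVz u huV
  have hu2V : u2 ∈ V := hu2 ▸ hVz u1 hu1V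
  have hzu2 : z * u2 * z⁻¹ = u := by
    rw [hu2, hu1]
    exact hc3 u huV
  have hprod : u * u1 * u2 = 1 := by
    rw [hu2, hu1]
    exact hPu
  have huu := hV2 u huV
  have hu1u1 := hV2 u1 hu1V
  have hu2u2 := hV2 u2 hu2V
  have t1 : u * u1 = u2 := by
    calc u * u1 = u * u1 * u2 * u2 := by rw [mul_assoc (u * u1), hu2u2, mul_one]
      _ = u2 := by rw [hprod, one_mul]
  have t2 : u1 * u = u2 := by rw [← hVab u huV u1 hu1V]; exact t1
  have t3 : u * u2 = u1 := by
    rw [← t1, ← mul_assoc, huu, one_mul]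
  have t4 : u2 * u = u1 := by rw [← hVab u huV u2 hu2V]; exact t3
  have t5 : u1 * u2 = u := by
    rw [← t2, ← mul_assoc, hu1u1, one_mul]
  have t6 : u2 * u1 = u := by rw [← hVab u1 hu1V u2 hu2V]; exact t5
  have hconj1 : ∀ w : G, z * w * z⁻¹ = 1 → w = 1 := by
    intro w hw
    have : w = z⁻¹ * (z * w * z⁻¹) * z := by group
    rw [this, hw]
    group
  have hu1ne : u1 ≠ 1 := fun h => hune (hconj1 u (hu1 ▸ h))
  have hu2ne : u2 ≠ 1 := fun h => hu1ne (hconj1 u1 (hu2 ▸ h))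
  have n1 : u ≠ u1 := by
    intro h
    apply hu2ne
    rw [← t1, ← h, huu]
  have n2 : u ≠ u2 := by
    intro h
    apply hu1ne
    rw [← t3, ← h, huu]
  have n3 : u1 ≠ u2 := by
    intro h
    apply hune
    rw [← t5, ← h, hu1u1]
  let W : Subgroup G :=
    { carrier := {1, u, u1, u2}
      mul_mem' := by
        rintro x y hx hy
        simp only [Set.mem_insert_iff, Set.mem_singleton_iff] at hx hy ⊢
        rcases hx with rfl | rfl | rfl | rfl <;> rcases hy with rfl | rfl | rfl | rfl <;>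
          simp [huu, hu1u1, hu2u2, t1, t2, t3, t4, t5, t6]
      one_mem' := by simp
      inv_mem' := by
        rintro x hx
        simp only [Set.mem_insert_iff, Set.mem_singleton_iff] at hx ⊢
        rcases hx with rfl | rfl | rfl | rfl
        · simp
        · rw [inv_eq_of_mul_eq_one_left huu]; simp
        · rw [inv_eq_of_mul_eq_one_left hu1u1]; simp
        · rw [inv_eq_of_mul_eq_one_left hu2u2]; simp }
  have hmemW : ∀ x, x ∈ W ↔ x = 1 ∨ x = u ∨ x = u1 ∨ x = u2 := fun x => Iff.rfl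
  have hWV : ∀ x ∈ W, x ∈ V := by
    intro x hx
    rcases (hmemW x).1 hx with rfl | rfl | rfl | rfl
    · exact V.one_mem
    · exact huV
    · exact hu1V
    · exact hu2V
  have hW4 : Nat.card W = 4 := by
    have h1 : ((W : Subgroup G) : Set G) = (({1, u, u1, u2} : Finset G) : Set G) := by
      ext x
      simp [hmemW]
    have h2 : Nat.card W = Nat.card (((W : Subgroup G) : Set G)) := rfl
    rw [h2, h1, Nat.card_coe_set_eq, Set.ncard_coe_finset]
    rw [Finset.card_insert_of_notMem, Finset.card_insert_of_notMem, Finset.card_insert_of_notMem,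
      Finset.card_singleton]
    · simpa using n3
    · simp [n1, n2]
    · simp [hune.symm, hu1ne.symm, hu2ne.symm]
  have hz0 : z * 1 * z⁻¹ = (1 : G) := by group
  have ha0 : a * 1 * a⁻¹ = (1 : G) := by group
  have e0 : z * a = a * z⁻¹ := by
    have : a * z⁻¹ * a⁻¹ = z := by
      have h1 : a * z⁻¹ * a⁻¹ = (a * z * a⁻¹)⁻¹ := by group
      rw [h1, haz, inv_inv]
    calc z * a = (a * z⁻¹ * a⁻¹) * a := by rw [this]
      _ = a * z⁻¹ := by group
  have e1 : ∀ w : G, a * (z * w * z⁻¹) * a⁻¹ = z⁻¹ * (a * w * a⁻¹) * z := by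
    intro w
    have e5 : a * z = z⁻¹ * a := by
      calc a * z = (a * z * a⁻¹) * a := by group
        _ = z⁻¹ * a := by rw [haz]
    calc a * (z * w * z⁻¹) * a⁻¹ = (a * z) * w * (a * z)⁻¹ := by group
      _ = z⁻¹ * (a * w * a⁻¹) * z := by rw [e5]; group
  have hzinv : ∀ w : G, z * w * z⁻¹ = u → z⁻¹ * u * z = w := by
    intro w hw
    rw [← hw]
    group
  have hau1 : a * u1 * a⁻¹ = u2 := by
    rw [hu1, e1, hau]
    exact hzinv _ hzu2
  have hau2 : a * u2 * a⁻¹ = u1 := by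
    rw [hu2, e1, hau1, hu2]
    group
  refine s4_of_four hW4 (fun x hx y hy => hVab _ (hWV x hx) _ (hWV y hy))
    (fun x hx => hV2 _ (hWV x hx)) haz hzodd ?_ ?_ ?_ (fun x hx => hz3 _ (hWV x hx)) ?_
  · intro x hx
    rw [hmemW]
    rcases (hmemW x).1 hx with rfl | rfl | rfl | rfl
    · exact Or.inl ha0
    · exact Or.inr (Or.inl hau)
    · exact Or.inr (Or.inr (Or.inr hau1))
    · exact Or.inr (Or.inr (Or.inl hau2))
  · intro x hx
    rw [hmemW]
    rcases (hmemW x).1 hx with rfl | rfl | rfl | rfl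
    · exact Or.inl hz0
    · exact Or.inr (Or.inr (Or.inl hu1.symm))
    · exact Or.inr (Or.inr (Or.inr hu2.symm))
    · exact Or.inr (Or.inl hzu2)
  · intro x hx
    have e9 : ∀ w : G, (a * a) * w * (a * a)⁻¹ = a * (a * w * a⁻¹) * a⁻¹ := by
      intro w
      group
    rw [e9]
    rcases (hmemW x).1 hx with rfl | rfl | rfl | rfl
    · rw [ha0, ha0]
    · rw [hau, hau]
    · rw [hau1, hau2]
    · rw [hau2, hau1]
  · intro x hx hfx
    rcases (hmemW x).1 hx with rfl | rfl | rfl | rfl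
    · rfl
    · exact absurd (hu1.trans hfx).symm n1
    · exact absurd (hu2.trans hfx).symm n3
    · exact absurd (hzu2.symm.trans hfx) n2

/-- Passing to a smaller section. -/
theorem s4_reduce {T N : Subgroup G} {a z : G}
    (IH : ∀ (G' : Type u) [Group G'] [Finite G'] (T' : Subgroup G') (a' z' : G'),
      Nat.card T' < Nat.card T → IsPGroup 2 T' → (∃ m : ℕ, a' ^ (2 ^ m) = 1) → Odd (orderOf z') →
      a' ∈ Subgroup.normalizer (T' : Set G') → z' ∈ Subgroup.normalizer (T' : Set G') →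
      a' * z' * a'⁻¹ = z'⁻¹ → (∀ t ∈ T', z' ^ 3 * t * (z' ^ 3)⁻¹ = t) →
      (∃ t ∈ T', z' * t * z'⁻¹ ≠ t) → Involves (Equiv.Perm (Fin 4)) G')
    (hT : IsPGroup 2 T) (ha : ∃ m : ℕ, a ^ (2 ^ m) = 1) (hz : Odd (orderOf z))
    (haz : a * z * a⁻¹ = z⁻¹) (hz3 : ∀ t ∈ T, z ^ 3 * t * (z ^ 3)⁻¹ = t)
    (hne : ∃ t ∈ T, z * t * z⁻¹ ≠ t)
    (hNT : N ≤ T) (hN1 : N ≠ ⊥) (hN2 : N ≠ T)
    (hTN : T ≤ Subgroup.normalizer (N : Set G))
    (haT : a ∈ Subgroup.normalizer (T : Set G)) (hzT : z ∈ Subgroup.normalizer (T : Set G))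
    (haN : a ∈ Subgroup.normalizer (N : Set G)) (hzN : z ∈ Subgroup.normalizer (N : Set G)) :
    Involves (Equiv.Perm (Fin 4)) G := by
  classical
  by_cases hzN' : ∃ t ∈ N, z * t * z⁻¹ ≠ t
  · have hlt : Nat.card N < Nat.card T := by
      by_contra hcon
      exact hN2 (Subgroup.eq_of_le_of_card_ge hNT (not_lt.1 hcon))
    exact IH G N a z hlt (hT.to_le hNT) ha hz haN hzN haz (fun t ht => hz3 t (hNT ht)) hzN'
  · push Not at hzN'
    let L : Subgroup G := Subgroup.normalizer (N : Set G)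
    haveI hn : (N.subgroupOf L).Normal := Subgroup.normal_in_normalizer
    let π : L →* L ⧸ N.subgroupOf L := QuotientGroup.mk' _
    let H : Subgroup L := T.subgroupOf L
    let g := π.subgroupMap H
    have hg : Function.Surjective g := π.subgroupMap_surjective H
    have hcardH : Nat.card H = Nat.card T := Nat.card_congr (Subgroup.subgroupOfEquivOfLe hTN).toEquiv
    have hgk : g.ker ≠ ⊥ := by
      obtain ⟨n, hn1, hn2⟩ := (N.bot_or_exists_ne_one).resolve_left hN1
      have hnL : n ∈ L := Subgroup.le_normalizer hn1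
      have hnH : (⟨n, hnL⟩ : L) ∈ H := Subgroup.mem_subgroupOf.2 (hNT hn1)
      intro hbot
      have h1 : (⟨⟨n, hnL⟩, hnH⟩ : H) ∈ g.ker := by
        rw [MonoidHom.mem_ker]
        apply Subtype.ext
        show π ⟨n, hnL⟩ = 1
        exact (QuotientGroup.eq_one_iff _).2 (Subgroup.mem_subgroupOf.2 hn1)
      rw [hbot, Subgroup.mem_bot] at h1
      exact hn2 (congrArg (fun x : H => ((x : L) : G)) h1)
    have hlt : Nat.card (H.map π) < Nat.card T := by
      have h1 := g.ker.card_mul_index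
      rw [Subgroup.index_ker, MonoidHom.range_eq_top.2 hg, Subgroup.card_top, hcardH] at h1
      have h2 : 1 < Nat.card g.ker := (Subgroup.one_lt_card_iff_ne_bot _).2 hgk
      have h3 : 0 < Nat.card (H.map π) := Nat.card_pos
      nlinarith
    have hnorm : ∀ x (hx : x ∈ L), x ∈ Subgroup.normalizer (T : Set G) →
        π ⟨x, hx⟩ ∈ Subgroup.normalizer (((H.map π : Subgroup _)) : Set (L ⧸ N.subgroupOf L)) := by
      intro x hx hxT
      apply Subgroup.le_normalizer_map π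
      refine ⟨⟨x, hx⟩, ?_, rfl⟩
      show (⟨x, hx⟩ : L) ∈ Subgroup.normalizer ((H : Subgroup L) : Set L)
      rw [Subgroup.mem_normalizer_iff]
      intro h
      show h ∈ T.subgroupOf L ↔ _ ∈ T.subgroupOf L
      rw [Subgroup.mem_subgroupOf, Subgroup.mem_subgroupOf]
      exact Subgroup.mem_normalizer_iff.1 hxT h
    have haL : a ∈ L := haN
    have hzL : z ∈ L := hzN
    have h5 := IH (L ⧸ N.subgroupOf L) (H.map π) (π ⟨a, haL⟩) (π ⟨z, hzL⟩) hlt
      (by
        rintro ⟨_, x, hx, rfl⟩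
        obtain ⟨k, hk⟩ := hT ⟨x.1, Subgroup.mem_subgroupOf.1 hx⟩
        refine ⟨k, Subtype.ext ?_⟩
        show (π x) ^ (2 ^ k) = 1
        rw [← map_pow]
        have : x ^ (2 ^ k) = 1 := by
          apply Subtype.ext
          have h1 := congrArg Subtype.val hk
          simpa using h1
        rw [this, map_one])
      (by
        obtain ⟨m, hm⟩ := ha
        refine ⟨m, ?_⟩
        rw [← map_pow]
        have : (⟨a, haL⟩ : L) ^ (2 ^ m) = 1 := Subtype.ext hm
        rw [this, map_one])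
      (Odd.of_dvd_nat hz (by
        have h1 : orderOf (π ⟨z, hzL⟩) ∣ orderOf (⟨z, hzL⟩ : L) := orderOf_map_dvd π _
        rwa [Subgroup.orderOf_mk] at h1))
      (hnorm a haL haT) (hnorm z hzL hzT)
      (by
        rw [← map_inv, ← map_inv, ← map_mul, ← map_mul]
        congr 1
        exact Subtype.ext haz)
      (by
        rintro _ ⟨x, hx, rfl⟩
        rw [← map_pow, ← map_inv, ← map_mul, ← map_mul]
        congr 1
        exact Subtype.ext (hz3 _ (Subgroup.mem_subgroupOf.1 hx)))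
      (by
        by_contra hcon
        push Not at hcon
        obtain ⟨t, ht, htne⟩ := hne
        have htL : t ∈ L := hTN ht
        have h1 := hcon (π ⟨t, htL⟩) ⟨⟨t, htL⟩, Subgroup.mem_subgroupOf.2 ht, rfl⟩
        rw [← map_inv, ← map_mul, ← map_mul] at h1
        have h2 : (⟨t, htL⟩ : L)⁻¹ * (⟨z, hzL⟩ * ⟨t, htL⟩ * (⟨z, hzL⟩)⁻¹) ∈ N.subgroupOf L :=
          QuotientGroup.eq.1 h1.symm
        have h3 : t⁻¹ * (z * t * z⁻¹) ∈ N := Subgroup.mem_subgroupOf.1 h2
        obtain ⟨n, hne⟩ : ∃ n, n = t⁻¹ * (z * t * z⁻¹) := ⟨_, rfl⟩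
        rw [← hne] at h3
        have h4 : z * t * z⁻¹ = t * n := by rw [hne]; group
        have h6 := hzN' n h3
        have h7 : z ^ 3 * t * (z ^ 3)⁻¹ = t * n * n * n := by
          calc z ^ 3 * t * (z ^ 3)⁻¹ = z * (z * (z * t * z⁻¹) * z⁻¹) * z⁻¹ := by
                simp only [pow_succ, pow_zero, one_mul, mul_inv_rev, mul_assoc]
            _ = z * (z * (t * n) * z⁻¹) * z⁻¹ := by rw [h4]
            _ = z * ((z * t * z⁻¹) * (z * n * z⁻¹)) * z⁻¹ := by group
            _ = z * (t * n * n) * z⁻¹ := by rw [h4, h6]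
            _ = (z * t * z⁻¹) * (z * n * z⁻¹) * (z * n * z⁻¹) := by group
            _ = t * n * n * n := by rw [h4, h6]
        rw [hz3 t ht] at h7
        have h8 : n ^ 3 = 1 := by
          have h9 : t * n ^ 3 = t * 1 := by
            rw [mul_one]
            conv_rhs => rw [h7]
            simp only [pow_succ, pow_zero, one_mul, mul_assoc]
          exact mul_left_cancel h9
        obtain ⟨k, hk⟩ := hT ⟨n, hNT h3⟩
        have h10 : n ^ (2 ^ k) = 1 := congrArg Subtype.val hk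
        have h11 : orderOf n ∣ Nat.gcd 3 (2 ^ k) :=
          Nat.dvd_gcd (orderOf_dvd_of_pow_eq_one h8) (orderOf_dvd_of_pow_eq_one h10)
        have h12 : Nat.gcd 3 (2 ^ k) = 1 :=
          Nat.Coprime.pow_right k (by norm_num)
        rw [h12, Nat.dvd_one, orderOf_eq_one_iff] at h11
        apply htne
        rw [h4, h11, mul_one])
    exact Involves.trans' h5 (Involves.trans' (involves_quotient (N.subgroupOf L))
      (involves_subgroup L))

/-- The key theorem: a `2`-element and a `3`-element acting on a `2`-group as in `S₃`. -/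
theorem s4_core (n : ℕ) : ∀ (G' : Type u) [Group G'] [Finite G'] (T' : Subgroup G') (a' z' : G'),
      Nat.card T' ≤ n → IsPGroup 2 T' → (∃ m : ℕ, a' ^ (2 ^ m) = 1) → Odd (orderOf z') →
      a' ∈ Subgroup.normalizer (T' : Set G') → z' ∈ Subgroup.normalizer (T' : Set G') →
      a' * z' * a'⁻¹ = z'⁻¹ → (∀ t ∈ T', z' ^ 3 * t * (z' ^ 3)⁻¹ = t) →
      (∃ t ∈ T', z' * t * z'⁻¹ ≠ t) → Involves (Equiv.Perm (Fin 4)) G' := by
  induction n with
  | zero =>
    intro G' _ _ T' a' z' h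
    exfalso
    have := Nat.card_pos (α := T')
    omega
  | succ n ih =>
    intro G _ _ T a z hcard hT ha hz haT hzT haz hz3 hne
    have IH : ∀ (G' : Type u) [Group G'] [Finite G'] (T' : Subgroup G') (a' z' : G'),
      Nat.card T' < Nat.card T → IsPGroup 2 T' → (∃ m : ℕ, a' ^ (2 ^ m) = 1) → Odd (orderOf z') →
      a' ∈ Subgroup.normalizer (T' : Set G') → z' ∈ Subgroup.normalizer (T' : Set G') →
      a' * z' * a'⁻¹ = z'⁻¹ → (∀ t ∈ T', z' ^ 3 * t * (z' ^ 3)⁻¹ = t) →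
      (∃ t ∈ T', z' * t * z'⁻¹ ≠ t) → Involves (Equiv.Perm (Fin 4)) G' := by
      intro G' _ _ T' a' z' hlt
      exact ih G' T' a' z' (by omega)
    have hinvT : ∀ g ∈ Subgroup.normalizer (T : Set G), ∀ t ∈ T, g⁻¹ * t * g ∈ T := by
      intro g hg t ht
      apply (Subgroup.mem_normalizer_iff.1 hg _).2
      convert ht using 1
      group
    have hTne : Nontrivial T := by
      obtain ⟨t, ht, htne⟩ := hne
      refine ⟨⟨⟨t, ht⟩, 1, fun h => htne ?_⟩⟩
      have h1 : t = 1 := congrArg Subtype.val h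
      rw [h1]
      group
    by_cases hab : ∀ x ∈ T, ∀ y ∈ T, x * y = y * x
    · by_cases h2 : ∀ t ∈ T, t * t = 1
      · exact s4_of_elem h2 ha hz haT hzT haz hz3 hne
      · push Not at h2
        obtain ⟨t₀, ht₀, ht₀ne⟩ := h2
        let N : Subgroup G :=
          { carrier := {x | ∃ t ∈ T, x = t * t}
            mul_mem' := by
              rintro _ _ ⟨s, hs, rfl⟩ ⟨t, ht, rfl⟩
              refine ⟨s * t, T.mul_mem hs ht, ?_⟩
              have h1 := hab s hs t ht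
              calc s * s * (t * t) = s * (s * t) * t := by group
                _ = s * (t * s) * t := by rw [h1]
                _ = s * t * (s * t) := by group
            one_mem' := ⟨1, T.one_mem, by simp⟩
            inv_mem' := by
              rintro _ ⟨s, hs, rfl⟩
              refine ⟨s⁻¹, T.inv_mem hs, ?_⟩
              group }
        have hmemN : ∀ x, x ∈ N ↔ ∃ t ∈ T, x = t * t := fun x => Iff.rfl
        have hNT : N ≤ T := by
          rintro _ ⟨t, ht, rfl⟩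
          exact T.mul_mem ht ht
        have hnormN : ∀ g ∈ Subgroup.normalizer (T : Set G), g ∈ Subgroup.normalizer (N : Set G) := by
          intro g hg
          rw [Subgroup.mem_normalizer_iff]
          intro x
          constructor
          · rintro ⟨t, ht, rfl⟩
            refine ⟨g * t * g⁻¹, (Subgroup.mem_normalizer_iff.1 hg t).1 ht, ?_⟩
            group
          · rintro ⟨t, ht, h⟩
            refine ⟨g⁻¹ * t * g, hinvT g hg t ht, ?_⟩
            have : x = g⁻¹ * (g * x * g⁻¹) * g := by group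
            rw [this, h]
            group
        refine s4_reduce (N := N) IH hT ha hz haz hz3 hne hNT ?_ ?_ ?_ haT hzT (hnormN a haT) (hnormN z hzT)
        · intro h
          have : t₀ * t₀ ∈ N := ⟨t₀, ht₀, rfl⟩
          rw [h, Subgroup.mem_bot] at this
          exact ht₀ne this
        · intro h
          -- squaring on `T` is onto, so is injective; but there is an involution
          obtain ⟨s, hs⟩ := exists_prime_orderOf_dvd_card' (G := T) 2 (by
            obtain ⟨k, hk⟩ := IsPGroup.iff_card.1 hT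
            rw [hk]
            have hk0 : k ≠ 0 := by
              rintro rfl
              have : Nat.card T = 1 := by simpa using hk
              have h3 : 1 < Nat.card T := Finite.one_lt_card
              omega
            exact dvd_pow_self 2 hk0)
          have hsurj : Function.Surjective (fun t : T => t * t) := by
            rintro ⟨y, hy⟩
            have hy' : y ∈ N := h ▸ hy
            obtain ⟨t, ht, rfl⟩ := hy'
            exact ⟨⟨t, ht⟩, rfl⟩
          have hinj := Finite.injective_iff_surjective.2 hsurj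
          have hs1 : s * s = 1 * 1 := by
            rw [mul_one, ← sq, ← hs]
            exact pow_orderOf_eq_one s
          have hs2 : s = 1 := hinj hs1
          rw [hs2, orderOf_one] at hs
          omega
        · intro x hx
          rw [Subgroup.mem_normalizer_iff]
          intro y
          constructor
          · intro hy
            have : x * y * x⁻¹ = y := by
              rw [hab x hx y (hNT hy)]
              group
            rw [this]
            exact hy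
          · intro hy
            have hy' : x * y * x⁻¹ ∈ T := hNT hy
            have hyT : y ∈ T := by
              have := (T.mul_mem (T.mul_mem (T.inv_mem hx) hy') hx)
              convert this using 1
              group
            have : x * y * x⁻¹ = y := by
              rw [hab x hx y hyT]
              group
            rw [← this]
            exact hy
    · push Not at hab
      obtain ⟨x₀, hx₀, y₀, hy₀, hxy⟩ := hab
      let N : Subgroup G := T ⊓ Subgroup.centralizer (T : Set G)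
      have hmemN : ∀ x, x ∈ N ↔ x ∈ T ∧ ∀ t ∈ T, t * x = x * t := by
        intro x
        show x ∈ T ⊓ _ ↔ _
        rw [Subgroup.mem_inf, Subgroup.mem_centralizer_iff]
        rfl
      have hNT : N ≤ T := inf_le_left
      have hnormN : ∀ g ∈ Subgroup.normalizer (T : Set G), g ∈ Subgroup.normalizer (N : Set G) := by
        intro g hg
        rw [Subgroup.mem_normalizer_iff]
        intro x
        rw [hmemN, hmemN]
        constructor
        · rintro ⟨hx, hxc⟩
          refine ⟨(Subgroup.mem_normalizer_iff.1 hg x).1 hx, ?_⟩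
          intro t ht
          have h1 := hxc _ (hinvT g hg t ht)
          calc t * (g * x * g⁻¹) = g * ((g⁻¹ * t * g) * x) * g⁻¹ := by group
            _ = g * (x * (g⁻¹ * t * g)) * g⁻¹ := by rw [h1]
            _ = g * x * g⁻¹ * t := by group
        · rintro ⟨hx, hxc⟩
          refine ⟨(Subgroup.mem_normalizer_iff.1 hg x).2 hx, ?_⟩
          intro t ht
          have h1 := hxc _ ((Subgroup.mem_normalizer_iff.1 hg t).1 ht)
          have h2 : g * (t * x) * g⁻¹ = g * (x * t) * g⁻¹ := by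
            calc g * (t * x) * g⁻¹ = (g * t * g⁻¹) * (g * x * g⁻¹) := by group
              _ = (g * x * g⁻¹) * (g * t * g⁻¹) := h1
              _ = g * (x * t) * g⁻¹ := by group
          have h3 := mul_right_cancel h2
          exact mul_left_cancel h3
      refine s4_reduce (N := N) IH hT ha hz haz hz3 hne hNT ?_ ?_ ?_ haT hzT (hnormN a haT) (hnormN z hzT)
      · intro h
        haveI := hT.center_nontrivial
        obtain ⟨c, hc⟩ := exists_ne (1 : Subgroup.center T)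
        have hcN : ((c : T) : G) ∈ N := by
          rw [hmemN]
          refine ⟨(c : T).2, fun t ht => ?_⟩
          have h1 := (Subgroup.mem_center_iff.1 c.2) ⟨t, ht⟩
          exact congrArg Subtype.val h1
        rw [h, Subgroup.mem_bot] at hcN
        apply hc
        exact Subtype.ext (Subtype.ext hcN)
      · intro h
        have hx₀' : x₀ ∈ N := h ▸ hx₀
        exact hxy (((hmemN x₀).1 hx₀').2 y₀ hy₀).symm
      · intro x hx
        rw [Subgroup.mem_normalizer_iff]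
        intro y
        rw [hmemN, hmemN]
        constructor
        · rintro ⟨hy, hyc⟩
          have : x * y * x⁻¹ = y := by
            rw [hyc x hx]
            group
          rw [this]
          exact ⟨hy, hyc⟩
        · rintro ⟨hy, hyc⟩
          have hyT : y ∈ T := by
            have := (T.mul_mem (T.mul_mem (T.inv_mem hx) hy) hx)
            convert this using 1
            group
          have h1 : x * y * x⁻¹ * x = x * (x * y * x⁻¹) := (hyc x hx).symm
          have h2 : y = x * y * x⁻¹ := by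
            have h3 : x * y = x * (x * y * x⁻¹) := by
              rw [← h1]
              group
            exact mul_left_cancel h3
          rw [h2]
          exact ⟨hy, hyc⟩

/-- A surjection onto `S₃` yields a `3`-element inverted by a `2`-element. -/
theorem s3_pair {Y : Type*} [Group Y] [Finite Y] (ρ : Y →* Equiv.Perm (Fin 3))
    (hρ : Function.Surjective ρ) :
    ∃ a x : Y, (∃ m : ℕ, a ^ (2 ^ m) = 1) ∧ (∃ m : ℕ, x ^ (3 ^ m) = 1) ∧
      a * x * a⁻¹ = x⁻¹ ∧ ρ x ≠ 1 := by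
  classical
  haveI : Fact (Nat.Prime 3) := ⟨Nat.prime_three⟩
  haveI : Fact (Nat.Prime 2) := ⟨Nat.prime_two⟩
  let s : Y →* ℤˣ := Equiv.Perm.sign.comp ρ
  let Y₀ : Subgroup Y := s.ker
  haveI : Y₀.Normal := MonoidHom.normal_ker s
  obtain ⟨Q₀⟩ : Nonempty (Sylow 3 Y₀) := inferInstance
  let Q : Subgroup Y := (Q₀ : Subgroup Y₀).map Y₀.subtype
  have hQY₀ : Q ≤ Y₀ := by
    rintro _ ⟨x, _, rfl⟩
    exact x.2
  have hFr : Subgroup.normalizer (Q : Set Y) ⊔ Y₀ = ⊤ := Sylow.normalizer_sup_eq_top Q₀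
  obtain ⟨y, hy⟩ := hρ (Equiv.swap 0 1)
  have hy2 : y ∈ ((Subgroup.normalizer (Q : Set Y) ⊔ Y₀ : Subgroup Y) : Set Y) := by
    rw [hFr]
    exact Subgroup.mem_top y
  rw [Subgroup.mul_normal] at hy2
  obtain ⟨g, hg, v, hv, rfl⟩ := Set.mem_mul.1 hy2
  have hsg : s g = -1 := by
    have h1 : s (g * v) = -1 := by
      show Equiv.Perm.sign (ρ (g * v)) = -1
      rw [hy]
      decide
    have h2 : s v = 1 := hv
    rwa [map_mul, h2, mul_one] at h1
  obtain ⟨k, m, hm, hkm⟩ := Nat.exists_eq_two_pow_mul_odd (orderOf_pos g).ne'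
  obtain ⟨a, hae⟩ : ∃ a, a = g ^ m := ⟨_, rfl⟩
  have ha : a ^ (2 ^ k) = 1 := by
    rw [hae, ← pow_mul, mul_comm, ← hkm, pow_orderOf_eq_one]
  have hsa : s a = -1 := by
    rw [hae, map_pow, hsg, hm.neg_one_pow]
  have haQ : a ∈ Subgroup.normalizer (Q : Set Y) := hae ▸ Subgroup.pow_mem _ hg m
  have hq : ∃ q ∈ Q, ρ q ≠ 1 := by
    by_contra hcon
    push Not at hcon
    let r : Y₀ →* Equiv.Perm (Fin 3) := ρ.comp Y₀.subtype
    have h1 : (Q₀ : Subgroup Y₀) ≤ r.ker := by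
      intro x hx
      exact hcon _ ⟨x, hx, rfl⟩
    have h2 : r.ker.index ∣ (Q₀ : Subgroup Y₀).index := Subgroup.index_dvd_of_le h1
    have h3 : ¬ 3 ∣ (Q₀ : Subgroup Y₀).index := Q₀.not_dvd_index
    apply h3
    refine dvd_trans ?_ h2
    rw [Subgroup.index_ker]
    obtain ⟨y3, hy3⟩ := hρ (Equiv.swap 0 1 * Equiv.swap 1 2)
    have hy3Y : y3 ∈ Y₀ := by
      show Equiv.Perm.sign (ρ y3) = 1
      rw [hy3]
      decide
    have h4 : orderOf (⟨r ⟨y3, hy3Y⟩, ⟨_, rfl⟩⟩ : r.range) = 3 := by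
      refine orderOf_eq_prime ?_ ?_
      · apply Subtype.ext
        show (ρ y3) ^ 3 = 1
        rw [hy3]
        decide
      · intro h
        have h5 : ρ y3 = 1 := congrArg Subtype.val h
        rw [hy3] at h5
        revert h5
        decide
    have h6 := orderOf_dvd_natCard (⟨r ⟨y3, hy3Y⟩, ⟨_, rfl⟩⟩ : r.range)
    rw [h4] at h6
    exact h6
  obtain ⟨q, hqQ, hqne⟩ := hq
  have hsq : Equiv.Perm.sign (ρ q) = 1 := hQY₀ hqQ
  have hsτ : Equiv.Perm.sign (ρ a) = -1 := hsa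
  have hinv := s3_invert (ρ q) (ρ a) hqne hsq hsτ
  have hQp : IsPGroup 3 Q := Q₀.isPGroup'.map _
  have hQc : ∀ x, x ∈ Q → a * x⁻¹ * a⁻¹ ∈ Q := fun x hx =>
    (Subgroup.mem_normalizer_iff.1 haQ _).1 (Q.inv_mem hx)
  have hQc' : ∀ x, x ∈ Q → a⁻¹ * x⁻¹ * a ∈ Q := by
    intro x hx
    apply (Subgroup.mem_normalizer_iff.1 haQ _).2
    convert Q.inv_mem hx using 1
    group
  have hρ1 : ∀ x, ρ x = ρ q → ρ (a * x⁻¹ * a⁻¹) = ρ q := by
    intro x hx
    rw [map_mul, map_mul, map_inv, map_inv, hx]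
    calc ρ a * (ρ q)⁻¹ * (ρ a)⁻¹ = (ρ a * ρ q * (ρ a)⁻¹)⁻¹ := by group
      _ = ρ q := by rw [hinv, inv_inv]
  have hρ2 : ∀ x, ρ x = ρ q → ρ (a⁻¹ * x⁻¹ * a) = ρ q := by
    intro x hx
    rw [map_mul, map_mul, map_inv, map_inv, hx]
    have h1 : (ρ q)⁻¹ = ρ a * ρ q * (ρ a)⁻¹ := hinv.symm
    rw [h1]
    group
  let Ω := {x : Y // x ∈ Q ∧ ρ x = ρ q}
  let σ : Equiv.Perm Ω :=
    { toFun := fun x => ⟨a * (x : Y)⁻¹ * a⁻¹, hQc _ x.2.1, hρ1 _ x.2.2⟩
      invFun := fun x => ⟨a⁻¹ * (x : Y)⁻¹ * a, hQc' _ x.2.1, hρ2 _ x.2.2⟩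
      left_inv := fun x => Subtype.ext (by
        show a⁻¹ * (a * (x : Y)⁻¹ * a⁻¹)⁻¹ * a = x
        group)
      right_inv := fun x => Subtype.ext (by
        show a * (a⁻¹ * (x : Y)⁻¹ * a)⁻¹ * a⁻¹ = x
        group) }
  have hσpow : ∀ (j : ℕ) (x : Ω), (((σ ^ 2) ^ j) x : Y) = (a * a) ^ j * x * ((a * a) ^ j)⁻¹ := by
    intro j
    induction j with
    | zero => intro x; simp
    | succ j ih =>
      intro x
      rw [pow_succ, Equiv.Perm.mul_apply, ih, sq, Equiv.Perm.mul_apply]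
      show (a * a) ^ j * (a * (a * (x : Y)⁻¹ * a⁻¹)⁻¹ * a⁻¹) * ((a * a) ^ j)⁻¹ = _
      rw [pow_succ]
      group
  have hσ : σ ^ (2 ^ (k + 1)) = 1 := by
    rw [pow_succ', pow_mul]
    refine Equiv.ext fun x => Subtype.ext ?_
    have h2 : (a * a) ^ (2 ^ k) = 1 := by
      have h3 : Commute a a := Commute.refl a
      rw [h3.mul_pow, ha, one_mul]
    rw [hσpow, h2]
    simp
  have hodd : ¬ 2 ∣ Nat.card Ω := by
    let M : Subgroup Y := Q ⊓ ρ.ker
    have hM : IsPGroup 3 M := hQp.to_le inf_le_left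
    obtain ⟨n, hn⟩ := IsPGroup.iff_card.1 hM
    have e : Ω ≃ M :=
      { toFun := fun x => ⟨q⁻¹ * x, Q.mul_mem (Q.inv_mem hqQ) x.2.1, by
          show ρ (q⁻¹ * (x : Y)) = 1
          rw [map_mul, map_inv, x.2.2, inv_mul_cancel]⟩
        invFun := fun x => ⟨q * x, Q.mul_mem hqQ x.2.1, by
          have h : ρ (x : Y) = 1 := x.2.2
          rw [map_mul, h, mul_one]⟩
        left_inv := fun x => Subtype.ext (by simp)
        right_inv := fun x => Subtype.ext (by simp) }
    rw [Nat.card_congr e, hn]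
    intro h
    have := Nat.Prime.dvd_of_dvd_pow Nat.prime_two h
    omega
  obtain ⟨x, hx⟩ := perm_fix_of_odd σ hσ hodd
  have hx1 : a * (x : Y)⁻¹ * a⁻¹ = x := congrArg Subtype.val hx
  refine ⟨a, x, ⟨k, ha⟩, ?_, ?_, ?_⟩
  · obtain ⟨n, hn⟩ := hQp ⟨x, x.2.1⟩
    exact ⟨n, congrArg Subtype.val hn⟩
  · calc a * (x : Y) * a⁻¹ = (a * (x : Y)⁻¹ * a⁻¹)⁻¹ := by group
      _ = (x : Y)⁻¹ := by rw [hx1]
  · rw [x.2.2]
    exact hqne

end Core

section Main

variable {G : Type u} [Group G] [Finite G]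

theorem involves_of_ker_le {X : Type*} {J : Type*} {Q : Type*} [Group X] [Group J] [Group Q]
    (f : X →* J) (hf : Function.Surjective f) (ψ : X →* Q) (h : ψ.ker ≤ f.ker) :
    Involves J Q := by
  refine involves_of_surjective ψ.range
    ((QuotientGroup.lift ψ.ker f h).comp (QuotientGroup.quotientKerEquivRange ψ).symm.toMonoidHom) ?_
  intro j
  obtain ⟨x, rfl⟩ := hf j
  refine ⟨QuotientGroup.quotientKerEquivRange ψ (QuotientGroup.mk x), ?_⟩
  simp

/-- `(←)` -/
theorem s4_of_section {T : Subgroup G} (hT : IsPGroup 2 T)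
    (h : Involves (Equiv.Perm (Fin 3)) (↥(Subgroup.normalizer (T : Set G)) ⧸
      (Subgroup.centralizer (T : Set G)).subgroupOf (Subgroup.normalizer (T : Set G)))) :
    Involves (Equiv.Perm (Fin 4)) G := by
  classical
  obtain ⟨K, θ, hθ⟩ := exists_of_involves h
  let A : Subgroup G := Subgroup.normalizer (T : Set G)
  let π : A →* A ⧸ (Subgroup.centralizer (T : Set G)).subgroupOf A := QuotientGroup.mk' _
  have hπ : Function.Surjective π := QuotientGroup.mk'_surjective _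
  let Y : Subgroup A := K.comap π
  let ρ : Y →* Equiv.Perm (Fin 3) := θ.comp (π.subgroupComap K)
  have hρ : Function.Surjective ρ := hθ.comp (π.subgroupComap_surjective_of_surjective K hπ)
  obtain ⟨a, x, ⟨m, hm⟩, ⟨n, hn⟩, hax, hx⟩ := s3_pair ρ hρ
  obtain ⟨a₀, ha₀⟩ : ∃ a₀ : G, a₀ = ((a : A) : G) := ⟨_, rfl⟩
  obtain ⟨x₀, hx₀⟩ : ∃ x₀ : G, x₀ = ((x : A) : G) := ⟨_, rfl⟩
  have ha₀N : a₀ ∈ A := ha₀ ▸ (a : A).2
  have hx₀N : x₀ ∈ A := hx₀ ▸ (x : A).2
  have ham : a₀ ^ (2 ^ m) = 1 := by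
    rw [ha₀]
    have := congrArg (fun y : Y => ((y : A) : G)) hm
    simpa using this
  have hxn : x₀ ^ (3 ^ n) = 1 := by
    rw [hx₀]
    have := congrArg (fun y : Y => ((y : A) : G)) hn
    simpa using this
  have hax₀ : a₀ * x₀ * a₀⁻¹ = x₀⁻¹ := by
    rw [ha₀, hx₀]
    have := congrArg (fun y : Y => ((y : A) : G)) hax
    simpa using this
  have hxnc : ¬ ∀ t ∈ T, x₀ * t * x₀⁻¹ = t := by
    intro hc
    apply hx
    have h1 : (x : A) ∈ (Subgroup.centralizer (T : Set G)).subgroupOf A := by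
      rw [Subgroup.mem_subgroupOf, Subgroup.mem_centralizer_iff]
      intro t ht
      have h2 := hc t ht
      rw [hx₀] at h2
      calc t * ((x : A) : G) = (((x : A) : G) * t * ((x : A) : G)⁻¹) * ((x : A) : G) := by rw [h2]
        _ = ((x : A) : G) * t := by group
    have h2 : π.subgroupComap K x = 1 := by
      apply Subtype.ext
      exact (QuotientGroup.eq_one_iff _).2 h1
    show θ (π.subgroupComap K x) = 1
    rw [h2, map_one]
  let Pj : ℕ → Prop := fun j => ∀ t ∈ T, x₀ ^ (3 ^ j) * t * (x₀ ^ (3 ^ j))⁻¹ = t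
  have hPn : Pj n := by
    intro t _
    rw [hxn]
    group
  have hex : ∃ j, Pj j := ⟨n, hPn⟩
  have hfind := Nat.find_spec hex
  have hmin := fun j => Nat.find_min hex (m := j)
  have h0 : Nat.find hex ≠ 0 := by
    intro h0
    rw [h0] at hfind
    apply hxnc
    intro t ht
    have := hfind t ht
    simpa using this
  obtain ⟨j, hj⟩ := Nat.exists_eq_succ_of_ne_zero h0
  rw [hj] at hfind
  have hnotj : ¬ Pj j := hmin j (by omega)
  obtain ⟨z, hz⟩ : ∃ z, z = x₀ ^ (3 ^ j) := ⟨_, rfl⟩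
  have hz3 : ∀ t ∈ T, z ^ 3 * t * (z ^ 3)⁻¹ = t := by
    intro t ht
    have := hfind t ht
    rw [hz, ← pow_mul, ← pow_succ]
    exact this
  have hzne : ∃ t ∈ T, z * t * z⁻¹ ≠ t := by
    by_contra hcon
    push Not at hcon
    apply hnotj
    intro t ht
    rw [← hz]
    exact hcon t ht
  have haz : a₀ * z * a₀⁻¹ = z⁻¹ := by
    rw [hz, ← conj_pow, hax₀, inv_pow]
  have hzodd : Odd (orderOf z) := by
    have h1 : z ^ (3 ^ n) = 1 := by
      rw [hz, ← pow_mul, mul_comm, pow_mul, hxn, one_pow]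
    exact Odd.of_dvd_nat (Odd.pow (by decide)) (orderOf_dvd_of_pow_eq_one h1)
  exact s4_core (Nat.card T) G T a₀ z le_rfl hT ⟨m, ham⟩ hzodd ha₀N
    (hz ▸ Subgroup.pow_mem _ hx₀N _) haz hz3 hzne

/-- `(→)` -/
theorem section_of_s4 (h : Involves (Equiv.Perm (Fin 4)) G) :
    ∃ T : Subgroup G, IsPGroup 2 T ∧ Involves (Equiv.Perm (Fin 3)) (↥(Subgroup.normalizer (T : Set G)) ⧸
      (Subgroup.centralizer (T : Set G)).subgroupOf (Subgroup.normalizer (T : Set G))) := by
  classical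
  obtain ⟨H, π, hπ⟩ := exists_of_involves h
  let f : H →* Equiv.Perm (Fin 3) := s4toS3.comp π
  have hf : Function.Surjective f := s4toS3_surjective.comp hπ
  let V : Subgroup H := f.ker
  haveI : V.Normal := MonoidHom.normal_ker f
  obtain ⟨P₀⟩ : Nonempty (Sylow 2 V) := inferInstance
  let T₀ : Subgroup H := (P₀ : Subgroup V).map V.subtype
  have hFr : Subgroup.normalizer (T₀ : Set H) ⊔ V = ⊤ := Sylow.normalizer_sup_eq_top P₀
  let T : Subgroup G := T₀.map H.subtype
  have hT₀p : IsPGroup 2 T₀ := P₀.isPGroup'.map _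
  have hTp : IsPGroup 2 T := hT₀p.map _
  let H' : Subgroup H := Subgroup.normalizer (T₀ : Set H)
  let f' : H' →* Equiv.Perm (Fin 3) := f.comp H'.subtype
  have hf' : Function.Surjective f' := by
    intro j
    obtain ⟨y, hy⟩ := hf j
    have hy2 : y ∈ ((H' ⊔ V : Subgroup H) : Set H) := by
      rw [hFr]
      exact Subgroup.mem_top y
    rw [Subgroup.mul_normal] at hy2
    obtain ⟨g, hg, v, hv, rfl⟩ := Set.mem_mul.1 hy2
    refine ⟨⟨g, hg⟩, ?_⟩
    have h2 : f v = 1 := hv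
    show f g = j
    rw [← hy, map_mul, h2, mul_one]
  let A : Subgroup G := Subgroup.normalizer (T : Set G)
  have hφ : ∀ x : H', ((x : H) : G) ∈ A := by
    intro x
    apply Subgroup.le_normalizer_map H.subtype
    exact ⟨x, x.2, rfl⟩
  let φ : H' →* A := ((H.subtype).comp H'.subtype).codRestrict A hφ
  let ψ : H' →* (A ⧸ (Subgroup.centralizer (T : Set G)).subgroupOf A) :=
    (QuotientGroup.mk' _).comp φ
  refine ⟨T, hTp, involves_of_ker_le f' hf' ψ ?_⟩
  intro x hx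
  have hx1 : φ x ∈ (Subgroup.centralizer (T : Set G)).subgroupOf A :=
    (QuotientGroup.eq_one_iff _).1 hx
  have hx2 : ((x : H) : G) ∈ Subgroup.centralizer (T : Set G) := Subgroup.mem_subgroupOf.1 hx1
  -- the image of `T₀` under `π` is the four-group
  let K4 : Subgroup (Equiv.Perm (Fin 4)) := s4toS3.ker
  have hK4 : IsPGroup 2 K4 := by
    intro y
    refine ⟨1, Subtype.ext ?_⟩
    show ((y : Equiv.Perm (Fin 4))) ^ (2 ^ 1) = 1
    rw [pow_one, sq]
    exact s4toS3_ker_sq _ y.2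
  let πV : V →* K4 := (π.comp V.subtype).codRestrict K4 (fun v => v.2)
  have hπV : Function.Surjective πV := by
    rintro ⟨y, hy⟩
    obtain ⟨h₀, rfl⟩ := hπ y
    exact ⟨⟨h₀, hy⟩, rfl⟩
  have hS := (P₀.mapSurjective hπV).is_maximal' (Q := ⊤) (hK4.to_subgroup ⊤) le_top
  have hx3 : ∀ v : Equiv.Perm (Fin 4), s4toS3 v = 1 → π x * v = v * π x := by
    intro v hv
    have hv' : (⟨v, hv⟩ : K4) ∈ ((P₀.mapSurjective hπV : Sylow 2 K4) : Subgroup K4) := by
      have h4 : (⟨v, hv⟩ : K4) ∈ (⊤ : Subgroup K4) := Subgroup.mem_top _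
      rw [hS] at h4
      exact h4
    rw [Sylow.coe_mapSurjective] at hv'
    obtain ⟨t, ht, hte⟩ := hv'
    have htT : (((t : V) : H) : G) ∈ T := ⟨t.1, ⟨t, ht, rfl⟩, rfl⟩
    have hc : (((t : V) : H) : G) * ((x : H) : G) = ((x : H) : G) * (((t : V) : H) : G) :=
      Subgroup.mem_centralizer_iff.1 hx2 _ htT
    have hc2 : ((t : V) : H) * (x : H) = (x : H) * ((t : V) : H) := Subtype.ext hc
    have hv2 : π ((t : V) : H) = v := congrArg Subtype.val hte
    rw [← hv2, ← map_mul, ← map_mul, hc2]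
  exact s4toS3_cent _ hx3

end Main

end Cfsg.Agent.H06
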