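import Mathlib.Tactic
import Mathlib.Algebra.BigOperators.Ring.Finset
import Mathlib.Data.Fintype.BigOperators

/-!
# Combinatorics of the rectangular Gram matrix

Integer vectors `f i j` of norm three, with inner product one in a common row or column and zero
otherwise.  If there are at least four columns then each row has a common constituent.
-/

set_option autoImplicit false

namespace Cfsg.Agent.H06.TICombo

section Basics

variable {Y : Type*} [Fintype Y]

/-- Standard inner product on integer vectors. -/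
def ip (f g : Y → ℤ) : ℤ := ∑ y, f y * g y

theorem ip_comm (f g : Y → ℤ) : ip f g = ip g f := by
  unfold ip
  exact Finset.sum_congr rfl fun y _ => mul_comm _ _

theorem ip_add_left (f g h : Y → ℤ) : ip (f + g) h = ip f h + ip g h := by
  unfold ip
  rw [← Finset.sum_add_distrib]
  exact Finset.sum_congr rfl fun y _ => by simp [add_mul]

theorem ip_add_right (f g h : Y → ℤ) : ip h (f + g) = ip h f + ip h g := by
  unfold ip
  rw [← Finset.sum_add_distrib]
  exact Finset.sum_congr rfl fun y _ => by simp [mul_add]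

theorem ip_sub_left (f g h : Y → ℤ) : ip (f - g) h = ip f h - ip g h := by
  unfold ip
  rw [← Finset.sum_sub_distrib]
  exact Finset.sum_congr rfl fun y _ => by simp [sub_mul]

theorem ip_sub_right (f g h : Y → ℤ) : ip h (f - g) = ip h f - ip h g := by
  unfold ip
  rw [← Finset.sum_sub_distrib]
  exact Finset.sum_congr rfl fun y _ => by simp [mul_sub]

theorem sum_sq_le (f : Y → ℤ) (s : Finset Y) : ∑ y ∈ s, f y * f y ≤ ip f f :=
  Finset.sum_le_sum_of_subset_of_nonneg (Finset.subset_univ _) (fun y _ _ => mul_self_nonneg _)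

theorem sq_one_le {c : ℤ} (h : c ≠ 0) : 1 ≤ c * c := by
  have : 0 < c * c := mul_self_pos.mpr h
  omega

theorem val_cases {f : Y → ℤ} {n : ℤ} (h : ip f f = n) (hn : n ≤ 3) (y : Y) :
    f y = 0 ∨ f y = 1 ∨ f y = -1 := by
  classical
  have h1 := sum_sq_le f {y}
  rw [Finset.sum_singleton, h] at h1
  have h2 : f y * f y ≤ 3 := h1.trans hn
  have h3 : -1 ≤ f y := by nlinarith
  have h4 : f y ≤ 1 := by nlinarith
  omega

theorem sq_of_val {c : ℤ} (h : c = 0 ∨ c = 1 ∨ c = -1) :
    (c = 0 ∧ c * c = 0) ∨ (c = 1 ∧ c * c = 1) ∨ (c = -1 ∧ c * c = 1) := by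
  rcases h with rfl | rfl | rfl <;> simp

theorem no_four {f : Y → ℤ} (hf : ip f f = 3) {a b c d : Y} (hab : a ≠ b) (hac : a ≠ c) (had : a ≠ d)
    (hbc : b ≠ c) (hbd : b ≠ d) (hcd : c ≠ d) (ha : f a ≠ 0) (hb : f b ≠ 0) (hc : f c ≠ 0) :
    f d = 0 := by
  classical
  by_contra hd
  have h1 := sum_sq_le f {a, b, c, d}
  rw [Finset.sum_insert (by simp [hab, hac, had]), Finset.sum_insert (by simp [hbc, hbd]),
    Finset.sum_insert (by simp [hcd]), Finset.sum_singleton, hf] at h1
  have := sq_one_le ha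
  have := sq_one_le hb
  have := sq_one_le hc
  have := sq_one_le hd
  omega

theorem exists_third {f : Y → ℤ} (hf : ip f f = 3) {a b : Y} (hab : a ≠ b) :
    ∃ c, c ≠ a ∧ c ≠ b ∧ f c ≠ 0 := by
  classical
  by_contra hcon
  push Not at hcon
  have h1 : ip f f = ∑ y ∈ ({a, b} : Finset Y), f y * f y := by
    unfold ip
    symm
    refine Finset.sum_subset (Finset.subset_univ _) fun y _ hy => ?_
    simp only [Finset.mem_insert, Finset.mem_singleton, not_or] at hy
    simp [hcon y hy.1 hy.2]
  rw [Finset.sum_insert (by simp [hab]), Finset.sum_singleton, hf] at h1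
  have h2 := sq_of_val (val_cases hf le_rfl a)
  have h3 := sq_of_val (val_cases hf le_rfl b)
  omega

/-- Two norm three vectors meet in exactly one signed constituent. -/
structure Meet (f g : Y → ℤ) (e : Y) : Prop where
  ne : f e ≠ 0
  eq : f e = g e
  uniq : ∀ y, f y ≠ 0 → g y ≠ 0 → y = e

theorem Meet.ne' {f g : Y → ℤ} {e : Y} (h : Meet f g e) : g e ≠ 0 := h.eq ▸ h.ne

theorem Meet.symm {f g : Y → ℤ} {e : Y} (h : Meet f g e) : Meet g f e :=
  ⟨h.ne', h.eq.symm, fun y h1 h2 => h.uniq y h2 h1⟩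

theorem exists_meet {f g : Y → ℤ} (hf : ip f f = 3) (hg : ip g g = 3) (hfg : ip f g = 1) (h : Y → ℤ)
    (hodd : ¬ (2 : ℤ) ∣ ip f h - ip g h) : ∃ e, Meet f g e := by
  classical
  have hval : ∀ y, f y * g y = 0 ∨ f y * g y = 1 ∨ f y * g y = -1 := by
    intro y
    rcases val_cases hf le_rfl y with h1 | h1 | h1 <;> rcases val_cases hg le_rfl y with h2 | h2 | h2 <;>
      simp [h1, h2]
  have hfgs : ∑ y, f y * g y = 1 := hfg
  -- no opposite overlap
  have hnn : ∀ y, 0 ≤ f y * g y := by
    intro y₁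
    by_contra hneg
    have hy₁ : f y₁ * g y₁ = -1 := by
      rcases hval y₁ with h1 | h1 | h1 <;> omega
    have hs1 := Finset.add_sum_erase Finset.univ (fun y => f y * g y) (Finset.mem_univ y₁)
    obtain ⟨y₀, hy₀, hpos₀⟩ : ∃ y₀ ∈ Finset.univ.erase y₁, 0 < f y₀ * g y₀ := by
      by_contra hcon
      push Not at hcon
      have := Finset.sum_nonpos hcon
      omega
    have hy₀1 : f y₀ * g y₀ = 1 := by
      rcases hval y₀ with h1 | h1 | h1 <;> omega
    have hs2 := Finset.add_sum_erase (Finset.univ.erase y₁) (fun y => f y * g y) hy₀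
    obtain ⟨y₂, hy₂, hpos₂⟩ : ∃ y₂ ∈ (Finset.univ.erase y₁).erase y₀, 0 < f y₂ * g y₂ := by
      by_contra hcon
      push Not at hcon
      have := Finset.sum_nonpos hcon
      omega
    have h01 : y₀ ≠ y₁ := (Finset.mem_erase.mp hy₀).1
    have h20 : y₂ ≠ y₀ := (Finset.mem_erase.mp hy₂).1
    have h21 : y₂ ≠ y₁ := (Finset.mem_erase.mp (Finset.mem_erase.mp hy₂).2).1
    have hne : ∀ y, f y * g y ≠ 0 → f y ≠ 0 ∧ g y ≠ 0 := fun y h =>
      ⟨fun e => h (by simp [e]), fun e => h (by simp [e])⟩
    have hf₀ := hne y₀ (by omega)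
    have hf₁ := hne y₁ (by omega)
    have hf₂ := hne y₂ (by omega)
    apply hodd
    have hrw : ip f h - ip g h = ∑ y, (f y - g y) * h y := by
      unfold ip
      rw [← Finset.sum_sub_distrib]
      exact Finset.sum_congr rfl fun y _ => by ring
    rw [hrw]
    refine Finset.dvd_sum fun y _ => Dvd.dvd.mul_right ?_ _
    by_cases h0 : y = y₀
    · subst h0
      rcases val_cases hf le_rfl y with h1 | h1 | h1 <;> rcases val_cases hg le_rfl y with h2 | h2 | h2 <;>
        simp_all <;> omega
    by_cases h1 : y = y₁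
    · subst h1
      rcases val_cases hf le_rfl y with h1 | h1 | h1 <;> rcases val_cases hg le_rfl y with h2 | h2 | h2 <;>
        simp_all <;> omega
    by_cases h2 : y = y₂
    · subst h2
      rcases val_cases hf le_rfl y with h1 | h1 | h1 <;> rcases val_cases hg le_rfl y with h2 | h2 | h2 <;>
        simp_all <;> omega
    have e1 : f y = 0 := no_four hf h01 (Ne.symm h20) (Ne.symm h0) (Ne.symm h21) (Ne.symm h1) (Ne.symm h2)
      hf₀.1 hf₁.1 hf₂.1
    have e2 : g y = 0 := no_four hg h01 (Ne.symm h20) (Ne.symm h0) (Ne.symm h21) (Ne.symm h1) (Ne.symm h2)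
      hf₀.2 hf₁.2 hf₂.2
    simp [e1, e2]
  obtain ⟨e, -, he⟩ : ∃ e ∈ Finset.univ, 0 < f e * g e := by
    by_contra hcon
    push Not at hcon
    have := Finset.sum_nonpos hcon
    omega
  have he1 : f e * g e = 1 := by
    rcases hval e with h1 | h1 | h1 <;> omega
  have hs1 := Finset.add_sum_erase Finset.univ (fun y => f y * g y) (Finset.mem_univ e)
  have hz : ∀ y ∈ Finset.univ.erase e, f y * g y = 0 := by
    have h0 : ∑ y ∈ Finset.univ.erase e, f y * g y = 0 := by omega
    exact (Finset.sum_eq_zero_iff_of_nonneg fun y _ => hnn y).mp h0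
  refine ⟨e, ?_, ?_, ?_⟩
  · intro h0
    simp [h0] at he1
  · rcases val_cases hf le_rfl e with h1 | h1 | h1 <;> rcases val_cases hg le_rfl e with h2 | h2 | h2 <;>
      simp_all
  · intro y h1 h2
    by_contra hne
    have := hz y (Finset.mem_erase.mpr ⟨hne, Finset.mem_univ _⟩)
    exact (mul_ne_zero h1 h2) this

/-- Two vectors orthogonal to each other and with a common point have another common point. -/
theorem exists_other_common {f g : Y → ℤ} (hfg : ip f g = 0) {e : Y} (h1 : f e ≠ 0) (h2 : g e ≠ 0) :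
    ∃ d, d ≠ e ∧ f d ≠ 0 ∧ g d ≠ 0 := by
  classical
  by_contra hcon
  push Not at hcon
  have h3 : ip f g = f e * g e := by
    unfold ip
    refine Finset.sum_eq_single e (fun y _ hy => ?_) (fun h => absurd (Finset.mem_univ _) h)
    by_cases h4 : f y = 0
    · simp [h4]
    · simp [hcon y hy h4]
  rw [hfg] at h3
  exact mul_ne_zero h1 h2 h3.symm

end Basics

end Cfsg.Agent.H06.TICombo
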