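import Cfsg.Agent.Lib.H06.TICombo

/-!
# Rectangles of norm three vectors: the transversal configuration
-/

set_option autoImplicit false

namespace Cfsg.Agent.H06.TICombo

section Flip

variable {Y : Type*} [Fintype Y]

theorem ip_flip (s : Y → ℤ) (hs : ∀ y, s y * s y = 1) (f g : Y → ℤ) :
    ip (fun y => s y * f y) (fun y => s y * g y) = ip f g := by
  unfold ip
  refine Finset.sum_congr rfl fun y _ => ?_
  calc s y * f y * (s y * g y) = (s y * s y) * (f y * g y) := by ring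
    _ = f y * g y := by rw [hs, one_mul]

theorem ip_of_three {L : Y → ℤ} (hL : ip L L = 3) {a b c : Y} (hab : a ≠ b) (hac : a ≠ c) (hbc : b ≠ c)
    (ha : L a = 1) (hb : L b = 1) (hc : L c = 1) (B : Y → ℤ) : ip B L = B a + B b + B c := by
  classical
  have h1 : ip B L = ∑ y ∈ ({a, b, c} : Finset Y), B y * L y := by
    unfold ip
    symm
    refine Finset.sum_subset (Finset.subset_univ _) fun y _ hy => ?_
    simp only [Finset.mem_insert, Finset.mem_singleton, not_or] at hy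
    rw [no_four hL hab hac (Ne.symm hy.1) hbc (Ne.symm hy.2.1) (Ne.symm hy.2.2)
      (by rw [ha]; exact one_ne_zero) (by rw [hb]; exact one_ne_zero) (by rw [hc]; exact one_ne_zero), mul_zero]
  rw [h1, Finset.sum_insert (by simp [hab, hac]), Finset.sum_insert (by simp [hbc]), Finset.sum_singleton,
    ha, hb, hc]
  ring

theorem bessel7 (B : Y → ℤ) {a p0 p1 p2 q0 q1 q2 : Y}
    (h1 : a ≠ p0) (h2 : a ≠ p1) (h3 : a ≠ p2) (h4 : a ≠ q0) (h5 : a ≠ q1) (h6 : a ≠ q2)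
    (h7 : p0 ≠ p1) (h8 : p0 ≠ p2) (h9 : p0 ≠ q0) (h10 : p0 ≠ q1) (h11 : p0 ≠ q2)
    (h12 : p1 ≠ p2) (h13 : p1 ≠ q0) (h14 : p1 ≠ q1) (h15 : p1 ≠ q2)
    (h16 : p2 ≠ q0) (h17 : p2 ≠ q1) (h18 : p2 ≠ q2)
    (h19 : q0 ≠ q1) (h20 : q0 ≠ q2) (h21 : q1 ≠ q2) :
    B a * B a + (B p0 * B p0 + B p1 * B p1 + B p2 * B p2) +
      (B q0 * B q0 + B q1 * B q1 + B q2 * B q2) ≤ ip B B := by
  classical
  have h := sum_sq_le B {a, p0, p1, p2, q0, q1, q2}
  rw [Finset.sum_insert (by simp [*]), Finset.sum_insert (by simp [*]), Finset.sum_insert (by simp [*]),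
    Finset.sum_insert (by simp [*]), Finset.sum_insert (by simp [*]), Finset.sum_insert (by simp [*]),
    Finset.sum_singleton] at h
  linarith

end Flip

section Int

theorem fin3_sum {k₀ k₁ k₂ : Fin 3} (h01 : k₀ ≠ k₁) (h02 : k₀ ≠ k₂) (h12 : k₁ ≠ k₂) (g : Fin 3 → ℤ) :
    g 0 + g 1 + g 2 = g k₀ + g k₁ + g k₂ := by
  fin_cases k₀ <;> fin_cases k₁ <;> fin_cases k₂ <;> simp_all <;> ring

theorem fin3_cases {k₀ k₁ k₂ : Fin 3} (h01 : k₀ ≠ k₁) (h02 : k₀ ≠ k₂) (h12 : k₁ ≠ k₂) (k : Fin 3) :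
    k = k₀ ∨ k = k₁ ∨ k = k₂ := by
  revert k₀ k₁ k₂ k
  decide

theorem fin3_exists (k₀ : Fin 3) : ∃ k₁ k₂ : Fin 3, k₀ ≠ k₁ ∧ k₀ ≠ k₂ ∧ k₁ ≠ k₂ := by
  revert k₀
  decide

theorem stage_T {α π₀ π₁ π₂ κ₀ κ₁ κ₂ : ℤ} (hα : α = 0 ∨ α = 1 ∨ α = -1) (h0 : κ₀ = 0 ∨ κ₀ = 1 ∨ κ₀ = -1)
    (h1 : κ₁ = 0 ∨ κ₁ = 1 ∨ κ₁ = -1) (h2 : κ₂ = 0 ∨ κ₂ = 1 ∨ κ₂ = -1)
    (e0 : π₀ = 1) (e1 : π₁ = 0) (e2 : π₂ = 0) (l0 : α + π₀ + κ₀ = 0) (l1 : α + π₁ + κ₁ = 0)
    (l2 : α + π₂ + κ₂ = 0)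
    (hs : α * α + (π₀ * π₀ + π₁ * π₁ + π₂ * π₂) + (κ₀ * κ₀ + κ₁ * κ₁ + κ₂ * κ₂) ≤ 3) :
    α = 0 ∧ κ₀ = -1 ∧ κ₁ = 0 ∧ κ₂ = 0 := by
  subst e0 e1 e2
  have h3 := sq_of_val hα
  have h4 := sq_of_val h0
  have h5 := sq_of_val h1
  have h6 := sq_of_val h2
  omega

theorem stage_1a {π₁ π₂ κ₁ κ₂ : ℤ} (h1 : π₁ = 0 ∨ π₁ = 1 ∨ π₁ = -1) (h2 : π₂ = 0 ∨ π₂ = 1 ∨ π₂ = -1)
    (h3 : κ₁ = 0 ∨ κ₁ = 1 ∨ κ₁ = -1) (h4 : κ₂ = 0 ∨ κ₂ = 1 ∨ κ₂ = -1)
    (l1 : 1 + π₁ + κ₁ = 0) (l2 : 1 + π₂ + κ₂ = 0) (lp : 0 + π₁ + π₂ = 0)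
    (hs : 1 * 1 + (0 * 0 + π₁ * π₁ + π₂ * π₂) + (0 * 0 + κ₁ * κ₁ + κ₂ * κ₂) ≤ 3) :
    π₁ = 0 ∧ π₂ = 0 ∧ κ₁ = -1 ∧ κ₂ = -1 := by
  have h5 := sq_of_val h1
  have h6 := sq_of_val h2
  have h7 := sq_of_val h3
  have h8 := sq_of_val h4
  omega

theorem stage_1b {π₁ π₂ κ₁ κ₂ : ℤ} (h1 : π₁ = 0 ∨ π₁ = 1 ∨ π₁ = -1) (h2 : π₂ = 0 ∨ π₂ = 1 ∨ π₂ = -1)
    (h3 : κ₁ = 0 ∨ κ₁ = 1 ∨ κ₁ = -1) (h4 : κ₂ = 0 ∨ κ₂ = 1 ∨ κ₂ = -1)
    (l1 : π₁ + κ₁ = 0) (l2 : π₂ + κ₂ = 0) (lp : 1 + π₁ + π₂ = 0)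
    (hs : 0 * 0 + (1 * 1 + π₁ * π₁ + π₂ * π₂) + (0 * 0 + κ₁ * κ₁ + κ₂ * κ₂) ≤ 3) :
    (π₁ = -1 ∧ π₂ = 0 ∧ κ₁ = 1 ∧ κ₂ = 0) ∨ (π₁ = 0 ∧ π₂ = -1 ∧ κ₁ = 0 ∧ κ₂ = 1) := by
  have h5 := sq_of_val h1
  have h6 := sq_of_val h2
  have h7 := sq_of_val h3
  have h8 := sq_of_val h4
  omega

end Int

section Rect

variable {I J Y : Type*} [Fintype Y]

/-- The rectangular Gram conditions. -/
structure Rect (f : I → J → Y → ℤ) : Prop where
  norm : ∀ i j, ip (f i j) (f i j) = 3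
  row : ∀ i j j', j ≠ j' → ip (f i j) (f i j') = 1
  col : ∀ i i' j, i ≠ i' → ip (f i j) (f i' j) = 1
  off : ∀ i i' j j', i ≠ i' → j ≠ j' → ip (f i j) (f i' j') = 0

theorem Rect.transpose {f : I → J → Y → ℤ} (h : Rect f) : Rect (fun j i => f i j) :=
  ⟨fun j i => h.norm i j, fun j i i' hi => h.col i i' j hi,
    fun j j' i hj => h.row i j j' hj, fun j j' i i' hj hi => h.off i i' j j' hi hj⟩

theorem Rect.meet_row {f : I → J → Y → ℤ} (h : Rect f) {i i' : I} (hi : i ≠ i') {j j' : J} (hj : j ≠ j') :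
    ∃ e, Meet (f i j) (f i j') e := by
  refine exists_meet (h.norm i j) (h.norm i j') (h.row i j j' hj) (f i' j) ?_
  rw [h.col i i' j hi, h.off i i' j' j hi hj.symm]
  norm_num

theorem Rect.meet_col {f : I → J → Y → ℤ} (h : Rect f) {i i' : I} (hi : i ≠ i') {j j' : J} (hj : j ≠ j') :
    ∃ e, Meet (f i j) (f i' j) e := by
  refine exists_meet (h.norm i j) (h.norm i' j) (h.col i i' j hi) (f i j') ?_
  rw [h.row i j j' hj, h.off i' i j j' hi.symm hj]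
  norm_num

theorem Rect.flip {f : I → J → Y → ℤ} (h : Rect f) (s : Y → ℤ) (hs : ∀ y, s y * s y = 1) :
    Rect (fun i j y => s y * f i j y) :=
  ⟨fun i j => by rw [ip_flip s hs]; exact h.norm i j,
   fun i j j' hj => by rw [ip_flip s hs]; exact h.row i j j' hj,
   fun i i' j hi => by rw [ip_flip s hs]; exact h.col i i' j hi,
   fun i i' j j' hi hj => by rw [ip_flip s hs]; exact h.off i i' j j' hi hj⟩

/-- Sign normalisation of a row. -/
theorem Rect.row_sign {f : I → J → Y → ℤ} (h : Rect f) {i i' : I} (hi : i ≠ i') :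
    ∃ s : Y → ℤ, (∀ y, s y * s y = 1) ∧ ∀ j y, s y * f i j y = 0 ∨ s y * f i j y = 1 := by
  classical
  refine ⟨fun y => if h : ∃ j, f i j y ≠ 0 then f i h.choose y else 1, ?_, ?_⟩
  · intro y
    by_cases hy : ∃ j, f i j y ≠ 0
    · simp only [dif_pos hy]
      have h1 := hy.choose_spec
      rcases val_cases (h.norm i hy.choose) le_rfl y with h2 | h2 | h2
      · exact absurd h2 h1
      · rw [h2]; norm_num
      · rw [h2]; norm_num
    · simp only [dif_neg hy]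
      norm_num
  · intro j y
    by_cases hy : ∃ j, f i j y ≠ 0
    · simp only [dif_pos hy]
      have h1 := hy.choose_spec
      by_cases hj0 : f i j y = 0
      · left
        rw [hj0, mul_zero]
      right
      by_cases hjj : hy.choose = j
      · rw [hjj]
        rcases val_cases (h.norm i j) le_rfl y with h2 | h2 | h2
        · exact absurd h2 hj0
        · rw [h2]; norm_num
        · rw [h2]; norm_num
      · obtain ⟨e, he⟩ := h.meet_row hi hjj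
        have hye := he.uniq y h1 hj0
        subst hye
        rw [he.eq]
        rcases val_cases (h.norm i j) le_rfl y with h2 | h2 | h2
        · exact absurd h2 hj0
        · rw [h2]; norm_num
        · rw [h2]; norm_num
    · left
      push Not at hy
      rw [hy j, mul_zero]

/-- Three concurrent lines and a transversal in a row cannot be completed by a second row
(normalised form). -/
theorem Rect.no_transversal_pos {f : I → J → Y → ℤ} (hf : Rect f) {i i' : I} (hi : i ≠ i')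
    (j : Fin 3 → J) (hj : Function.Injective j) (jT : J) (hjT : ∀ k, j k ≠ jT)
    (hpos : ∀ j y, f i j y = 0 ∨ f i j y = 1) (a : Y) (ha : ∀ k, f i (j k) a ≠ 0)
    (haT : f i jT a = 0) : False := by
  classical
  have ha1 : ∀ k, f i (j k) a = 1 := fun k => (hpos _ a).resolve_left (ha k)
  have hLL : ∀ k l, k ≠ l → ∀ y, f i (j k) y ≠ 0 → f i (j l) y ≠ 0 → y = a := by
    intro k l hkl y h1 h2
    obtain ⟨e, he⟩ := hf.meet_row hi (hj.ne hkl)
    rw [he.uniq y h1 h2, he.uniq a (ha k) (ha l)]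
  have hp : ∀ k, ∃ p, f i jT p = 1 ∧ f i (j k) p = 1 ∧ ∀ y, f i jT y ≠ 0 → f i (j k) y ≠ 0 → y = p := by
    intro k
    obtain ⟨e, he⟩ := hf.meet_row hi (hjT k).symm
    exact ⟨e, (hpos _ e).resolve_left he.ne, (hpos _ e).resolve_left he.ne', he.uniq⟩
  choose p hp1 hp2 hp3 using hp
  have hpa : ∀ k, p k ≠ a := fun k e => by
    have := hp1 k
    rw [e, haT] at this
    exact zero_ne_one this
  have hpp : ∀ k l, k ≠ l → p k ≠ p l := by
    intro k l hkl e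
    have := hLL k l hkl (p k) (by rw [hp2]; exact one_ne_zero) (by rw [e, hp2]; exact one_ne_zero)
    exact hpa k this
  have hq : ∀ k, ∃ q, q ≠ a ∧ q ≠ p k ∧ f i (j k) q ≠ 0 := fun k =>
    exists_third (hf.norm i (j k)) (hpa k).symm
  choose q hqa hqp hq1 using hq
  have hq1' : ∀ k, f i (j k) (q k) = 1 := fun k => (hpos _ _).resolve_left (hq1 k)
  have hpq : ∀ k l, p k ≠ q l := by
    intro k l e
    by_cases hkl : k = l
    · subst hkl
      exact hqp k e.symm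
    · have := hLL k l hkl (p k) (by rw [hp2]; exact one_ne_zero) (by rw [e]; exact hq1 l)
      exact hpa k this
  have hqq : ∀ k l, k ≠ l → q k ≠ q l := by
    intro k l hkl e
    have := hLL k l hkl (q k) (hq1 k) (by rw [e]; exact hq1 l)
    exact hqa k this
  have hL : ∀ (B : Y → ℤ) k, ip B (f i (j k)) = B a + B (p k) + B (q k) := fun B k =>
    ip_of_three (hf.norm i (j k)) (hpa k).symm (hqa k).symm (hqp k).symm (ha1 k) (hp2 k) (hq1' k) B
  have h01 : (0 : Fin 3) ≠ 1 := by decide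
  have h02 : (0 : Fin 3) ≠ 2 := by decide
  have h12 : (1 : Fin 3) ≠ 2 := by decide
  have hT : ∀ B : Y → ℤ, ip B (f i jT) = B (p 0) + B (p 1) + B (p 2) := fun B =>
    ip_of_three (hf.norm i jT) (hpp 0 1 h01) (hpp 0 2 h02) (hpp 1 2 h12) (hp1 0) (hp1 1) (hp1 2) B
  have hBes : ∀ B : Y → ℤ, B a * B a + (B (p 0) * B (p 0) + B (p 1) * B (p 1) + B (p 2) * B (p 2)) +
      (B (q 0) * B (q 0) + B (q 1) * B (q 1) + B (q 2) * B (q 2)) ≤ ip B B := fun B =>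
    bessel7 B (hpa 0).symm (hpa 1).symm (hpa 2).symm (hqa 0).symm (hqa 1).symm (hqa 2).symm
      (hpp 0 1 h01) (hpp 0 2 h02) (hpq 0 0) (hpq 0 1) (hpq 0 2)
      (hpp 1 2 h12) (hpq 1 0) (hpq 1 1) (hpq 1 2)
      (hpq 2 0) (hpq 2 1) (hpq 2 2) (hqq 0 1 h01) (hqq 0 2 h02) (hqq 1 2 h12)
  -- supports
  have hLsupp : ∀ k y, f i (j k) y ≠ 0 → y = a ∨ y = p k ∨ y = q k := by
    intro k y hy
    by_contra hcon
    push Not at hcon
    exact hy (no_four (hf.norm i (j k)) (hpa k).symm (hqa k).symm (Ne.symm hcon.1) (hqp k).symm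
      (Ne.symm hcon.2.1) (Ne.symm hcon.2.2) (ha k) (by rw [hp2]; exact one_ne_zero) (hq1 k))
  have hTsupp : ∀ y, f i jT y ≠ 0 → ∃ k, y = p k := by
    intro y hy
    by_contra hcon
    push Not at hcon
    exact hy (no_four (hf.norm i jT) (hpp 0 1 h01) (hpp 0 2 h02) (Ne.symm (hcon 0)) (hpp 1 2 h12)
      (Ne.symm (hcon 1)) (Ne.symm (hcon 2)) (by rw [hp1]; exact one_ne_zero)
      (by rw [hp1]; exact one_ne_zero) (by rw [hp1]; exact one_ne_zero))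
  -- linear relations for the second row
  have hlin : ∀ k, ∀ c : J, f i' c a + f i' c (p k) + f i' c (q k) = if c = j k then 1 else 0 := by
    intro k c
    rw [← hL]
    by_cases hc : c = j k
    · rw [if_pos hc, hc]
      exact hf.col i' i (j k) hi.symm
    · rw [if_neg hc]
      exact hf.off i' i c (j k) hi.symm hc
  have hlinT : ∀ c : J, f i' c (p 0) + f i' c (p 1) + f i' c (p 2) = if c = jT then 1 else 0 := by
    intro c
    rw [← hT]
    by_cases hc : c = jT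
    · rw [if_pos hc, hc]
      exact hf.col i' i jT hi.symm
    · rw [if_neg hc]
      exact hf.off i' i c jT hi.symm hc
  have hval : ∀ (c : J) (y : Y), f i' c y = 0 ∨ f i' c y = 1 ∨ f i' c y = -1 := fun c y =>
    val_cases (hf.norm i' c) le_rfl y
  have hsq : ∀ c : J, f i' c a * f i' c a + (f i' c (p 0) * f i' c (p 0) + f i' c (p 1) * f i' c (p 1) +
      f i' c (p 2) * f i' c (p 2)) + (f i' c (q 0) * f i' c (q 0) + f i' c (q 1) * f i' c (q 1) +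
      f i' c (q 2) * f i' c (q 2)) ≤ 3 := fun c => by
    have := hBes (f i' c)
    rw [hf.norm i' c] at this
    exact this
  -- the second row meets the first row transversal
  obtain ⟨e, he⟩ : ∃ e, Meet (f i jT) (f i' jT) e := by
    obtain ⟨j₀, hj₀⟩ : ∃ j₀, j₀ ≠ jT := ⟨j 0, hjT 0⟩
    exact hf.meet_col hi hj₀.symm
  obtain ⟨k₀, hk₀⟩ := hTsupp e he.ne
  obtain ⟨k₁, k₂, h01', h02', h12'⟩ := fin3_exists k₀
  have hjTne : ∀ k, jT ≠ j k := fun k => (hjT k).symm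
  -- values of the second row transversal
  have hBT : f i' jT a = 0 ∧ f i' jT (p k₀) = 1 ∧ f i' jT (p k₁) = 0 ∧ f i' jT (p k₂) = 0 ∧
      f i' jT (q k₀) = -1 ∧ f i' jT (q k₁) = 0 ∧ f i' jT (q k₂) = 0 := by
    have e0 : f i' jT (p k₀) = 1 := by
      rw [← hk₀, ← he.eq, hk₀, hp1]
    have e1 : f i' jT (p k₁) = 0 := by
      by_contra h
      have := he.uniq _ (by rw [hp1]; exact one_ne_zero) h
      rw [hk₀] at this
      exact hpp _ _ h01'.symm this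
    have e2 : f i' jT (p k₂) = 0 := by
      by_contra h
      have := he.uniq _ (by rw [hp1]; exact one_ne_zero) h
      rw [hk₀] at this
      exact hpp _ _ h02'.symm this
    have l0 := hlin k₀ jT
    have l1 := hlin k₁ jT
    have l2 := hlin k₂ jT
    rw [if_neg (hjTne _)] at l0 l1 l2
    have hs := hsq jT
    have e3 := fin3_sum h01' h02' h12' (fun k => f i' jT (p k) * f i' jT (p k))
    have e4 := fin3_sum h01' h02' h12' (fun k => f i' jT (q k) * f i' jT (q k))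
    rw [e3, e4] at hs
    obtain ⟨r1, r2, r3, r4⟩ := stage_T (hval jT a) (hval jT (q k₀)) (hval jT (q k₁)) (hval jT (q k₂))
      e0 e1 e2 l0 l1 l2 hs
    exact ⟨r1, e0, e1, e2, r2, r3, r4⟩
  obtain ⟨hTa, hTp0, hTp1, hTp2, hTq0, hTq1, hTq2⟩ := hBT
  -- the decisive second stage
  have stage2 : ∀ m₁ m₂ : Fin 3, k₀ ≠ m₁ → k₀ ≠ m₂ → m₁ ≠ m₂ →
      f i' (j k₀) (p k₀) = 1 → f i' (j k₀) (p m₁) = -1 → f i' (j k₀) (q m₁) = 1 → False := by
    intro m₁ m₂ hm1 hm2 hm12 e1 e2 e3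
    have hjne : j k₀ ≠ j m₂ := hj.ne hm2
    obtain ⟨e', he'⟩ := hf.meet_row hi.symm hjne
    have hsupp : ∀ y, f i' (j k₀) y ≠ 0 → y = p k₀ ∨ y = p m₁ ∨ y = q m₁ := by
      intro y hy
      by_contra hcon
      push Not at hcon
      exact hy (no_four (hf.norm i' (j k₀)) (hpp _ _ hm1) (hpq _ _) (Ne.symm hcon.1) (hpq _ _)
        (Ne.symm hcon.2.1) (Ne.symm hcon.2.2) (by rw [e1]; exact one_ne_zero)
        (by rw [e2]; exact neg_ne_zero.mpr one_ne_zero) (by rw [e3]; exact one_ne_zero))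
    -- values of the third row vector on the first
    have hvals : (f i' (j m₂) (p k₀) = 1 ∧ f i' (j m₂) (p m₁) = 0 ∧ f i' (j m₂) (q m₁) = 0) ∨
        (f i' (j m₂) (p k₀) = 0 ∧ f i' (j m₂) (p m₁) = -1 ∧ f i' (j m₂) (q m₁) = 0) ∨
        (f i' (j m₂) (p k₀) = 0 ∧ f i' (j m₂) (p m₁) = 0 ∧ f i' (j m₂) (q m₁) = 1) := by
      have hz : ∀ y, y ≠ e' → f i' (j k₀) y ≠ 0 → f i' (j m₂) y = 0 := by
        intro y hy h1
        by_contra h2
        exact hy (he'.uniq y h1 h2)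
      have n1 : f i' (j k₀) (p k₀) ≠ 0 := by rw [e1]; exact one_ne_zero
      have n2 : f i' (j k₀) (p m₁) ≠ 0 := by rw [e2]; exact neg_ne_zero.mpr one_ne_zero
      have n3 : f i' (j k₀) (q m₁) ≠ 0 := by rw [e3]; exact one_ne_zero
      rcases hsupp e' he'.ne with h | h | h
      · left
        refine ⟨?_, hz _ (fun h' => hpp _ _ hm1 (h.symm.trans h'.symm)) n2,
          hz _ (fun h' => hpq k₀ m₁ (h.symm.trans h'.symm)) n3⟩
        rw [← h, ← he'.eq, h, e1]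
      · right; left
        refine ⟨hz _ (fun h' => hpp _ _ hm1 (h'.trans h)) n1, ?_,
          hz _ (fun h' => hpq m₁ m₁ (h.symm.trans h'.symm)) n3⟩
        rw [← h, ← he'.eq, h, e2]
      · right; right
        refine ⟨hz _ (fun h' => hpq k₀ m₁ (h'.trans h)) n1, hz _ (fun h' => hpq m₁ m₁ (h'.trans h)) n2, ?_⟩
        rw [← h, ← he'.eq, h, e3]
    -- values on the line `m₂`
    obtain ⟨e'', he''⟩ : ∃ e'', Meet (f i (j m₂)) (f i' (j m₂)) e'' := hf.meet_col hi hjne.symm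
    have hvals2 : (f i' (j m₂) a = 1 ∧ f i' (j m₂) (p m₂) = 0 ∧ f i' (j m₂) (q m₂) = 0) ∨
        (f i' (j m₂) a = 0 ∧ f i' (j m₂) (p m₂) = 1 ∧ f i' (j m₂) (q m₂) = 0) ∨
        (f i' (j m₂) a = 0 ∧ f i' (j m₂) (p m₂) = 0 ∧ f i' (j m₂) (q m₂) = 1) := by
      have hz : ∀ y, y ≠ e'' → f i (j m₂) y ≠ 0 → f i' (j m₂) y = 0 := by
        intro y hy h1
        by_contra h2
        exact hy (he''.uniq y h1 h2)
      have n1 : f i (j m₂) a ≠ 0 := ha m₂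
      have n2 : f i (j m₂) (p m₂) ≠ 0 := by rw [hp2]; exact one_ne_zero
      have n3 : f i (j m₂) (q m₂) ≠ 0 := hq1 m₂
      rcases hLsupp m₂ e'' he''.ne with h | h | h
      · left
        refine ⟨?_, hz _ (fun h' => hpa m₂ (h'.trans h)) n2, hz _ (fun h' => hqa m₂ (h'.trans h)) n3⟩
        rw [← h, ← he''.eq, h, ha1]
      · right; left
        refine ⟨hz _ (fun h' => hpa m₂ (h.symm.trans h'.symm)) n1, ?_, hz _ (fun h' => hqp m₂ (h'.trans h)) n3⟩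
        rw [← h, ← he''.eq, h, hp2]
      · right; right
        refine ⟨hz _ (fun h' => hqa m₂ (h.symm.trans h'.symm)) n1,
          hz _ (fun h' => hqp m₂ (h.symm.trans h'.symm)) n2, ?_⟩
        rw [← h, ← he''.eq, h, hq1']
    have l0 := hlin m₁ (j m₂)
    rw [if_neg (hj.ne hm12.symm)] at l0
    have l1 := hlinT (j m₂)
    rw [if_neg (hjT m₂)] at l1
    have e5 := fin3_sum hm1 hm2 hm12 (fun k => f i' (j m₂) (p k))
    rw [e5] at l1
    omega
  -- the first line of the second row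
  obtain ⟨e₀, he₀⟩ : ∃ e₀, Meet (f i (j k₀)) (f i' (j k₀)) e₀ :=
    hf.meet_col hi (hjT k₀)
  obtain ⟨e', he'⟩ : ∃ e', Meet (f i' jT) (f i' (j k₀)) e' := hf.meet_row hi.symm (hjT k₀).symm
  have hz₀ : ∀ y, y ≠ e₀ → f i (j k₀) y ≠ 0 → f i' (j k₀) y = 0 := by
    intro y hy h1
    by_contra h2
    exact hy (he₀.uniq y h1 h2)
  have n1 : f i (j k₀) a ≠ 0 := ha k₀
  have n2 : f i (j k₀) (p k₀) ≠ 0 := by rw [hp2]; exact one_ne_zero
  have n3 : f i (j k₀) (q k₀) ≠ 0 := hq1 k₀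
  have l0 := hlin k₀ (j k₀)
  have l1 := hlin k₁ (j k₀)
  have l2 := hlin k₂ (j k₀)
  rw [if_pos rfl] at l0
  rw [if_neg (hj.ne h01')] at l1
  rw [if_neg (hj.ne h02')] at l2
  have lT := hlinT (j k₀)
  rw [if_neg (hjT k₀)] at lT
  have hs := hsq (j k₀)
  have e3 := fin3_sum h01' h02' h12' (fun k => f i' (j k₀) (p k) * f i' (j k₀) (p k))
  have e4 := fin3_sum h01' h02' h12' (fun k => f i' (j k₀) (q k) * f i' (j k₀) (q k))
  have e5 := fin3_sum h01' h02' h12' (fun k => f i' (j k₀) (p k))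
  rw [e3, e4] at hs
  rw [e5] at lT
  rcases hLsupp k₀ e₀ he₀.ne with h | h | h
  · -- the point `a`
    have v1 : f i' (j k₀) a = 1 := by rw [← h, ← he₀.eq, h, ha1]
    have v2 : f i' (j k₀) (p k₀) = 0 := hz₀ _ (fun h' => hpa k₀ (h'.trans h)) n2
    have v3 : f i' (j k₀) (q k₀) = 0 := hz₀ _ (fun h' => hqa k₀ (h'.trans h)) n3
    rw [v1, v2, v3] at hs
    rw [v1] at l1 l2
    rw [v2] at lT
    obtain ⟨r1, r2, r3, r4⟩ := stage_1a (hval _ (p k₁)) (hval _ (p k₂)) (hval _ (q k₁)) (hval _ (q k₂))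
      l1 l2 lT hs
    have hsupp : ∀ y, f i' (j k₀) y ≠ 0 → y = a ∨ y = q k₁ ∨ y = q k₂ := by
      intro y hy
      by_contra hcon
      push Not at hcon
      exact hy (no_four (hf.norm i' (j k₀)) (hqa k₁).symm (hqa k₂).symm (Ne.symm hcon.1) (hqq _ _ h12')
        (Ne.symm hcon.2.1) (Ne.symm hcon.2.2) (by rw [v1]; exact one_ne_zero)
        (by rw [r3]; exact neg_ne_zero.mpr one_ne_zero) (by rw [r4]; exact neg_ne_zero.mpr one_ne_zero))
    rcases hsupp e' he'.ne' with h2 | h2 | h2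
    · exact he'.ne (by rw [h2]; exact hTa)
    · exact he'.ne (by rw [h2]; exact hTq1)
    · exact he'.ne (by rw [h2]; exact hTq2)
  · -- the point `p k₀`
    have v1 : f i' (j k₀) (p k₀) = 1 := by rw [← h, ← he₀.eq, h, hp2]
    have v2 : f i' (j k₀) a = 0 := hz₀ _ (fun h' => hpa k₀ (h.symm.trans h'.symm)) n1
    have v3 : f i' (j k₀) (q k₀) = 0 := hz₀ _ (fun h' => hqp k₀ (h'.trans h)) n3
    rw [v1, v2, v3] at hs
    rw [v2, zero_add] at l1 l2
    rw [v1] at lT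
    rcases stage_1b (hval _ (p k₁)) (hval _ (p k₂)) (hval _ (q k₁)) (hval _ (q k₂)) l1 l2 lT hs with
      ⟨r1, r2, r3, r4⟩ | ⟨r1, r2, r3, r4⟩
    · exact stage2 k₁ k₂ h01' h02' h12' v1 r1 r3
    · exact stage2 k₂ k₁ h02' h01' h12'.symm v1 r2 r4
  · -- the point `q k₀`
    have v1 : f i' (j k₀) (q k₀) = 1 := by rw [← h, ← he₀.eq, h, hq1']
    have e2 : f i' jT (q k₀) = f i' (j k₀) (q k₀) := by
      have h2 := he'.uniq (q k₀) (by rw [hTq0]; exact neg_ne_zero.mpr one_ne_zero)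
        (by rw [v1]; exact one_ne_zero)
      rw [h2]
      exact he'.eq
    rw [hTq0, v1] at e2
    norm_num at e2

end Rect

end Cfsg.Agent.H06.TICombo
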