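import Cfsg.Agent.Lib.H06.CyclicTI
import Cfsg.Agent.Lib.H06.CharLin2
import Cfsg.Agent.Lib.H06.CharLin3
import Cfsg.Agent.Lib.H06.Brauer1
import Cfsg.Agent.Lib.H23.AcdTwo

/-!
# Induction of differences of linear characters in a split cyclic situation
-/

set_option autoImplicit false

namespace Cfsg.Agent.H06

open Cfsg Cfsg.Agent.H21
open scoped ComplexConjugate

universe u

section Vanish

variable {V : Type u} [Group V] [Fintype V]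

/-- A function orthogonal to all differences of linear characters agreeing on `U` vanishes off `U`. -/
theorem vanish_of_orth_diff (hV : ∀ a b : V, a * b = b * a) (U : Subgroup V) (f : V → ℂ)
    (horth : ∀ a b : V →* ℂˣ, (∀ u ∈ U, a u = b u) → ∑ x : V, ((a x : ℂ) - (b x : ℂ)) * f x = 0)
    (w : V) (hw : w ∉ U) : f w = 0 := by
  classical
  haveI : Finite (V →* ℂˣ) := finite_dual' hV
  haveI : Fintype (V →* ℂˣ) := Fintype.ofFinite _
  letI : CommGroup V := { (inferInstance : Group V) with mul_comm := hV }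
  set F : (V →* ℂˣ) → ℂ := fun ω => ∑ x : V, (ω x : ℂ) * f x with hF
  have hconst : ∀ a b : V →* ℂˣ, (∀ u ∈ U, a u = b u) → F a = F b := by
    intro a b hab
    have h1 := horth a b hab
    simp only [sub_mul, Finset.sum_sub_distrib] at h1
    exact sub_eq_zero.mp h1
  have hwi : w⁻¹ ∉ U := fun h => hw (by simpa using U.inv_mem h)
  obtain ⟨φ₀, hφ₀, hφ₀'⟩ := exists_hom_trivial_ne hV U hwi
  set S : ℂ := ∑ ω : V →* ℂˣ, (ω w⁻¹ : ℂ) * F ω with hS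
  have hS0 : S = 0 := by
    have h1 : S = ∑ ω : V →* ℂˣ, ((ω * φ₀) w⁻¹ : ℂ) * F (ω * φ₀) := by
      rw [hS]
      exact (Equiv.sum_comp (Equiv.mulRight φ₀) (fun ω : V →* ℂˣ => (ω w⁻¹ : ℂ) * F ω)).symm
    have h2 : S = (φ₀ w⁻¹ : ℂ) * S := by
      conv_lhs => rw [h1]
      rw [hS, Finset.mul_sum]
      refine Finset.sum_congr rfl fun ω _ => ?_
      rw [hconst (ω * φ₀) ω (fun u hu => by simp [hφ₀ u hu])]
      simp only [MonoidHom.mul_apply, Units.val_mul]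
      ring
    have h3 : (1 - (φ₀ w⁻¹ : ℂ)) * S = 0 := by
      rw [sub_mul, one_mul, ← h2, sub_self]
    refine (mul_eq_zero.mp h3).resolve_left fun h => hφ₀' ?_
    exact Units.ext (by simpa using (sub_eq_zero.mp h).symm)
  have hS2 : S = f w * (Fintype.card (V →* ℂˣ) : ℂ) := by
    rw [hS]
    simp only [hF, Finset.mul_sum]
    rw [Finset.sum_comm]
    rw [Finset.sum_eq_single w]
    · have : ∑ ω : V →* ℂˣ, (ω w⁻¹ : ℂ) * ((ω w : ℂ) * f w) = ∑ ω : V →* ℂˣ, f w := by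
        refine Finset.sum_congr rfl fun ω _ => ?_
        have h4 : (ω w⁻¹ : ℂ) * (ω w : ℂ) = 1 := by
          rw [← Units.val_mul, ← map_mul, inv_mul_cancel, map_one, Units.val_one]
        rw [← mul_assoc, h4, one_mul]
      rw [this]
      simp [mul_comm]
    · intro x _ hx
      have h5 : ∀ ω : V →* ℂˣ, (ω w⁻¹ : ℂ) * ((ω x : ℂ) * f x) = f x * (ω (w⁻¹ * x) : ℂ) := by
        intro ω
        rw [map_mul, Units.val_mul]
        ring
      simp only [h5]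
      rw [← Finset.mul_sum, sum_dual_eq_zero (z := w⁻¹ * x) ?_, mul_zero]
      intro h
      exact hx (by
        have := mul_left_cancel (a := w⁻¹) (h.trans (inv_mul_cancel w).symm)
        exact this)
    · intro h
      exact absurd (Finset.mem_univ _) h
  rw [hS0] at hS2
  have hcard : (Fintype.card (V →* ℂˣ) : ℂ) ≠ 0 := by
    rw [Nat.cast_ne_zero]
    exact Fintype.card_ne_zero
  exact (mul_eq_zero.mp hS2.symm).resolve_right hcard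

end Vanish

section Diff

variable {G : Type u} [Group G] [Fintype G] {W₁ W₂ : Subgroup G}

/-- Induction of differences of linear characters agreeing on `W₂`. -/
theorem ti_ind_diff (hW : IsSelfNormalizingCyclic W₁ W₂) (hodd : Odd (Nat.card ↥(W₁ ⊔ W₂)))
    (χ : (↥(W₁ ⊔ W₂) →* ℂˣ) → (G → ℂ)) (hχ : IsCyclicTIFamily W₁ W₂ χ)
    (hfus : ∀ x : G, ∀ a ∈ (↑(W₁ ⊔ W₂) : Set G) \ (↑W₂ : Set G),
      x⁻¹ * a * x ∈ (↑(W₁ ⊔ W₂) : Set G) \ (↑W₂ : Set G) → x ∈ W₁ ⊔ W₂) :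
    ∀ a b : ↥(W₁ ⊔ W₂) →* ℂˣ, (∀ w : ↥(W₁ ⊔ W₂), (w : G) ∈ W₂ → a w = b w) →
      indFun (W₁ ⊔ W₂) (linFun a - linFun b) = χ a - χ b := by
  classical
  haveI : Fintype ↥(W₁ ⊔ W₂) := Fintype.ofFinite _
  haveI : Fintype (IrrCharacter G) := Fintype.ofFinite _
  obtain ⟨hW₁, hW₂, hdisj, hcomm, hcyc, -⟩ := id hW
  have hcl : ∀ f : ↥(W₁ ⊔ W₂) → ℂ, IsClassFunction ↥(W₁ ⊔ W₂) f := by
    intro f g h
    congr 1
    apply Subtype.ext
    have h1 : (h : G) * g = g * h := comm_of_isCyclic hcyc h.2 g.2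
    simp [h1]
  have hsupp : ∀ a b : ↥(W₁ ⊔ W₂) →* ℂˣ, (∀ w : ↥(W₁ ⊔ W₂), (w : G) ∈ W₂ → a w = b w) →
      ∀ x : ↥(W₁ ⊔ W₂), (x : G) ∉ (↑(W₁ ⊔ W₂) : Set G) \ (↑W₂ : Set G) →
        (linFun a - linFun b) x = 0 := by
    intro a b hab x hx
    have hx2 : (x : G) ∈ W₂ := by
      by_contra h
      exact hx ⟨x.2, h⟩
    simp [hab x hx2]
  -- the isometry
  have hiso : ∀ a b c d : ↥(W₁ ⊔ W₂) →* ℂˣ, (∀ w : ↥(W₁ ⊔ W₂), (w : G) ∈ W₂ → a w = b w) →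
      (∀ w : ↥(W₁ ⊔ W₂), (w : G) ∈ W₂ → c w = d w) →
      classInner (indFun (W₁ ⊔ W₂) (linFun a - linFun b)) (indFun (W₁ ⊔ W₂) (linFun c - linFun d)) =
        classInner (linFun a - linFun b) (linFun c - linFun d) := fun a b c d hab hcd =>
    classInner_indFun_of_fusion _ _ (hcl _) (hsupp a b hab) (hsupp c d hcd) hfus
  have hgen : ∀ a b : ↥(W₁ ⊔ W₂) →* ℂˣ,
      IsGeneralizedCharacter G (indFun (W₁ ⊔ W₂) (linFun a - linFun b)) := by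
    intro a b
    refine Brauer.gen_indFun _ (gen_sub ?_ ?_)
    · exact gen_of_char (Cfsg.Agent.H23.isCharacter_hom a)
    · exact gen_of_char (Cfsg.Agent.H23.isCharacter_hom b)
  have hO : classInner (fun _ : G => (1 : ℂ)) (fun _ : G => (1 : ℂ)) = 1 :=
    classInner_irr_self isIrrCharacter_one
  have h1W : (fun _ : ↥(W₁ ⊔ W₂) => (1 : ℂ)) = linFun (1 : ↥(W₁ ⊔ W₂) →* ℂˣ) := by
    funext w
    simp
  have hclO : IsClassFunction G (fun _ : G => (1 : ℂ)) := fun _ _ => rfl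
  have hs : ∀ ω, SignedIrr (χ ω) := hχ.irr_or_neg
  have horth : ∀ ω ω', ω ≠ ω' → classInner (χ ω) (χ ω') = 0 := fun ω ω' h => by
    rw [hχ.orthonormal, if_neg h]
  have hself : ∀ ω, classInner (χ ω) (χ ω) = 1 := fun ω => (hs ω).inner_self
  have hcardW := card_sup_of_commute hcomm hdisj
  have hw₂ : 3 ≤ Nat.card W₂ := by
    rw [hcardW] at hodd
    obtain ⟨r, hr⟩ := (Nat.odd_mul.mp hodd).2
    have : Nat.card W₂ ≠ 1 := fun h => hW₂ ((Subgroup.card_eq_one).mp (by simpa using h))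
    omega
  have h1D₂ : ∀ w : ↥(W₁ ⊔ W₂), (w : G) ∈ W₁ → (1 : ↥(W₁ ⊔ W₂) →* ℂˣ) w = 1 := fun _ _ => rfl
  haveI : Finite (↥(W₁ ⊔ W₂) →* ℂˣ) :=
    finite_dual' (fun a b => Subtype.ext (comm_of_isCyclic hcyc a.2 b.2))
  obtain ⟨b₁, b₂, hb₁, hb₂, hb₁₂⟩ : ∃ b₁ b₂ : ↥(W₁ ⊔ W₂) →* ℂˣ,
      (b₁ ≠ 1 ∧ ∀ w : ↥(W₁ ⊔ W₂), (w : G) ∈ W₁ → b₁ w = 1) ∧
      (b₂ ≠ 1 ∧ ∀ w : ↥(W₁ ⊔ W₂), (w : G) ∈ W₁ → b₂ w = 1) ∧ b₁ ≠ b₂ := by
    letI : One {ψ : ↥(W₁ ⊔ W₂) →* ℂˣ // ∀ w : ↥(W₁ ⊔ W₂), (w : G) ∈ W₁ → ψ w = 1} := ⟨⟨1, h1D₂⟩⟩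
    have hc : 3 ≤ Nat.card {ψ : ↥(W₁ ⊔ W₂) →* ℂˣ // ∀ w : ↥(W₁ ⊔ W₂), (w : G) ∈ W₁ → ψ w = 1} := by
      rw [card_ann_eq' hcomm hdisj hcyc]
      exact hw₂
    obtain ⟨a, b, ha, hb, hab⟩ := exists_two_nontrivial hc
    refine ⟨a.1, b.1, ⟨fun h => ha (Subtype.ext h), a.2⟩, ⟨fun h => hb (Subtype.ext h), b.2⟩,
      fun h => hab (Subtype.ext h)⟩
  have hne : ∀ {i j : ↥(W₁ ⊔ W₂) →* ℂˣ}, i ≠ j → ∀ s : G → ℂ, (s = χ i ∨ s = -χ i) →
      (s = χ j ∨ s = -χ j) → False := by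
    intro i j hij s hi hj
    have h0 := horth i j hij
    have hselfj := hself j
    rcases hi with rfl | rfl <;> rcases hj with hj | hj
    · rw [hj, hselfj] at h0
      exact one_ne_zero h0
    · rw [hj, classInner_neg_left', hselfj] at h0
      norm_num at h0
    · have : χ i = -χ j := by rw [← hj, neg_neg]
      rw [this, classInner_neg_left', hselfj] at h0
      norm_num at h0
    · have : χ i = χ j := neg_injective hj
      rw [this, hselfj] at h0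
      exact one_ne_zero h0
  have hmu : ∀ {φ φ' ψ ψ' : ↥(W₁ ⊔ W₂) →* ℂˣ}, (∀ w : ↥(W₁ ⊔ W₂), (w : G) ∈ W₂ → φ w = 1) →
      (∀ w : ↥(W₁ ⊔ W₂), (w : G) ∈ W₂ → φ' w = 1) → (∀ w : ↥(W₁ ⊔ W₂), (w : G) ∈ W₁ → ψ w = 1) →
      (∀ w : ↥(W₁ ⊔ W₂), (w : G) ∈ W₁ → ψ' w = 1) → (φ * ψ = φ' * ψ' ↔ φ = φ' ∧ ψ = ψ') :=
    fun h1 h2 h3 h4 => mul_eq_mul_iff hcomm h1 h2 h3 h4
  have hmr : ∀ a : ↥(W₁ ⊔ W₂) →* ℂˣ, a * 1 = a := fun a => MonoidHom.ext fun w => by simp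
  have hml : ∀ a : ↥(W₁ ⊔ W₂) →* ℂˣ, 1 * a = a := fun a => MonoidHom.ext fun w => by simp
  have h1D₁ : ∀ w : ↥(W₁ ⊔ W₂), (w : G) ∈ W₂ → (1 : ↥(W₁ ⊔ W₂) →* ℂˣ) w = 1 := fun _ _ => rfl
  -- the basic relation
  have hrel : ∀ φ ψ : ↥(W₁ ⊔ W₂) →* ℂˣ, φ ≠ 1 → ψ ≠ 1 →
      (∀ w : ↥(W₁ ⊔ W₂), (w : G) ∈ W₂ → φ w = 1) → (∀ w : ↥(W₁ ⊔ W₂), (w : G) ∈ W₁ → ψ w = 1) →
      indFun (W₁ ⊔ W₂) (linFun ψ - linFun (φ * ψ)) =
        indFun (W₁ ⊔ W₂) (linFun 1 - linFun φ) - ((fun _ => 1) - χ φ - χ ψ + χ (φ * ψ)) := by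
    intro φ ψ hφ hψ hφ₂ hψ₁
    have hT := hχ.induced_eq φ ψ hφ hψ hφ₂ hψ₁
    have h : linFun (1 : ↥(W₁ ⊔ W₂) →* ℂˣ) - linFun φ - (linFun ψ - linFun (φ * ψ)) =
        fun w : ↥(W₁ ⊔ W₂) => 1 - (φ w : ℂ) - (ψ w : ℂ) + (φ w : ℂ) * (ψ w : ℂ) := by
      funext w
      simp
      ring
    have h2 := Brauer.indFun_sub' (W₁ ⊔ W₂) (linFun 1 - linFun φ) (linFun ψ - linFun (φ * ψ))
    rw [h, hT] at h2
    have h3 : (fun g => 1 - χ φ g - χ ψ g + χ (φ * ψ) g) = (fun _ => 1) - χ φ - χ ψ + χ (φ * ψ) := by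
      funext g
      simp
    rw [h3] at h2
    rw [h2]
    abel
  -- step one
  have step1 : ∀ φ : ↥(W₁ ⊔ W₂) →* ℂˣ, φ ≠ 1 → (∀ w : ↥(W₁ ⊔ W₂), (w : G) ∈ W₂ → φ w = 1) →
      indFun (W₁ ⊔ W₂) (linFun 1 - linFun φ) = (fun _ => 1) - χ φ := by
    intro φ hφ hφ₂
    have hag : ∀ w : ↥(W₁ ⊔ W₂), (w : G) ∈ W₂ → (1 : ↥(W₁ ⊔ W₂) →* ℂˣ) w = φ w := fun w hw => by
      rw [hφ₂ w hw]
      rfl
    set I := indFun (W₁ ⊔ W₂) (linFun 1 - linFun φ) with hI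
    set η : G → ℂ := (fun _ => 1) - I with hη
    have hIO : classInner I (fun _ : G => (1 : ℂ)) = 1 := by
      rw [hI, frobenius_reciprocity _ _ _ hclO, h1W, classInner_sub_left', inner_lin, inner_lin,
        if_pos rfl, if_neg hφ]
      simp
    have hOI : classInner (fun _ : G => (1 : ℂ)) I = 1 := by
      rw [← classInner_comm_conj, hIO, map_one]
    have hII : classInner I I = 2 := by
      rw [hI, hiso 1 φ 1 φ hag hag]
      simp only [classInner_sub_left', classInner_sub_right', inner_lin]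
      rw [if_pos trivial, if_neg hφ, if_neg hφ.symm]
      norm_num
    have hηη : classInner η η = 1 := by
      rw [hη, classInner_sub_left', classInner_sub_right', classInner_sub_right', hO, hOI, hIO, hII]
      norm_num
    have hηs : SignedIrr η :=
      signedIrr_of_norm_one (gen_sub (gen_of_char isCharacter_one) (hgen 1 φ)) hηη
    have key : ∀ ψ : ↥(W₁ ⊔ W₂) →* ℂˣ, ψ ≠ 1 → (∀ w : ↥(W₁ ⊔ W₂), (w : G) ∈ W₁ → ψ w = 1) →
        η = χ φ ∨ η = χ ψ ∨ η = -χ (φ * ψ) := by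
      intro ψ hψ hψ₁
      have hag2 : ∀ w : ↥(W₁ ⊔ W₂), (w : G) ∈ W₂ → ψ w = (φ * ψ) w := fun w hw => by
        simp [hφ₂ w hw]
      have hJJ := hiso ψ (φ * ψ) ψ (φ * ψ) hag2 hag2
      have hne1 : φ ≠ ψ := by
        intro e
        apply hφ
        exact hom_ext_sup hcomm (fun w hw => by rw [e, hψ₁ w hw]; rfl) (fun w hw => hφ₂ w hw)
      have hne2 : φ ≠ φ * ψ := by
        intro e
        have := (hmu hφ₂ hφ₂ h1D₂ hψ₁).mp ((hmr φ).trans e)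
        exact hψ this.2.symm
      have hne3 : ψ ≠ φ * ψ := by
        intro e
        have := (hmu h1D₁ hφ₂ hψ₁ hψ₁).mp ((hml ψ).trans e)
        exact hφ this.1.symm
      have hJ : indFun (W₁ ⊔ W₂) (linFun ψ - linFun (φ * ψ)) = χ φ + χ ψ - χ (φ * ψ) - η := by
        rw [hrel φ ψ hφ hψ hφ₂ hψ₁, hη]
        abel
      have hval : classInner (linFun ψ - linFun (φ * ψ)) (linFun ψ - linFun (φ * ψ)) = 2 := by
        simp only [classInner_sub_left', classInner_sub_right', inner_lin]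
        rw [if_pos trivial, if_neg hne3.symm, if_neg hne3]
        norm_num
      rw [hval, hJ] at hJJ
      obtain ⟨a1, ha1⟩ := gen_inner_int hηs.isGeneralized (hs φ).isGeneralized
      obtain ⟨a2, ha2⟩ := gen_inner_int hηs.isGeneralized (hs ψ).isGeneralized
      obtain ⟨a3, ha3⟩ := gen_inner_int hηs.isGeneralized (hs (φ * ψ)).isGeneralized
      have hb1 : classInner (χ φ) η = a1 := by rw [← classInner_comm_conj, ha1, map_intCast]
      have hb2 : classInner (χ ψ) η = a2 := by rw [← classInner_comm_conj, ha2, map_intCast]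
      have hb3 : classInner (χ (φ * ψ)) η = a3 := by rw [← classInner_comm_conj, ha3, map_intCast]
      simp only [classInner_sub_left', classInner_sub_right', classInner_add_left, classInner_add_right] at hJJ
      rw [hself, hself, hself, hηη, horth _ _ hne1, horth _ _ hne1.symm, horth _ _ hne2, horth _ _ hne2.symm,
        horth _ _ hne3, horth _ _ hne3.symm, ha1, ha2, ha3, hb1, hb2, hb3] at hJJ
      have hsum : classInner η (χ φ) + classInner η (χ ψ) + classInner η (-χ (φ * ψ)) = 1 := by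
        rw [classInner_neg_right', ha1, ha2, ha3]
        linear_combination (-1 / 2 : ℂ) * hJJ
      exact mem_of_inner_sum hηs (hs φ) (hs ψ) (hs (φ * ψ)).neg hsum
    have hηφ : η = χ φ := by
      have hne4 : ∀ {a b : ↥(W₁ ⊔ W₂) →* ℂˣ}, (∀ w : ↥(W₁ ⊔ W₂), (w : G) ∈ W₁ → a w = 1) →
          (∀ w : ↥(W₁ ⊔ W₂), (w : G) ∈ W₁ → b w = 1) → a ≠ φ * b := by
        intro a b ha hb e
        have := (hmu h1D₁ hφ₂ ha hb).mp ((hml a).trans e)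
        exact hφ this.1.symm
      have hne5 : φ * b₁ ≠ φ * b₂ := fun e => hb₁₂ ((hmu hφ₂ hφ₂ hb₁.2 hb₂.2).mp e).2
      rcases key b₁ hb₁.1 hb₁.2 with h1 | h1 | h1
      · exact h1
      · rcases key b₂ hb₂.1 hb₂.2 with h2 | h2 | h2
        · exact h2
        · exact (hne hb₁₂ η (Or.inl h1) (Or.inl h2)).elim
        · exact (hne (hne4 hb₁.2 hb₂.2) η (Or.inl h1) (Or.inr h2)).elim
      · rcases key b₂ hb₂.1 hb₂.2 with h2 | h2 | h2
        · exact h2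
        · exact (hne (hne4 hb₂.2 hb₁.2).symm η (Or.inr h1) (Or.inl h2)).elim
        · exact (hne hne5 η (Or.inr h1) (Or.inr h2)).elim
    rw [← hηφ, hη]
    abel
  -- step two
  have step2 : ∀ φ ψ : ↥(W₁ ⊔ W₂) →* ℂˣ, (∀ w : ↥(W₁ ⊔ W₂), (w : G) ∈ W₂ → φ w = 1) →
      (∀ w : ↥(W₁ ⊔ W₂), (w : G) ∈ W₁ → ψ w = 1) →
      indFun (W₁ ⊔ W₂) (linFun ψ - linFun (φ * ψ)) = χ ψ - χ (φ * ψ) := by
    intro φ ψ hφ₂ hψ₁
    by_cases hφ : φ = 1
    · subst hφ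
      rw [hml, sub_self, sub_self]
      have := Brauer.indFun_sub' (W₁ ⊔ W₂) (linFun ψ) (linFun ψ)
      rwa [sub_self, sub_self] at this
    by_cases hψ : ψ = 1
    · subst hψ
      rw [hmr, step1 φ hφ hφ₂, hχ.map_one]
    · rw [hrel φ ψ hφ hψ hφ₂ hψ₁, step1 φ hφ hφ₂]
      abel
  intro a b hab
  obtain ⟨φ₁, ψ₁, h1, h2, rfl⟩ := exists_dual_decomp hcomm hdisj a
  obtain ⟨φ₂, ψ₂, h3, h4, rfl⟩ := exists_dual_decomp hcomm hdisj b
  have hψ : ψ₁ = ψ₂ := by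
    refine hom_ext_sup hcomm (fun w hw => by rw [h2 w hw, h4 w hw]) (fun w hw => ?_)
    have := hab w hw
    simpa [h1 w hw, h3 w hw] using this
  subst hψ
  have e : linFun (φ₁ * ψ₁) - linFun (φ₂ * ψ₁) =
      (linFun ψ₁ - linFun (φ₂ * ψ₁)) - (linFun ψ₁ - linFun (φ₁ * ψ₁)) := by abel
  rw [e, Brauer.indFun_sub', step2 φ₂ ψ₁ h3 h2, step2 φ₁ ψ₁ h1 h2]
  abel

end Diff

end Cfsg.Agent.H06
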